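import Mathlib
import Cfsg.Agent.Lib.Geo.Transv

set_option autoImplicit false

/-! Decompositions of `F^ι` into independent subspaces: projections, elements permuting the
members, elements outside the stabilizer. -/

namespace Cfsg.Agent.Lib.Geo

open scoped MatrixGroups Matrix
open Module

variable {ι : Type} [Fintype ι] [DecidableEq ι] {F : Type*} [Field F] {t : ℕ}
  {D : Fin t → Submodule F (ι → F)}

local notation "V" => (ι → F)

theorem exists_proj (hind : iSupIndep D) (htop : iSup D = ⊤) :
    ∃ π : Fin t → ((ι → F) →ₗ[F] (ι → F)), (∀ l x, π l x ∈ D l) ∧ (∀ l, ∀ x ∈ D l, π l x = x) ∧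
      (∀ l m, l ≠ m → ∀ x ∈ D m, π l x = 0) ∧ (∀ x, ∑ l, π l x = x) := by
  classical
  have hint := DirectSum.isInternal_submodule_of_iSupIndep_of_iSup_eq_top hind htop
  let e : (DirectSum (Fin t) fun i => D i) ≃ₗ[F] V :=
    LinearEquiv.ofBijective (DirectSum.coeLinearMap D) hint
  have he : ∀ (l : Fin t) (x : D l), e.symm (x : V) = DirectSum.lof F (Fin t) (fun i => D i) l x := by
    intro l x
    rw [LinearEquiv.symm_apply_eq]
    show (x : V) = DirectSum.coeLinearMap D _
    rw [DirectSum.coeLinearMap_lof]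
  let π : Fin t → (V →ₗ[F] V) := fun l =>
    (D l).subtype ∘ₗ DirectSum.component F (Fin t) (fun i => D i) l ∘ₗ (e.symm : V →ₗ[F] _)
  refine ⟨π, fun l x => ?_, fun l x hx => ?_, fun l m hlm x hx => ?_, fun x => ?_⟩
  · exact (DirectSum.component F (Fin t) (fun i => D i) l (e.symm x)).2
  · show ((DirectSum.component F (Fin t) (fun i => D i) l (e.symm x)) : V) = x
    have := he l ⟨x, hx⟩
    simp only at this
    rw [this, DirectSum.component.lof_self]
  · show ((DirectSum.component F (Fin t) (fun i => D i) l (e.symm x)) : V) = 0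
    have := he m ⟨x, hx⟩
    simp only at this
    rw [this, DirectSum.component.of, dif_neg (Ne.symm hlm)]
    rfl
  · have h1 : e.symm x = ∑ l, DirectSum.lof F (Fin t) (fun i => D i) l
        (DirectSum.component F (Fin t) (fun i => D i) l (e.symm x)) := by
      have := DirectSum.sum_univ_of (e.symm x)
      exact this.symm
    have h2 : x = e (e.symm x) := (e.apply_symm_apply x).symm
    conv_rhs => rw [h2, h1, map_sum]
    refine Finset.sum_congr rfl fun l _ => ?_
    show _ = DirectSum.coeLinearMap D _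
    rw [DirectSum.coeLinearMap_lof]
    rfl

/-- Maps defined blockwise. -/
theorem exists_perm_elt (hind : iSupIndep D) (htop : iSup D = ⊤) (σ : Equiv.Perm (Fin t))
    (θ : ∀ l, D l →ₗ[F] D (σ l)) (hsurj : ∀ l, Function.Surjective (θ l)) :
    ∃ h : GL ι F, ∀ l (x : D l), act h (x : V) = θ l x := by
  classical
  obtain ⟨π, h1, h2, h3, h4⟩ := exists_proj hind htop
  let T : V →ₗ[F] V := ∑ l, (D (σ l)).subtype ∘ₗ θ l ∘ₗ (π l).codRestrict (D l) (h1 l)
  have hT : ∀ l (x : D l), T (x : V) = θ l x := by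
    intro l x
    simp only [T, LinearMap.sum_apply, LinearMap.comp_apply]
    rw [Finset.sum_eq_single l]
    · have : (π l).codRestrict (D l) (h1 l) (x : V) = x := Subtype.ext (h2 l x x.2)
      rw [this]
      rfl
    · intro m _ hm
      have : (π m).codRestrict (D m) (h1 m) (x : V) = 0 := Subtype.ext (h3 m l hm x x.2)
      rw [this, map_zero]
      rfl
    · simp
  have hTs : Function.Surjective T := by
    intro y
    have h5 : ∀ l, ∃ x, T x = π l y := by
      intro l
      have h6 : π l y ∈ D (σ (σ.symm l)) := by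
        rw [Equiv.apply_symm_apply]
        exact h1 l y
      obtain ⟨x, hx⟩ := hsurj (σ.symm l) ⟨π l y, h6⟩
      refine ⟨x, ?_⟩
      rw [hT, hx]
    choose x hx using h5
    refine ⟨∑ l, x l, ?_⟩
    rw [map_sum]
    simp only [hx]
    exact h4 y
  have hTi : Function.Injective T := LinearMap.injective_iff_surjective.2 hTs
  let e : V ≃ₗ[F] V := LinearEquiv.ofBijective T ⟨hTi, hTs⟩
  refine ⟨act.symm e, fun l x => ?_⟩
  rw [MulEquiv.apply_symm_apply]
  exact hT l x

theorem map_toLin_eq {W W' : Submodule F V} {g : GL ι F} (h : ∀ x ∈ W, act g x ∈ W')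
    (hd : finrank F W = finrank F W') : W.map (Matrix.toLin' (g : Matrix ι ι F)) = W' := by
  have hle : W.map (Matrix.toLin' (g : Matrix ι ι F)) ≤ W' := by
    rintro _ ⟨x, hx, rfl⟩
    exact h x hx
  refine Submodule.eq_of_le_of_finrank_eq hle ?_
  have e : W.map (Matrix.toLin' (g : Matrix ι ι F)) = W.map ((act g : V ≃ₗ[F] V) : V →ₗ[F] V) := by
    congr 1
  rw [e]
  have := LinearEquiv.finrank_map_eq (act g) W
  omega

theorem mem_stabD_of {g : GL ι F} {k : ℕ} (hk : ∀ i, finrank F (D i) = k) (σ : Equiv.Perm (Fin t))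
    (h : ∀ l, ∀ x ∈ D l, act g x ∈ D (σ l)) : g ∈ Cfsg.Geo.decompositionStabilizer D :=
  ⟨σ, fun l => map_toLin_eq (h l) (by rw [hk, hk])⟩

theorem act_mem_of_stabD {g : GL ι F} (hg : g ∈ Cfsg.Geo.decompositionStabilizer D) :
    ∃ σ : Equiv.Perm (Fin t), ∀ l, ∀ x ∈ D l, act g x ∈ D (σ l) := by
  obtain ⟨σ, hσ⟩ := hg
  refine ⟨σ, fun l x hx => ?_⟩
  rw [← hσ l]
  exact ⟨x, hx, by rw [Matrix.toLin'_apply]; rfl⟩

/-- If a matrix moves every member of a decomposition into the union of the members then it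
stabilizes the decomposition. -/
theorem mem_stabD_of_union {g : GL ι F} {k : ℕ} (hk : ∀ i, finrank F (D i) = k) (hk0 : 0 < k)
    (hind : iSupIndep D) (htop : iSup D = ⊤)
    (h : ∀ i, ∀ x ∈ D i, ∃ l, act g x ∈ D l) : g ∈ Cfsg.Geo.decompositionStabilizer D := by
  classical
  obtain ⟨π, h1, h2, h3, h4⟩ := exists_proj hind htop
  -- disjointness
  have hdis : ∀ {l m : Fin t} {y : V}, y ∈ D l → y ∈ D m → l ≠ m → y = 0 := by
    intro l m y h5 h6 hlm
    rw [← h2 l y h5]
    exact h3 l m hlm y h6
  have hne : ∀ i, ∃ x ∈ D i, x ≠ 0 := by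
    intro i
    have : D i ≠ ⊥ := by
      intro h0
      have := hk i
      rw [h0] at this
      simp at this
      omega
    exact Submodule.exists_mem_ne_zero_of_ne_bot this
  have hact : ∀ x, x ≠ 0 → act g x ≠ 0 := fun x hx h0 => hx ((act g).map_eq_zero_iff.1 h0)
  have key : ∀ i, ∃ l, ∀ x ∈ D i, act g x ∈ D l := by
    intro i
    obtain ⟨x₀, hx₀, hx₀0⟩ := hne i
    obtain ⟨l, hl⟩ := h i x₀ hx₀
    refine ⟨l, fun x hx => ?_⟩
    by_contra hxl
    obtain ⟨m, hm⟩ := h i x hx
    have hlm : l ≠ m := by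
      rintro rfl
      exact hxl hm
    obtain ⟨p, hp⟩ := h i (x₀ + x) ((D i).add_mem hx₀ hx)
    rw [map_add] at hp
    by_cases hpl : p = l
    · subst hpl
      exact hxl ((Submodule.add_mem_iff_right _ hl).1 hp)
    · have h5 : π p (act g x₀ + act g x) = act g x₀ + act g x := h2 p _ hp
      have h6 : π l (act g x₀ + act g x) = 0 := h3 l p (Ne.symm hpl) _ hp
      rw [map_add, h2 l _ hl] at h6
      by_cases hml : m = p
      · subst hml
        rw [map_add, h3 m l (Ne.symm hlm) _ hl, h2 m _ hm, zero_add] at h5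
        have h7 : act g x₀ = 0 := by
          have := h5
          exact (add_eq_right.1 this.symm)
        exact hact x₀ hx₀0 h7
      · rw [h3 l m hlm _ hm, add_zero] at h6
        exact hact x₀ hx₀0 h6
  choose σ hσ using key
  have hinj : Function.Injective σ := by
    intro i j hij
    by_contra hne'
    obtain ⟨x, hx, hx0⟩ := hne i
    -- `g (D i) = D (σ i) = g (D j)`
    have hi : (D i).map (Matrix.toLin' (g : Matrix ι ι F)) = D (σ i) :=
      map_toLin_eq (hσ i) (by rw [hk, hk])
    have hj : (D j).map (Matrix.toLin' (g : Matrix ι ι F)) = D (σ j) :=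
      map_toLin_eq (hσ j) (by rw [hk, hk])
    have h5 : act g x ∈ D (σ j) := by
      rw [← hij]
      exact hσ i x hx
    rw [← hj] at h5
    obtain ⟨y, hy, hxy⟩ := h5
    have hyx : y = x := by
      apply (act g).injective
      rw [Matrix.toLin'_apply] at hxy
      exact hxy
    rw [hyx] at hy
    exact hx0 (hdis hx hy hne')
  let s : Equiv.Perm (Fin t) := Equiv.ofBijective σ (Finite.injective_iff_bijective.1 hinj)
  exact mem_stabD_of hk s hσ

end Cfsg.Agent.Lib.Geo
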