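import Mathlib
import Cfsg.Agent.Lib.Geo.Transv
import Cfsg.Agent.Lib.Classical.Symplectic
import Cfsg.Agent.Lib.Classical.SymplecticTrans

set_option autoImplicit false

/-! Symplectic transvections in `GL`, and maximality of subspace stabilizers in `Sp`. -/

namespace Cfsg.Agent.Lib.Geo

open scoped MatrixGroups Matrix
open Module Cfsg.Agent.Lib.Classical

variable {m : ℕ} {F : Type*} [Field F]

local notation "Vv" => (Fin m ⊕ Fin m → F)
local notation "f" => Cfsg.sympForm m F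

/-- A subspace-stabilizing criterion: mapping into suffices. -/
theorem mem_stab_of_forall {ι : Type} [Fintype ι] [DecidableEq ι] {W : Submodule F (ι → F)}
    {g : GL ι F} (h : ∀ w ∈ W, act g w ∈ W) : g ∈ Cfsg.Geo.subspaceStabilizer W := by
  rw [mem_stab_iff]
  intro x
  refine ⟨h x, fun hx => ?_⟩
  have hle : W.map ((act g : (ι → F) ≃ₗ[F] (ι → F)) : (ι → F) →ₗ[F] (ι → F)) ≤ W := by
    rintro _ ⟨w, hw, rfl⟩
    exact h w hw
  have heq := Submodule.eq_of_le_of_finrank_eq hle (LinearEquiv.finrank_map_eq (act g) W)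
  rw [← heq] at hx
  obtain ⟨w, hw, hwx⟩ := hx
  have : w = x := (act g).injective hwx
  rwa [← this]

/-- The linear form `x ↦ c f(x, v)`. -/
noncomputable def sForm (v : Vv) (c : F) : Dual F Vv := c • (sympBilin m F).flip v

theorem sForm_apply (v : Vv) (c : F) (x : Vv) : sForm v c x = c * f x v := rfl

theorem sForm_self (v : Vv) (c : F) : sForm v c v = 0 := by
  rw [sForm_apply, sympForm_self, mul_zero]

/-- The symplectic transvection as an element of `GL`. -/
noncomputable def stv (v : Vv) (c : F) : GL (Fin m ⊕ Fin m) F := tv (sForm_self v c)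

theorem act_stv (v : Vv) (c : F) (x : Vv) : act (stv v c) x = x + (c * f x v) • v := by
  rw [stv, act_tv_apply, sForm_apply]

theorem stv_val (v : Vv) (c : F) :
    ((stv v c : GL (Fin m ⊕ Fin m) F) : Matrix (Fin m ⊕ Fin m) (Fin m ⊕ Fin m) F)
      = Cfsg.sympTransvection m v c := by
  apply Matrix.toLin'.injective
  apply LinearMap.ext
  intro x
  rw [Matrix.toLin'_apply, Matrix.toLin'_apply, sympTransvection_mulVec, ← act_apply, act_stv]

theorem mem_spGL_iff {g : GL (Fin m ⊕ Fin m) F} :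
    g ∈ Cfsg.spGL m F ↔ ∀ u v, f (act g u) (act g v) = f u v := Iff.rfl

theorem stv_mem (v : Vv) (c : F) : stv v c ∈ Cfsg.spGL m F := by
  rw [mem_spGL_iff]
  intro x y
  simp only [act_stv, sympForm_add_left, sympForm_add_right, sympForm_smul_left,
    sympForm_smul_right, sympForm_self]
  rw [sympForm_flip v y]
  ring

theorem sp_inv_apply {h : GL (Fin m ⊕ Fin m) F} (hh : h ∈ Cfsg.spGL m F) (x y : Vv) :
    f (act h⁻¹ x) y = f x (act h y) := by
  have h1 := (mem_spGL_iff.1 hh) (act h⁻¹ x) y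
  rw [← LinearEquiv.mul_apply, ← map_mul, mul_inv_cancel, map_one] at h1
  exact h1.symm

theorem conj_stv {h : GL (Fin m ⊕ Fin m) F} (hh : h ∈ Cfsg.spGL m F) (v : Vv) (c : F) :
    h * stv v c * h⁻¹ = stv (act h v) c := by
  apply act.injective
  ext1 x
  rw [map_mul, map_mul, LinearEquiv.mul_apply, LinearEquiv.mul_apply, act_stv, act_stv, map_add,
    map_smul, sp_inv_apply hh, ← LinearEquiv.mul_apply, ← map_mul, mul_inv_cancel, map_one]
  rfl

theorem stv_smul (t : F) (v : Vv) (c : F) : stv (t • v) c = stv v (c * t * t) := by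
  apply act.injective
  ext1 x
  rw [act_stv, act_stv, sympForm_smul_right, smul_smul]
  congr 2
  ring

/-- A subgroup of `GL` containing all symplectic transvections contains `Sp`. -/
theorem spGL_le_of_stv (M : Subgroup (GL (Fin m ⊕ Fin m) F)) (hM : ∀ v c, stv v c ∈ M) :
    Cfsg.spGL m F ≤ M := by
  intro g hg
  have hA : (g : Matrix (Fin m ⊕ Fin m) (Fin m ⊕ Fin m) F) ∈ Matrix.symplecticGroup (Fin m) F := by
    rw [mem_symplecticGroup_iff_preserves]
    exact hg
  let A : Matrix.symplecticGroup (Fin m) F := ⟨_, hA⟩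
  have key : ∀ B : Matrix.symplecticGroup (Fin m) F, B ∈ TT m F →
      ∃ k ∈ M, (k : Matrix (Fin m ⊕ Fin m) (Fin m ⊕ Fin m) F) = B := by
    intro B hB
    induction hB using Subgroup.closure_induction with
    | mem x hx =>
      obtain ⟨w, c, hx⟩ := hx
      exact ⟨stv w c, hM w c, by rw [stv_val, hx]⟩
    | one => exact ⟨1, M.one_mem, rfl⟩
    | mul x y _ _ hx hy =>
      obtain ⟨k, hk, hkx⟩ := hx
      obtain ⟨l, hl, hly⟩ := hy
      exact ⟨k * l, M.mul_mem hk hl, by rw [Units.val_mul, hkx, hly]; rfl⟩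
    | inv x _ hx =>
      obtain ⟨k, hk, hkx⟩ := hx
      refine ⟨k⁻¹, M.inv_mem hk, ?_⟩
      have h1 : ((x⁻¹ * x : Matrix.symplecticGroup (Fin m) F) : Matrix (Fin m ⊕ Fin m) (Fin m ⊕ Fin m) F) = 1 := by
        rw [inv_mul_cancel]; rfl
      have h2 : ((x⁻¹ : Matrix.symplecticGroup (Fin m) F) : Matrix (Fin m ⊕ Fin m) (Fin m ⊕ Fin m) F) * (x : Matrix _ _ F) = 1 := h1
      have h3 : ((k : GL _ F) : Matrix (Fin m ⊕ Fin m) (Fin m ⊕ Fin m) F) * ((k⁻¹ : GL _ F) : Matrix _ _ F) = 1 := by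
        rw [← Units.val_mul, mul_inv_cancel]; rfl
      rw [hkx] at h3
      exact (left_inv_eq_right_inv h2 h3).symm
  have hA' : A ∈ TT m F := by rw [TT_eq_top]; trivial
  obtain ⟨k, hk, hkA⟩ := key A hA'
  have : k = g := Units.ext hkA
  rwa [← this]

/-- Vectors all of whose transvections lie in `M`. -/
def UU (M : Subgroup (GL (Fin m ⊕ Fin m) F)) : Set Vv := {v | ∀ c, stv v c ∈ M}

theorem UU_act {M : Subgroup (GL (Fin m ⊕ Fin m) F)} (hM : M ≤ Cfsg.spGL m F)
    {h : GL (Fin m ⊕ Fin m) F} (hh : h ∈ M) {v : Vv} (hv : v ∈ UU M) : act h v ∈ UU M := by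
  intro c
  rw [← conj_stv (hM hh)]
  exact M.mul_mem (M.mul_mem hh (hv c)) (M.inv_mem hh)

theorem UU_add {M : Subgroup (GL (Fin m ⊕ Fin m) F)} (hM : M ≤ Cfsg.spGL m F) {a b : Vv}
    (ha : a ∈ UU M) (hb : b ∈ UU M) (hab : f a b ≠ 0) : a + b ∈ UU M := by
  have := UU_act hM (hb (f a b)⁻¹) ha
  rw [act_stv, inv_mul_cancel₀ hab, one_smul] at this
  exact this

theorem UU_smul {M : Subgroup (GL (Fin m ⊕ Fin m) F)} {v : Vv} (hv : v ∈ UU M) (t : F) :
    t • v ∈ UU M := by
  intro c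
  rw [stv_smul]
  exact hv _

theorem UU_zero {M : Subgroup (GL (Fin m ⊕ Fin m) F)} : (0 : Vv) ∈ UU M := by
  intro c
  have : stv (0 : Vv) c = 1 := by
    apply act.injective
    ext1 x
    rw [act_stv]
    simp [map_one]
  rw [this]
  exact M.one_mem

/-- Avoiding two hyperplanes. -/
theorem exists_avoid_two {A : Submodule F Vv} {α β : Vv →ₗ[F] F} {p₁ p₂ : Vv} (hp₁ : p₁ ∈ A)
    (hp₂ : p₂ ∈ A) (h₁ : α p₁ ≠ 0) (h₂ : β p₂ ≠ 0) : ∃ a ∈ A, α a ≠ 0 ∧ β a ≠ 0 := by
  by_cases h3 : β p₁ = 0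
  · by_cases h4 : α p₂ = 0
    · refine ⟨p₁ + p₂, A.add_mem hp₁ hp₂, ?_, ?_⟩ <;> simp [h3, h4, h₁, h₂]
    · exact ⟨p₂, hp₂, h4, h₂⟩
  · exact ⟨p₁, hp₁, h₁, h3⟩

/-- Every linear form is `f(·, y)`. -/
theorem exists_rep (φ : Dual F Vv) : ∃ y, ∀ x, f x y = φ x := by
  have hnd := sympBilin_nondegenerate (m := m) (R := F)
  obtain ⟨y, hy⟩ := (LinearMap.BilinForm.toDual (sympBilin m F) hnd).surjective (-φ)
  refine ⟨y, fun x => ?_⟩
  have h1 := congrArg (fun ψ : Dual F Vv => ψ x) hy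
  simp only [LinearMap.BilinForm.toDual_def, sympBilin_apply, LinearMap.neg_apply] at h1
  rw [sympForm_flip y x, h1]
  simp

/-- The orthogonal complement. -/
noncomputable abbrev sOrth (W : Submodule F Vv) : Submodule F Vv := (sympBilin m F).orthogonal W

theorem mem_sOrth {W : Submodule F Vv} {v : Vv} : v ∈ sOrth W ↔ ∀ w ∈ W, f w v = 0 := Iff.rfl

theorem sOrth_sOrth (W : Submodule F Vv) : sOrth (sOrth W) = W :=
  LinearMap.BilinForm.orthogonal_orthogonal (sympBilin_nondegenerate) (sympBilin_isAlt.isRefl) W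

/-- Transvections for vectors orthogonal to `W` stabilize `W`. -/
theorem stv_stab_of_orth {W : Submodule F Vv} {v : Vv} (hv : v ∈ sOrth W) (c : F) :
    stv v c ∈ Cfsg.Geo.subspaceStabilizer W := by
  apply mem_stab_of_forall
  intro w hw
  rw [act_stv, (mem_sOrth.1 hv) w hw]
  simpa using hw

/-- Transvections for vectors in `W` stabilize `W`. -/
theorem stv_stab_of_mem {W : Submodule F Vv} {v : Vv} (hv : v ∈ W) (c : F) :
    stv v c ∈ Cfsg.Geo.subspaceStabilizer W := by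
  apply mem_stab_of_forall
  intro w hw
  rw [act_stv]
  exact W.add_mem hw (W.smul_mem _ hv)

/-- The Eichler element `x ↦ x + f(x, y) a + f(x, a) y` for `f(a, y) = 0`. -/
noncomputable def rho (a y : Vv) : GL (Fin m ⊕ Fin m) F :=
  stv (a + y) 1 * stv a (-1) * stv y (-1)

theorem rho_mem (a y : Vv) : rho a y ∈ Cfsg.spGL m F :=
  mul_mem (mul_mem (stv_mem _ _) (stv_mem _ _)) (stv_mem _ _)

theorem act_rho {a y : Vv} (h : f a y = 0) (x : Vv) :
    act (rho a y) x = x + f x y • a + f x a • y := by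
  have hya : f y a = 0 := by rw [sympForm_flip a y, h, neg_zero]
  rw [rho, map_mul, map_mul, LinearEquiv.mul_apply, LinearEquiv.mul_apply, act_stv, act_stv, act_stv]
  simp only [sympForm_add_left, sympForm_add_right, sympForm_smul_left, sympForm_self, h, hya]
  ext i
  simp only [Pi.add_apply, Pi.smul_apply, smul_eq_mul]
  ring

/-- Maximality of the stabilizer of a nonzero totally singular subspace. -/
theorem isMaximalIn_stab_ts [Finite F] {W : Submodule F Vv} (hW0 : W ≠ ⊥)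
    (hW : ∀ u ∈ W, ∀ v ∈ W, f u v = 0) :
    Cfsg.Geo.IsMaximalIn (Cfsg.spGL m F) (Cfsg.Geo.subspaceStabilizer W ⊓ Cfsg.spGL m F) := by
  have hsub : W ≤ sOrth W := fun v hv w hw => hW w hw v hv
  have hexw : ∃ w ∈ W, w ≠ 0 := (Submodule.ne_bot_iff W).1 hW0
  obtain ⟨w₀, hw₀, hw₀0⟩ := hexw
  refine ⟨?_, fun M hPM hMS => ?_⟩
  · -- a transvection moving `W`
    rw [SetLike.lt_iff_le_and_exists]
    refine ⟨inf_le_right, ?_⟩
    -- find `y` with `f(w₀, y) = 1`, then `y ∉ W`
    obtain ⟨φ, hφ, -⟩ := exists_dual_of_notMem (S := (⊥ : Submodule F Vv)) (u := w₀) (by simpa using hw₀0)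
    obtain ⟨y, hy⟩ := exists_rep φ
    have hfy : f w₀ y = 1 := by rw [hy, hφ]
    refine ⟨stv y 1, stv_mem _ _, fun hmem => ?_⟩
    have h1 := ((mem_stab_iff.1 hmem.1) w₀).1 hw₀
    rw [act_stv, hfy, mul_one, one_smul] at h1
    have h2 : y ∈ W := (W.add_mem_iff_right hw₀).1 h1
    rw [hW w₀ hw₀ y h2] at hfy
    exact zero_ne_one hfy
  by_cases hMP : M ≤ Cfsg.Geo.subspaceStabilizer W ⊓ Cfsg.spGL m F
  · exact Or.inl (le_antisymm hMP hPM)
  right
  obtain ⟨g, hgM, hgP⟩ := SetLike.not_le_iff_exists.1 hMP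
  have hgW : g ∉ Cfsg.Geo.subspaceStabilizer W := fun h => hgP ⟨h, hMS hgM⟩
  have hgS := hMS hgM
  -- `W^⊥ ⊆ U`
  have hUorth : ∀ v ∈ sOrth W, v ∈ UU M := fun v hv c => hPM ⟨stv_stab_of_orth hv c, stv_mem _ _⟩
  -- an element of `U` outside `W^⊥`
  have hex : ∃ u₀ ∈ UU M, u₀ ∉ sOrth W := by
    by_contra hcon
    push Not at hcon
    apply hgW
    -- `g` stabilizes `W^⊥`
    have h1 : ∀ v ∈ sOrth W, act g v ∈ sOrth W := fun v hv => hcon _ (UU_act hMS hgM (hUorth v hv))
    have h2 : ∀ v ∈ sOrth W, act g⁻¹ v ∈ sOrth W := by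
      intro v hv
      have hst := mem_stab_of_forall h1
      have := (mem_stab_iff.1 (Subgroup.inv_mem _ hst)) v
      exact this.1 hv
    apply mem_stab_of_forall
    intro w hw
    rw [← sOrth_sOrth W] at hw ⊢
    intro v hv
    show f v (act g w) = 0
    rw [← sp_inv_apply hgS]
    exact hw _ (h2 v hv)
  obtain ⟨u₀, hu₀U, hu₀⟩ := hex
  obtain ⟨a₀, ha₀W, ha₀⟩ : ∃ a₀ ∈ W, f a₀ u₀ ≠ 0 := by
    by_contra hcon
    push Not at hcon
    exact hu₀ (mem_sOrth.2 hcon)
  -- a maximal subspace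
  obtain ⟨A, hAm⟩ := Set.Finite.exists_maximal (Set.toFinite {A : Submodule F Vv | sOrth W ≤ A ∧ ∀ v ∈ A, v ∈ UU M})
    ⟨sOrth W, le_rfl, hUorth⟩
  obtain ⟨⟨hA1, hA2⟩, hAmax⟩ := hAm
  have hAtop : A = ⊤ := by
    by_contra hne
    have hB0 : sOrth A ≠ ⊥ := by
      intro h
      apply hne
      have h1 := sOrth_sOrth A
      rw [h] at h1
      rw [← h1, eq_top_iff]
      intro x _ w hw
      have : w = 0 := hw
      rw [this]
      simp
    have hBW : sOrth A ≤ W := by
      intro b hb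
      rw [← sOrth_sOrth W]
      intro v hv
      exact hb v (hA1 hv)
    obtain ⟨b, hb, hb0⟩ := (Submodule.ne_bot_iff _).1 hB0
    have hbW := hBW hb
    have hu : ∃ u ∈ UU M, u ∉ A := by
      by_cases hbu : f b u₀ = 0
      · have hnotspan : b ∉ Submodule.span F {a₀} := by
          intro hmem
          obtain ⟨c, hc⟩ := Submodule.mem_span_singleton.1 hmem
          rw [← hc, sympForm_smul_left] at hbu
          have hc0 : c = 0 := (mul_eq_zero.1 hbu).resolve_right ha₀
          rw [hc0, zero_smul] at hc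
          exact hb0 hc.symm
        obtain ⟨φ, hφ1, hφ2⟩ := exists_dual_of_notMem hnotspan
        obtain ⟨y, hy⟩ := exists_rep φ
        have hby : f b y = 1 := by rw [hy, hφ1]
        have ha₀y : f a₀ y = 0 := by rw [hy]; exact hφ2 a₀ (Submodule.mem_span_singleton_self a₀)
        have hρS : rho a₀ y ∈ Cfsg.Geo.subspaceStabilizer W := by
          apply mem_stab_of_forall
          intro w hw
          rw [act_rho ha₀y, hW w hw a₀ ha₀W, zero_smul, add_zero]
          exact W.add_mem hw (W.smul_mem _ ha₀W)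
        have hρ : rho a₀ y ∈ M := hPM ⟨hρS, rho_mem _ _⟩
        refine ⟨act (rho a₀ y) u₀, UU_act hMS hρ hu₀U, fun hmem => ?_⟩
        have h1 : f (act (rho a₀ y) u₀) b = 0 := hb _ hmem
        rw [act_rho ha₀y] at h1
        simp only [sympForm_add_left, sympForm_smul_left] at h1
        rw [hW a₀ ha₀W b hbW, mul_zero, add_zero, sympForm_flip b u₀, hbu, neg_zero, zero_add,
          sympForm_flip b y, hby] at h1
        have h2 : f u₀ a₀ = 0 := by simpa using h1
        rw [sympForm_flip u₀ a₀, h2, neg_zero] at ha₀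
        exact ha₀ rfl
      · refine ⟨u₀, hu₀U, fun hmem => hbu ?_⟩
        have h1 : f u₀ b = 0 := hb _ hmem
        rw [sympForm_flip u₀ b, h1, neg_zero]
    obtain ⟨u, huU, huA⟩ := hu
    have hsubA : sOrth A ≤ A := fun x hx => hA1 (hsub (hBW hx))
    have hadd : ∀ a ∈ A, u + a ∈ UU M := by
      intro a ha
      by_cases hua : f u a = 0
      · have hp₁ : ∃ p₁ ∈ A, f u p₁ ≠ 0 := by
          by_contra hcon
          push Not at hcon
          apply huA
          apply hsubA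
          intro x hx
          show f x u = 0
          rw [sympForm_flip u x, hcon x hx, neg_zero]
        have hp₂ : ∃ p₂ ∈ A, f p₂ (u + a) ≠ 0 := by
          by_contra hcon
          push Not at hcon
          apply huA
          have h1 : u + a ∈ A := hsubA (fun x hx => hcon x hx)
          exact (A.add_mem_iff_left ha).1 h1
        obtain ⟨p₁, hp₁A, hp₁⟩ := hp₁
        obtain ⟨p₂, hp₂A, hp₂⟩ := hp₂
        obtain ⟨a', ha'A, h1, h2⟩ := exists_avoid_two (α := (sympBilin m F) u)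
          (β := (sympBilin m F).flip (u + a)) hp₁A hp₂A hp₁ hp₂
        have h1' : f u a' ≠ 0 := h1
        have h2' : f a' (u + a) ≠ 0 := h2
        have hu₁ : u + a' ∈ UU M := UU_add hMS huU (hA2 a' ha'A) h1'
        have hdiff : a - a' ∈ UU M := hA2 _ (A.sub_mem ha ha'A)
        have hf : f (u + a') (a - a') ≠ 0 := by
          have : f (u + a') (a - a') = f a' (u + a) := by
            have e1 : f a' u = - f u a' := sympForm_flip u a'
            have e2 : a - a' = a + (-1 : F) • a' := by simp [sub_eq_add_neg]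
            rw [e2, sympForm_add_left, sympForm_add_right, sympForm_add_right, sympForm_add_right,
              sympForm_smul_right, sympForm_smul_right, e1, hua, sympForm_self]
            ring
          rwa [this]
        have := UU_add hMS hu₁ hdiff hf
        have heq : u + a' + (a - a') = u + a := by abel
        rwa [heq] at this
      · exact UU_add hMS huU (hA2 a ha) hua
    have hnew : A ⊔ Submodule.span F {u} ∈ {A : Submodule F Vv | sOrth W ≤ A ∧ ∀ v ∈ A, v ∈ UU M} := by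
      refine ⟨hA1.trans le_sup_left, fun v hv => ?_⟩
      obtain ⟨a, ha, y, hy, rfl⟩ := Submodule.mem_sup.1 hv
      obtain ⟨t, rfl⟩ := Submodule.mem_span_singleton.1 hy
      by_cases ht : t = 0
      · rw [ht, zero_smul, add_zero]
        exact hA2 a ha
      · have h1 := UU_smul (hadd (t⁻¹ • a) (A.smul_mem _ ha)) t
        have h2 : t • (u + t⁻¹ • a) = a + t • u := by
          rw [smul_add, smul_smul, mul_inv_cancel₀ ht, one_smul, add_comm]
        rwa [h2] at h1
    have h3 := hAmax hnew le_sup_left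
    exact huA (h3 ((le_sup_right : _ ≤ A ⊔ _) (Submodule.mem_span_singleton_self u)))
  refine le_antisymm hMS (spGL_le_of_stv M fun v c => ?_)
  exact hA2 v (by rw [hAtop]; trivial) c

/-- The union of two subspaces: a subspace inside is inside one of them. -/
theorem le_or_le_of_subset_union {V : Type*} [AddCommGroup V] [Module F V] {A B C : Submodule F V}
    (h : ∀ x ∈ A, x ∈ B ∨ x ∈ C) : A ≤ B ∨ A ≤ C := by
  by_contra hcon
  push Not at hcon
  obtain ⟨h1, h2⟩ := hcon
  obtain ⟨x, hx, hxB⟩ := SetLike.not_le_iff_exists.1 h1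
  obtain ⟨y, hy, hyC⟩ := SetLike.not_le_iff_exists.1 h2
  have hxC : x ∈ C := (h x hx).resolve_left hxB
  have hyB : y ∈ B := (h y hy).resolve_right hyC
  rcases h (x + y) (A.add_mem hx hy) with h3 | h3
  · exact hxB ((B.add_mem_iff_left hyB).1 h3)
  · exact hyC ((C.add_mem_iff_right hxC).1 h3)

/-- Moving the `X`-part of a vector of `U`, for a nondegenerate subspace `X` inside `U`. -/
theorem UU_move {M : Subgroup (GL (Fin m ⊕ Fin m) F)} (hM : M ≤ Cfsg.spGL m F) {X : Submodule F Vv}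
    (hXU : ∀ x ∈ X, x ∈ UU M) (hX : ∀ w ∈ X, w ≠ 0 → ∃ x ∈ X, f w x ≠ 0) {y : Vv}
    (hy : ∀ x ∈ X, f y x = 0) {x₁ x₂ : Vv} (hx₁ : x₁ ∈ X) (hx₂ : x₂ ∈ X) (hx₁0 : x₁ ≠ 0)
    (hx₂0 : x₂ ≠ 0) (hu : x₁ + y ∈ UU M) : x₂ + y ∈ UU M := by
  have step : ∀ {a b : Vv}, a ∈ X → b ∈ X → f a b ≠ 0 → a + y ∈ UU M → b + y ∈ UU M := by
    intro a b ha hb hab hau
    have hfdiff : f (a + y) (b - a) ≠ 0 := by
      have e2 : b - a = b + (-1 : F) • a := by simp [sub_eq_add_neg]
      rw [e2, sympForm_add_left, sympForm_add_right, sympForm_add_right, sympForm_smul_right,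
        sympForm_smul_right, sympForm_self, hy b hb, hy a ha]
      simpa using hab
    have := UU_add hM hau (hXU _ (X.sub_mem hb ha)) hfdiff
    have heq : a + y + (b - a) = b + y := by abel
    rwa [heq] at this
  by_cases h12 : f x₁ x₂ = 0
  · obtain ⟨p₁, hp₁, h1⟩ := hX x₁ hx₁ hx₁0
    obtain ⟨p₂, hp₂, h2⟩ := hX x₂ hx₂ hx₂0
    have h2' : f p₂ x₂ ≠ 0 := by
      rw [sympForm_flip x₂ p₂]
      exact neg_ne_zero.2 h2
    obtain ⟨a', ha', h3, h4⟩ := exists_avoid_two (α := (sympBilin m F) x₁)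
      (β := (sympBilin m F).flip x₂) hp₁ hp₂ h1 h2'
    exact step ha' hx₂ h4 (step hx₁ ha' h3 hu)
  · exact step hx₁ hx₂ h12 hu

/-- Maximality of the stabilizer of a nondegenerate subspace of dimension less than half. -/
theorem isMaximalIn_stab_nondeg {W : Submodule F Vv} (hW0 : W ≠ ⊥)
    (hW : ∀ w ∈ W, w ≠ 0 → ∃ x ∈ W, f w x ≠ 0) (hdim : finrank F W < m) :
    Cfsg.Geo.IsMaximalIn (Cfsg.spGL m F) (Cfsg.Geo.subspaceStabilizer W ⊓ Cfsg.spGL m F) := by
  have hWW : ∀ x ∈ W, x ∈ sOrth W → x = 0 := by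
    intro x hx hxo
    by_contra hx0
    obtain ⟨y, hy, hxy⟩ := hW x hx hx0
    apply hxy
    rw [sympForm_flip y x, (mem_sOrth.1 hxo) y hy, neg_zero]
  have hnd := sympBilin_nondegenerate (m := m) (R := F)
  have hfin : finrank F W + finrank F (sOrth W) = 2 * m := by
    have h1 := LinearMap.BilinForm.finrank_orthogonal hnd W
    have h2 := Submodule.finrank_le W
    have h3 : finrank F Vv = 2 * m := by
      rw [finrank_fintype_fun_eq_card]; simp; ring
    rw [h3] at h1 h2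
    show finrank F W + finrank F ((sympBilin m F).orthogonal W) = 2 * m
    rw [h1]
    omega
  have hcomp : IsCompl W (sOrth W) := by
    rw [LinearMap.BilinForm.isCompl_orthogonal_iff_disjoint sympBilin_isAlt.isRefl,
      Submodule.disjoint_def]
    exact hWW
  have hcompl : ∀ x : Vv, ∃ w ∈ W, ∃ z ∈ sOrth W, x = w + z := by
    intro x
    have : x ∈ W ⊔ sOrth W := by rw [hcomp.sup_eq_top]; trivial
    obtain ⟨w, hw, z, hz, rfl⟩ := Submodule.mem_sup.1 this
    exact ⟨w, hw, z, hz, rfl⟩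
  have horth_ne : ∀ z ∈ sOrth W, z ≠ 0 → ∃ x ∈ sOrth W, f z x ≠ 0 := by
    intro z hz hz0
    by_contra hcon
    push Not at hcon
    apply hz0
    apply hWW z _ hz
    rw [← sOrth_sOrth W]
    intro x hx
    show f x z = 0
    rw [sympForm_flip z x, hcon x hx, neg_zero]
  have hyorth : ∀ w ∈ W, ∀ z ∈ sOrth W, f z w = 0 := by
    intro w hw z hz
    rw [sympForm_flip w z, (mem_sOrth.1 hz) w hw, neg_zero]
  refine ⟨?_, fun M hPM hMS => ?_⟩
  · -- a transvection moving `W`
    rw [SetLike.lt_iff_le_and_exists]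
    refine ⟨inf_le_right, ?_⟩
    obtain ⟨w, hw, hw0⟩ := (Submodule.ne_bot_iff W).1 hW0
    obtain ⟨w₁, hw₁, h1⟩ := hW w hw hw0
    have hOb : sOrth W ≠ ⊥ := by
      intro h
      rw [h, finrank_bot] at hfin
      omega
    obtain ⟨z, hz, hz0⟩ := (Submodule.ne_bot_iff _).1 hOb
    have h2 : f w (w₁ + z) ≠ 0 := by
      rw [sympForm_add_right, (mem_sOrth.1 hz) w hw, add_zero]
      exact h1
    refine ⟨stv (w₁ + z) 1, stv_mem _ _, fun hmem => ?_⟩
    have h3 := ((mem_stab_iff.1 hmem.1) w).1 hw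
    rw [act_stv, one_mul] at h3
    have h4 : (f w (w₁ + z)) • (w₁ + z) ∈ W := (W.add_mem_iff_right hw).1 h3
    have h5 : w₁ + z ∈ W := (W.smul_mem_iff h2).1 h4
    have h6 : z ∈ W := (W.add_mem_iff_right hw₁).1 h5
    exact hz0 (hWW z h6 hz)
  by_cases hMP : M ≤ Cfsg.Geo.subspaceStabilizer W ⊓ Cfsg.spGL m F
  · exact Or.inl (le_antisymm hMP hPM)
  right
  obtain ⟨g, hgM, hgP⟩ := SetLike.not_le_iff_exists.1 hMP
  have hgW : g ∉ Cfsg.Geo.subspaceStabilizer W := fun h => hgP ⟨h, hMS hgM⟩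
  have hgS := hMS hgM
  have hUW : ∀ v ∈ W, v ∈ UU M := fun v hv c => hPM ⟨stv_stab_of_mem hv c, stv_mem _ _⟩
  have hUorth : ∀ v ∈ sOrth W, v ∈ UU M := fun v hv c => hPM ⟨stv_stab_of_orth hv c, stv_mem _ _⟩
  have hex : ∃ w₀ ∈ W, ∃ z₀ ∈ sOrth W, w₀ ≠ 0 ∧ z₀ ≠ 0 ∧ w₀ + z₀ ∈ UU M := by
    by_contra hcon
    push Not at hcon
    apply hgW
    have hdich : ∀ u ∈ UU M, u ∈ W ∨ u ∈ sOrth W := by
      intro u hu
      obtain ⟨w, hw, z, hz, rfl⟩ := hcompl u
      by_cases hw0 : w = 0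
      · right
        rw [hw0, zero_add]
        exact hz
      · by_cases hz0 : z = 0
        · left
          rw [hz0, add_zero]
          exact hw
        · exact absurd hu (hcon w hw z hz hw0 hz0)
    have hmap : ∀ x ∈ (sOrth W).map ((act g : Vv ≃ₗ[F] Vv) : Vv →ₗ[F] Vv), x ∈ W ∨ x ∈ sOrth W := by
      rintro _ ⟨v, hv, rfl⟩
      exact hdich _ (UU_act hMS hgM (hUorth v hv))
    have hfinmap := LinearEquiv.finrank_map_eq (act g) (sOrth W)
    have h1 : (sOrth W).map ((act g : Vv ≃ₗ[F] Vv) : Vv →ₗ[F] Vv) ≤ sOrth W := by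
      rcases le_or_le_of_subset_union hmap with h | h
      · exfalso
        have := Submodule.finrank_mono h
        omega
      · exact h
    have h1' : ∀ v ∈ sOrth W, act g v ∈ sOrth W := fun v hv => h1 ⟨v, hv, rfl⟩
    have h2 : ∀ v ∈ sOrth W, act g⁻¹ v ∈ sOrth W := by
      intro v hv
      have hst := mem_stab_of_forall h1'
      have := (mem_stab_iff.1 (Subgroup.inv_mem _ hst)) v
      exact this.1 hv
    apply mem_stab_of_forall
    intro w hw
    rw [← sOrth_sOrth W] at hw ⊢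
    intro v hv
    show f v (act g w) = 0
    rw [← sp_inv_apply hgS]
    exact hw _ (h2 v hv)
  obtain ⟨w₀, hw₀, z₀, hz₀, hw₀0, hz₀0, hu₀⟩ := hex
  have hall : ∀ v : Vv, v ∈ UU M := by
    intro v
    obtain ⟨w, hw, z, hz, rfl⟩ := hcompl v
    by_cases hw0 : w = 0
    · rw [hw0, zero_add]
      exact hUorth z hz
    by_cases hz0 : z = 0
    · rw [hz0, add_zero]
      exact hUW w hw
    have h1 : w + z₀ ∈ UU M :=
      UU_move hMS hUW hW (fun x hx => hyorth x hx z₀ hz₀) hw₀ hw hw₀0 hw0 hu₀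
    have h2 : z₀ + w ∈ UU M := by rwa [add_comm]
    have h3 : z + w ∈ UU M :=
      UU_move hMS hUorth horth_ne (fun x hx => (mem_sOrth.1 hx) w hw) hz₀ hz hz₀0 hz0 h2
    rwa [add_comm]
  exact le_antisymm hMS (spGL_le_of_stv M fun v c => hall v c)

end Cfsg.Agent.Lib.Geo
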