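import Mathlib
import Cfsg.Agent.Lib.Geo.SUGen
import Cfsg.Agent.Lib.Geo.SympMax

set_option autoImplicit false

/-! Overgroups in `SU`: vectors all of whose transvections lie in a subgroup. -/

namespace Cfsg.Agent.Lib.Geo

open scoped MatrixGroups Matrix
open Module

variable {ι : Type} [Fintype ι] [DecidableEq ι] {F : Type*} [Field F]

local notation "V" => (ι → F)

variable {σ : F →+* F} {f : (ι → F) → (ι → F) → F}

/-- isotropic vectors all of whose transvections lie in `M` -/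
def UA (hf : SForm σ f) (M : Subgroup (GL ι F)) (z : V) : Prop :=
  ∃ hz : f z z = 0, ∀ c, c + σ c = 0 → ut hf hz c ∈ M

theorem UA.iso {hf : SForm σ f} {M : Subgroup (GL ι F)} {z : V} (h : UA hf M z) : f z z = 0 := h.1

theorem UA.mem {hf : SForm σ f} {M : Subgroup (GL ι F)} {z : V} (h : UA hf M z) (hz : f z z = 0)
    {c : F} (hc : c + σ c = 0) : ut hf hz c ∈ M := h.2 c hc

theorem UA_act {hf : SForm σ f} {M : Subgroup (GL ι F)} (hM : M ≤ uGroup f) {h : GL ι F}
    (hh : h ∈ M) {z : V} (hz : UA hf M z) : UA hf M (act h z) := by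
  obtain ⟨h0, h1⟩ := hz
  have h0' : f (act h z) (act h z) = 0 := by rw [hM hh, h0]
  refine ⟨h0', fun c hc => ?_⟩
  rw [← conj_ut hf (hM hh) h0 c h0']
  exact M.mul_mem (M.mul_mem hh (h1 c hc)) (M.inv_mem hh)

theorem act_ut_neg (hf : SForm σ f) {z : V} (hz : f z z = 0) (c : F) (x : V) :
    act (ut hf hz c) (act (ut hf hz (-c)) x) = x := by
  rw [act_ut, act_ut, hf.add_left, hf.smul_left, hz, mul_zero, add_zero]
  ext i
  simp only [Pi.add_apply, Pi.smul_apply, smul_eq_mul]
  ring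

theorem ut_smul (hf : SForm σ f) {z : V} (hz : f z z = 0) (t c : F) (hz' : f (t • z) (t • z) = 0) :
    ut hf hz' c = ut hf hz (c * t * σ t) := by
  apply act.injective
  ext1 x
  rw [act_ut, act_ut, hf.smul_right, smul_smul]
  congr 2
  ring

theorem UA_smul {hf : SForm σ f} {M : Subgroup (GL ι F)} {z : V} (hz : UA hf M z) (t : F) :
    UA hf M (t • z) := by
  obtain ⟨h0, h1⟩ := hz
  have h0' : f (t • z) (t • z) = 0 := by
    rw [hf.smul_left, hf.smul_right, h0]
    ring
  refine ⟨h0', fun c hc => ?_⟩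
  rw [ut_smul hf h0 t c h0']
  apply h1
  rw [map_mul, map_mul, hf.inv]
  linear_combination (t * σ t) * hc

theorem UA_zero (hf : SForm σ f) (M : Subgroup (GL ι F)) : UA hf M (0 : V) := by
  refine ⟨hf.zero_left _, fun c _ => ?_⟩
  have : ut hf (hf.zero_left _ : f (0 : V) 0 = 0) c = 1 := by
    apply act.injective
    ext1 x
    rw [act_ut, map_one]
    simp
  rw [this]
  exact M.one_mem

theorem UA_of_le {hf : SForm σ f} {M M' : Subgroup (GL ι F)} (hle : M ≤ M') {z : V}
    (h : UA hf M z) : UA hf M' z :=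
  ⟨h.1, fun c hc => hle (h.2 c hc)⟩

/-- the orthogonal complement of the orthogonal complement -/
theorem SForm.lperp_lperp [Finite F] (hf : SForm σ f) (W : Submodule F V) :
    hf.lperp (hf.lperp W) = W := by
  symm
  apply Submodule.eq_of_le_of_finrank_eq
  · intro w hw y hy
    exact hf.eq_zero_flip (hy w hw)
  · have h1 := hf.finrank_lperp W
    have h2 := hf.finrank_lperp (hf.lperp W)
    omega

section gen

variable [Finite F] (hf : SForm σ f) (hσ : σ ≠ RingHom.id F) (hn : 13 ≤ Fintype.card ι)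

/-- the Eichler element as a product of three transvections -/
theorem eich_formula (hf : SForm σ f) {a y y' : V} (ha : f a a = 0)
    (hay : f a y = 0) {c : F} (hc0 : c ≠ 0) (hc : c + σ c = 0) (hy' : y' = c⁻¹ • y)
    (h1 : f y' y' = 0) (h4 : f (a + y') (a + y') = 0) (x : V) :
    act (ut hf h4 c * ut hf ha (-c) * ut hf h1 (-c)) x = x + f x a • y - f x y • a := by
  have h2 : f a y' = 0 := by
    rw [hy', hf.smul_right, hay, mul_zero]
  have h3 : f y' a = 0 := hf.eq_zero_flip h2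
  rw [map_mul, map_mul, LinearEquiv.mul_apply, LinearEquiv.mul_apply, act_ut, act_ut, act_ut]
  simp only [hf.add_left, hf.add_right, hf.smul_left, ha, h1, h2, h3, mul_zero, add_zero, zero_add]
  have e1 : f x y' = σ c⁻¹ * f x y := by rw [hy', hf.smul_right]
  have e2 : c * (σ c⁻¹ * f x y) = - f x y := by
    rw [map_inv₀]
    have hσc : σ c = -c := by linear_combination hc
    rw [hσc]
    field_simp
  simp only [e1]
  ext i
  simp only [Pi.add_apply, Pi.smul_apply, smul_eq_mul, Pi.sub_apply, hy', Pi.smul_apply]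
  have e4 : c * c⁻¹ = 1 := mul_inv_cancel₀ hc0
  linear_combination (a i) * e2 + (f x a * y i) * e4

theorem eich_aux (hf : SForm σ f) {a y : V} (ha : f a a = 0) (hy : f y y = 0)
    (hay : f a y = 0) (c : F) : f (c⁻¹ • y) (c⁻¹ • y) = 0 ∧ f (a + c⁻¹ • y) (a + c⁻¹ • y) = 0 := by
  have h2 : f a (c⁻¹ • y) = 0 := by
    simp only [hf.smul_right, hay, mul_zero]
  have h3 : f (c⁻¹ • y) a = 0 := hf.eq_zero_flip h2
  have h1 : f (c⁻¹ • y) (c⁻¹ • y) = 0 := by
    simp only [hf.smul_left, hf.smul_right, hy, mul_zero]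
  refine ⟨h1, ?_⟩
  rw [hf.add_left, hf.add_right, hf.add_right, ha, h1, h2, h3]
  simp

/-- the Eichler element -/
theorem exists_eich (hσ : σ ≠ RingHom.id F) {a y : V} (ha : f a a = 0) (hy : f y y = 0) (hay : f a y = 0) :
    ∃ h ∈ UE hf, ∀ x, act h x = x + f x a • y - f x y • a := by
  obtain ⟨c, hc0, hc⟩ := exists_trace_zero hσ hf
  obtain ⟨h1, h4⟩ := eich_aux hf ha hy hay c
  have hc' : -c + σ (-c) = 0 := by
    rw [map_neg]
    linear_combination -hc
  exact ⟨ut hf h4 c * ut hf ha (-c) * ut hf h1 (-c), Subgroup.mul_mem _ (Subgroup.mul_mem _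
    (ut_mem_UE hf h4 hc) (ut_mem_UE hf ha hc')) (ut_mem_UE hf h1 hc'),
    eich_formula hf ha hay hc0 hc rfl h1 h4⟩

/-- the Eichler element in a subgroup containing the relevant transvections -/
theorem exists_eich_of (hσ : σ ≠ RingHom.id F) {M : Subgroup (GL ι F)} {a y : V} (ha : f a a = 0) (hy : f y y = 0)
    (hay : f a y = 0) (hM : ∀ s t : F, UA hf M (s • a + t • y)) :
    ∃ h ∈ M, ∀ x, act h x = x + f x a • y - f x y • a := by
  obtain ⟨c, hc0, hc⟩ := exists_trace_zero hσ hf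
  obtain ⟨h1, h4⟩ := eich_aux hf ha hy hay c
  have hc' : -c + σ (-c) = 0 := by
    rw [map_neg]
    linear_combination -hc
  have e1 : UA hf M (a + c⁻¹ • y) := by simpa using hM 1 c⁻¹
  have e2 : UA hf M a := by simpa using hM 1 0
  have e3 : UA hf M (c⁻¹ • y) := by simpa using hM 0 c⁻¹
  exact ⟨ut hf h4 c * ut hf ha (-c) * ut hf h1 (-c), M.mul_mem (M.mul_mem
    (e1.mem h4 hc) (e2.mem ha hc')) (e3.mem h1 hc'),
    eich_formula hf ha hay hc0 hc rfl h1 h4⟩

include hf hσ hn in
/-- Spreading: all isotropic vectors not orthogonal to `a`. -/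
theorem spread {M : Subgroup (GL ι F)} (hM : M ≤ uGroup f) {a : V} (ha : UA hf M a)
    (hE : ∀ y, f y y = 0 → f a y = 0 → ∃ h ∈ M, ∀ x, act h x = x + f x a • y - f x y • a)
    {u₀ u : V} (hu₀ : UA hf M u₀) (h₀ : f u₀ a ≠ 0) (hu : f u u = 0) (h₁ : f u a ≠ 0) :
    UA hf M u := by
  have hiso := fun W hW => hiso_herm (f := f) hf hσ W hW
  have htr : ∀ a, σ a = a → ∃ b, b + σ b = a := fun a ha => htr_herm hσ hf.inv a ha
  have haa := ha.iso
  set v₀ : V := (f u₀ a)⁻¹ • u₀ with hv₀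
  set v : V := (f u a)⁻¹ • u with hv
  have hv₀U : UA hf M v₀ := UA_smul hu₀ _
  have hv₀a : f v₀ a = 1 := by
    rw [hv₀, hf.smul_left, inv_mul_cancel₀ h₀]
  have hva : f v a = 1 := by
    rw [hv, hf.smul_left, inv_mul_cancel₀ h₁]
  have hvv : f v v = 0 := by
    simp only [hv, hf.smul_left, hf.smul_right, hu, mul_zero]
  have hav : f a v = 1 := by rw [hf.herm, hva, map_one]
  set y : V := v - v₀ with hy
  have hya : f y a = 0 := by
    rw [hy, hf.sub_left, hva, hv₀a, sub_self]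
  obtain ⟨p, hp1, hp2, hp3⟩ := exists_iso_decomp hf hiso htr [hf.lf a] (by simp; omega) (x := y) (by simpa using hya)
  have hpa : f p a = 0 := hp1 (hf.lf a) (by simp)
  have hqa : f (y - p) a = 0 := by rw [hf.sub_left, hya, hpa, sub_self]
  obtain ⟨h₂, hh₂, e₂⟩ := hE (y - p) hp3 (hf.eq_zero_flip hqa)
  obtain ⟨h₃, hh₃, e₃⟩ := hE p hp2 (hf.eq_zero_flip hpa)
  set v₁ : V := act h₂ v₀ with hv₁
  have e₁ : v₁ = v₀ + (y - p) - f v₀ (y - p) • a := by
    rw [hv₁, e₂, hv₀a, one_smul]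
  have hv₁a : f v₁ a = 1 := by
    rw [e₁, hf.sub_left, hf.add_left, hv₀a, hqa, hf.smul_left, haa]
    ring
  set z : V := act h₃ v₁ with hz
  have hzU : UA hf M z := UA_act hM hh₃ (UA_act hM hh₂ hv₀U)
  set s := f v₀ (y - p) + f v₁ p with hs
  have e₃' : z = v - s • a := by
    have e₅ : v₁ + p = v - f v₀ (y - p) • a := by
      rw [e₁, hy]
      abel
    rw [hz, e₃, hv₁a, one_smul, e₅, hs, add_smul]
    abel
  have hzz : f z z = 0 := hzU.iso
  have hsum : s + σ s = 0 := by
    rw [e₃'] at hzz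
    simp only [hf.sub_left, hf.sub_right, hf.smul_left, hf.smul_right, hvv, hva, hav, haa] at hzz
    linear_combination -hzz
  have hza : f z a = 1 := by
    rw [e₃', hf.sub_left, hva, hf.smul_left, haa]
    ring
  have key : act (ut hf haa s) z = v := by
    rw [act_ut, hza, mul_one, e₃']
    simp
  have h5 : UA hf M v := by
    rw [← key]
    exact UA_act hM (ha.mem haa hsum) hzU
  have h6 := UA_smul h5 (f u a)
  rwa [hv, smul_smul, mul_inv_cancel₀ h₁, one_smul] at h6

include hf hσ hn in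
/-- From all vectors non-orthogonal to `a`, to all isotropic vectors. -/
theorem all_of_spread {M : Subgroup (GL ι F)} (hM : M ≤ uGroup f) {a : V} (ha0 : a ≠ 0)
    (hS : ∀ u, f u u = 0 → f u a ≠ 0 → UA hf M u) {z : V} (hz : f z z = 0) : UA hf M z := by
  have hiso := fun W hW => hiso_herm (f := f) hf hσ W hW
  have htr : ∀ a, σ a = a → ∃ b, b + σ b = a := fun a ha => htr_herm hσ hf.inv a ha
  by_cases hz0 : z = 0
  · rw [hz0]
    exact UA_zero hf M
  by_cases hza : f z a = 0
  · obtain ⟨δ, hδ0, hδ⟩ := exists_trace_zero hσ hf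
    haveI : Nontrivial ι := Fintype.one_lt_card_iff_nontrivial.1 (by omega)
    obtain ⟨y₀, hy1, hy2⟩ := exists_not_mem_two (hf.lf_ne_zero ha0) (hf.lf_ne_zero hz0)
    obtain ⟨s, hs1, hs2⟩ := affine_solve hf hiso htr [hf.lf a, hf.lf z] (by simp; omega) y₀ (e := 0)
      (map_zero σ)
    have h1 : f s a ≠ 0 := by
      have := hs1 (hf.lf a) (by simp)
      simp only [SForm.lf_apply] at this hy1
      rwa [this]
    have h2 : f s z ≠ 0 := by
      have := hs1 (hf.lf z) (by simp)
      simp only [SForm.lf_apply] at this hy2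
      rwa [this]
    have hsU := hS s hs2 h1
    have hδ' : -δ + σ (-δ) = 0 := by
      rw [map_neg]
      linear_combination -hδ
    set z' : V := act (ut hf hs2 (-δ)) z with hz'
    have hz'z : f z' z' = 0 := by
      rw [hz', ut_mem_u hf hs2 hδ', hz]
    have hz'a : f z' a ≠ 0 := by
      rw [hz', act_ut, hf.add_left, hf.smul_left, hza, zero_add]
      exact mul_ne_zero (mul_ne_zero (neg_ne_zero.2 hδ0) (fun h => h2 (hf.eq_zero_flip h))) h1
    have h3 := UA_act hM (hsU.mem hs2 hδ) (hS z' hz'z hz'a)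
    have h4 : act (ut hf hs2 δ) z' = z := by
      rw [hz', act_ut, act_ut]
      simp only [hf.add_left, hf.smul_left, hs2, mul_zero, add_zero]
      ext i
      simp only [Pi.add_apply, Pi.smul_apply, smul_eq_mul]
      ring
    rwa [h4] at h3
  · exact hS z hz hza

include hf hσ hn in
/-- If all isotropic vectors are good then `M` contains the special unitary group. -/
theorem su_le_of_UA {M : Subgroup (GL ι F)} (hall : ∀ z, f z z = 0 → UA hf M z) :
    uGroup f ⊓ Cfsg.Geo.specialLinear ι F ≤ M :=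
  su_le hf hσ hn fun z hz c hc => (hall z hz).mem hz hc

theorem ut_mem_stab_of_orth (hf : SForm σ f) {W : Submodule F V} {z : V} (hz : f z z = 0)
    (hW : ∀ w ∈ W, f w z = 0) (c : F) : ut hf hz c ∈ Cfsg.Geo.subspaceStabilizer W := by
  apply mem_stab_of_forall
  intro w hw
  rw [act_ut, hW w hw, mul_zero, zero_smul, add_zero]
  exact hw

theorem ut_mem_stab_of_mem (hf : SForm σ f) {W : Submodule F V} {z : V} (hz : f z z = 0)
    (hW : z ∈ W) (c : F) : ut hf hz c ∈ Cfsg.Geo.subspaceStabilizer W := by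
  apply mem_stab_of_forall
  intro w hw
  rw [act_ut]
  exact W.add_mem hw (W.smul_mem _ hW)

theorem ut_mem_SU (hf : SForm σ f) {z : V} (hz : f z z = 0) {c : F} (hc : c + σ c = 0) :
    ut hf hz c ∈ uGroup f ⊓ Cfsg.Geo.specialLinear ι F := ⟨ut_mem_u hf hz hc, ut_mem_SL hf hz c⟩

include hf hσ hn in
/-- maximality of the stabilizer of a nonzero totally isotropic subspace in `SU`. -/
theorem isMaximalIn_su_stab_ts {W : Submodule F V} (hW0 : W ≠ ⊥) (hW : ∀ u ∈ W, ∀ v ∈ W, f u v = 0) :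
    Cfsg.Geo.IsMaximalIn (uGroup f ⊓ Cfsg.Geo.specialLinear ι F)
      (Cfsg.Geo.subspaceStabilizer W ⊓ (uGroup f ⊓ Cfsg.Geo.specialLinear ι F)) := by
  have hiso := fun W hW => hiso_herm (f := f) hf hσ W hW
  have htr : ∀ a, σ a = a → ∃ b, b + σ b = a := fun a ha => htr_herm hσ hf.inv a ha
  obtain ⟨δ, hδ0, hδ⟩ := exists_trace_zero hσ hf
  obtain ⟨w₀, hw₀, hw₀0⟩ := (Submodule.ne_bot_iff W).1 hW0
  refine ⟨?_, fun M hPM hMS => ?_⟩
  · rw [SetLike.lt_iff_le_and_exists]
    refine ⟨inf_le_right, ?_⟩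
    obtain ⟨y₀, hy₀⟩ := hf.nd w₀ hw₀0
    obtain ⟨z, hz1, hz2⟩ := affine_solve hf hiso htr [hf.lf w₀] (by simp; omega) y₀ (e := 0)
      (map_zero σ)
    have hzw : f z w₀ ≠ 0 := by
      have := hz1 (hf.lf w₀) (by simp)
      simp only [SForm.lf_apply] at this
      rwa [this]
    have hwz : f w₀ z ≠ 0 := fun h => hzw (hf.eq_zero_flip h)
    refine ⟨ut hf hz2 δ, ut_mem_SU hf hz2 hδ, fun hmem => ?_⟩
    have h1 := ((mem_stab_iff.1 hmem.1) w₀).1 hw₀
    rw [act_ut] at h1
    have h2 := (W.add_mem_iff_right hw₀).1 h1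
    have h3 : z ∈ W := (W.smul_mem_iff (mul_ne_zero hδ0 hwz)).1 h2
    exact hzw (hW z h3 w₀ hw₀)
  by_cases hMP : M ≤ Cfsg.Geo.subspaceStabilizer W ⊓ (uGroup f ⊓ Cfsg.Geo.specialLinear ι F)
  · exact Or.inl (le_antisymm hMP hPM)
  right
  obtain ⟨g, hgM, hgP⟩ := SetLike.not_le_iff_exists.1 hMP
  have hgW : g ∉ Cfsg.Geo.subspaceStabilizer W := fun h => hgP ⟨h, hMS hgM⟩
  have hMU : M ≤ uGroup f := fun x hx => (hMS hx).1
  -- isotropic vectors of the complement are good
  have hperp : ∀ z, f z z = 0 → z ∈ hf.lperp W → UA hf M z := by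
    intro z hz hzW
    refine ⟨hz, fun c hc => hPM ⟨ut_mem_stab_of_orth hf hz (fun w hw => hf.eq_zero_flip (hzW w hw)) c,
      ut_mem_SU hf hz hc⟩⟩
  have hWperp : W ≤ hf.lperp W := fun w hw y hy => hW w hw y hy
  have hex : ∃ u₀, UA hf M u₀ ∧ u₀ ∉ hf.lperp W := by
    by_contra hcon
    push Not at hcon
    apply hgW
    apply mem_stab_of_forall
    intro a ha
    have h1 : UA hf M a := hperp a (hW a ha a ha) (hWperp ha)
    have h2 := UA_act hMU hgM h1
    have h3 := hcon _ h2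
    by_contra h4
    -- the vector `g a` is isotropic in the complement but not in `W`
    rw [← hf.lperp_lperp W] at h4
    rw [hf.mem_lperp] at h4
    push Not at h4
    obtain ⟨y₁, hy₁, hy₁a⟩ := h4
    obtain ⟨b, hb⟩ := htr (-f y₁ y₁) (by rw [map_neg, hf.self_fixed])
    set t := b / f (act g a) y₁ with ht
    set y : V := y₁ + t • act g a with hy
    have hgaga : f (act g a) (act g a) = 0 := h2.iso
    have hy0 : f y y = 0 := by
      have e1 : t * f (act g a) y₁ = b := by
        rw [ht]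
        field_simp
      have e2 : σ t * f y₁ (act g a) = σ b := by
        rw [← e1, map_mul]
        congr 1
        exact (hf.herm _ _)
      simp only [hy, hf.add_left, hf.add_right, hf.smul_left, hf.smul_right, hgaga, mul_zero, add_zero]
      rw [e1, e2]
      linear_combination hb
    have hyperp : y ∈ hf.lperp W := Submodule.add_mem _ hy₁ (Submodule.smul_mem _ _ h3)
    have hyU := hperp y hy0 hyperp
    have h5 := hcon _ (UA_act hMU (M.inv_mem hgM) hyU)
    have h6 : f (act g⁻¹ y) a = 0 := h5 a ha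
    rw [u_inv_left (hMU hgM)] at h6
    simp only [hy, hf.add_left, hf.smul_left, hgaga, mul_zero, add_zero] at h6
    exact hy₁a (hf.eq_zero_flip h6)
  obtain ⟨u₀, hu₀U, hu₀⟩ := hex
  rw [hf.mem_lperp] at hu₀
  push Not at hu₀
  obtain ⟨a, haW, hua⟩ := hu₀
  have ha0 : a ≠ 0 := by
    rintro rfl
    exact hua (hf.zero_right _)
  have haU : UA hf M a := hperp a (hW a haW a haW) (hWperp haW)
  have hE : ∀ y, f y y = 0 → f a y = 0 → ∃ h ∈ M, ∀ x, act h x = x + f x a • y - f x y • a := by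
    intro y hy hay
    obtain ⟨h, hh, e⟩ := exists_eich hf hσ haU.iso hy hay
    refine ⟨h, hPM ⟨?_, UE_le_u hf hh, UE_le_SL hf hh⟩, e⟩
    apply mem_stab_of_forall
    intro w hw
    rw [e, hW w hw a haW, zero_smul, add_zero]
    exact W.sub_mem hw (W.smul_mem _ haW)
  refine le_antisymm hMS (su_le_of_UA hf hσ hn fun z hz => ?_)
  exact all_of_spread hf hσ hn hMU ha0 (fun u hu hua' => spread hf hσ hn hMU haU hE hu₀U hua hu hua') hz

end gen

end Cfsg.Agent.Lib.Geo
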