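import Mathlib
import Cfsg.Agent.Lib.Geo.SUMax
import Cfsg.Agent.Lib.Classical.SympStd
import Cfsg.Agent.Lib.Geo.SympMax

set_option autoImplicit false

/-! Rational structures: the subfield subgroup through its action on rational vectors. -/

namespace Cfsg.Agent.Lib.Geo

open scoped MatrixGroups Matrix
open Module

variable {ι : Type} [Fintype ι] [DecidableEq ι] {F : Type*} [Field F]

section rat

variable (F₀ : Subfield F) (P : GL ι F)

/-- the coordinatewise inclusion -/
def incl (u : ι → F₀) : ι → F := fun i => (u i : F)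

/-- the rational vector with coordinates `u` in the frame `P` -/
noncomputable def rat (u : ι → F₀) : ι → F := act P (incl F₀ u)

variable {F₀}

theorem incl_add (u v : ι → F₀) : incl F₀ (u + v) = incl F₀ u + incl F₀ v := by
  ext i; simp [incl]

theorem incl_smul (c : F₀) (u : ι → F₀) : incl F₀ (c • u) = (c : F) • incl F₀ u := by
  ext i; simp [incl]

theorem incl_zero : incl F₀ (0 : ι → F₀) = 0 := by
  ext i; simp [incl]

theorem incl_injective : Function.Injective (incl (ι := ι) F₀) := by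
  intro u v h
  ext i
  exact congrFun h i

theorem rat_add (u v : ι → F₀) : rat F₀ P (u + v) = rat F₀ P u + rat F₀ P v := by
  rw [rat, incl_add, map_add]; rfl

theorem rat_smul (c : F₀) (u : ι → F₀) : rat F₀ P (c • u) = (c : F) • rat F₀ P u := by
  rw [rat, incl_smul, map_smul]; rfl

theorem rat_zero : rat F₀ P (0 : ι → F₀) = 0 := by
  rw [rat, incl_zero, map_zero]

theorem rat_injective : Function.Injective (rat (ι := ι) F₀ P) :=
  fun _ _ h => incl_injective ((act P).injective h)

/-- `map A` acts on included vectors through `A`. -/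
theorem act_map_incl (A : GL ι F₀) (u : ι → F₀) :
    act (Matrix.GeneralLinearGroup.map (F₀.subtype : F₀ →+* F) A) (incl F₀ u) = incl F₀ (act A u) := by
  ext i
  simp only [act_apply, incl, Matrix.mulVec, dotProduct]
  simp [Matrix.GeneralLinearGroup.map]

/-- the lift of a linear automorphism of the rational space -/
noncomputable def liftG (h : (ι → F₀) ≃ₗ[F₀] (ι → F₀)) : GL ι F :=
  P * Matrix.GeneralLinearGroup.map (F₀.subtype : F₀ →+* F) (act.symm h) * P⁻¹

theorem act_liftG (h : (ι → F₀) ≃ₗ[F₀] (ι → F₀)) (u : ι → F₀) :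
    act (liftG P h) (rat F₀ P u) = rat F₀ P (h u) := by
  rw [liftG, map_mul, map_mul, LinearEquiv.mul_apply, LinearEquiv.mul_apply, rat, act_inv_act,
    act_map_incl, MulEquiv.apply_symm_apply, rat]

theorem det_liftG (h : (ι → F₀) ≃ₗ[F₀] (ι → F₀))
    (hd : LinearMap.det (h : (ι → F₀) →ₗ[F₀] (ι → F₀)) = 1) :
    liftG P h ∈ Cfsg.Geo.specialLinear ι F := by
  have h1 : act.symm h ∈ Cfsg.Geo.specialLinear ι F₀ := by
    rw [mem_SL_iff, MulEquiv.apply_symm_apply]
    exact hd
  have h3 : Matrix.det ((act.symm h : GL ι F₀) : Matrix ι ι F₀) = 1 := by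
    rw [← det_act, MulEquiv.apply_symm_apply]
    exact hd
  rw [mem_SL_iff, det_act, liftG]
  simp only [Units.val_mul, Matrix.det_mul]
  have h4 : Matrix.det ((Matrix.GeneralLinearGroup.map (F₀.subtype : F₀ →+* F) (act.symm h) : GL ι F) : Matrix ι ι F) = 1 := by
    have : ((Matrix.GeneralLinearGroup.map (F₀.subtype : F₀ →+* F) (act.symm h) : GL ι F) : Matrix ι ι F)
        = (F₀.subtype : F₀ →+* F).mapMatrix ((act.symm h : GL ι F₀) : Matrix ι ι F₀) := rfl
    rw [this, ← RingHom.map_det, h3, map_one]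
  rw [h4, mul_one, ← Matrix.det_mul, ← Units.val_mul, mul_inv_cancel]
  simp

instance scalars_normal : (Cfsg.Geo.scalars ι F).Normal := by
  constructor
  intro n hn g
  rw [Cfsg.Geo.mem_scalars_iff] at hn ⊢
  obtain ⟨c, hc⟩ := hn
  refine ⟨c, ?_⟩
  simp only [Units.val_mul, hc]
  rw [Matrix.mul_smul, Matrix.mul_one, Matrix.smul_mul, ← Units.val_mul, mul_inv_cancel]
  rfl

/-- the coordinates in the frame are rational -/
theorem rat_of_mem_subfield {g : GL ι F} (hg : g ∈ Cfsg.Geo.subfieldSubgroup F₀ P) (u : ι → F₀) :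
    ∃ (c : F) (w : ι → F₀), act g (rat F₀ P u) = c • rat F₀ P w := by
  obtain ⟨A, hA, rfl⟩ := hg
  obtain ⟨B, ⟨C, rfl⟩, S, hS, rfl⟩ := Subgroup.mem_sup_of_normal_right.1 hA
  rw [Cfsg.Geo.mem_scalars_iff] at hS
  obtain ⟨c, hc⟩ := hS
  refine ⟨c, act C u, ?_⟩
  change act (P * (Matrix.GeneralLinearGroup.map (F₀.subtype : F₀ →+* F) C * S) * P⁻¹) (rat F₀ P u) = _
  have h1 : act S (incl F₀ u) = (c : F) • incl F₀ u := by
    rw [act_apply, hc, Matrix.smul_mulVec, Matrix.one_mulVec]
  rw [map_mul, map_mul, map_mul, LinearEquiv.mul_apply, LinearEquiv.mul_apply, LinearEquiv.mul_apply,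
    rat, act_inv_act, h1, map_smul, map_smul, act_map_incl, rat]

/-- a group element mapping rational vectors to multiples of rational vectors lies in the
subfield subgroup -/
theorem mem_subfield_of (σ : F →+* F) (hfix : ∀ a, σ a = a ↔ a ∈ F₀) {g : GL ι F}
    (h : ∀ u : ι → F₀, ∃ (c : F) (w : ι → F₀), act g (rat F₀ P u) = c • rat F₀ P w) :
    g ∈ Cfsg.Geo.subfieldSubgroup F₀ P := by
  classical
  set A : GL ι F := P⁻¹ * g * P with hA
  have h' : ∀ u : ι → F₀, ∃ (c : F) (w : ι → F₀), act A (incl F₀ u) = c • incl F₀ w := by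
    intro u
    obtain ⟨c, w, hcw⟩ := h u
    refine ⟨c, w, ?_⟩
    rw [hA, map_mul, map_mul, LinearEquiv.mul_apply, LinearEquiv.mul_apply]
    change act P⁻¹ (act g (rat F₀ P u)) = _
    rw [hcw, map_smul, rat, act_inv_act]
  have hAinj : ∀ x, act A x = 0 → x = 0 := fun x hx => by
    simpa using (act A).injective (hx.trans (map_zero (act A)).symm)
  let e : ι → ι → F₀ := fun i => Pi.single i 1
  have hE : ∀ i j, incl F₀ (e i) j = if j = i then 1 else 0 := by
    intro i j
    by_cases hji : j = i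
    · subst hji; simp [incl, e]
    · simp [incl, e, hji]
  choose c w hcw using fun i => h' (e i)
  have hE0 : ∀ i, incl F₀ (e i) ≠ 0 := by
    intro i h0
    have := congrFun h0 i
    rw [hE] at this
    simp at this
  have hc0 : ∀ i, c i ≠ 0 := by
    intro i h0
    have := hcw i
    rw [h0, zero_smul] at this
    exact hE0 i (hAinj _ this)
  -- the twist
  let s : (ι → F) → (ι → F) := fun x i => σ (x i)
  have hs_incl : ∀ u : ι → F₀, s (incl F₀ u) = incl F₀ u := by
    intro u
    ext i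
    exact (hfix _).2 (u i).2
  have hs_add : ∀ x y, s (x + y) = s x + s y := by
    intro x y
    ext i
    simp [s]
  have hs_smul : ∀ (a : F) x, s (a • x) = σ a • s x := by
    intro a x
    ext i
    simp [s]
  rcases isEmpty_or_nonempty ι with hι | ⟨⟨i₀⟩⟩
  · have : g = 1 := by
      ext i
      exact (hι.false i).elim
    rw [this]
    exact one_mem _
  have key : ∀ j, c j / c i₀ ∈ F₀ := by
    intro j
    by_cases hj : j = i₀
    · subst hj
      rw [div_self (hc0 j)]
      exact one_mem _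
    obtain ⟨μ, w', hμ⟩ := h' (e j + e i₀)
    rw [incl_add, map_add, hcw, hcw] at hμ
    have hμ0 : μ ≠ 0 := by
      intro h0
      rw [h0, zero_smul, ← hcw, ← hcw, ← map_add] at hμ
      have := congrFun (hAinj _ hμ) j
      simp only [Pi.add_apply, hE, Pi.zero_apply, if_true, if_neg hj] at this
      simp at this
    have h1 := congrArg s hμ
    rw [hs_add, hs_smul, hs_smul, hs_smul, hs_incl, hs_incl, hs_incl] at h1
    set κ := σ μ / μ with hκ
    have hκ0 : κ ≠ 0 := div_ne_zero (by simpa using hμ0) hμ0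
    have h2 : σ μ • incl F₀ w' = κ • (μ • incl F₀ w') := by
      rw [smul_smul, hκ, div_mul_cancel₀ _ hμ0]
    rw [h2, ← hμ] at h1
    -- compare coefficients through `A`
    have h3 : act A (((σ (c j) - κ * c j) / c j) • incl F₀ (e j)
        + ((σ (c i₀) - κ * c i₀) / c i₀) • incl F₀ (e i₀)) = 0 := by
      rw [map_add, map_smul, map_smul, hcw, hcw, smul_smul, smul_smul,
        div_mul_cancel₀ _ (hc0 j), div_mul_cancel₀ _ (hc0 i₀), sub_smul, sub_smul,
        sub_add_sub_comm, h1, smul_add, smul_smul, smul_smul]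
      abel
    have h4 := hAinj _ h3
    have h5 := congrFun h4 j
    have h6 := congrFun h4 i₀
    simp only [Pi.add_apply, Pi.smul_apply, hE, smul_eq_mul, Pi.zero_apply, if_true, if_neg hj,
      if_neg (Ne.symm hj), mul_zero, add_zero, zero_add, mul_one] at h5 h6
    have h7 : σ (c j) = κ * c j := by
      have := (div_eq_zero_iff.1 h5).resolve_right (hc0 j)
      exact sub_eq_zero.1 this
    have h8 : σ (c i₀) = κ * c i₀ := by
      have := (div_eq_zero_iff.1 h6).resolve_right (hc0 i₀)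
      exact sub_eq_zero.1 this
    rw [← hfix, map_div₀, h7, h8, mul_div_mul_left _ _ hκ0]
  let C : Matrix ι ι F₀ := fun i j => ⟨c j / c i₀, key j⟩ * w j i
  have hC : ∀ i j, (A : Matrix ι ι F) i j = c i₀ * ((C i j : F₀) : F) := by
    intro i j
    have h1 : act A (incl F₀ (e j)) i = (A : Matrix ι ι F) i j := by
      rw [act_apply]
      have : incl F₀ (e j) = Pi.single j 1 := by
        ext k
        rw [hE]
        by_cases hk : k = j
        · subst hk; simp
        · simp [hk]
      rw [this, Matrix.mulVec_single_one]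
      rfl
    rw [← h1, hcw]
    simp only [C, Pi.smul_apply, incl, smul_eq_mul, Subfield.coe_mul]
    rw [← mul_assoc, mul_div_cancel₀ _ (hc0 i₀)]
  have hmap : (A : Matrix ι ι F) = (c i₀) • (F₀.subtype : F₀ →+* F).mapMatrix C := by
    ext i j
    rw [hC]
    rfl
  have hdet : C.det ≠ 0 := by
    intro h0
    have h1 : Matrix.det (A : Matrix ι ι F) ≠ 0 := by
      rw [← Matrix.GeneralLinearGroup.val_det_apply]
      exact Units.ne_zero _
    apply h1
    rw [hmap, Matrix.det_smul, ← RingHom.map_det, h0, map_zero, mul_zero]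
  let C₀ : GL ι F₀ := Matrix.GeneralLinearGroup.mkOfDetNeZero C hdet
  let S : GL ι F := Units.map (Matrix.scalar ι : F →+* Matrix ι ι F).toMonoidHom (Units.mk0 (c i₀) (hc0 i₀))
  have hAeq : A = Matrix.GeneralLinearGroup.map (F₀.subtype : F₀ →+* F) C₀ * S := by
    apply Units.ext
    rw [hmap]
    simp only [Units.val_mul]
    have h1 : ((Matrix.GeneralLinearGroup.map (F₀.subtype : F₀ →+* F) C₀ : GL ι F) : Matrix ι ι F)
        = (F₀.subtype : F₀ →+* F).mapMatrix C := rfl
    have h2 : ((S : GL ι F) : Matrix ι ι F) = (c i₀) • (1 : Matrix ι ι F) := by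
      simp [S, Matrix.smul_one_eq_diagonal]
    rw [h1, h2, Matrix.mul_smul, Matrix.mul_one]
  refine ⟨A, ?_, ?_⟩
  · rw [hAeq]
    exact mul_mem (Subgroup.mem_sup_left ⟨C₀, rfl⟩) (Subgroup.mem_sup_right ⟨_, rfl⟩)
  · change P * A * P⁻¹ = g
    rw [hA]
    group

end rat

/-- a subfield with `q` elements consists of the roots of `X ^ q - X` -/
theorem mem_iff_pow_eq [Finite F] {F₀ : Subfield F} {q : ℕ} (hq : Nat.card F₀ = q) (hq1 : 1 < q) (a : F) :
    a ^ q = a ↔ a ∈ F₀ := by
  classical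
  haveI := Fintype.ofFinite F
  haveI : Fintype F₀ := Fintype.ofFinite F₀
  have hcard : Fintype.card F₀ = q := by rw [← Nat.card_eq_fintype_card, hq]
  have hF₀ : ∀ x : F₀, (x : F) ^ q = x := by
    intro x
    have := FiniteField.pow_card x
    rw [hcard] at this
    exact congrArg Subtype.val this
  constructor
  · intro ha
    let p : Polynomial F := Polynomial.X ^ q - Polynomial.X
    have hp0 : p ≠ 0 := FiniteField.X_pow_card_sub_X_ne_zero F hq1
    have hdeg : p.natDegree = q := FiniteField.X_pow_card_sub_X_natDegree_eq F hq1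
    let T : Finset F := (Finset.univ : Finset F₀).map ⟨fun x : F₀ => (x : F), Subtype.val_injective⟩
    have hT : T ⊆ p.roots.toFinset := by
      intro x hx
      obtain ⟨y, -, rfl⟩ := Finset.mem_map.1 hx
      rw [Multiset.mem_toFinset, Polynomial.mem_roots hp0]
      simp [p, Polynomial.IsRoot, hF₀ y]
    have hcardT : T.card = q := by
      simp [T, hcard]
    have hle : p.roots.toFinset.card ≤ T.card := by
      rw [hcardT]
      calc p.roots.toFinset.card ≤ Multiset.card p.roots := Multiset.toFinset_card_le _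
        _ ≤ p.natDegree := Polynomial.card_roots' p
        _ = q := hdeg
    have heq := Finset.eq_of_subset_of_card_le hT hle
    have ha' : a ∈ T := by
      rw [heq, Multiset.mem_toFinset, Polynomial.mem_roots hp0]
      simp [p, Polynomial.IsRoot, ha]
    obtain ⟨y, -, rfl⟩ := Finset.mem_map.1 ha'
    exact y.2
  · intro ha
    exact hF₀ ⟨a, ha⟩

section deg2

variable {F₀ : Subfield F} (P : GL ι F)

/-- a degree two subfield: a generator -/
theorem exists_omega [Finite F] (hcard : Nat.card F = Nat.card F₀ ^ 2) (h1 : 1 < Nat.card F) :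
    ∃ ω : F, ω ∉ F₀ ∧ ∀ x : F, ∃ a b : F₀, x = a + ω * b := by
  classical
  haveI : Finite F₀ := Finite.of_injective _ (Subtype.val_injective)
  have h2 : 1 < Nat.card F₀ := Finite.one_lt_card
  have h3 : Nat.card F₀ < Nat.card F := by
    rw [hcard]
    nlinarith
  obtain ⟨ω, hω⟩ : ∃ ω : F, ω ∉ F₀ := by
    by_contra hcon
    push Not at hcon
    have : Function.Surjective (Subtype.val : F₀ → F) := fun x => ⟨⟨x, hcon x⟩, rfl⟩
    have := Nat.card_le_card_of_surjective _ this
    omega
  refine ⟨ω, hω, ?_⟩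
  let φ : F₀ × F₀ → F := fun ab => ab.1 + ω * ab.2
  have hinj : Function.Injective φ := by
    rintro ⟨a, b⟩ ⟨a', b'⟩ h
    simp only [φ] at h
    by_cases hb : (b : F) = b'
    · have hb' : b = b' := Subtype.ext hb
      subst hb'
      have : (a : F) = a' := add_right_cancel h
      have ha : a = a' := Subtype.ext this
      rw [ha]
    · exfalso
      apply hω
      have h4 : ω = ((a' : F) - a) / ((b : F) - b') := by
        rw [eq_div_iff (sub_ne_zero.2 hb)]
        linear_combination h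
      rw [h4]
      exact div_mem (sub_mem a'.2 a.2) (sub_mem b.2 b'.2)
  have hcard' : Nat.card F ≤ Nat.card (F₀ × F₀) := by
    rw [Nat.card_prod, hcard, sq]
  have hsurj := (Function.Injective.bijective_of_nat_card_le hinj hcard').2
  intro x
  obtain ⟨⟨a, b⟩, hab⟩ := hsurj x
  exact ⟨a, b, hab.symm⟩

theorem exists_decomp {ω : F} (hω : ∀ x : F, ∃ a b : F₀, x = a + ω * b) (v : ι → F) :
    ∃ p r : ι → F₀, v = rat F₀ P p + ω • rat F₀ P r := by
  choose a b hab using fun i => hω ((act P⁻¹ v) i)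
  refine ⟨a, b, ?_⟩
  have h1 : act P⁻¹ v = incl F₀ a + ω • incl F₀ b := by
    ext i
    rw [hab i]
    rfl
  have h2 := congrArg (act P) h1
  rw [act_act_inv, map_add, map_smul] at h2
  exact h2

/-- the twist of vectors through the frame -/
noncomputable def twist (σ : F →+* F) (x : ι → F) : ι → F :=
  act P (fun i => σ ((act P⁻¹ x) i))

theorem twist_add (σ : F →+* F) (x y : ι → F) :
    twist P σ (x + y) = twist P σ x + twist P σ y := by
  simp only [twist]
  rw [← map_add]
  congr 1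
  ext i
  simp

theorem twist_smul (σ : F →+* F) (c : F) (x : ι → F) :
    twist P σ (c • x) = σ c • twist P σ x := by
  simp only [twist]
  rw [← map_smul]
  congr 1
  ext i
  simp

theorem twist_rat (σ : F →+* F) (hfix : ∀ a, σ a = a ↔ a ∈ F₀) (u : ι → F₀) :
    twist P σ (rat F₀ P u) = rat F₀ P u := by
  simp only [twist, rat]
  rw [act_inv_act]
  congr 1
  ext i
  exact (hfix _).2 (u i).2

variable {σ : F →+* F} {f : (ι → F) → (ι → F) → F}

/-- the rational form attached to a structure. -/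
noncomputable def ratB (hf : SForm σ f) (hfix : ∀ a, σ a = a ↔ a ∈ F₀) {ζ : F}
    (hP : ∀ u v : ι → F₀, ζ * f (rat F₀ P u) (rat F₀ P v) ∈ F₀) : LinearMap.BilinForm F₀ (ι → F₀) :=
  LinearMap.mk₂ F₀ (fun u v => ⟨ζ * f (rat F₀ P u) (rat F₀ P v), hP u v⟩)
    (fun x y z => by
      apply Subtype.ext
      simp only [rat_add, hf.add_left, mul_add]
      rfl)
    (fun c x y => by
      apply Subtype.ext
      simp only [rat_smul, hf.smul_left]
      simp only [smul_eq_mul, Subfield.coe_mul]
      ring)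
    (fun x y z => by
      apply Subtype.ext
      simp only [rat_add, hf.add_right, mul_add]
      rfl)
    (fun c x y => by
      apply Subtype.ext
      simp only [rat_smul, hf.smul_right, (hfix _).2 c.2]
      simp only [smul_eq_mul, Subfield.coe_mul]
      ring)

theorem ratB_coe (hf : SForm σ f) (hfix : ∀ a, σ a = a ↔ a ∈ F₀) {ζ : F}
    (hP : ∀ u v : ι → F₀, ζ * f (rat F₀ P u) (rat F₀ P v) ∈ F₀) (u v : ι → F₀) :
    ((ratB P hf hfix hP u v : F₀) : F) = ζ * f (rat F₀ P u) (rat F₀ P v) := rfl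

theorem ratB_nondeg (hf : SForm σ f) (hfix : ∀ a, σ a = a ↔ a ∈ F₀) {ζ : F} (hζ0 : ζ ≠ 0)
    {ω : F} (hω : ∀ x : F, ∃ a b : F₀, x = a + ω * b)
    (hP : ∀ u v : ι → F₀, ζ * f (rat F₀ P u) (rat F₀ P v) ∈ F₀) :
    (ratB P hf hfix hP).Nondegenerate := by
  have hR : ∀ u v, (ratB P hf hfix hP) u v = 0 ↔ f (rat F₀ P u) (rat F₀ P v) = 0 := by
    intro u v
    rw [← Subtype.coe_inj, ratB_coe]
    simp [hζ0]
  constructor
  · intro u hu
    by_contra h0
    have h1 : rat F₀ P u ≠ 0 := fun h => h0 (rat_injective P (h.trans (rat_zero P).symm))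
    obtain ⟨x, hx⟩ := hf.nd _ h1
    obtain ⟨p, r, rfl⟩ := exists_decomp P hω x
    apply hx
    apply hf.eq_zero_flip
    rw [hf.add_right, hf.smul_right, (hR _ _).1 (hu p), (hR _ _).1 (hu r)]
    simp
  · intro u hu
    by_contra h0
    have h1 : rat F₀ P u ≠ 0 := fun h => h0 (rat_injective P (h.trans (rat_zero P).symm))
    obtain ⟨x, hx⟩ := hf.nd _ h1
    obtain ⟨p, r, rfl⟩ := exists_decomp P hω x
    apply hx
    rw [hf.add_left, hf.smul_left, (hR _ _).1 (hu p), (hR _ _).1 (hu r)]
    simp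

theorem act_liftG_decomp (h : (ι → F₀) ≃ₗ[F₀] (ι → F₀)) (ω : F) (p r : ι → F₀) :
    act (liftG P h) (rat F₀ P p + ω • rat F₀ P r) = rat F₀ P (h p) + ω • rat F₀ P (h r) := by
  rw [map_add, map_smul, act_liftG, act_liftG]

theorem liftG_mem_u (hf : SForm σ f) {ω : F} (hω : ∀ x : F, ∃ a b : F₀, x = a + ω * b)
    (h : (ι → F₀) ≃ₗ[F₀] (ι → F₀))
    (hh : ∀ u v, f (rat F₀ P (h u)) (rat F₀ P (h v)) = f (rat F₀ P u) (rat F₀ P v)) :
    liftG P h ∈ uGroup f := by
  intro x y
  obtain ⟨p, r, rfl⟩ := exists_decomp P hω x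
  obtain ⟨p', r', rfl⟩ := exists_decomp P hω y
  rw [act_liftG_decomp, act_liftG_decomp]
  simp only [hf.add_left, hf.add_right, hf.smul_left, hf.smul_right, hh]

theorem liftG_mem_subfield (σ : F →+* F) (hfix : ∀ a, σ a = a ↔ a ∈ F₀)
    (h : (ι → F₀) ≃ₗ[F₀] (ι → F₀)) : liftG P h ∈ Cfsg.Geo.subfieldSubgroup F₀ P :=
  mem_subfield_of P σ hfix fun u => ⟨1, h u, by rw [act_liftG, one_smul]⟩

/-- an isometry of a non-degenerate alternating form has determinant one. -/
theorem det_of_alt_isometry {K : Type*} [Field K] (B : LinearMap.BilinForm K (ι → K))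
    (hB : B.Nondegenerate) (hA : B.IsAlt) (hev : Even (Fintype.card ι))
    (h : (ι → K) ≃ₗ[K] (ι → K)) (hh : ∀ u v, B (h u) (h v) = B u v) :
    LinearMap.det (h : (ι → K) →ₗ[K] (ι → K)) = 1 := by
  obtain ⟨m, hm⟩ := hev
  obtain ⟨θ, hθ⟩ := Cfsg.Agent.Lib.Classical.exists_symp_isometry B hB hA m (by
    rw [Module.finrank_fintype_fun_eq_card, hm]
    ring)
  let h' : (Fin m ⊕ Fin m → K) ≃ₗ[K] (Fin m ⊕ Fin m → K) := θ.symm.trans (h.trans θ)
  have h1 : act.symm h' ∈ Cfsg.spGL m K := by
    rw [mem_spGL_iff]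
    intro u v
    rw [MulEquiv.apply_symm_apply]
    simp only [h', LinearEquiv.trans_apply]
    rw [hθ, hh, ← hθ, LinearEquiv.apply_symm_apply, LinearEquiv.apply_symm_apply]
  have h2 : Cfsg.spGL m K ≤ Cfsg.Geo.specialLinear (Fin m ⊕ Fin m) K :=
    spGL_le_of_stv _ fun v c => tv_mem_SL _
  have h3 := h2 h1
  rw [mem_SL_iff, MulEquiv.apply_symm_apply] at h3
  have h4 : (h' : (Fin m ⊕ Fin m → K) →ₗ[K] (Fin m ⊕ Fin m → K))
      = (θ : (ι → K) →ₗ[K] _) ∘ₗ (h : (ι → K) →ₗ[K] _) ∘ₗ (θ.symm : _ →ₗ[K] (ι → K)) := by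
    apply LinearMap.ext
    intro x
    rfl
  rw [h4, LinearMap.det_conj] at h3
  exact h3

/-- Transitivity on ordered independent isotropic pairs of an alternating form. -/
theorem exists_alt_isometry_pair {K : Type*} [Field K] {W : Type*} [AddCommGroup W] [Module K W]
    [FiniteDimensional K W] (B : LinearMap.BilinForm K W)
    (hB : B.Nondegenerate) (hA : B.IsAlt) {p r p' r' : W} (hp : p ≠ 0) (hp' : p' ≠ 0)
    (hr : ∀ a : K, r ≠ a • p) (hr' : ∀ a : K, r' ≠ a • p') (h0 : B p r = 0) (h0' : B p' r' = 0) :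
    ∃ h : W ≃ₗ[K] W, (∀ u v, B (h u) (h v) = B u v) ∧ h p = p' ∧ h r = r' := by
  obtain ⟨g₁, hg₁, -, hg₁p⟩ := Cfsg.Agent.Lib.Classical.Witt.core_alt B hB hA ⊥ p p'
    (by simpa using hp) (by simpa using hp') (by
      intro a b ha hb s t
      rw [Submodule.mem_bot] at ha hb
      subst ha hb
      simp [hA.self_eq_zero])
  have hx0 : B p' (g₁ r) = 0 := by
    rw [← hg₁p, hg₁, h0]
  have hx1 : B (g₁ r) p' = 0 := by
    rw [← hA.neg_eq, hx0, neg_zero]
  have hy1 : B r' p' = 0 := by
    rw [← hA.neg_eq, h0', neg_zero]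
  obtain ⟨g₂, hg₂, hfixp, hg₂x⟩ := Cfsg.Agent.Lib.Classical.Witt.core_alt B hB hA
    (Submodule.span K {p'}) (g₁ r) r'
    (by
      rw [Submodule.mem_span_singleton]
      rintro ⟨a, ha⟩
      apply hr a
      apply g₁.injective
      rw [map_smul, hg₁p, ha])
    (by
      rw [Submodule.mem_span_singleton]
      rintro ⟨a, ha⟩
      exact hr' a ha.symm)
    (by
      intro a b ha hb s t
      obtain ⟨α, rfl⟩ := Submodule.mem_span_singleton.1 ha
      obtain ⟨β, rfl⟩ := Submodule.mem_span_singleton.1 hb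
      simp only [map_add, map_smul, LinearMap.add_apply, LinearMap.smul_apply, hx0, hx1, hy1, h0',
        hA.self_eq_zero, smul_eq_mul, mul_zero, add_zero])
  refine ⟨g₁.trans g₂, fun u v => ?_, ?_, ?_⟩
  · simp only [LinearEquiv.trans_apply]
    rw [hg₂, hg₁]
  · rw [LinearEquiv.trans_apply, hg₁p]
    exact hfixp _ (Submodule.mem_span_singleton_self p')
  · rw [LinearEquiv.trans_apply, hg₂x]

end deg2

end Cfsg.Agent.Lib.Geo
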