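import Mathlib
import Cfsg.Agent.Lib.Classical.Dick.Conseq
import Cfsg.Agent.Lib.Classical.Dick.Gen
import Cfsg.Agent.Lib.Classical.Dick.Over
import Cfsg.Agent.Lib.Geo.RatStruct

set_option autoImplicit false

/-! Consequences of Dickson's theorem for subgroups of `SL₂(F)` containing a large root group:
with `F₀` a subfield of prime index, a subgroup containing `ll t₀` and the root elements `uu b`,
`b` running through a subset of `F` closed under `F₀`-scalars with two `F₀`-independent elements,
contains all `uu d`. -/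

namespace Cfsg.Agent.Lib.Geo.DS

open Matrix
open scoped MatrixGroups
open Cfsg.Agent.Lib.KS2.SL2
open Cfsg.Agent.Lib.Classical.Dick

variable {F : Type*} [Field F]

local notation "PP" => Matrix.ProjectiveSpecialLinearGroup (Fin 2) F

/-- A subfield between a subfield of prime index and the field is one of the two. -/
theorem subfield_prime_index [Fintype F] {F₀ E : Subfield F} {r : ℕ} (hr : r.Prime)
    (hcard : Fintype.card F = Nat.card F₀ ^ r) (h : F₀ ≤ E) : E = F₀ ∨ E = ⊤ := by
  classical
  haveI : Fintype F₀ := Fintype.ofFinite _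
  haveI : Fintype E := Fintype.ofFinite _
  letI : Algebra F₀ E := (Subfield.inclusion h).toAlgebra
  have h1 : Fintype.card E = Fintype.card F₀ ^ Module.finrank F₀ E :=
    Module.card_eq_pow_finrank (K := F₀) (V := E)
  have h2 : Fintype.card F = Fintype.card E ^ Module.finrank E F :=
    Module.card_eq_pow_finrank (K := E) (V := F)
  have hq : 1 < Fintype.card F₀ := Fintype.one_lt_card
  rw [Nat.card_eq_fintype_card] at hcard
  rw [h1, ← pow_mul] at h2
  have h3 : r = Module.finrank F₀ E * Module.finrank E F :=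
    Nat.pow_right_injective hq (hcard.symm.trans h2)
  have hd : Module.finrank F₀ E ∣ r := ⟨_, h3⟩
  rcases (Nat.dvd_prime hr).1 hd with h4 | h4
  · left
    rw [h4, pow_one] at h1
    have hinj : Function.Injective (Subfield.inclusion h) := (Subfield.inclusion h).injective
    have hbij := (Fintype.bijective_iff_injective_and_card (Subfield.inclusion h)).2 ⟨hinj, h1.symm⟩
    apply le_antisymm _ h
    intro x hx
    obtain ⟨y, hy⟩ := hbij.2 ⟨x, hx⟩
    have : (y : F) = x := congrArg Subtype.val hy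
    rw [← this]
    exact y.2
  · right
    rw [h4] at h1
    have h5 : Fintype.card E = Fintype.card F := by rw [h1, hcard]
    have hbij := (Fintype.bijective_iff_injective_and_card (Subtype.val : E → F)).2
      ⟨Subtype.val_injective, h5⟩
    rw [eq_top_iff]
    intro x _
    obtain ⟨y, hy⟩ := hbij.2 x
    rw [← hy]
    exact y.2

/-- Dickson's theorem in the form used for subfield subgroups. -/
theorem root_closure [Fintype F] {F₀ : Subfield F} {r : ℕ} (hr : r.Prime)
    (hcard : Fintype.card F = Nat.card F₀ ^ r) (L : Subgroup SL(2, F)) {t₀ : F} (ht₀ : t₀ ≠ 0)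
    (hll : ll t₀ ∈ L) (S : Set F) (hSu : ∀ b ∈ S, uu b ∈ L)
    (hSc : ∀ c ∈ F₀, ∀ b ∈ S, c * b ∈ S) {b₁ b₂ : F} (hb₁ : b₁ ∈ S) (hb₂ : b₂ ∈ S) (hb₁0 : b₁ ≠ 0)
    (hind : ∀ c ∈ F₀, b₂ ≠ c * b₁) (d : F) : uu d ∈ L := by
  classical
  obtain ⟨p, hp⟩ := CharP.exists F
  haveI : Fact p.Prime := ⟨CharP.char_is_prime F p⟩
  have hb₂0 : b₂ ≠ 0 := by
    have := hind 0 F₀.zero_mem
    simpa using this
  have hb12 : b₂ ≠ b₁ := by
    have := hind 1 F₀.one_mem
    simpa using this
  have hb12' : b₁ + b₂ ≠ 0 := by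
    intro h
    apply hind (-1) (F₀.neg_mem F₀.one_mem)
    linear_combination h
  set H : Subgroup PP := L.map pi with hH
  have hmemL : ∀ x ∈ L, (pi x : PP) ∈ H := fun x hx => ⟨x, hx, rfl⟩
  have hub : (pi (uu b₁) : PP) ∈ H := hmemL _ (hSu _ hb₁)
  have hnotsc : ∀ (b : F), ¬ IsScalar (uu b * ll t₀) := by
    intro b hb
    have h1 : ((uu b * ll t₀ : SL(2, F)) : Matrix (Fin 2) (Fin 2) F) 1 0 = t₀ := by
      simp [mul10]
    have h2 : ((uu b * ll t₀ : SL(2, F)) : Matrix (Fin 2) (Fin 2) F) 1 0 = 0 := by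
      obtain ⟨h3, h4, h5⟩ := hb
      exact h4
    exact ht₀ (h1.symm.trans h2)
  -- several Sylow subgroups
  have hcard2 : 1 < Nat.card (Sylow p H) := by
    by_contra hcon
    have hone : Nat.card (Sylow p H) = 1 := by
      have : 0 < Nat.card (Sylow p H) := Nat.card_pos
      omega
    obtain ⟨Q, hQ⟩ := Nat.card_eq_one_iff_unique.1 hone |>.2 |> fun h => (⟨h.some, fun Q' => Subsingleton.elim (h := (Nat.card_eq_one_iff_unique.1 hone).1) _ _⟩ : ∃ Q : Sylow p H, ∀ Q' : Sylow p H, Q' = Q)
    have hmemQ : ∀ y : H, y ^ p = 1 → y ∈ (Q : Subgroup H) := by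
      intro y hy
      have h1 : IsPGroup p (Subgroup.zpowers y) := by
        rw [IsPGroup.iff_card, Nat.card_zpowers]
        have := orderOf_dvd_of_pow_eq_one hy
        rcases (Nat.dvd_prime (Fact.out : p.Prime)).1 this with h | h
        · exact ⟨0, by simpa using h⟩
        · exact ⟨1, by simpa using h⟩
      obtain ⟨Q', hQ'⟩ := h1.exists_le_sylow
      rw [hQ Q'] at hQ'
      exact hQ' (Subgroup.mem_zpowers y)
    have hup : ∀ b, (pi (uu b) : PP) ^ p = 1 := by
      intro b
      rw [← map_pow, uu_pow]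
      have : ((p : ℕ) : F) = 0 := CharP.cast_eq_zero F p
      rw [this, zero_mul, uu_zero, map_one]
    have hlp : ∀ b, (pi (ll b) : PP) ^ p = 1 := by
      intro b
      rw [← map_pow, ll_pow]
      have : ((p : ℕ) : F) = 0 := CharP.cast_eq_zero F p
      rw [this, zero_mul, ll_zero, map_one]
    have key : ∀ b ∈ S, (2 + b * t₀) ^ 2 = (4 : F) := by
      intro b hb
      set y₁ : H := ⟨pi (uu b), hmemL _ (hSu _ hb)⟩ with hy₁
      set y₀ : H := ⟨pi (ll t₀), hmemL _ hll⟩ with hy₀
      have h1 : y₁ ∈ (Q : Subgroup H) := hmemQ _ (Subtype.ext (by simpa [hy₁] using hup b))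
      have h0 : y₀ ∈ (Q : Subgroup H) := hmemQ _ (Subtype.ext (by simpa [hy₀] using hlp t₀))
      have h2 : y₁ * y₀ ∈ (Q : Subgroup H) := (Q : Subgroup H).mul_mem h1 h0
      obtain ⟨k, hk⟩ := Q.isPGroup' ⟨y₁ * y₀, h2⟩
      have hk' : (y₁ * y₀) ^ p ^ k = 1 := congrArg Subtype.val hk
      have hne : y₁ * y₀ ≠ 1 := by
        intro h
        have h3 : (pi (uu b * ll t₀) : PP) = 1 := by
          have := congrArg Subtype.val h
          simpa [hy₁, hy₀] using this
        exact hnotsc b ((pi_eq_one_iff _).1 h3)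
      have h3 := tr_sq_of_pow p H (y₁ * y₀) hne k hk'
      have h4 : (((y₁ * y₀ : H) : PP)) = pi (uu b * ll t₀) := by
        simp [hy₁, hy₀]
      rw [h4] at h3
      obtain ⟨ε, hε, h5⟩ := lf_pi (uu b * ll t₀)
      rw [h5, tr_sc_mul, mul_pow, tr_mul_comm, tr_ll_uu] at h3
      have h6 : ε ^ 2 = 1 := by rw [sq, hε]
      rw [h6, one_mul, mul_comm t₀ b] at h3
      exact h3
    have h1 := key b₁ hb₁
    have h2 := key b₂ hb₂
    have hw : ∀ w : F, w ≠ 0 → (2 + w) ^ 2 = 4 → w = -4 := by
      intro w hw h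
      have : w * (w + 4) = 0 := by linear_combination h
      rcases mul_eq_zero.1 this with h | h
      · exact absurd h hw
      · linear_combination h
    have h3 := hw _ (mul_ne_zero hb₁0 ht₀) h1
    have h4 := hw _ (mul_ne_zero hb₂0 ht₀) h2
    exact hb12 (mul_right_cancel₀ ht₀ (h4.trans h3.symm))
  -- many elements in the centraliser
  have hs : 4 ≤ Nat.card ((CP (pi (uu b₁))).subgroupOf H) := by
    let c : Bool × Bool → F := fun x => (if x.1 then b₁ else 0) + (if x.2 then b₂ else 0)
    have hc : ∀ x, uu (c x) ∈ L := by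
      intro x
      simp only [c]
      rw [uu_add]
      refine L.mul_mem ?_ ?_
      · split_ifs
        · exact hSu _ hb₁
        · rw [uu_zero]; exact L.one_mem
      · split_ifs
        · exact hSu _ hb₂
        · rw [uu_zero]; exact L.one_mem
    have hcm : ∀ x, (pi (uu (c x)) : PP) ∈ CP (pi (uu b₁)) := by
      intro x
      rw [mem_CP_pi, ← uu_add, ← uu_add, add_comm]
    let f : Bool × Bool → ((CP (pi (uu b₁))).subgroupOf H) := fun x =>
      ⟨⟨pi (uu (c x)), hmemL _ (hc x)⟩, by
        rw [Subgroup.mem_subgroupOf]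
        exact hcm x⟩
    have hinjc : Function.Injective c := by
      rintro ⟨a1, a2⟩ ⟨d1, d2⟩ h
      cases a1 <;> cases a2 <;> cases d1 <;> cases d2 <;> simp [c] at h ⊢ <;>
        first
          | exact absurd h hb₁0
          | exact absurd h.symm hb₁0
          | exact absurd h hb₂0
          | exact absurd h.symm hb₂0
          | exact absurd h hb12'
          | exact absurd h.symm hb12'
          | exact absurd h.symm hb12
          | exact absurd h hb12
          | skip
    have hinj : Function.Injective f := by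
      intro x y h
      have h1 : (pi (uu (c x)) : PP) = pi (uu (c y)) := congrArg (fun z => ((z : H) : PP)) (congrArg Subtype.val h)
      obtain ⟨ε, hε, h2⟩ := (pi_eq_iff _ _).1 h1
      have h3 : (1 : F) = ε * 1 := by
        have := congrArg (fun g : SL(2, F) => (g : Matrix (Fin 2) (Fin 2) F) 0 0) h2
        simpa [mul00, sc] using this
      have hε1 : ε = 1 := by linear_combination -h3
      subst hε1
      apply hinjc
      have := congrArg (fun g : SL(2, F) => (g : Matrix (Fin 2) (Fin 2) F) 0 1) h2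
      simpa [mul01, sc] using this.symm
    have := Nat.card_le_card_of_injective f hinj
    simpa using this
  have hG := p_case p H hb₁0 hub hcard2 hs
  have hG' := hG
  obtain ⟨E, f, hE, -, -, -, ht2, -⟩ := hG'
  -- the trace condition
  have hw : ∀ b ∈ S, b * t₀ ∈ E := by
    intro b hb
    have hb' : -b ∈ S := by
      have := hSc (-1) (F₀.neg_mem F₀.one_mem) b hb
      simpa using this
    have htr : ∀ b' ∈ S, (2 + b' * t₀) ^ 2 ∈ E := by
      intro b' hb'
      have h1 := ht2 (uu b' * ll t₀) (hmemL _ (L.mul_mem (hSu _ hb') hll))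
      rw [tr_mul_comm, tr_ll_uu, mul_comm t₀ b'] at h1
      exact h1
    have h1 := htr b hb
    have h2 := htr _ hb'
    by_cases h2F : (2 : F) = 0
    · have h3 : (b * t₀) ^ 2 ∈ E := by
        have : (2 + b * t₀) ^ 2 = (b * t₀) ^ 2 := by rw [h2F, zero_add]
        rwa [this] at h1
      have hq1 : 1 < Nat.card E := Finite.one_lt_card
      have h4 := (mem_iff_pow_eq (F₀ := E) rfl hq1 _).2 h3
      have h5 : ((b * t₀) ^ Nat.card E - (b * t₀)) ^ 2 = 0 := by
        have h6 : ((b * t₀) ^ Nat.card E - (b * t₀)) ^ 2 = ((b * t₀) ^ 2) ^ Nat.card E - (b * t₀) ^ 2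
            + (2 : F) * ((b * t₀) ^ 2 - (b * t₀) ^ Nat.card E * (b * t₀)) := by
          rw [← pow_mul, mul_comm 2 (Nat.card E), pow_mul]
          ring
        rw [h6, h4, h2F]
        ring
      have h7 := pow_eq_zero_iff (two_ne_zero) |>.1 h5
      exact (mem_iff_pow_eq (F₀ := E) rfl hq1 _).1 (sub_eq_zero.1 h7)
    · have h3 : (8 : F) * (b * t₀) ∈ E := by
        have : (8 : F) * (b * t₀) = (2 + b * t₀) ^ 2 - (2 + -b * t₀) ^ 2 := by ring
        rw [this]
        exact E.sub_mem h1 h2
      have h8 : (8 : F) ≠ 0 := by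
        have : (8 : F) = 2 ^ 3 := by norm_num
        rw [this]
        exact pow_ne_zero _ h2F
      have h8E : (8 : F) ∈ E := by
        have : (8 : F) = ((8 : ℕ) : F) := by norm_num
        rw [this]
        exact natCast_mem E 8
      have : b * t₀ = (8 : F)⁻¹ * ((8 : F) * (b * t₀)) := by field_simp
      rw [this]
      exact E.mul_mem (E.inv_mem h8E) h3
  have hF₀E : F₀ ≤ E := by
    intro c hc
    have h1 := hw _ (hSc c hc _ hb₁)
    have h2 := hw _ hb₁
    have h3 : c = (c * b₁ * t₀) * (b₁ * t₀)⁻¹ := by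
      field_simp
    rw [h3]
    exact E.mul_mem h1 (E.inv_mem h2)
  rcases subfield_prime_index hr hcard hF₀E with hE0 | hEt
  · exfalso
    subst hE0
    have h1 := hw _ hb₁
    have h2 := hw _ hb₂
    apply hind ((b₂ * t₀) * (b₁ * t₀)⁻¹) (E.mul_mem h2 (E.inv_mem h1))
    field_simp
  · have hHt : H = ⊤ := by
      apply (good_facts hG).2.2
      rw [← hE, hEt]
      simp
    have hroot : ∀ d : F, ∃ x ∈ L, (pi x : PP) = pi (uu d) := by
      intro d
      have : (pi (uu d) : PP) ∈ H := by rw [hHt]; trivial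
      obtain ⟨x, hx, hxd⟩ := this
      exact ⟨x, hx, hxd⟩
    by_cases h2F : (2 : F) = 0
    · obtain ⟨x, hx, hxd⟩ := hroot d
      obtain ⟨ε, hε, h2⟩ := (pi_eq_iff _ _).1 hxd
      have hε1 : ε = 1 := by
        have : (ε - 1) ^ 2 = 0 := by linear_combination hε - (ε - 1) * h2F
        have := pow_eq_zero_iff (two_ne_zero) |>.1 this
        exact sub_eq_zero.1 this
      have h3 : uu d = x := by
        rw [h2]
        subst hε1
        apply ext4 <;> simp [mul00, mul01, mul10, mul11, sc]
      rw [h3]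
      exact hx
    · obtain ⟨x, hx, hxd⟩ := hroot (d / 2)
      obtain ⟨ε, hε, h2⟩ := (pi_eq_iff _ _).1 hxd
      have h3 : uu d = x * x := by
        have h4 : uu d = uu (d / 2) * uu (d / 2) := by
          rw [← uu_add]
          congr 1
          field_simp
          ring
        rw [h4, h2]
        have h5 : sc ε hε * x * (sc ε hε * x) = (sc ε hε * sc ε hε) * (x * x) := by
          rw [mul_assoc, ← mul_assoc x, sc_commute ε hε x |>.symm]
          simp only [mul_assoc]
        rw [h5, sc_sq, one_mul]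
      rw [h3]
      exact L.mul_mem hx hx

end Cfsg.Agent.Lib.Geo.DS
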