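import Mathlib

set_option autoImplicit false

/-! Partitions of a set with an involution into blocks permuted by the involution, and bases on
which a map with scalar square acts monomially. -/

namespace Cfsg.Agent.Lib.Geo

open Finset

section Combinatorics

variable {S : Type*} [DecidableEq S]

theorem exists_inv_subset (π : S → S) (T : Finset S) (hT : ∀ x ∈ T, π x ∈ T ∧ π (π x) = x) :
    ∀ e, 2 * e ≤ T.card → ∃ D ⊆ T, D.card = 2 * e ∧ ∀ x ∈ D, π x ∈ D := by
  intro e
  induction e with
  | zero => exact fun _ => ⟨∅, by simp, by simp, by simp⟩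
  | succ e ih =>
    intro he
    obtain ⟨D, hDT, hDc, hDi⟩ := ih (by omega)
    have hcard : 2 ≤ (T \ D).card := by
      rw [card_sdiff_of_subset hDT]; omega
    by_cases h : ∃ y ∈ T \ D, π y ≠ y
    · obtain ⟨y, hy, hne⟩ := h
      have hy' := mem_sdiff.1 hy
      have hpy : π y ∉ D := fun hc => hy'.2 (by
        have := hDi _ hc
        rwa [(hT y hy'.1).2] at this)
      refine ⟨insert y (insert (π y) D), ?_, ?_, ?_⟩
      · intro w hw
        simp only [mem_insert] at hw
        rcases hw with rfl | rfl | hw
        · exact hy'.1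
        · exact (hT _ hy'.1).1
        · exact hDT hw
      · rw [card_insert_of_notMem, card_insert_of_notMem hpy, hDc]
        · ring
        · simp only [mem_insert, not_or]
          exact ⟨fun hc => hne hc.symm, hy'.2⟩
      · intro w hw
        simp only [mem_insert] at hw ⊢
        rcases hw with rfl | rfl | hw
        · simp
        · left; exact (hT _ hy'.1).2
        · right; right; exact hDi _ hw
    · push Not at h
      obtain ⟨x, hx, y, hy, hxy⟩ := one_lt_card.1 (by omega : 1 < (T \ D).card)
      have hx' := mem_sdiff.1 hx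
      have hy' := mem_sdiff.1 hy
      refine ⟨insert x (insert y D), ?_, ?_, ?_⟩
      · intro w hw
        simp only [mem_insert] at hw
        rcases hw with rfl | rfl | hw
        · exact hx'.1
        · exact hy'.1
        · exact hDT hw
      · rw [card_insert_of_notMem, card_insert_of_notMem hy'.2, hDc]
        · ring
        · simp only [mem_insert, not_or]
          exact ⟨hxy, hx'.2⟩
      · intro w hw
        simp only [mem_insert] at hw ⊢
        rcases hw with rfl | rfl | hw
        · left; exact h _ hx
        · right; left; exact h _ hy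
        · right; right; exact hDi _ hw

theorem exists_free_subset (π : S → S) (T : Finset S) (hT : ∀ x ∈ T, π x ∈ T ∧ π (π x) = x)
    (hfree : ∀ x ∈ T, π x ≠ x) :
    ∀ e, 2 * e ≤ T.card → ∃ D ⊆ T, D.card = e ∧ Disjoint D (D.image π) := by
  intro e
  induction e with
  | zero => exact fun _ => ⟨∅, by simp, by simp, by simp⟩
  | succ e ih =>
    intro he
    obtain ⟨D, hDT, hDc, hDd⟩ := ih (by omega)
    have hinj : Set.InjOn π (T : Set S) := by
      intro a ha b hb hab
      have := congrArg π hab
      rwa [(hT a ha).2, (hT b hb).2] at this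
    have hci : (D.image π).card = e := by
      rw [card_image_of_injOn (hinj.mono (by exact_mod_cast hDT)), hDc]
    have hsub : D ∪ D.image π ⊆ T := by
      intro w hw
      rcases mem_union.1 hw with hw | hw
      · exact hDT hw
      · obtain ⟨u, hu, rfl⟩ := mem_image.1 hw
        exact (hT _ (hDT hu)).1
    have hcard : 0 < (T \ (D ∪ D.image π)).card := by
      rw [card_sdiff_of_subset hsub, card_union_of_disjoint hDd, hDc, hci]; omega
    obtain ⟨y, hy⟩ := card_pos.1 hcard
    have hy' := mem_sdiff.1 hy
    have hyT := hy'.1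
    have hyn := hy'.2
    simp only [mem_union, not_or] at hyn
    refine ⟨insert y D, ?_, ?_, ?_⟩
    · intro w hw
      rcases mem_insert.1 hw with rfl | hw
      · exact hyT
      · exact hDT hw
    · rw [card_insert_of_notMem hyn.1, hDc]
    · rw [image_insert, disjoint_insert_left, disjoint_insert_right]
      refine ⟨?_, ?_, hDd⟩
      · simp only [mem_insert, not_or]
        exact ⟨fun hc => hfree y hyT hc.symm, hyn.2⟩
      · intro hc
        apply hyn.2
        rw [mem_image]
        exact ⟨π y, hc, (hT y hyT).2⟩

theorem even_card_of_free (π : S → S) (T : Finset S) (hT : ∀ x ∈ T, π x ∈ T ∧ π (π x) = x)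
    (hfree : ∀ x ∈ T, π x ≠ x) : Even T.card := by
  have h : (∑ _x ∈ T, (1 : ZMod 2)) = 0 := by
    apply Finset.sum_involution (fun x _ => π x)
    · intro a _
      decide
    · intro a ha _
      exact hfree a ha
    · intro a ha
      exact (hT a ha).1
    · intro a ha
      exact (hT a ha).2
  simp only [sum_const, nsmul_eq_mul, mul_one] at h
  exact (ZMod.natCast_eq_zero_iff_even).1 h

/-- Blocks: an involution-stable family of disjoint sets of size `a` partitioning `T`. -/
theorem exists_blocks (π : S → S) (a : ℕ) (ha : 1 ≤ a) : ∀ (t : ℕ) (T : Finset S),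
    (∀ x ∈ T, π x ∈ T ∧ π (π x) = x) → T.card = a * t →
    ∃ 𝓑 : Finset (Finset S), (∀ B ∈ 𝓑, B ⊆ T ∧ B.card = a) ∧
      ((𝓑 : Set (Finset S)).PairwiseDisjoint id) ∧ (∀ x ∈ T, ∃ B ∈ 𝓑, x ∈ B) ∧
      ∀ B ∈ 𝓑, B.image π ∈ 𝓑 := by
  intro t
  induction t using Nat.strong_induction_on with
  | _ t ih =>
    intro T hT hc
    rcases Nat.eq_zero_or_pos t with rfl | ht
    · refine ⟨∅, by simp, by simp, ?_, by simp⟩
      have : T = ∅ := by simpa using hc
      subst this
      simp
    -- an invariant block, if we can find one, reduces `t` by one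
    have step1 : (∃ D ⊆ T, D.card = a ∧ ∀ x ∈ D, π x ∈ D) → ∃ 𝓑 : Finset (Finset S),
        (∀ B ∈ 𝓑, B ⊆ T ∧ B.card = a) ∧ ((𝓑 : Set (Finset S)).PairwiseDisjoint id) ∧
        (∀ x ∈ T, ∃ B ∈ 𝓑, x ∈ B) ∧ ∀ B ∈ 𝓑, B.image π ∈ 𝓑 := by
      rintro ⟨D, hDT, hDc, hDi⟩
      have hT' : ∀ x ∈ T \ D, π x ∈ T \ D ∧ π (π x) = x := by
        intro x hx
        have hx' := mem_sdiff.1 hx
        refine ⟨mem_sdiff.2 ⟨(hT x hx'.1).1, fun hc' => hx'.2 ?_⟩, (hT x hx'.1).2⟩
        have := hDi _ hc'
        rwa [(hT x hx'.1).2] at this
      have hc' : (T \ D).card = a * (t - 1) := by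
        rw [card_sdiff_of_subset hDT, hc, hDc, Nat.mul_sub, mul_one]
      obtain ⟨𝓑, h1, h2, h3, h4⟩ := ih (t - 1) (by omega) (T \ D) hT' hc'
      have hDim : D.image π = D := by
        apply eq_of_subset_of_card_le
        · intro w hw
          obtain ⟨u, hu, rfl⟩ := mem_image.1 hw
          exact hDi _ hu
        · rw [card_image_of_injOn]
          intro u hu v hv huv
          have := congrArg π huv
          rwa [(hT u (hDT hu)).2, (hT v (hDT hv)).2] at this
      refine ⟨insert D 𝓑, ?_, ?_, ?_, ?_⟩
      · intro B hB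
        rcases mem_insert.1 hB with rfl | hB
        · exact ⟨hDT, hDc⟩
        · exact ⟨(h1 B hB).1.trans sdiff_subset, (h1 B hB).2⟩
      · rw [coe_insert, Set.pairwiseDisjoint_insert]
        refine ⟨h2, fun B hB _ => ?_⟩
        have := (h1 B hB).1
        exact (disjoint_of_subset_left this sdiff_disjoint).symm
      · intro x hx
        by_cases hxD : x ∈ D
        · exact ⟨D, mem_insert_self _ _, hxD⟩
        · obtain ⟨B, hB, hxB⟩ := h3 x (mem_sdiff.2 ⟨hx, hxD⟩)
          exact ⟨B, mem_insert_of_mem hB, hxB⟩
      · intro B hB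
        rcases mem_insert.1 hB with rfl | hB
        · rw [hDim]; exact mem_insert_self _ _
        · exact mem_insert_of_mem (h4 B hB)
    rcases Nat.even_or_odd' a with ⟨e, he | he⟩
    · -- `a` even
      apply step1
      obtain ⟨D, h1, h2, h3⟩ := exists_inv_subset π T hT e (by
        rw [hc, ← he]; exact Nat.le_mul_of_pos_right a ht)
      exact ⟨D, h1, h2.trans he.symm, h3⟩
    · by_cases hfix : ∃ x₀ ∈ T, π x₀ = x₀
      · obtain ⟨x₀, hx₀, hfx⟩ := hfix
        apply step1
        have hT₀ : ∀ x ∈ T.erase x₀, π x ∈ T.erase x₀ ∧ π (π x) = x := by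
          intro x hx
          have hx' := mem_erase.1 hx
          refine ⟨mem_erase.2 ⟨fun hc' => hx'.1 ?_, (hT x hx'.2).1⟩, (hT x hx'.2).2⟩
          have := congrArg π hc'
          rwa [(hT x hx'.2).2, hfx] at this
        have hcard₀ : 2 * e ≤ (T.erase x₀).card := by
          rw [card_erase_of_mem hx₀, hc]
          have : a ≤ a * t := Nat.le_mul_of_pos_right a ht
          omega
        obtain ⟨D, h1, h2, h3⟩ := exists_inv_subset π _ hT₀ e hcard₀
        refine ⟨insert x₀ D, ?_, ?_, ?_⟩
        · intro w hw
          rcases mem_insert.1 hw with rfl | hw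
          · exact hx₀
          · exact mem_of_mem_erase (h1 hw)
        · rw [card_insert_of_notMem, h2, he]
          intro hc'
          exact (mem_erase.1 (h1 hc')).1 rfl
        · intro w hw
          rcases mem_insert.1 hw with rfl | hw
          · rw [hfx]; exact mem_insert_self _ _
          · exact mem_insert_of_mem (h3 _ hw)
      · push Not at hfix
        have hpar := even_card_of_free π T hT hfix
        have ht2 : 2 ≤ t := by
          by_contra hlt
          have : t = 1 := by omega
          subst this
          rw [hc, mul_one, he] at hpar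
          exact (Nat.not_even_iff_odd.2 ⟨e, rfl⟩) hpar
        obtain ⟨D, hDT, hDc, hDd⟩ := exists_free_subset π T hT hfix a (by
          rw [hc, mul_comm 2]; exact Nat.mul_le_mul_left a ht2)
        have hinj : Set.InjOn π (T : Set S) := by
          intro u hu v hv huv
          have := congrArg π huv
          rwa [(hT u hu).2, (hT v hv).2] at this
        have hci : (D.image π).card = a := by
          rw [card_image_of_injOn (hinj.mono (by exact_mod_cast hDT)), hDc]
        have hsub : D ∪ D.image π ⊆ T := by
          intro w hw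
          rcases mem_union.1 hw with hw | hw
          · exact hDT hw
          · obtain ⟨u, hu, rfl⟩ := mem_image.1 hw
            exact (hT _ (hDT hu)).1
        have hT' : ∀ x ∈ T \ (D ∪ D.image π), π x ∈ T \ (D ∪ D.image π) ∧ π (π x) = x := by
          intro x hx
          have hx' := mem_sdiff.1 hx
          refine ⟨mem_sdiff.2 ⟨(hT x hx'.1).1, fun hc' => hx'.2 ?_⟩, (hT x hx'.1).2⟩
          rcases mem_union.1 hc' with hc' | hc'
          · exact mem_union_right _ (mem_image.2 ⟨_, hc', (hT x hx'.1).2⟩)
          · obtain ⟨u, hu, hue⟩ := mem_image.1 hc'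
            have h2 : u = x := by
              apply hinj (by exact_mod_cast hDT hu) (by exact_mod_cast hx'.1) hue
            rw [← h2]
            exact mem_union_left _ hu
        have hc' : (T \ (D ∪ D.image π)).card = a * (t - 2) := by
          rw [card_sdiff_of_subset hsub, card_union_of_disjoint hDd, hDc, hci, hc, Nat.mul_sub]
          ring_nf
        obtain ⟨𝓑, h1, h2, h3, h4⟩ := ih (t - 2) (by omega) _ hT' hc'
        have hDim : (D.image π).image π = D := by
          ext w
          simp only [mem_image]
          constructor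
          · rintro ⟨_, ⟨u, hu, rfl⟩, rfl⟩
            rwa [(hT u (hDT hu)).2]
          · intro hw
            exact ⟨π w, ⟨w, hw, rfl⟩, (hT w (hDT hw)).2⟩
        refine ⟨insert D (insert (D.image π) 𝓑), ?_, ?_, ?_, ?_⟩
        · intro B hB
          rcases mem_insert.1 hB with rfl | hB
          · exact ⟨hDT, hDc⟩
          rcases mem_insert.1 hB with rfl | hB
          · exact ⟨subset_union_right.trans hsub, hci⟩
          · exact ⟨(h1 B hB).1.trans sdiff_subset, (h1 B hB).2⟩
        · rw [coe_insert, coe_insert, Set.pairwiseDisjoint_insert, Set.pairwiseDisjoint_insert]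
          refine ⟨⟨h2, fun B hB _ => ?_⟩, fun B hB _ => ?_⟩
          · have := (h1 B hB).1
            exact (disjoint_of_subset_left this
              (Finset.disjoint_of_subset_right (subset_union_right (s₁ := D)) sdiff_disjoint)).symm
          · rcases hB with rfl | hB
            · exact hDd
            · have := (h1 B hB).1
              exact (disjoint_of_subset_left this
                (Finset.disjoint_of_subset_right (subset_union_left (s₂ := D.image π)) sdiff_disjoint)).symm
        · intro x hx
          by_cases hxD : x ∈ D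
          · exact ⟨D, mem_insert_self _ _, hxD⟩
          by_cases hxD' : x ∈ D.image π
          · exact ⟨_, mem_insert_of_mem (mem_insert_self _ _), hxD'⟩
          · obtain ⟨B, hB, hxB⟩ := h3 x (mem_sdiff.2 ⟨hx, by simp only [mem_union, not_or]; exact ⟨hxD, hxD'⟩⟩)
            exact ⟨B, mem_insert_of_mem (mem_insert_of_mem hB), hxB⟩
        · intro B hB
          rcases mem_insert.1 hB with rfl | hB
          · exact mem_insert_of_mem (mem_insert_self _ _)
          rcases mem_insert.1 hB with rfl | hB
          · rw [hDim]; exact mem_insert_self _ _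
          · exact mem_insert_of_mem (mem_insert_of_mem (h4 B hB))

/-- Blocks indexed by `Fin t`. -/
theorem exists_blocks_fin (π : S → S) (a t : ℕ) (ha : 1 ≤ a) (T : Finset S)
    (hT : ∀ x ∈ T, π x ∈ T ∧ π (π x) = x) (hc : T.card = a * t) :
    ∃ B : Fin t → Finset S, (∀ j, B j ⊆ T ∧ (B j).card = a) ∧
      (∀ i j, i ≠ j → Disjoint (B i) (B j)) ∧ (∀ x ∈ T, ∃ j, x ∈ B j) ∧
      ∃ σ : Equiv.Perm (Fin t), ∀ j, (B j).image π = B (σ j) := by
  classical
  obtain ⟨𝓑, h1, h2, h3, h4⟩ := exists_blocks π a ha t T hT hc
  have hcard : 𝓑.card = t := by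
    have h5 : T = 𝓑.biUnion id := by
      ext x
      simp only [mem_biUnion, id]
      constructor
      · intro hx
        exact h3 x hx
      · rintro ⟨B, hB, hxB⟩
        exact (h1 B hB).1 hxB
    have h6 : T.card = ∑ B ∈ 𝓑, (id B).card := by
      rw [h5]
      exact card_biUnion (fun B hB C hC hne => h2 hB hC hne)
    have h7 : ∑ B ∈ 𝓑, (id B).card = 𝓑.card * a :=
      sum_const_nat (fun B hB => (h1 B hB).2)
    have h8 : a * 𝓑.card = a * t := by
      rw [← hc, h6, h7, mul_comm]
    exact Nat.eq_of_mul_eq_mul_left ha h8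
  let e : Fin t ≃ 𝓑 := (𝓑.equivFinOfCardEq hcard).symm
  have hinv : ∀ B ∈ 𝓑, (B.image π).image π = B := by
    intro B hB
    ext w
    simp only [mem_image]
    constructor
    · rintro ⟨_, ⟨u, hu, rfl⟩, rfl⟩
      rwa [(hT u ((h1 B hB).1 hu)).2]
    · intro hw
      exact ⟨π w, ⟨w, hw, rfl⟩, (hT w ((h1 B hB).1 hw)).2⟩
  let τ : 𝓑 → 𝓑 := fun B => ⟨B.1.image π, h4 B.1 B.2⟩
  have hτ : Function.Involutive τ := by
    intro B
    apply Subtype.ext
    exact hinv B.1 B.2
  refine ⟨fun j => (e j).1, fun j => h1 _ (e j).2, ?_, ?_, ?_⟩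
  · intro i j hij
    apply h2 (e i).2 (e j).2
    intro hc'
    exact hij (e.injective (Subtype.ext hc'))
  · intro x hx
    obtain ⟨B, hB, hxB⟩ := h3 x hx
    refine ⟨e.symm ⟨B, hB⟩, ?_⟩
    simpa using hxB
  · refine ⟨e.trans (hτ.toPerm.trans e.symm), fun j => ?_⟩
    simp only [Equiv.trans_apply, Equiv.apply_symm_apply]
    rfl

end Combinatorics

section Monomial

variable {F V : Type*} [Field F] [AddCommGroup V] [Module F V] [FiniteDimensional F V]

open Module Submodule

/-- A map whose square is a non-zero scalar acts monomially on a basis. -/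
theorem exists_monomial_aux [DecidableEq V] (x : V →ₗ[F] V) (z : F) (hz : z ≠ 0) (hx : ∀ v, x (x v) = z • v) :
    ∀ (n : ℕ) (W : Submodule F V), finrank F W = n → (∀ v ∈ W, x v ∈ W) →
    ∃ M : Finset V, (M : Set V) ⊆ W ∧ LinearIndepOn F id (M : Set V) ∧ span F (M : Set V) = W ∧
      ∀ s ∈ M, ∃ s' ∈ M, ∃ c : F, c ≠ 0 ∧ x s = c • s' := by
  intro n
  induction n using Nat.strong_induction_on with
  | _ n ih =>
    intro W hW hinv
    by_cases hsc : ∃ v ∈ W, ¬ ∃ c : F, x v = c • v ∧ True
    · -- a vector with `v, x v` independent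
      obtain ⟨v, hv, hvn⟩ := hsc
      have hvne : v ≠ 0 := by
        rintro rfl
        exact hvn ⟨0, by simp⟩
      have hind : x v ∉ span F {v} := by
        intro hc
        obtain ⟨c, hc⟩ := mem_span_singleton.1 hc
        exact hvn ⟨c, hc.symm, trivial⟩
      obtain ⟨φ₀, hφ₀, hφ₁⟩ := Submodule.exists_le_ker_of_notMem hind
      obtain ⟨φ₀', hφ₀'⟩ : ∃ φ : V →ₗ[F] F, φ = (φ₀ (x v))⁻¹ • φ₀ := ⟨_, rfl⟩
      have hφv : φ₀' v = 0 := by
        have : φ₀ v = 0 := hφ₁ (mem_span_singleton_self v)
        rw [hφ₀']; simp [this]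
      have hφxv : φ₀' (x v) = 1 := by
        rw [hφ₀']; simp [hφ₀]
      let W' : Submodule F V :=
        { carrier := {u | u ∈ W ∧ φ₀' u = 0 ∧ φ₀' (x u) = 0}
          add_mem' := fun {a b} ha hb => ⟨W.add_mem ha.1 hb.1, by simp [ha.2.1, hb.2.1], by simp [ha.2.2, hb.2.2]⟩
          zero_mem' := ⟨W.zero_mem, by simp, by simp⟩
          smul_mem' := fun c a ha => ⟨W.smul_mem c ha.1, by simp [ha.2.1], by simp [ha.2.2]⟩ }
      have hW'le : W' ≤ W := fun u hu => hu.1
      have hlt : W' < W := by
        refine lt_of_le_of_ne hW'le ?_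
        intro he
        have : v ∈ W' := he ▸ hv
        have h1 := this.2.2
        rw [hφxv] at h1
        exact one_ne_zero h1
      have hfin : finrank F W' < n := by
        rw [← hW]; exact Submodule.finrank_lt_finrank_of_lt hlt
      have hinv' : ∀ u ∈ W', x u ∈ W' := by
        intro u hu
        refine ⟨hinv u hu.1, hu.2.2, ?_⟩
        rw [hx, map_smul, hu.2.1, smul_zero]
      obtain ⟨M', h1, h2, h3, h4⟩ := ih _ hfin W' rfl hinv'
      have hvM : v ∉ M' := fun hc => by
        have := (h1 hc).2.2
        rw [hφxv] at this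
        exact one_ne_zero this
      have hxvM : x v ∉ M' := fun hc => by
        have := (h1 hc).2.1
        rw [hφxv] at this
        exact one_ne_zero this
      have hne : v ≠ x v := by
        intro hc
        apply hvn
        exact ⟨1, by rw [one_smul]; exact hc.symm, trivial⟩
      have hpair : LinearIndepOn F id ({v, x v} : Set V) := by
        rw [LinearIndepOn.pair_iff id hne]
        intro a b hab
        simp only [id] at hab
        have h5 := congrArg φ₀' hab
        simp only [map_add, map_smul, hφv, hφxv, smul_eq_mul, mul_zero, zero_add, mul_one, map_zero] at h5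
        subst h5
        simp only [zero_smul, add_zero] at hab
        refine ⟨?_, rfl⟩
        exact (smul_eq_zero.1 hab).resolve_right hvne
      refine ⟨insert v (insert (x v) M'), ?_, ?_, ?_, ?_⟩
      · intro w hw
        simp only [coe_insert, Set.mem_insert_iff, mem_coe] at hw
        rcases hw with rfl | rfl | hw
        · exact hv
        · exact hinv _ hv
        · exact hW'le (h1 hw)
      · have hset : ((insert v (insert (x v) M') : Finset V) : Set V) = {v, x v} ∪ (M' : Set V) := by
          ext w; simp [or_assoc]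
        rw [hset]
        apply LinearIndepOn.union hpair h2
        simp only [Set.image_id]
        rw [h3, Submodule.disjoint_def]
        intro u hu hu'
        obtain ⟨a, b, rfl⟩ := mem_span_pair.1 hu
        have e1 := hu'.2.1
        have e2 := hu'.2.2
        simp only [map_add, map_smul, hφv, hφxv, hx, smul_eq_mul, mul_zero, zero_add, mul_one, add_zero] at e1 e2
        subst e1 e2
        simp
      · apply le_antisymm
        · rw [span_le]
          intro w hw
          simp only [coe_insert, Set.mem_insert_iff, mem_coe] at hw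
          rcases hw with rfl | rfl | hw
          · exact hv
          · exact hinv _ hv
          · exact hW'le (h1 hw)
        · intro u hu
          have hset : ((insert v (insert (x v) M') : Finset V) : Set V) = {v, x v} ∪ (M' : Set V) := by
            ext w; simp [or_assoc]
          rw [hset, span_union]
          have hu' : u - (φ₀' (x u) • v + φ₀' u • x v) ∈ W' := by
            refine ⟨W.sub_mem hu (W.add_mem (W.smul_mem _ hv) (W.smul_mem _ (hinv _ hv))), ?_, ?_⟩
            · simp [hφv, hφxv]
            · simp [hφv, hφxv, hx]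
          have : u = (φ₀' (x u) • v + φ₀' u • x v) + (u - (φ₀' (x u) • v + φ₀' u • x v)) := by
            abel
          rw [this]
          refine add_mem_sup (mem_span_pair.2 ⟨_, _, rfl⟩) ?_
          rw [h3]
          exact hu'
      · intro s hs
        simp only [mem_insert] at hs
        rcases hs with rfl | rfl | hs
        · exact ⟨x s, by simp, 1, one_ne_zero, by simp⟩
        · refine ⟨v, by simp, z, hz, hx v⟩
        · obtain ⟨s', hs', c, hc, he⟩ := h4 s hs
          exact ⟨s', by simp [hs'], c, hc, he⟩
    · -- every vector is an eigenvector: `x` is scalar on `W`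
      push Not at hsc
      rcases eq_or_ne W ⊥ with rfl | hne
      · exact ⟨∅, by simp, by simp, by simp, by simp⟩
      obtain ⟨v₀, hv₀, hv₀ne⟩ := Submodule.exists_mem_ne_zero_of_ne_bot hne
      obtain ⟨lam, hlam, -⟩ := hsc v₀ hv₀
      have hscal : ∀ u ∈ W, x u = lam • u := by
        intro u hu
        obtain ⟨μ, hμ, -⟩ := hsc u hu
        by_cases hdep : ∃ c : F, u = c • v₀
        · obtain ⟨c, rfl⟩ := hdep
          rw [map_smul, hlam, smul_comm]
        · obtain ⟨κ, hκ, -⟩ := hsc (u + v₀) (W.add_mem hu hv₀)
          rw [map_add, hμ, hlam] at hκ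
          have h5 : (μ - κ) • u = (κ - lam) • v₀ := by
            rw [sub_smul, sub_smul]
            have : κ • (u + v₀) = κ • u + κ • v₀ := smul_add _ _ _
            rw [this] at hκ
            have h6 : μ • u - κ • u = κ • v₀ - lam • v₀ := by
              rw [sub_eq_sub_iff_add_eq_add, hκ, add_comm]
            exact h6
          have hμκ : μ = κ := by
            by_contra hc
            apply hdep
            refine ⟨(μ - κ)⁻¹ * (κ - lam), ?_⟩
            rw [mul_smul, ← h5, smul_smul, inv_mul_cancel₀ (sub_ne_zero.2 hc), one_smul]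
          have hκl : κ = lam := by
            by_contra hc
            have h7 : (κ - lam) • v₀ = 0 := by rw [← h5, hμκ, sub_self, zero_smul]
            exact (smul_eq_zero.1 h7).elim (fun h => hc (sub_eq_zero.1 h)) hv₀ne
          rw [hμ, hμκ, hκl]
      have hlam0 : lam ≠ 0 := by
        rintro rfl
        have h5 : x (x v₀) = z • v₀ := hx v₀
        rw [hlam, zero_smul, map_zero] at h5
        exact (smul_ne_zero hz hv₀ne) h5.symm
      let b := Module.finBasis F W
      have hinjb : Function.Injective (fun i => ((b i : W) : V)) :=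
        Subtype.val_injective.comp b.injective
      refine ⟨Finset.univ.image (fun i => ((b i : W) : V)), ?_, ?_, ?_, ?_⟩
      · intro w hw
        simp only [coe_image, coe_univ, Set.image_univ, Set.mem_range] at hw
        obtain ⟨i, rfl⟩ := hw
        exact (b i).2
      · have hli : LinearIndependent F (fun i => ((b i : W) : V)) :=
          b.linearIndependent.map' W.subtype (Submodule.ker_subtype W)
        have : ((Finset.univ.image (fun i => ((b i : W) : V)) : Finset V) : Set V) = Set.range (fun i => ((b i : W) : V)) := by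
          simp
        rw [this]
        exact hli.linearIndepOn_id
      · apply le_antisymm
        · rw [span_le]
          intro w hw
          simp only [coe_image, coe_univ, Set.image_univ, Set.mem_range] at hw
          obtain ⟨i, rfl⟩ := hw
          exact (b i).2
        · intro u hu
          have h5 : (⟨u, hu⟩ : W) ∈ span F (Set.range b) := by
            rw [b.span_eq]; trivial
          have h6 := Submodule.mem_map_of_mem (f := W.subtype) h5
          rw [Submodule.map_span] at h6
          have : ((Finset.univ.image (fun i => ((b i : W) : V)) : Finset V) : Set V) = W.subtype '' Set.range b := by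
            ext w
            simp
          rw [this]
          exact h6
      · intro s hs
        have hsW : s ∈ W := by
          obtain ⟨i, -, rfl⟩ := mem_image.1 hs
          exact (b i).2
        exact ⟨s, hs, lam, hlam0, hscal s hsW⟩

/-- The monomial basis with the induced involution. -/
theorem exists_monomial [DecidableEq V] (x : V →ₗ[F] V) (z : F) (hz : z ≠ 0) (hx : ∀ v, x (x v) = z • v) :
    ∃ (M : Finset V) (π : V → V), LinearIndepOn F id (M : Set V) ∧ span F (M : Set V) = ⊤ ∧
      (∀ s ∈ M, π s ∈ M ∧ π (π s) = s) ∧ ∀ s ∈ M, ∃ c : F, c ≠ 0 ∧ x s = c • π s := by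
  classical
  obtain ⟨M, -, h2, h3, h4⟩ := exists_monomial_aux x z hz hx _ ⊤ rfl (by simp)
  choose! π hπ c hc hxc using h4
  refine ⟨M, π, h2, h3, fun s hs => ⟨hπ s hs, ?_⟩, fun s hs => ⟨c s, hc s hs, hxc s hs⟩⟩
  by_contra hne
  have h5 : z • s = (c s * c (π s)) • π (π s) := by
    rw [← hx s, hxc s hs, map_smul, hxc _ (hπ s hs), smul_smul]
  have hss : π (π s) ∈ M := hπ _ (hπ s hs)
  have hind : LinearIndepOn F id ({π (π s), s} : Set V) :=
    h2.mono (by
      intro w hw
      rcases hw with rfl | rfl
      · exact hss
      · exact hs)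
  rw [LinearIndepOn.pair_iff id hne] at hind
  have h6 := hind ((c s * c (π s))) (-z) (by
    simp only [id]
    rw [← h5, neg_smul]; abel)
  exact hz (neg_eq_zero.1 h6.2)

/-- Spans of disjoint subsets of an independent set are independent. -/
theorem block_indep {t : ℕ} [DecidableEq V] (M : Finset V) (h1 : LinearIndepOn F id (M : Set V))
    (B : Fin t → Finset V) (hB : ∀ j, B j ⊆ M) (hd : ∀ i j, i ≠ j → Disjoint (B i) (B j)) :
    iSupIndep (fun j => span F (B j : Set V)) := by
  classical
  rw [iSupIndep_def]
  intro j
  have h2 : (⨆ k, ⨆ (_ : k ≠ j), span F (B k : Set V)) =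
      span F (((Finset.univ.filter (· ≠ j)).biUnion B : Finset V) : Set V) := by
    apply le_antisymm
    · refine iSup_le fun k => iSup_le fun hk => span_mono ?_
      intro w hw
      simp only [coe_biUnion, Set.mem_iUnion, mem_coe, mem_filter, mem_univ, true_and]
      exact ⟨k, hk, hw⟩
    · rw [span_le]
      intro w hw
      simp only [coe_biUnion, Set.mem_iUnion, mem_coe, mem_filter, mem_univ, true_and] at hw
      obtain ⟨k, hk, hw⟩ := hw
      exact Submodule.mem_iSup_of_mem k (Submodule.mem_iSup_of_mem hk (subset_span hw))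
  rw [h2]
  have hdj : Disjoint (B j : Set V) (((Finset.univ.filter (· ≠ j)).biUnion B : Finset V) : Set V) := by
    rw [Finset.disjoint_coe, Finset.disjoint_biUnion_right]
    intro k hk
    exact hd j k (Ne.symm (mem_filter.1 hk).2)
  have hsub : (B j : Set V) ∪ (((Finset.univ.filter (· ≠ j)).biUnion B : Finset V) : Set V) ⊆ M := by
    rintro w (hw | hw)
    · exact hB j hw
    · simp only [coe_biUnion, Set.mem_iUnion, mem_coe, mem_filter, mem_univ, true_and] at hw
      obtain ⟨k, -, hw⟩ := hw
      exact hB k hw
  exact ((linearIndepOn_id_union_iff hdj).1 (h1.mono hsub)).2.2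

/-- The image of the span of a block. -/
theorem map_block [DecidableEq V] (x : V →ₗ[F] V) (M : Finset V) (π : V → V) (B : Finset V) (hB : B ⊆ M)
    (h4 : ∀ s ∈ M, ∃ c : F, c ≠ 0 ∧ x s = c • π s) :
    (span F (B : Set V)).map x = span F ((B.image π : Finset V) : Set V) := by
  rw [Submodule.map_span]
  apply le_antisymm
  · rw [span_le]
    rintro _ ⟨s, hs, rfl⟩
    obtain ⟨c, -, he⟩ := h4 s (hB hs)
    rw [he]
    exact Submodule.smul_mem _ _ (subset_span (by simpa using ⟨s, hs, rfl⟩))
  · rw [span_le]
    intro w hw
    simp only [coe_image, Set.mem_image, mem_coe] at hw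
    obtain ⟨s, hs, rfl⟩ := hw
    obtain ⟨c, hc, he⟩ := h4 s (hB hs)
    have : π s = c⁻¹ • x s := by rw [he, smul_smul, inv_mul_cancel₀ hc, one_smul]
    rw [this]
    exact Submodule.smul_mem _ _ (subset_span ⟨s, hs, rfl⟩)

end Monomial

end Cfsg.Agent.Lib.Geo
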