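import Mathlib

set_option autoImplicit false

/-! A linear map annihilated by an irreducible polynomial makes the space a vector space over the
root field: dimensions of invariant subspaces, existence of invariant subspaces, determinant. -/

namespace Cfsg.Agent.Lib.Geo

open Polynomial Module

universe u

variable {F : Type*} [Field F] {V : Type u} [AddCommGroup V] [Module F V]

/-- Invariance under polynomials in `y`. -/
theorem aeval_mem_of_inv (y : V →ₗ[F] V) (W : Submodule F V) (hW : ∀ v ∈ W, y v ∈ W) (h : F[X]) :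
    ∀ v ∈ W, aeval y h v ∈ W := by
  induction h using Polynomial.induction_on' with
  | add p q hp hq =>
    intro v hv
    rw [map_add, LinearMap.add_apply]
    exact W.add_mem (hp v hv) (hq v hv)
  | monomial n a =>
    intro v hv
    rw [aeval_monomial]
    have h1 : ∀ (n : ℕ), (y ^ n) v ∈ W := by
      intro n
      induction n with
      | zero => simpa using hv
      | succ n ih =>
        rw [pow_succ', Module.End.mul_apply]
        exact hW _ ih
    simp only [Module.algebraMap_end_eq_smul_id, Module.End.mul_apply, LinearMap.smul_apply, LinearMap.id_apply]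
    exact W.smul_mem _ (h1 n)

section Irr

variable (y : V →ₗ[F] V) {g : F[X]} (hg : Irreducible g) (hy : aeval y g = 0)
include hg hy

/-- The algebra map from the root field. -/
theorem exists_root_hom :
    ∃ φ : AdjoinRoot g →ₐ[F] Module.End F V, (∀ p : F[X], φ (AdjoinRoot.mk g p) = aeval y p) := by
  have hid : ∀ a ∈ Ideal.span {g}, (aeval y) a = 0 := by
    intro a ha
    obtain ⟨c, rfl⟩ := Ideal.mem_span_singleton.1 ha
    rw [map_mul, hy, zero_mul]
  refine ⟨Ideal.Quotient.liftₐ (Ideal.span {g}) (aeval y) hid, fun p => ?_⟩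
  exact Ideal.Quotient.liftₐ_apply _ _ _ _

theorem irr_dvd_finrank [FiniteDimensional F V] : g.natDegree ∣ finrank F V := by
  classical
  haveI : Fact (Irreducible g) := ⟨hg⟩
  obtain ⟨φ, hφ⟩ := exists_root_hom y hg hy
  letI : Module (AdjoinRoot g) V := Module.compHom V (φ : AdjoinRoot g →+* Module.End F V)
  haveI : IsScalarTower F (AdjoinRoot g) V := ⟨fun c l v => by
    show φ (c • l) v = c • φ l v
    rw [map_smul]; rfl⟩
  have h1 := Module.finrank_mul_finrank F (AdjoinRoot g) V
  have h2 : finrank F (AdjoinRoot g) = g.natDegree := by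
    rw [(AdjoinRoot.powerBasis hg.ne_zero).finrank, AdjoinRoot.powerBasis_dim]
  rw [h2] at h1
  exact ⟨_, h1.symm⟩

theorem irr_dvd_of_inv [FiniteDimensional F V] (W : Submodule F V) (hW : ∀ v ∈ W, y v ∈ W) :
    g.natDegree ∣ finrank F W := by
  classical
  haveI : Fact (Irreducible g) := ⟨hg⟩
  obtain ⟨φ, hφ⟩ := exists_root_hom y hg hy
  letI : Module (AdjoinRoot g) V := Module.compHom V (φ : AdjoinRoot g →+* Module.End F V)
  haveI : IsScalarTower F (AdjoinRoot g) V := ⟨fun c l v => by
    show φ (c • l) v = c • φ l v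
    rw [map_smul]; rfl⟩
  let S : Submodule (AdjoinRoot g) V :=
    { carrier := W
      add_mem' := W.add_mem
      zero_mem' := W.zero_mem
      smul_mem' := by
        intro l v hv
        obtain ⟨p, rfl⟩ := AdjoinRoot.mk_surjective l
        show φ (AdjoinRoot.mk g p) v ∈ W
        rw [hφ]
        exact aeval_mem_of_inv y W hW p v hv }
  haveI : FiniteDimensional (AdjoinRoot g) V := FiniteDimensional.right F (AdjoinRoot g) V
  have h1 := Module.finrank_mul_finrank F (AdjoinRoot g) S
  have h2 : finrank F (AdjoinRoot g) = g.natDegree := by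
    rw [(AdjoinRoot.powerBasis hg.ne_zero).finrank, AdjoinRoot.powerBasis_dim]
  rw [h2] at h1
  exact ⟨_, h1.symm⟩

theorem irr_exists_inv [FiniteDimensional F V] (e : ℕ) (he : e * g.natDegree ≤ finrank F V) :
    ∃ W : Submodule F V, (∀ v ∈ W, y v ∈ W) ∧ finrank F W = e * g.natDegree := by
  classical
  haveI : Fact (Irreducible g) := ⟨hg⟩
  obtain ⟨φ, hφ⟩ := exists_root_hom y hg hy
  letI : Module (AdjoinRoot g) V := Module.compHom V (φ : AdjoinRoot g →+* Module.End F V)
  haveI : IsScalarTower F (AdjoinRoot g) V := ⟨fun c l v => by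
    show φ (c • l) v = c • φ l v
    rw [map_smul]; rfl⟩
  haveI : FiniteDimensional (AdjoinRoot g) V := FiniteDimensional.right F (AdjoinRoot g) V
  have h1 := Module.finrank_mul_finrank F (AdjoinRoot g) V
  have h2 : finrank F (AdjoinRoot g) = g.natDegree := by
    rw [(AdjoinRoot.powerBasis hg.ne_zero).finrank, AdjoinRoot.powerBasis_dim]
  rw [h2] at h1
  have hdeg : 0 < g.natDegree := hg.natDegree_pos
  have hle : e ≤ finrank (AdjoinRoot g) V := by
    rw [← h1, mul_comm] at he
    exact Nat.le_of_mul_le_mul_left he hdeg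
  have hex : ∀ e : ℕ, e ≤ finrank (AdjoinRoot g) V → ∃ S : Submodule (AdjoinRoot g) V, finrank (AdjoinRoot g) S = e := by
    intro e
    induction e with
    | zero => intro _; exact ⟨⊥, finrank_bot _ _⟩
    | succ e ih =>
      intro he
      obtain ⟨S, hS⟩ := ih (by omega)
      have hne : S ≠ ⊤ := by
        rintro rfl
        rw [finrank_top] at hS
        omega
      obtain ⟨v, hv⟩ := SetLike.exists_not_mem_of_ne_top S hne rfl
      exact ⟨S ⊔ Submodule.span _ {v}, by rw [Submodule.finrank_sup_span_singleton hv, hS]⟩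
  obtain ⟨S, hS⟩ := hex e hle
  refine ⟨S.restrictScalars F, ?_, ?_⟩
  · intro v hv
    have h3 : AdjoinRoot.root g • v ∈ S := S.smul_mem _ hv
    have h4 : AdjoinRoot.root g • v = y v := by
      show φ (AdjoinRoot.root g) v = y v
      rw [← AdjoinRoot.mk_X, hφ, aeval_X]
    rw [← h4]
    exact h3
  · have h5 := Module.finrank_mul_finrank F (AdjoinRoot g) S
    rw [h2, hS, mul_comm] at h5
    exact h5.symm

/-- The determinant. -/
theorem irr_det [FiniteDimensional F V] (hmon : g.Monic) :
    LinearMap.det y = ((-1) ^ g.natDegree * g.coeff 0) ^ (finrank F V / g.natDegree) := by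
  classical
  haveI : Fact (Irreducible g) := ⟨hg⟩
  obtain ⟨φ, hφ⟩ := exists_root_hom y hg hy
  letI : Module (AdjoinRoot g) V := Module.compHom V (φ : AdjoinRoot g →+* Module.End F V)
  haveI : IsScalarTower F (AdjoinRoot g) V := ⟨fun c l v => by
    show φ (c • l) v = c • φ l v
    rw [map_smul]; rfl⟩
  haveI : FiniteDimensional (AdjoinRoot g) V := FiniteDimensional.right F (AdjoinRoot g) V
  have h1 := Module.finrank_mul_finrank F (AdjoinRoot g) V
  have h2 : finrank F (AdjoinRoot g) = g.natDegree := by
    rw [(AdjoinRoot.powerBasis hg.ne_zero).finrank, AdjoinRoot.powerBasis_dim]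
  rw [h2] at h1
  have hdeg : 0 < g.natDegree := hg.natDegree_pos
  have hs : finrank F V / g.natDegree = finrank (AdjoinRoot g) V := by
    rw [← h1, Nat.mul_div_cancel_left _ hdeg]
  have hy' : y = (((AdjoinRoot.root g) • (LinearMap.id : V →ₗ[AdjoinRoot g] V)).restrictScalars F) := by
    ext v
    show y v = φ (AdjoinRoot.root g) v
    rw [← AdjoinRoot.mk_X, hφ, aeval_X]
  rw [hs, hy', LinearMap.det_restrictScalars, LinearMap.det_smul, LinearMap.det_id, mul_one, map_pow]
  congr 1
  have hgen : (AdjoinRoot.powerBasis hg.ne_zero).gen = AdjoinRoot.root g := AdjoinRoot.powerBasis_gen hg.ne_zero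
  have h3 := Algebra.PowerBasis.norm_gen_eq_coeff_zero_minpoly (AdjoinRoot.powerBasis hg.ne_zero)
  rw [hgen, AdjoinRoot.powerBasis_dim] at h3
  rw [h3, AdjoinRoot.minpoly_root hg.ne_zero, hmon.leadingCoeff]
  simp

end Irr

theorem aeval_restrict_coe (y : V →ₗ[F] V) (W : Submodule F V) (hW : ∀ v ∈ W, y v ∈ W) (p : F[X]) (u : W) :
    ((aeval (y.restrict hW) p u : W) : V) = aeval y p (u : V) := by
  induction p using Polynomial.induction_on' generalizing u with
  | add p q hp hq =>
    rw [map_add, map_add, LinearMap.add_apply, LinearMap.add_apply, Submodule.coe_add, hp, hq]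
  | monomial n a =>
    rw [aeval_monomial, aeval_monomial]
    simp only [Module.algebraMap_end_eq_smul_id, Module.End.mul_apply, LinearMap.smul_apply, LinearMap.id_apply,
      Submodule.coe_smul]
    congr 1
    induction n generalizing u with
    | zero => simp
    | succ n ih =>
      rw [pow_succ, pow_succ, Module.End.mul_apply, Module.End.mul_apply, ih]
      rfl

theorem aeval_mapQ_mk (y : V →ₗ[F] V) (Z : Submodule F V) (hZ : Z ≤ Z.comap y) (p : F[X]) (v : V) :
    aeval (Z.mapQ Z y hZ) p (Z.mkQ v) = Z.mkQ (aeval y p v) := by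
  induction p using Polynomial.induction_on' generalizing v with
  | add p q hp hq =>
    rw [map_add, map_add, LinearMap.add_apply, LinearMap.add_apply, map_add, hp, hq]
  | monomial n a =>
    rw [aeval_monomial, aeval_monomial]
    simp only [Module.algebraMap_end_eq_smul_id, Module.End.mul_apply, LinearMap.smul_apply, LinearMap.id_apply,
      map_smul]
    congr 1
    induction n generalizing v with
    | zero => simp
    | succ n ih =>
      rw [pow_succ, pow_succ, Module.End.mul_apply, Module.End.mul_apply]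
      have : Z.mapQ Z y hZ (Z.mkQ v) = Z.mkQ (y v) := rfl
      rw [this, ih]

theorem finrank_comap_mkQ [FiniteDimensional F V] (Z : Submodule F V) (S : Submodule F (V ⧸ Z)) :
    finrank F (S.comap Z.mkQ) = finrank F S + finrank F Z := by
  let f : (S.comap Z.mkQ) →ₗ[F] S := Z.mkQ.restrict (fun x hx => hx)
  have hf : Function.Surjective f := by
    rintro ⟨w, hw⟩
    obtain ⟨v, rfl⟩ := Submodule.mkQ_surjective Z w
    exact ⟨⟨v, hw⟩, rfl⟩
  have h1 := LinearMap.finrank_range_add_finrank_ker f
  rw [LinearMap.range_eq_top.2 hf, finrank_top] at h1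
  have h2 : (LinearMap.ker f).map (S.comap Z.mkQ).subtype = Z := by
    ext v
    constructor
    · rintro ⟨⟨u, hu⟩, hu2, rfl⟩
      have h3 : Z.mkQ u = 0 := congrArg Subtype.val hu2
      exact (Submodule.Quotient.mk_eq_zero Z).1 h3
    · intro hv
      have hv0 : Z.mkQ v = 0 := (Submodule.Quotient.mk_eq_zero Z).2 hv
      refine ⟨⟨v, ?_⟩, ?_, rfl⟩
      · show Z.mkQ v ∈ S
        rw [hv0]; exact S.zero_mem
      · apply Subtype.ext
        exact hv0
  have h3 := Submodule.finrank_map_subtype_eq (S.comap Z.mkQ) (LinearMap.ker f)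
  rw [h2] at h3
  omega

/-- The chain of invariant subspaces for a polynomial all of whose irreducible factors have degree `i`. -/
theorem chain_inv {i : ℕ} {Φ : F[X]} (hΦ0 : Φ ≠ 0) (hΦ : ∀ g : F[X], Irreducible g → g ∣ Φ → g.natDegree = i) :
    ∀ (n : ℕ) (V : Type u) [AddCommGroup V] [Module F V] [FiniteDimensional F V] (y : V →ₗ[F] V), finrank F V = n → aeval y Φ = 0 →
    i ∣ n ∧ ∀ e, e * i ≤ n → ∃ W : Submodule F V, (∀ v ∈ W, y v ∈ W) ∧ finrank F W = e * i := by
  intro n
  induction n using Nat.strong_induction_on with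
  | _ n ih =>
    intro V _ _ _ y hn hy
    classical
    rcases Nat.eq_zero_or_pos n with rfl | hpos
    · refine ⟨dvd_zero _, fun e he => ⟨⊥, by simp, ?_⟩⟩
      rw [finrank_bot]; omega
    haveI : Nontrivial V := Module.nontrivial_of_finrank_pos (R := F) (by omega)
    have hint : IsIntegral F y := Algebra.IsIntegral.isIntegral y
    have hm0 : minpoly F y ≠ 0 := minpoly.ne_zero hint
    have hmu : ¬ IsUnit (minpoly F y) := minpoly.not_isUnit F y
    obtain ⟨g, hg, hgm⟩ := WfDvdMonoid.exists_irreducible_factor hmu hm0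
    have hgΦ : g ∣ Φ := hgm.trans (minpoly.dvd F y hy)
    have hdeg := hΦ g hg hgΦ
    have hipos : 0 < i := hdeg ▸ hg.natDegree_pos
    -- the kernel of `g(y)`
    have hK : LinearMap.ker (aeval y g) ≠ ⊥ := by
      intro hbot
      obtain ⟨h, hh⟩ := hgm
      have h1 : aeval y (minpoly F y) = 0 := minpoly.aeval F y
      rw [hh, map_mul] at h1
      have h2 : aeval y h = 0 := by
        ext v
        have h3 : aeval y g (aeval y h v) = 0 := by
          rw [← Module.End.mul_apply, h1]; rfl
        have h4 : aeval y h v ∈ LinearMap.ker (aeval y g) := h3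
        rw [hbot] at h4
        simpa using h4
      obtain ⟨c, hc⟩ := minpoly.dvd F y h2
      have h5 : minpoly F y * (g * c) = minpoly F y * 1 := by
        rw [mul_one]
        nth_rw 2 [hh]
        rw [hc]
        ring
      have h6 := mul_left_cancel₀ hm0 h5
      exact hg.not_isUnit (IsUnit.of_mul_eq_one c h6)
    have hKinv : ∀ v ∈ LinearMap.ker (aeval y g), y v ∈ LinearMap.ker (aeval y g) := by
      intro v hv
      have h1 : aeval y g v = 0 := hv
      show aeval y g (y v) = 0
      have h2 : aeval y g * y = y * aeval y g := by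
        have := congrArg (aeval y) (Polynomial.X_mul (p := g))
        simpa [map_mul, aeval_X] using this.symm
      rw [← Module.End.mul_apply, h2, Module.End.mul_apply, h1, map_zero]
    let yK : LinearMap.ker (aeval y g) →ₗ[F] LinearMap.ker (aeval y g) := y.restrict hKinv
    have hyK : aeval yK g = 0 := by
      ext u
      rw [aeval_restrict_coe]
      exact u.2
    have hdvdK := irr_dvd_finrank yK hg hyK
    have hKpos : 0 < finrank F (LinearMap.ker (aeval y g)) := by
      have := Submodule.one_le_finrank_iff.2 hK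
      omega
    obtain ⟨Z', hZ'inv, hZ'⟩ := irr_exists_inv yK hg hyK 1 (by
      rw [one_mul]; exact Nat.le_of_dvd hKpos hdvdK)
    obtain ⟨Z, hZd⟩ : ∃ Z : Submodule F V, Z = Z'.map (LinearMap.ker (aeval y g)).subtype := ⟨_, rfl⟩
    have hZfin : finrank F Z = i := by
      rw [hZd, Submodule.finrank_map_subtype_eq, hZ', one_mul, hdeg]
    have hZinv : Z ≤ Z.comap y := by
      intro v hv
      rw [hZd] at hv ⊢
      obtain ⟨u, hu, rfl⟩ := hv
      exact ⟨yK u, hZ'inv u hu, rfl⟩
    have hQ : finrank F (V ⧸ Z) + finrank F Z = n := by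
      rw [Submodule.finrank_quotient_add_finrank, hn]
    have hyQ : aeval (Z.mapQ Z y hZinv) Φ = 0 := by
      ext v
      show aeval (Z.mapQ Z y hZinv) Φ (Z.mkQ v) = 0
      rw [aeval_mapQ_mk, hy]
      simp
    obtain ⟨h1, h2⟩ := ih (finrank F (V ⧸ Z)) (by omega) (V ⧸ Z) (Z.mapQ Z y hZinv) rfl hyQ
    refine ⟨?_, ?_⟩
    · rw [← hQ, hZfin]
      exact Dvd.dvd.add h1 dvd_rfl
    · intro e he
      rcases Nat.eq_zero_or_pos e with rfl | hepos
      · exact ⟨⊥, by simp, by simp⟩
      obtain ⟨e', rfl⟩ : ∃ e', e = e' + 1 := ⟨e - 1, by omega⟩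
      have hle : e' * i ≤ finrank F (V ⧸ Z) := by
        have : (e' + 1) * i = e' * i + i := by ring
        omega
      obtain ⟨S, hS1, hS2⟩ := h2 e' hle
      refine ⟨S.comap Z.mkQ, ?_, ?_⟩
      · intro v hv
        exact hS1 _ hv
      · rw [finrank_comap_mkQ, hS2, hZfin]
        ring

end Cfsg.Agent.Lib.Geo
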