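import Mathlib
import Cfsg.Agent.Lib.Geo.ElusIrr

set_option autoImplicit false

/-! Maps with `y^r = 1` over a finite field: the splitting into fixed part and non-fixed part, all
of whose constituents have dimension the order of `q` modulo `r`. -/

namespace Cfsg.Agent.Lib.Geo

open Polynomial Module

universe u

section General

variable {F : Type*} [Field F] {V : Type u} [AddCommGroup V] [Module F V]

/-- Splitting of invariant subspaces for coprime polynomials. -/
theorem inv_split (y : V →ₗ[F] V) {A B : F[X]} (hco : IsCoprime A B) (hy : aeval y (A * B) = 0)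
    (W : Submodule F V) (hW : ∀ v ∈ W, y v ∈ W) :
    (W ⊓ LinearMap.ker (aeval y A)) ⊔ (W ⊓ LinearMap.ker (aeval y B)) = W ∧
    (LinearMap.ker (aeval y A)) ⊓ (LinearMap.ker (aeval y B)) = ⊥ := by
  obtain ⟨a, b, hab⟩ := hco
  have hone : ∀ v : V, aeval y a (aeval y A v) + aeval y b (aeval y B v) = v := by
    intro v
    have h1 := congrArg (fun p => aeval y p v) hab
    simpa [map_add, map_mul, Module.End.mul_apply] using h1
  have hcomm : ∀ (p s : F[X]) (v : V), aeval y p (aeval y s v) = aeval y s (aeval y p v) := by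
    intro p s v
    rw [← Module.End.mul_apply, ← Module.End.mul_apply, ← map_mul, ← map_mul, mul_comm]
  have hAB : ∀ v, aeval y A (aeval y B v) = 0 := by
    intro v
    rw [← Module.End.mul_apply, ← map_mul, hy]; rfl
  have hBA : ∀ v, aeval y B (aeval y A v) = 0 := by
    intro v
    rw [hcomm, hAB]
  constructor
  · apply le_antisymm (sup_le inf_le_left inf_le_left)
    intro v hv
    have hu1 : aeval y a (aeval y A v) ∈ W ⊓ LinearMap.ker (aeval y B) :=
      Submodule.mem_inf.2 ⟨aeval_mem_of_inv y W hW a _ (aeval_mem_of_inv y W hW A _ hv), by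
        rw [LinearMap.mem_ker, hcomm B a, hBA, map_zero]⟩
    have hu2 : aeval y b (aeval y B v) ∈ W ⊓ LinearMap.ker (aeval y A) :=
      Submodule.mem_inf.2 ⟨aeval_mem_of_inv y W hW b _ (aeval_mem_of_inv y W hW B _ hv), by
        rw [LinearMap.mem_ker, hcomm A b, hAB, map_zero]⟩
    rw [← hone v, add_comm]
    exact Submodule.add_mem_sup hu2 hu1
  · rw [eq_bot_iff]
    intro v hv
    have h1 : aeval y A v = 0 := (Submodule.mem_inf.1 hv).1
    have h2 : aeval y B v = 0 := (Submodule.mem_inf.1 hv).2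
    have h3 := hone v
    rw [h1, h2, map_zero, map_zero, add_zero] at h3
    simp [← h3]

/-- Dimensions of a splitting. -/
theorem finrank_inv_split [FiniteDimensional F V] (y : V →ₗ[F] V) {A B : F[X]} (hco : IsCoprime A B) (hy : aeval y (A * B) = 0)
    (W : Submodule F V) (hW : ∀ v ∈ W, y v ∈ W) :
    finrank F W = finrank F (W ⊓ LinearMap.ker (aeval y A) : Submodule F V) + finrank F (W ⊓ LinearMap.ker (aeval y B) : Submodule F V) := by
  obtain ⟨h1, h2⟩ := inv_split y hco hy W hW
  have h3 := Submodule.finrank_sup_add_finrank_inf_eq (W ⊓ LinearMap.ker (aeval y A)) (W ⊓ LinearMap.ker (aeval y B))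
  have h4 : (W ⊓ LinearMap.ker (aeval y A)) ⊓ (W ⊓ LinearMap.ker (aeval y B)) = ⊥ := by
    rw [eq_bot_iff, ← h2]
    intro v hv
    exact ⟨hv.1.2, hv.2.2⟩
  rw [h1, h4, finrank_bot, add_zero] at h3
  exact h3

end General

section Prime

variable {F : Type*} [Field F] [Fintype F] {p : ℕ} [Fact p.Prime] [CharP F p] {q : ℕ}
  (hq : Fintype.card F = q) {r : ℕ} [hr : Fact r.Prime] (hrp : r ≠ p)

include hq hrp

/-- Degrees of the irreducible factors of the cyclotomic polynomial. -/
theorem irr_deg_cyc {g : F[X]} (hg : Irreducible g) (hd : g ∣ cyclotomic r F) :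
    g.natDegree = orderOf (q : ZMod r) := by
  obtain ⟨n, hpos, hn⟩ := FiniteField.card F p
  have hcop : p.Coprime r := (Nat.coprime_primes Fact.out hr.out).2 (Ne.symm hrp)
  have hK : Fintype.card F = p ^ (n : ℕ) := hn
  have h1 := natDegree_of_dvd_cyclotomic_of_irreducible hK hcop hd hg
  rw [h1]
  rw [← orderOf_units]
  congr 1
  rw [ZMod.coe_unitOfCoprime, ← hq, hn]

omit hq hrp in
theorem cyc_eval_one : (cyclotomic r F).eval 1 = (r : F) := by
  rw [cyclotomic_prime]
  simp [eval_geom_sum]

theorem order_pos : 0 < orderOf (q : ZMod r) := by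
  obtain ⟨n, hpos, hn⟩ := FiniteField.card F p
  have hcop : p.Coprime r := (Nat.coprime_primes Fact.out hr.out).2 (Ne.symm hrp)
  have hqc : q.Coprime r := by
    rw [← hq, hn]
    exact hcop.pow_left _
  have h1 : (q : ZMod r) = ((ZMod.unitOfCoprime q hqc : (ZMod r)ˣ) : ZMod r) := by simp
  rw [h1, orderOf_units]
  exact orderOf_pos _

include hrp in
omit hq in
theorem cyc_eval_one_ne : (cyclotomic r F).eval 1 ≠ 0 := by
  rw [cyc_eval_one]
  intro h0
  have := (CharP.cast_eq_zero_iff F p r).1 h0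
  exact hrp ((Nat.prime_dvd_prime_iff_eq Fact.out hr.out).1 this).symm

omit hq in
theorem coprime_cyc : IsCoprime (X - C 1 : F[X]) (cyclotomic r F) := by
  rw [(irreducible_X_sub_C 1).coprime_iff_not_dvd]
  rw [dvd_iff_isRoot]
  exact cyc_eval_one_ne (p := p) hrp

end Prime

section Struct

variable {F : Type*} [Field F] [Fintype F] {p : ℕ} [Fact p.Prime] [CharP F p] {q : ℕ}
  (hq : Fintype.card F = q) {r : ℕ} [hr : Fact r.Prime] (hrp : r ≠ p)
  {V : Type u} [AddCommGroup V] [Module F V] [FiniteDimensional F V]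
  {y : V →ₗ[F] V} (hy : y ^ r = 1)

omit [Fintype F] [Fact p.Prime] [CharP F p] [FiniteDimensional F V] in
include hy in
theorem ann_of_pow : aeval y ((X - C 1) * cyclotomic r F) = 0 := by
  simp only [map_one]
  rw [mul_comm, cyclotomic_prime_mul_X_sub_one]
  simp [hy]

include hq hrp in
/-- Invariant subspaces and the order of `q` modulo `r`. -/
theorem order_dvd_of_inv (W : Submodule F V) (hW : ∀ v ∈ W, y v ∈ W)
    (hWD : W ≤ LinearMap.ker (aeval y (cyclotomic r F))) : orderOf (q : ZMod r) ∣ finrank F W := by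
  have h0 : cyclotomic r F ≠ 0 := cyclotomic_ne_zero r F
  have h1 := chain_inv (i := orderOf (q : ZMod r)) h0 (fun g hg hd => irr_deg_cyc (p := p) hq hrp hg hd) (finrank F W) W (y.restrict hW) rfl (by
    ext u
    rw [aeval_restrict_coe]
    exact hWD u.2)
  exact h1.1

omit hq hrp in
theorem mem_ker_aeval_sub_one {v : V} : v ∈ LinearMap.ker (aeval y (X - C 1 : F[X])) ↔ y v = v := by
  simp [sub_eq_zero]

include hq hrp hy in
/-- The invariant subspaces have dimension congruent to the dimension of their fixed part. -/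
theorem finrank_inv_eq (W : Submodule F V) (hW : ∀ v ∈ W, y v ∈ W) :
    ∃ e, finrank F W = finrank F (W ⊓ LinearMap.ker (aeval y (X - C 1 : F[X])) : Submodule F V) + e * orderOf (q : ZMod r) := by
  have h1 := finrank_inv_split y (coprime_cyc (p := p) hrp) (ann_of_pow hy) W hW
  obtain ⟨e, he⟩ := order_dvd_of_inv (p := p) hq hrp (W := W ⊓ LinearMap.ker (aeval y (cyclotomic r F))) (fun v hv => ⟨hW v hv.1, by
    rw [SetLike.mem_coe, LinearMap.mem_ker]
    have h2 : aeval y (cyclotomic r F) v = 0 := hv.2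
    have h3 : aeval y (cyclotomic r F) * y = y * aeval y (cyclotomic r F) := by
      have := congrArg (aeval y) (Polynomial.X_mul (p := cyclotomic r F))
      simpa [map_mul, aeval_X] using this.symm
    rw [← Module.End.mul_apply, h3, Module.End.mul_apply, h2, map_zero]⟩) inf_le_right
  exact ⟨e, by rw [h1, he]; ring⟩

omit [Fintype F] [Fact p.Prime] [CharP F p] in
theorem exists_sub_of_le (C : Submodule F V) (c : ℕ) (hc : c ≤ finrank F C) :
    ∃ W : Submodule F V, W ≤ C ∧ finrank F W = c := by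
  induction c with
  | zero => exact ⟨⊥, bot_le, finrank_bot F V⟩
  | succ c ih =>
    obtain ⟨W, hW, hd⟩ := ih (by omega)
    have hne : ∃ v ∈ C, v ∉ W := by
      by_contra hcon
      push Not at hcon
      have : C ≤ W := hcon
      have e := le_antisymm hW this
      rw [e] at hd
      omega
    obtain ⟨v, hv, hvW⟩ := hne
    refine ⟨W ⊔ Submodule.span F {v}, sup_le hW ((Submodule.span_singleton_le_iff_mem v C).mpr hv), ?_⟩
    rw [Submodule.finrank_sup_span_singleton hvW, hd]

include hq hrp hy in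
/-- Existence of an invariant subspace given the fixed space is large enough. -/
theorem exists_inv_of_mod (m : ℕ) (hm : m ≤ finrank F V)
    (hmod : m % orderOf (q : ZMod r) ≤ finrank F (LinearMap.ker (aeval y (X - C 1 : F[X])))) :
    ∃ W : Submodule F V, (∀ v ∈ W, y v ∈ W) ∧ finrank F W = m := by
  have hipos := order_pos (p := p) hq hrp
  obtain ⟨i, hi⟩ : ∃ i, i = orderOf (q : ZMod r) := ⟨_, rfl⟩
  rw [← hi] at hipos hmod
  obtain ⟨Cc, hC⟩ : ∃ Cc, Cc = LinearMap.ker (aeval y (X - C 1 : F[X])) := ⟨_, rfl⟩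
  obtain ⟨Dc, hD⟩ : ∃ Dc, Dc = LinearMap.ker (aeval y (cyclotomic r F)) := ⟨_, rfl⟩
  rw [← hC] at hmod
  have hsplit := inv_split y (coprime_cyc (p := p) hrp) (ann_of_pow hy) ⊤ (by simp)
  simp only [top_inf_eq, ← hC, ← hD] at hsplit
  obtain ⟨hsup, hinf⟩ := hsplit
  have hdim : finrank F Cc + finrank F Dc = finrank F V := by
    have h3 := Submodule.finrank_sup_add_finrank_inf_eq Cc Dc
    rw [hsup, hinf, finrank_bot, add_zero, finrank_top] at h3
    exact h3.symm
  have hCinv : ∀ v ∈ Cc, y v = v := by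
    intro v hv
    rw [hC] at hv
    exact (mem_ker_aeval_sub_one).1 hv
  have hDinv : ∀ v ∈ Dc, y v ∈ Dc := by
    intro v hv
    rw [hD] at hv ⊢
    have h2 : aeval y (cyclotomic r F) v = 0 := hv
    have h3 : aeval y (cyclotomic r F) * y = y * aeval y (cyclotomic r F) := by
      have := congrArg (aeval y) (Polynomial.X_mul (p := cyclotomic r F))
      simpa [map_mul, aeval_X] using this.symm
    rw [LinearMap.mem_ker, ← Module.End.mul_apply, h3, Module.End.mul_apply, h2, map_zero]
  obtain ⟨hdvd, hch⟩ := chain_inv (i := i) (cyclotomic_ne_zero r F) (fun g hg hd => by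
    rw [hi]; exact irr_deg_cyc (p := p) hq hrp hg hd) (finrank F Dc) Dc (y.restrict hDinv) rfl (by
    ext u
    rw [aeval_restrict_coe]
    have h5 : ∀ w ∈ Dc, aeval y (cyclotomic r F) w = 0 := by
      intro w hw
      rw [hD] at hw
      exact hw
    exact h5 _ u.2)
  obtain ⟨s', hs'⟩ := hdvd
  -- the number of blocks
  obtain ⟨e, he1, he2⟩ : ∃ e, e * i ≤ finrank F Dc ∧ m - e * i ≤ finrank F Cc ∧ e * i ≤ m := by
    by_cases hle : m / i ≤ s'
    · refine ⟨m / i, ?_, ?_, Nat.div_mul_le_self m i⟩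
      · rw [hs', mul_comm]; exact Nat.mul_le_mul_left i hle
      · have h4 := Nat.div_add_mod m i
        rw [mul_comm] at h4
        have : m - m / i * i = m % i := by omega
        rw [this]; exact hmod
    · refine ⟨s', ?_, ?_, ?_⟩
      · rw [hs', mul_comm]
      · rw [mul_comm, ← hs']; omega
      · rw [mul_comm]
        push Not at hle
        calc i * s' ≤ i * (m / i) := Nat.mul_le_mul_left i hle.le
          _ ≤ m := Nat.mul_div_le m i
  obtain ⟨W₁, hW₁, hd₁⟩ := exists_sub_of_le Cc (m - e * i) he2.1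
  obtain ⟨Z, hZ1, hZ2⟩ := hch e he1
  refine ⟨W₁ ⊔ Z.map Dc.subtype, ?_, ?_⟩
  · intro v hv
    obtain ⟨a, ha, b, hb, rfl⟩ := Submodule.mem_sup.1 hv
    rw [map_add, hCinv a (hW₁ ha)]
    apply Submodule.add_mem_sup ha
    obtain ⟨u, hu, rfl⟩ := hb
    exact ⟨(y.restrict hDinv) u, hZ1 u hu, rfl⟩
  · have h3 := Submodule.finrank_sup_add_finrank_inf_eq W₁ (Z.map Dc.subtype)
    have h4 : W₁ ⊓ Z.map Dc.subtype = ⊥ := by
      rw [eq_bot_iff, ← hinf]
      intro v hv
      refine ⟨hW₁ hv.1, ?_⟩
      obtain ⟨u, -, rfl⟩ := hv.2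
      exact u.2
    rw [h4, finrank_bot, add_zero, hd₁, Submodule.finrank_map_subtype_eq, hZ2] at h3
    omega

end Struct

section Model

variable {F : Type*} [Field F] [Fintype F] {p : ℕ} [Fact p.Prime] [CharP F p] {q : ℕ}
  (hq : Fintype.card F = q) {r : ℕ} [hr : Fact r.Prime] (hrp : r ≠ p)
  {V : Type u} [AddCommGroup V] [Module F V] [FiniteDimensional F V]

include hq hrp in
/-- A map of order dividing `r` with prescribed fixed space dimension. -/
theorem exists_model (s k : ℕ) (hn : finrank F V = s * orderOf (q : ZMod r) + k) :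
    ∃ y : V →ₗ[F] V, y ^ r = 1 ∧ finrank F (LinearMap.ker (aeval y (X - C 1 : F[X]))) = k := by
  classical
  have hr1 : ¬ IsUnit (cyclotomic r F) := by
    intro hu
    have h1 := Polynomial.natDegree_eq_zero_of_isUnit hu
    rw [natDegree_cyclotomic, Nat.totient_prime hr.out] at h1
    have := hr.out.two_le
    omega
  obtain ⟨g, hg, hgd⟩ := WfDvdMonoid.exists_irreducible_factor hr1 (cyclotomic_ne_zero r F)
  haveI : Fact (Irreducible g) := ⟨hg⟩
  have hdeg : g.natDegree = orderOf (q : ZMod r) := irr_deg_cyc (p := p) hq hrp hg hgd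
  obtain ⟨α, hα⟩ : ∃ α : AdjoinRoot g, α = AdjoinRoot.root g := ⟨_, rfl⟩
  have hα1 : α ≠ 1 := by
    intro h1
    rw [hα, ← AdjoinRoot.mk_X, ← map_one (AdjoinRoot.mk g), AdjoinRoot.mk_eq_mk] at h1
    have h2 : g ∣ (X - C 1 : F[X]) := by simpa using h1
    exact hg.not_isUnit ((coprime_cyc (p := p) hrp).isUnit_of_dvd' h2 hgd)
  have hαr : α ^ r = 1 := by
    have h1 : g ∣ (X ^ r - 1 : F[X]) := by
      rw [← cyclotomic_prime_mul_X_sub_one]
      exact hgd.mul_right _
    have h2 := AdjoinRoot.mk_eq_zero.2 h1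
    rw [map_sub, map_pow, map_one, AdjoinRoot.mk_X, ← hα] at h2
    exact sub_eq_zero.1 h2
  have hfinL : finrank F (AdjoinRoot g) = orderOf (q : ZMod r) := by
    rw [(AdjoinRoot.powerBasis hg.ne_zero).finrank, AdjoinRoot.powerBasis_dim, hdeg]
  haveI : FiniteDimensional F (AdjoinRoot g) := (AdjoinRoot.powerBasis hg.ne_zero).finite
  let V₁ := (Fin s → AdjoinRoot g) × (Fin k → F)
  have hfin₁ : finrank F V₁ = finrank F V := by
    rw [hn, Module.finrank_prod, Module.finrank_pi_fintype]
    simp [hfinL]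
  let ψ : V ≃ₗ[F] V₁ := (LinearEquiv.ofFinrankEq _ _ hfin₁).symm
  let A : (Fin s → AdjoinRoot g) →ₗ[F] (Fin s → AdjoinRoot g) :=
    { toFun := fun a => α • a
      map_add' := fun a b => smul_add _ _ _
      map_smul' := fun c a => smul_comm _ _ _ }
  have hA : ∀ (n : ℕ) (a : Fin s → AdjoinRoot g), (A ^ n) a = α ^ n • a := by
    intro n a
    induction n with
    | zero => simp
    | succ n ih =>
      rw [pow_succ', Module.End.mul_apply, ih, pow_succ', mul_smul]
      rfl
  let f : V₁ →ₗ[F] V₁ := LinearMap.prodMap A LinearMap.id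
  have hf : ∀ (n : ℕ) (a : V₁), (f ^ n) a = (α ^ n • a.1, a.2) := by
    intro n a
    induction n with
    | zero => simp
    | succ n ih =>
      rw [pow_succ', Module.End.mul_apply, ih, pow_succ', mul_smul]
      rfl
  let y : V →ₗ[F] V := ψ.symm.toLinearMap ∘ₗ f ∘ₗ ψ.toLinearMap
  have hypow : ∀ (n : ℕ) (v : V), (y ^ n) v = ψ.symm ((f ^ n) (ψ v)) := by
    intro n v
    induction n with
    | zero => simp
    | succ n ih =>
      rw [pow_succ', Module.End.mul_apply, ih, pow_succ', Module.End.mul_apply]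
      simp [y]
  refine ⟨y, ?_, ?_⟩
  · ext v
    rw [hypow, hf, hαr]
    simp
  · have hker : LinearMap.ker (aeval y (X - C 1 : F[X])) = LinearMap.ker ((LinearMap.fst F (Fin s → AdjoinRoot g) (Fin k → F)) ∘ₗ ψ.toLinearMap) := by
      ext v
      rw [mem_ker_aeval_sub_one, LinearMap.mem_ker]
      have h1 : y v = ψ.symm (f (ψ v)) := rfl
      rw [h1, LinearEquiv.symm_apply_eq]
      constructor
      · intro h2
        have h3 := congrArg Prod.fst h2
        have h4 : α • (ψ v).1 = (ψ v).1 := h3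
        show (ψ v).1 = 0
        ext j
        have h5 := congrFun h4 j
        simp only [Pi.smul_apply, smul_eq_mul] at h5
        have h6 : (α - 1) * (ψ v).1 j = 0 := by linear_combination h5
        have := (mul_eq_zero.1 h6).resolve_left (sub_ne_zero.2 hα1)
        simpa using this
      · intro h2
        have h3 : (ψ v).1 = 0 := h2
        apply Prod.ext
        · show α • (ψ v).1 = (ψ v).1
          rw [h3, smul_zero]
        · rfl
    rw [hker]
    have hsurj : Function.Surjective ((LinearMap.fst F (Fin s → AdjoinRoot g) (Fin k → F)) ∘ₗ ψ.toLinearMap) := by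
      intro a
      refine ⟨ψ.symm (a, 0), ?_⟩
      simp
    have h1 := LinearMap.finrank_range_add_finrank_ker ((LinearMap.fst F (Fin s → AdjoinRoot g) (Fin k → F)) ∘ₗ ψ.toLinearMap)
    rw [LinearMap.range_eq_top.2 hsurj, finrank_top, Module.finrank_pi_fintype, hn] at h1
    simp only [hfinL, Finset.sum_const, Finset.card_univ, Fintype.card_fin, smul_eq_mul] at h1
    omega

end Model

end Cfsg.Agent.Lib.Geo
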