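import Mathlib
import Cfsg.Agent.Lib.Geo.ElusPrime

set_option autoImplicit false

/-! Counting subspaces over a finite field, root extraction in finite fields, and models of
irreducible polynomials. -/

namespace Cfsg.Agent.Lib.Geo

open Polynomial Module

universe u

section Count

variable {K : Type*} [Field K] [Fintype K] {V : Type u} [AddCommGroup V] [Module K V] [FiniteDimensional K V]

/-- Counting ordered bases of `m`-dimensional subspaces. -/
theorem card_subspaces_mul (m : ℕ) (hm : m ≤ finrank K V) :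
    Nat.card {W : Submodule K V // finrank K W = m} * ∏ i : Fin m, (Fintype.card K ^ m - Fintype.card K ^ (i : ℕ)) =
      ∏ i : Fin m, (Fintype.card K ^ finrank K V - Fintype.card K ^ (i : ℕ)) := by
  classical
  haveI : Finite V := Module.finite_of_finite K
  let T := {s : Fin m → V // LinearIndependent K s}
  let S := {W : Submodule K V // finrank K W = m}
  have hfin : ∀ s : T, finrank K (Submodule.span K (Set.range s.1)) = m := by
    intro s
    rw [finrank_span_eq_card s.2, Fintype.card_fin]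
  let f : T → S := fun s => ⟨Submodule.span K (Set.range s.1), hfin s⟩
  haveI : Finite (Submodule K V) := Finite.of_injective (fun W => (W : Set V)) SetLike.coe_injective
  haveI : Fintype S := Fintype.ofFinite _
  have hfib : ∀ W : S, Nat.card {s : T // f s = W} = ∏ i : Fin m, (Fintype.card K ^ m - Fintype.card K ^ (i : ℕ)) := by
    intro W
    haveI : Finite W.1 := inferInstance
    have h1 := card_linearIndependent (K := K) (V := W.1) (k := m) (by rw [W.2])
    rw [W.2] at h1
    rw [← h1]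
    apply Nat.card_congr
    refine
      { toFun := fun s => ⟨fun i => ⟨s.1.1 i, ?_⟩, ?_⟩
        invFun := fun t => ⟨⟨fun i => (t.1 i : V), ?_⟩, ?_⟩
        left_inv := ?_
        right_inv := ?_ }
    · have h5 : s.1.1 i ∈ (f s.1).1 := Submodule.subset_span ⟨i, rfl⟩
      rwa [s.2] at h5
    · apply LinearIndependent.of_comp W.1.subtype
      exact s.1.2
    · exact t.2.map' W.1.subtype (Submodule.ker_subtype _)
    · apply Subtype.ext
      apply Submodule.eq_of_le_of_finrank_eq
      · apply Submodule.span_le.2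
        rintro _ ⟨i, rfl⟩
        exact (t.1 i).2
      · have h2 : LinearIndependent K (fun i => (t.1 i : V)) := t.2.map' W.1.subtype (Submodule.ker_subtype _)
        rw [finrank_span_eq_card h2, Fintype.card_fin, W.2]
    · intro s
      rfl
    · intro t
      rfl
  have h2 := Nat.card_congr (Equiv.sigmaFiberEquiv f)
  rw [Nat.card_sigma] at h2
  have h3 : Nat.card T = ∏ i : Fin m, (Fintype.card K ^ finrank K V - Fintype.card K ^ (i : ℕ)) :=
    card_linearIndependent hm
  rw [← h3, ← h2]
  have h4 : ∀ W : S, Nat.card {x : T // f x = W} = ∏ i : Fin m, (Fintype.card K ^ m - Fintype.card K ^ (i : ℕ)) := hfib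
  rw [Finset.sum_congr rfl (fun W _ => h4 W), Finset.sum_const, Finset.card_univ, smul_eq_mul, Nat.card_eq_fintype_card]

theorem prod_pow_sub (q n m : ℕ) (hq : 2 ≤ q) (hm : m ≤ n) :
    ∏ i : Fin m, (q ^ n - q ^ (i : ℕ)) = (∏ i : Fin m, q ^ (i : ℕ)) * ∏ i : Fin m, (q ^ (n - i) - 1) := by
  rw [← Finset.prod_mul_distrib]
  apply Finset.prod_congr rfl
  intro i _
  have h1 : (i : ℕ) ≤ n := by have := i.2; omega
  rw [Nat.mul_sub, mul_one, ← pow_add]
  congr 2
  omega

/-- The reduced form of the count. -/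
theorem card_subspaces_mul' (m : ℕ) (hm : m ≤ finrank K V) :
    Nat.card {W : Submodule K V // finrank K W = m} * ∏ i : Fin m, (Fintype.card K ^ (m - i) - 1) =
      ∏ i : Fin m, (Fintype.card K ^ (finrank K V - i) - 1) := by
  have hq : 2 ≤ Fintype.card K := Fintype.one_lt_card
  have h1 := card_subspaces_mul (K := K) (V := V) m hm
  rw [prod_pow_sub _ _ _ hq hm, prod_pow_sub _ _ _ hq le_rfl] at h1
  have h2 : 0 < ∏ i : Fin m, (Fintype.card K ^ (i : ℕ)) := Finset.prod_pos (fun i _ => by positivity)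
  apply Nat.eq_of_mul_eq_mul_left h2
  rw [← h1]
  ring

/-- A prime dividing the number of `m`-spaces divides some `q^(n-j) - 1`, `j < m`. -/
theorem prime_dvd_count {r : ℕ} (hr : r.Prime) (m : ℕ) (hm : m ≤ finrank K V)
    (hd : r ∣ Nat.card {W : Submodule K V // finrank K W = m}) :
    ∃ j, j < m ∧ r ∣ Fintype.card K ^ (finrank K V - j) - 1 := by
  have h1 := card_subspaces_mul' (K := K) (V := V) m hm
  have h2 : r ∣ ∏ i : Fin m, (Fintype.card K ^ (finrank K V - i) - 1) := by
    rw [← h1]
    exact hd.mul_right _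
  obtain ⟨i, _, hi⟩ := (hr.prime.dvd_finset_prod_iff _).1 h2
  exact ⟨i, i.2, hi⟩

end Count

section Order

variable {F : Type*} [Field F] [Fintype F] {p : ℕ} [Fact p.Prime] [CharP F p] {q : ℕ}

/-- The characteristic does not divide `q^k - 1`. -/
theorem char_not_dvd_pow_sub_one (hq : Fintype.card F = q) (k : ℕ) (hk : 1 ≤ k) : ¬ p ∣ q ^ k - 1 := by
  intro h
  obtain ⟨n, hpos, hn⟩ := FiniteField.card F p
  have hp : p.Prime := Fact.out
  have h1 : p ∣ q ^ k := by
    rw [← hq, hn]
    exact dvd_pow (dvd_pow_self p (Nat.pos_iff_ne_zero.1 n.2)) (by omega)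
  have h2 : 1 ≤ q ^ k := Nat.one_le_iff_ne_zero.2 (by
    have : 0 < q := by rw [← hq]; exact Fintype.card_pos
    positivity)
  have h3 : p ∣ 1 := by
    have := (Nat.dvd_sub h1 h)
    rwa [Nat.sub_sub_self h2] at this
  exact hp.one_lt.ne' (Nat.dvd_one.1 h3)

theorem pow_sub_one_zmod {r : ℕ} {q k : ℕ} (hq : 1 ≤ q) : r ∣ q ^ k - 1 ↔ (q : ZMod r) ^ k = 1 := by
  have h2 : 1 ≤ q ^ k := Nat.one_le_pow _ _ hq
  rw [← ZMod.natCast_eq_zero_iff, Nat.cast_sub h2]
  push_cast
  exact sub_eq_zero

theorem order_dvd_iff {r : ℕ} {q k : ℕ} (hq : 1 ≤ q) : r ∣ q ^ k - 1 ↔ orderOf (q : ZMod r) ∣ k := by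
  rw [pow_sub_one_zmod hq, orderOf_dvd_iff_pow_eq_one]

theorem order_one_iff {r : ℕ} [Fact r.Prime] {q : ℕ} (hq : 1 ≤ q) : orderOf (q : ZMod r) = 1 ↔ r ∣ q - 1 := by
  have := order_dvd_iff (r := r) (q := q) (k := 1) hq
  rw [pow_one] at this
  rw [this, Nat.dvd_one]

end Order

section Roots

variable {F : Type*} [Field F] [Fintype F] {q : ℕ}

/-- If `r` is prime to `q-1`, every nonzero element is an `r`-th power. -/
theorem exists_root_of_coprime (hq : Fintype.card F = q) {r : ℕ} (hr : r.Prime) (hc : ¬ r ∣ q - 1)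
    (c : F) : ∃ d : F, d ^ r = c := by
  by_cases hc0 : c = 0
  · exact ⟨0, by rw [hc0, zero_pow hr.ne_zero]⟩
  have hco : Nat.Coprime r (q - 1) := (Nat.Prime.coprime_iff_not_dvd hr).2 hc
  have hq2 : 2 ≤ q := by rw [← hq]; exact Fintype.one_lt_card
  by_cases hq1 : q = 2
  · refine ⟨c, ?_⟩
    have h1 := FiniteField.pow_card_sub_one_eq_one c hc0
    rw [hq, hq1] at h1
    have h2 : c = 1 := by simpa using h1
    rw [h2, one_pow]
  obtain ⟨u, _, hu⟩ := Nat.exists_mul_mod_eq_one_of_coprime hco (by omega)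
  refine ⟨c ^ u, ?_⟩
  rw [← pow_mul, mul_comm]
  have h1 := FiniteField.pow_card_sub_one_eq_one c hc0
  rw [hq] at h1
  rw [← Nat.div_add_mod (r * u) (q - 1), hu, pow_add, pow_mul, h1, one_pow, one_mul, pow_one]

/-- If `r ∣ q - 1` and `c` has no `r`-th root and `c^s = 1` then the `r`-part of `q - 1` divides `s`. -/
theorem rpart_dvd_of_no_root (hq : Fintype.card F = q) {r : ℕ} (hr : r.Prime)
    {c : F} (hc0 : c ≠ 0) (hno : ∀ d : F, d ^ r ≠ c) {s : ℕ} (hs : c ^ s = 1) :
    r ^ padicValNat r (q - 1) ∣ s := by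
  classical
  obtain ⟨ω, hω⟩ := IsCyclic.exists_generator (α := Fˣ)
  obtain ⟨k, hk⟩ := (mem_powers_iff_mem_zpowers.2 (hω (Units.mk0 c hc0)))
  have hk' : ω ^ k = Units.mk0 c hc0 := hk
  have hkc : ((ω : F)) ^ k = c := by
    have := congrArg Units.val hk'
    simpa using this
  have hrk : ¬ r ∣ k := by
    rintro ⟨l, rfl⟩
    apply hno ((ω : F) ^ l)
    rw [← pow_mul, mul_comm]
    exact hkc
  have hord : orderOf ω = q - 1 := by
    rw [orderOf_eq_card_of_forall_mem_zpowers hω, Nat.card_eq_fintype_card, Fintype.card_units, hq]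
  have h1 : ω ^ (k * s) = 1 := by
    apply Units.ext
    simp only [Units.val_pow_eq_pow_val, Units.val_one]
    rw [pow_mul, hkc, hs]
  have h2 : q - 1 ∣ k * s := by
    rw [← hord]
    exact orderOf_dvd_of_pow_eq_one h1
  have h3 : r ^ padicValNat r (q - 1) ∣ k * s := pow_padicValNat_dvd.trans h2
  have hco : Nat.Coprime (r ^ padicValNat r (q - 1)) k :=
    Nat.Coprime.pow_left _ ((Nat.Prime.coprime_iff_not_dvd hr).2 hrk)
  exact hco.dvd_of_dvd_mul_left h3

/-- If `r ∣ q - 1` there is an element with no `r`-th root whose `r`-part power is `1`. -/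
theorem exists_no_root (hq : Fintype.card F = q) {r : ℕ} (hr : r.Prime) (hd : r ∣ q - 1) :
    ∃ c : F, c ≠ 0 ∧ (∀ d : F, d ^ r ≠ c) ∧ c ^ (r ^ padicValNat r (q - 1)) = 1 := by
  classical
  haveI : Fact r.Prime := ⟨hr⟩
  obtain ⟨ω, hω⟩ := IsCyclic.exists_generator (α := Fˣ)
  have hord : orderOf ω = q - 1 := by
    rw [orderOf_eq_card_of_forall_mem_zpowers hω, Nat.card_eq_fintype_card, Fintype.card_units, hq]
  have hq2 : 2 ≤ q := by rw [← hq]; exact Fintype.one_lt_card
  have hq1 : q - 1 ≠ 0 := by omega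
  obtain ⟨a, ha⟩ : ∃ a, a = padicValNat r (q - 1) := ⟨_, rfl⟩
  rw [← ha]
  obtain ⟨t, ht⟩ : r ^ a ∣ q - 1 := by rw [ha]; exact pow_padicValNat_dvd
  have hrt : ¬ r ∣ t := by
    rintro ⟨l, rfl⟩
    have h1 : r ^ (a + 1) ∣ q - 1 := ⟨l, by rw [ht]; ring⟩
    rw [ha] at h1
    exact pow_succ_padicValNat_not_dvd hq1 h1
  refine ⟨(ω : F) ^ t, pow_ne_zero _ ω.ne_zero, ?_, ?_⟩
  · intro d hdc
    by_cases hd0 : d = 0
    · rw [hd0, zero_pow hr.ne_zero] at hdc
      exact (pow_ne_zero _ ω.ne_zero) hdc.symm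
    obtain ⟨l, hl⟩ := (mem_powers_iff_mem_zpowers.2 (hω (Units.mk0 d hd0)))
    have hl' : ω ^ l = Units.mk0 d hd0 := hl
    have hld : (ω : F) ^ l = d := by
      have := congrArg Units.val hl'
      simpa using this
    have h1 : ω ^ (l * r) = ω ^ t := by
      apply Units.ext
      simp only [Units.val_pow_eq_pow_val]
      rw [pow_mul, hld, hdc]
    have h2 : (l * r) ≡ t [MOD orderOf ω] := pow_inj_mod.1 h1
    rw [hord] at h2
    have h3 : (l * r) ≡ t [MOD r] := Nat.ModEq.of_dvd hd h2
    have h4 : t ≡ 0 [MOD r] := by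
      refine h3.symm.trans ?_
      exact (Nat.modEq_zero_iff_dvd.2 (dvd_mul_left _ _))
    exact hrt (Nat.modEq_zero_iff_dvd.1 h4)
  · rw [← pow_mul, mul_comm, ← ht]
    have h1 : (ω : F) ^ (q - 1) = 1 := FiniteField.pow_card_sub_one_eq_one _ ω.ne_zero |> fun h => by rwa [hq] at h
    exact h1

end Roots

section Model

variable {F : Type*} [Field F] {V : Type u} [AddCommGroup V] [Module F V] [FiniteDimensional F V]

/-- A map annihilated by a given irreducible polynomial exists when the degree divides the dimension. -/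
theorem exists_irr_model {g : F[X]} (hg : Irreducible g) (s : ℕ) (hn : finrank F V = s * g.natDegree) :
    ∃ y : V →ₗ[F] V, aeval y g = 0 := by
  classical
  haveI : Fact (Irreducible g) := ⟨hg⟩
  obtain ⟨α, hα⟩ : ∃ α : AdjoinRoot g, α = AdjoinRoot.root g := ⟨_, rfl⟩
  have hfinL : finrank F (AdjoinRoot g) = g.natDegree := by
    rw [(AdjoinRoot.powerBasis hg.ne_zero).finrank, AdjoinRoot.powerBasis_dim]
  haveI : FiniteDimensional F (AdjoinRoot g) := (AdjoinRoot.powerBasis hg.ne_zero).finite
  let V₁ := (Fin s → AdjoinRoot g)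
  have hfin₁ : finrank F V₁ = finrank F V := by
    rw [hn, Module.finrank_pi_fintype]
    simp [hfinL]
  let ψ : V ≃ₗ[F] V₁ := (LinearEquiv.ofFinrankEq _ _ hfin₁).symm
  let A : V₁ →ₗ[F] V₁ :=
    { toFun := fun a => α • a
      map_add' := fun a b => smul_add _ _ _
      map_smul' := fun c a => smul_comm _ _ _ }
  let y : V →ₗ[F] V := ψ.symm.toLinearMap ∘ₗ A ∘ₗ ψ.toLinearMap
  refine ⟨y, ?_⟩
  have hA : ∀ (h : F[X]) (a : V₁), aeval A h a = (aeval α h) • a := by
    intro h
    induction h using Polynomial.induction_on' with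
    | add p q hp hq =>
      intro a
      rw [map_add, map_add, LinearMap.add_apply, hp, hq, add_smul]
    | monomial n c =>
      intro a
      rw [aeval_monomial, aeval_monomial]
      have hpow : ∀ (n : ℕ) (a : V₁), (A ^ n) a = α ^ n • a := by
        intro n a
        induction n with
        | zero => simp
        | succ n ih =>
          rw [pow_succ', Module.End.mul_apply, ih, pow_succ', mul_smul]
          rfl
      rw [Module.End.mul_apply, hpow, Module.algebraMap_end_apply, mul_smul]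
      exact (algebraMap_smul (AdjoinRoot g) c _).symm
  have hy : ∀ (h : F[X]) (v : V), aeval y h v = ψ.symm (aeval A h (ψ v)) := by
    intro h
    induction h using Polynomial.induction_on' with
    | add p q hp hq =>
      intro v
      simp only [map_add, LinearMap.add_apply, hp, hq]
    | monomial n c =>
      intro v
      rw [aeval_monomial, aeval_monomial]
      have hpow : ∀ (n : ℕ) (v : V), (y ^ n) v = ψ.symm ((A ^ n) (ψ v)) := by
        intro n v
        induction n with
        | zero => simp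
        | succ n ih =>
          rw [pow_succ', Module.End.mul_apply, ih, pow_succ', Module.End.mul_apply]
          simp [y]
      rw [Module.End.mul_apply, Module.End.mul_apply, hpow, Module.algebraMap_end_apply, Module.algebraMap_end_apply]
      simp
  ext v
  rw [hy, hA]
  have h0 : aeval α g = 0 := by
    rw [hα, AdjoinRoot.aeval_eq, AdjoinRoot.mk_self]
  rw [h0, zero_smul, map_zero]
  rfl

end Model

end Cfsg.Agent.Lib.Geo
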