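import Mathlib
import Cfsg.Agent.Lib.Geo.ElusCount

set_option autoImplicit false

/-! Bridging special linear matrices and linear maps, and the prime order reduction toolkit:
from `y^r = c` to either `y/d` of order dividing `r` or an irreducible binomial `X^r - c`. -/

namespace Cfsg.Agent.Lib.Geo

open Polynomial Module

universe u

section Bridge

variable {F : Type*} [Field F] {n : ℕ}

theorem sl_lin_pow (x : Matrix.SpecialLinearGroup (Fin n) F) (r : ℕ) :
    Matrix.toLin' ((x ^ r : Matrix.SpecialLinearGroup (Fin n) F) : Matrix (Fin n) (Fin n) F) =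
      (Matrix.toLin' (x : Matrix (Fin n) (Fin n) F)) ^ r := by
  rw [Matrix.SpecialLinearGroup.coe_pow, Matrix.toLin'_pow]

theorem sl_lin_det (x : Matrix.SpecialLinearGroup (Fin n) F) :
    LinearMap.det (Matrix.toLin' (x : Matrix (Fin n) (Fin n) F)) = 1 := by
  rw [LinearMap.det_toLin']
  exact x.2

theorem sl_exists_of_det (y : (Fin n → F) →ₗ[F] (Fin n → F)) (h : LinearMap.det y = 1) :
    ∃ x : Matrix.SpecialLinearGroup (Fin n) F, Matrix.toLin' (x : Matrix (Fin n) (Fin n) F) = y := by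
  refine ⟨⟨LinearMap.toMatrix' y, ?_⟩, ?_⟩
  · rw [LinearMap.det_toMatrix', h]
  · exact Matrix.toLin'_toMatrix' y

theorem lin_smul_one (c : F) : Matrix.toLin' (c • (1 : Matrix (Fin n) (Fin n) F)) = c • (1 : Module.End F (Fin n → F)) := by
  rw [map_smul, Matrix.toLin'_one]
  rfl

end Bridge

section Reduction

variable {F : Type*} [Field F] {V : Type u} [AddCommGroup V] [Module F V]

/-- `y^r = c • 1` with `c = d^r`: the scaled map has order dividing `r`. -/
theorem scaled_pow (y : V →ₗ[F] V) {r : ℕ} {d : F} (hd : d ≠ 0) (hy : y ^ r = (d ^ r) • (1 : Module.End F V)) :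
    (d⁻¹ • y) ^ r = 1 := by
  rw [_root_.smul_pow, hy, smul_smul, ← mul_pow, inv_mul_cancel₀ hd, one_pow, one_smul]

/-- Invariance for a nonzero scalar multiple. -/
theorem inv_scaled (y : V →ₗ[F] V) {d : F} (hd : d ≠ 0) (W : Submodule F V) (h : ∀ v ∈ W, (d⁻¹ • y) v ∈ W) :
    ∀ v ∈ W, y v ∈ W := by
  intro v hv
  have h1 := W.smul_mem d (h v hv)
  rwa [LinearMap.smul_apply, smul_smul, mul_inv_cancel₀ hd, one_smul] at h1

theorem inv_scaled' (y : V →ₗ[F] V) (d : F) (W : Submodule F V) (h : ∀ v ∈ W, y v ∈ W) :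
    ∀ v ∈ W, (d • y) v ∈ W := by
  intro v hv
  exact W.smul_mem d (h v hv)

theorem binom_aeval (y : V →ₗ[F] V) {r : ℕ} {c : F} (hy : y ^ r = c • (1 : Module.End F V)) :
    aeval y (X ^ r - C c : F[X]) = 0 := by
  rw [map_sub, map_pow, aeval_X, aeval_C, hy, Module.algebraMap_end_eq_smul_id]
  rw [sub_eq_zero]
  rfl

theorem binom_monic {r : ℕ} (hr : 1 ≤ r) (c : F) : (X ^ r - C c : F[X]).Monic :=
  monic_X_pow_sub_C c (by omega)

theorem binom_natDegree {r : ℕ} (hr : 1 ≤ r) (c : F) : (X ^ r - C c : F[X]).natDegree = r :=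
  natDegree_X_pow_sub_C

theorem binom_coeff_zero {r : ℕ} (hr : 1 ≤ r) (c : F) : (X ^ r - C c : F[X]).coeff 0 = -c := by
  rw [coeff_sub, coeff_X_pow, coeff_C_zero, if_neg (by omega), zero_sub]

/-- Model with `y^r = c`. -/
theorem exists_binom_model [FiniteDimensional F V] {r : ℕ} (hr : r.Prime) {c : F} (hno : ∀ d : F, d ^ r ≠ c)
    (s : ℕ) (hn : finrank F V = r * s) :
    ∃ y : V →ₗ[F] V, y ^ r = c • (1 : Module.End F V) ∧ LinearMap.det y = ((-1) ^ r * (-c)) ^ s := by
  have hg : Irreducible (X ^ r - C c : F[X]) := X_pow_sub_C_irreducible_of_prime hr hno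
  have hd := binom_natDegree hr.one_le c
  obtain ⟨y, hy⟩ := exists_irr_model hg s (by rw [hd, hn, mul_comm])
  refine ⟨y, ?_, ?_⟩
  · rw [map_sub, map_pow, aeval_X, aeval_C, sub_eq_zero, Module.algebraMap_end_eq_smul_id] at hy
    exact hy
  · have h1 := irr_det y hg hy (binom_monic hr.one_le c)
    rw [hd, binom_coeff_zero hr.one_le, hn, Nat.mul_div_cancel_left _ hr.pos] at h1
    exact h1

/-- With `c` without `r`-th root, invariant subspaces have dimension divisible by `r`. -/
theorem binom_dvd [FiniteDimensional F V] {r : ℕ} (hr : r.Prime) {c : F} (hno : ∀ d : F, d ^ r ≠ c)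
    (y : V →ₗ[F] V) (hy : y ^ r = c • (1 : Module.End F V)) (W : Submodule F V) (hW : ∀ v ∈ W, y v ∈ W) :
    r ∣ finrank F W := by
  have hg : Irreducible (X ^ r - C c : F[X]) := X_pow_sub_C_irreducible_of_prime hr hno
  have h1 := irr_dvd_of_inv y hg (binom_aeval y hy) W hW
  rwa [binom_natDegree hr.one_le] at h1

theorem binom_dvd_finrank [FiniteDimensional F V] {r : ℕ} (hr : r.Prime) {c : F} (hno : ∀ d : F, d ^ r ≠ c)
    (y : V →ₗ[F] V) (hy : y ^ r = c • (1 : Module.End F V)) : r ∣ finrank F V := by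
  have hg : Irreducible (X ^ r - C c : F[X]) := X_pow_sub_C_irreducible_of_prime hr hno
  have h1 := irr_dvd_finrank y hg (binom_aeval y hy)
  rwa [binom_natDegree hr.one_le] at h1

theorem binom_det [FiniteDimensional F V] {r : ℕ} (hr : r.Prime) {c : F} (hno : ∀ d : F, d ^ r ≠ c)
    (y : V →ₗ[F] V) (hy : y ^ r = c • (1 : Module.End F V)) :
    LinearMap.det y = ((-1) ^ r * (-c)) ^ (finrank F V / r) := by
  have hg : Irreducible (X ^ r - C c : F[X]) := X_pow_sub_C_irreducible_of_prime hr hno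
  have h1 := irr_det y hg (binom_aeval y hy) (binom_monic hr.one_le c)
  rwa [binom_natDegree hr.one_le, binom_coeff_zero hr.one_le] at h1

theorem binom_exists_inv [FiniteDimensional F V] {r : ℕ} (hr : r.Prime) {c : F} (hno : ∀ d : F, d ^ r ≠ c)
    (y : V →ₗ[F] V) (hy : y ^ r = c • (1 : Module.End F V)) (e : ℕ) (he : e * r ≤ finrank F V) :
    ∃ W : Submodule F V, (∀ v ∈ W, y v ∈ W) ∧ finrank F W = e * r := by
  have hg : Irreducible (X ^ r - C c : F[X]) := X_pow_sub_C_irreducible_of_prime hr hno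
  have h1 := irr_exists_inv y hg (binom_aeval y hy) e (by rwa [binom_natDegree hr.one_le])
  rwa [binom_natDegree hr.one_le] at h1

end Reduction

section Field

variable {F : Type*} [Field F] [Fintype F] {q : ℕ}

/-- In the binomial case the sign in the determinant formula can be removed. -/
theorem binom_sign_no_root (hq : Fintype.card F = q) {r : ℕ} (hr : r.Prime) {c : F} (hno : ∀ d : F, d ^ r ≠ c)
    (hc0 : c ≠ 0) {s : ℕ} (h : ((-1) ^ r * (-c)) ^ s = 1) (h2 : r = 2 → q % 4 = 1) :
    r ^ padicValNat r (q - 1) ∣ s := by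
  by_cases hr2 : r = 2
  · subst hr2
    have h1 : IsSquare (-1 : F) := by
      rw [FiniteField.isSquare_neg_one_iff, hq, h2 rfl]
      decide
    obtain ⟨t, ht⟩ := h1
    have ht0 : t ≠ 0 := by
      rintro rfl
      simp at ht
    have hno' : ∀ d : F, d ^ 2 ≠ -c := by
      intro d hd
      apply hno (d * t)
      rw [mul_pow, hd, pow_two t, ← ht]
      ring
    have h3 : (-c) ^ s = 1 := by
      have : ((-1 : F) ^ 2 * (-c)) = -c := by ring
      rwa [this] at h
    exact rpart_dvd_of_no_root hq Nat.prime_two (neg_ne_zero.2 hc0) hno' h3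
  · have hodd : Odd r := hr.odd_of_ne_two hr2
    have h3 : c ^ s = 1 := by
      have : ((-1 : F) ^ r * (-c)) = c := by
        rw [hodd.neg_one_pow]; ring
      rwa [this] at h
    exact rpart_dvd_of_no_root hq hr hc0 hno h3

/-- Element with `d^r = 1`, `r ∤ q-1`, equals one. -/
theorem eq_one_of_pow_coprime (hq : Fintype.card F = q) {r : ℕ} (hr : r.Prime) (hc : ¬ r ∣ q - 1)
    {d : F} (hd : d ^ r = 1) : d = 1 := by
  have hd0 : d ≠ 0 := by
    rintro rfl
    rw [zero_pow hr.ne_zero] at hd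
    exact zero_ne_one hd
  have h1 : d ^ (q - 1) = 1 := by
    have := FiniteField.pow_card_sub_one_eq_one d hd0
    rwa [hq] at this
  have hco : Nat.Coprime r (q - 1) := (Nat.Prime.coprime_iff_not_dvd hr).2 hc
  have h2 := pow_gcd_eq_one.2 ⟨hd, h1⟩
  rw [hco] at h2
  simpa using h2

end Field

end Cfsg.Agent.Lib.Geo
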