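import Mathlib
import Cfsg.Agent.Lib.Geo.ElusSL

set_option autoImplicit false

/-! `q`-factorials, symmetry of the number of subspaces, and the number of flags of type
`(m, n - m)`. -/

namespace Cfsg.Agent.Lib.Geo

open Polynomial Module

universe u

/-- `∏_{1 ≤ l ≤ t} (q^l - 1)`. -/
def qfact (q t : ℕ) : ℕ := ∏ l ∈ Finset.range t, (q ^ (l + 1) - 1)

theorem qfact_pos {q : ℕ} (hq : 2 ≤ q) (t : ℕ) : 0 < qfact q t := by
  apply Finset.prod_pos
  intro l _
  have : 2 ^ (l + 1) ≤ q ^ (l + 1) := Nat.pow_le_pow_left hq _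
  have h2 : 2 ≤ 2 ^ (l + 1) := by
    calc 2 = 2 ^ 1 := by norm_num
      _ ≤ 2 ^ (l + 1) := Nat.pow_le_pow_right (by norm_num) (by omega)
  omega

theorem prod_desc_qfact (q n : ℕ) : ∀ k, k ≤ n →
    (∏ i : Fin k, (q ^ (n - i) - 1)) * qfact q (n - k) = qfact q n := by
  intro k
  induction k with
  | zero => intro _; simp
  | succ k ih =>
    intro hk
    rw [Fin.prod_univ_castSucc]
    simp only [Fin.val_castSucc, Fin.val_last]
    have h1 : n - k = (n - (k + 1)) + 1 := by omega
    have h2 : qfact q (n - k) = qfact q (n - (k + 1)) * (q ^ (n - k) - 1) := by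
      rw [h1]
      simp only [qfact, Finset.prod_range_succ]
    rw [← ih (by omega), h2]
    ring

section Count

variable {K : Type*} [Field K] [Fintype K] {V : Type u} [AddCommGroup V] [Module K V] [FiniteDimensional K V]

theorem card_subspaces_qfact (m : ℕ) (hm : m ≤ finrank K V) :
    Nat.card {W : Submodule K V // finrank K W = m} * qfact (Fintype.card K) m * qfact (Fintype.card K) (finrank K V - m) =
      qfact (Fintype.card K) (finrank K V) := by
  have h1 := card_subspaces_mul' (K := K) (V := V) m hm
  have h2 := prod_desc_qfact (Fintype.card K) (finrank K V) m hm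
  have h3 := prod_desc_qfact (Fintype.card K) m m le_rfl
  rw [Nat.sub_self] at h3
  have h4 : qfact (Fintype.card K) 0 = 1 := by simp [qfact]
  rw [h4, mul_one] at h3
  rw [← h2, ← h1, ← h3]

theorem card_subspaces_symm (m : ℕ) (hm : m ≤ finrank K V) :
    Nat.card {W : Submodule K V // finrank K W = finrank K V - m} = Nat.card {W : Submodule K V // finrank K W = m} := by
  have hq : 2 ≤ Fintype.card K := Fintype.one_lt_card
  have h1 := card_subspaces_qfact (K := K) (V := V) m hm
  have h2 := card_subspaces_qfact (K := K) (V := V) (finrank K V - m) (by omega)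
  have h3 : finrank K V - (finrank K V - m) = m := by omega
  rw [h3] at h2
  have h4 := qfact_pos hq m
  have h5 := qfact_pos hq (finrank K V - m)
  have h6 : 0 < qfact (Fintype.card K) (finrank K V - m) * qfact (Fintype.card K) m := Nat.mul_pos h5 h4
  apply Nat.eq_of_mul_eq_mul_right h6
  rw [← mul_assoc, h2, mul_comm (qfact _ (finrank K V - m)), ← mul_assoc, h1]

/-- The count of subspaces depends only on the dimension. -/
theorem card_subspaces_congr {V' : Type*} [AddCommGroup V'] [Module K V'] [FiniteDimensional K V']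
    (h : finrank K V = finrank K V') (m : ℕ) :
    Nat.card {W : Submodule K V // finrank K W = m} = Nat.card {W : Submodule K V' // finrank K W = m} := by
  have e : V ≃ₗ[K] V' := LinearEquiv.ofFinrankEq _ _ h
  apply Nat.card_congr
  refine
    { toFun := fun W => ⟨W.1.map e.toLinearMap, ?_⟩
      invFun := fun W => ⟨W.1.map e.symm.toLinearMap, ?_⟩
      left_inv := ?_
      right_inv := ?_ }
  · rw [LinearEquiv.finrank_map_eq]; exact W.2
  · rw [LinearEquiv.finrank_map_eq]; exact W.2
  · intro W
    apply Subtype.ext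
    ext v
    simp
  · intro W
    apply Subtype.ext
    ext v
    simp

/-- The number of flags `U ≤ W` with given dimensions. -/
theorem card_flags (m k : ℕ) :
    Nat.card {P : Submodule K V × Submodule K V // P.1 ≤ P.2 ∧ finrank K P.1 = m ∧ finrank K P.2 = k} =
      Nat.card {W : Submodule K V // finrank K W = k} *
        Nat.card {W : Submodule K (Fin k → K) // finrank K W = m} := by
  classical
  haveI : Finite (Submodule K V) := by
    haveI : Finite V := Module.finite_of_finite K
    exact Finite.of_injective (fun W => (W : Set V)) SetLike.coe_injective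
  haveI : Fintype {W : Submodule K V // finrank K W = k} := Fintype.ofFinite _
  let S := {P : Submodule K V × Submodule K V // P.1 ≤ P.2 ∧ finrank K P.1 = m ∧ finrank K P.2 = k}
  let f : S → {W : Submodule K V // finrank K W = k} := fun P => ⟨P.1.2, P.2.2.2⟩
  have hfib : ∀ W : {W : Submodule K V // finrank K W = k}, Nat.card {P : S // f P = W} =
      Nat.card {U : Submodule K (Fin k → K) // finrank K U = m} := by
    intro W
    rw [← card_subspaces_congr (K := K) (V := W.1) (V' := Fin k → K) (by rw [W.2]; simp) m]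
    apply Nat.card_congr
    refine
      { toFun := fun P => ⟨P.1.1.1.comap W.1.subtype, ?_⟩
        invFun := fun U => ⟨⟨(U.1.map W.1.subtype, W.1), ?_⟩, ?_⟩
        left_inv := ?_
        right_inv := ?_ }
    · have h1 : P.1.1.2 = W.1 := congrArg Subtype.val P.2
      have h2 : P.1.1.1 ≤ W.1 := h1 ▸ P.1.2.1
      have h3 : (P.1.1.1.comap W.1.subtype).map W.1.subtype = P.1.1.1 := by
        rw [Submodule.map_comap_subtype]
        exact inf_eq_right.2 h2
      have h4 := Submodule.finrank_map_subtype_eq W.1 (P.1.1.1.comap W.1.subtype)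
      rw [h3, P.1.2.2.1] at h4
      exact h4.symm
    · refine ⟨Submodule.map_subtype_le _ _, ?_, W.2⟩
      show finrank K (U.1.map W.1.subtype) = m
      rw [Submodule.finrank_map_subtype_eq]
      exact U.2
    · rfl
    · intro P
      apply Subtype.ext
      apply Subtype.ext
      have h1 : P.1.1.2 = W.1 := congrArg Subtype.val P.2
      have h2 : P.1.1.1 ≤ W.1 := h1 ▸ P.1.2.1
      apply Prod.ext
      · show (P.1.1.1.comap W.1.subtype).map W.1.subtype = P.1.1.1
        rw [Submodule.map_comap_subtype]
        exact inf_eq_right.2 h2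
      · exact h1.symm
    · intro U
      apply Subtype.ext
      show (U.1.map W.1.subtype).comap W.1.subtype = U.1
      exact Submodule.comap_map_eq_of_injective (Submodule.injective_subtype _) _
  have h2 := Nat.card_congr (Equiv.sigmaFiberEquiv f)
  rw [Nat.card_sigma] at h2
  rw [← h2, Finset.sum_congr rfl (fun W _ => hfib W), Finset.sum_const, Finset.card_univ, smul_eq_mul]
  simp only [Nat.card_eq_fintype_card]

end Count

section Flag

variable {F : Type*} [Field F] {V : Type u} [AddCommGroup V] [Module F V]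

theorem flag_map (y : V →ₗ[F] V) (W : Submodule F V) (hW : ∀ v ∈ W, y v ∈ W) (U' : Submodule F W)
    (hU' : ∀ v ∈ U', (y.restrict hW) v ∈ U') : ∀ v ∈ U'.map W.subtype, y v ∈ U'.map W.subtype := by
  rintro _ ⟨v, hv, rfl⟩
  exact ⟨_, hU' v hv, rfl⟩

theorem restrict_pow_scalar (y : V →ₗ[F] V) (W : Submodule F V) (hW : ∀ v ∈ W, y v ∈ W) {r : ℕ} {c : F}
    (hy : y ^ r = c • (1 : Module.End F V)) : (y.restrict hW) ^ r = c • (1 : Module.End F W) := by
  ext v
  rw [Module.End.pow_restrict]
  simp [hy]

theorem restrict_pow_one (y : V →ₗ[F] V) (W : Submodule F V) (hW : ∀ v ∈ W, y v ∈ W) {r : ℕ}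
    (hy : y ^ r = 1) : (y.restrict hW) ^ r = 1 := by
  ext v
  rw [Module.End.pow_restrict]
  simp [hy]

end Flag

theorem mod_sub_of_le {i n m : ℕ} (hi : 0 < i) (hmn : m ≤ n) (h : m % i ≤ n % i) :
    (n - m) % i = n % i - m % i := by
  have h1 := Nat.div_add_mod n i
  have h2 := Nat.div_add_mod m i
  have h3 : m / i ≤ n / i := Nat.div_le_div_right hmn
  have h4 : n - m = i * (n / i - m / i) + (n % i - m % i) := by
    rw [Nat.mul_sub]
    have h5 : i * (m / i) ≤ i * (n / i) := Nat.mul_le_mul_left _ h3
    omega
  rw [h4, Nat.mul_add_mod, Nat.mod_eq_of_lt]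
  have := Nat.mod_lt n hi
  omega

end Cfsg.Agent.Lib.Geo
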