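import Mathlib
import Cfsg.Agent.Lib.Geo.ElusFlags

set_option autoImplicit false

/-! The Jordan type of a nilpotent map: decomposition into cyclic parts, models with a prescribed
type, and the Krull–Schmidt property via the dimensions of the kernels of powers. -/

namespace Cfsg.Agent.Lib.Geo

open Polynomial Module

universe u v

section Cyclic

variable {F : Type v} [Field F] {V : Type u} [AddCommGroup V] [Module F V] [FiniteDimensional F V]

/-- The triangularity argument for the cyclic part. -/
theorem cyc_coef_zero (N : Module.End F V) (e : ℕ) (he : N ^ (e + 1) = 0) (v : V) (φ : Module.Dual F V)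
    (hφ : φ ((N ^ e) v) ≠ 0) (g : Fin (e + 1) → F) (c : V) (hc : ∑ j, g j • (N ^ (j : ℕ)) v = c)
    (hW : ∀ j : ℕ, j ≤ e → φ ((N ^ j) c) = 0) : ∀ j, g j = 0 := by
  have key : ∀ l : ℕ, ∀ hl : l < e + 1, g ⟨l, hl⟩ = 0 := by
    intro l
    induction l using Nat.strong_induction_on with
    | _ l ih =>
      intro hl
      have h1 := hW (e - l) (by omega)
      rw [← hc, map_sum, map_sum] at h1
      rw [Finset.sum_eq_single (⟨l, hl⟩ : Fin (e + 1))] at h1
      · rw [map_smul, map_smul, ← Module.End.mul_apply, ← pow_add] at h1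
        have h2 : e - l + l = e := by omega
        simp only at h1
        rw [h2, smul_eq_mul] at h1
        exact (mul_eq_zero.1 h1).resolve_right hφ
      · intro j _ hj
        rw [map_smul, map_smul, ← Module.End.mul_apply, ← pow_add]
        by_cases hjl : (j : ℕ) < l
        · rw [ih j hjl j.2]
          simp
        · have h3 : e + 1 ≤ e - l + j := by
            have : (j : ℕ) ≠ l := fun h => hj (Fin.ext h)
            have := j.2
            omega
          have h4 : N ^ (e - l + (j : ℕ)) = 0 := by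
            obtain ⟨t, ht⟩ := Nat.exists_eq_add_of_le h3
            rw [ht, pow_add, he, zero_mul]
          rw [h4]
          simp
      · simp
  intro j
  exact key j j.2

/-- A cyclic subspace of maximal length has an invariant complement. -/
theorem cyclic_compl (N : Module.End F V) (e : ℕ) (he : N ^ (e + 1) = 0) (v : V) (hv : (N ^ e) v ≠ 0) :
    ∃ C W : Submodule F V, IsCompl C W ∧ (∀ u ∈ C, N u ∈ C) ∧ (∀ u ∈ W, N u ∈ W) ∧ finrank F C = e + 1 := by
  classical
  obtain ⟨φ, hφ⟩ : ∃ φ : Module.Dual F V, φ ((N ^ e) v) ≠ 0 := by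
    by_contra hcon
    push Not at hcon
    exact hv ((Module.forall_dual_apply_eq_zero_iff F _).1 hcon)
  let Ψ : V →ₗ[F] (Fin (e + 1) → F) := LinearMap.pi (fun j => φ ∘ₗ (N ^ (j : ℕ)))
  have hΨ : ∀ u, u ∈ LinearMap.ker Ψ ↔ ∀ j : ℕ, j ≤ e → φ ((N ^ j) u) = 0 := by
    intro u
    rw [LinearMap.mem_ker]
    constructor
    · intro h j hj
      have := congrFun h ⟨j, by omega⟩
      simpa [Ψ] using this
    · intro h
      funext j
      exact h j (by have := j.2; omega)
  let gen : Fin (e + 1) → V := fun j => (N ^ (j : ℕ)) v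
  have hgen : LinearIndependent F gen := by
    rw [Fintype.linearIndependent_iff]
    intro g hg
    exact cyc_coef_zero N e he v φ hφ g 0 hg (by simp)
  obtain ⟨C, hC⟩ : ∃ C, C = Submodule.span F (Set.range gen) := ⟨_, rfl⟩
  have hCfin : finrank F C = e + 1 := by
    rw [hC, finrank_span_eq_card hgen, Fintype.card_fin]
  have hdisj : C ⊓ LinearMap.ker Ψ = ⊥ := by
    rw [eq_bot_iff]
    rintro c ⟨hc1, hc2⟩
    rw [SetLike.mem_coe, hC] at hc1
    obtain ⟨g, hg⟩ := (Submodule.mem_span_range_iff_exists_fun F).1 hc1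
    have h1 := cyc_coef_zero N e he v φ hφ g c hg ((hΨ c).1 hc2)
    rw [Submodule.mem_bot, ← hg]
    simp [h1]
  have hW2 : finrank F V ≤ finrank F (LinearMap.ker Ψ) + (e + 1) := by
    have h1 := LinearMap.finrank_range_add_finrank_ker Ψ
    have h2 : finrank F (LinearMap.range Ψ) ≤ e + 1 := by
      have := Submodule.finrank_le (LinearMap.range Ψ)
      simpa using this
    omega
  have htop : C ⊔ LinearMap.ker Ψ = ⊤ := by
    apply Submodule.eq_top_of_finrank_eq
    apply le_antisymm (Submodule.finrank_le _)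
    have h1 := Submodule.finrank_sup_add_finrank_inf_eq C (LinearMap.ker Ψ)
    rw [hdisj, finrank_bot] at h1
    omega
  refine ⟨C, LinearMap.ker Ψ, ⟨disjoint_iff.2 hdisj, codisjoint_iff.2 htop⟩, ?_, ?_, hCfin⟩
  · intro u hu
    rw [hC] at hu ⊢
    induction hu using Submodule.span_induction with
    | mem x hx =>
      obtain ⟨j, rfl⟩ := hx
      show N ((N ^ (j : ℕ)) v) ∈ _
      rw [← Module.End.mul_apply, ← pow_succ']
      by_cases hj : (j : ℕ) + 1 < e + 1
      · exact Submodule.subset_span ⟨⟨(j : ℕ) + 1, hj⟩, rfl⟩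
      · have h1 : (j : ℕ) + 1 = e + 1 := by have := j.2; omega
        rw [h1, he]
        exact Submodule.zero_mem _
    | zero => simp
    | add x y _ _ hx hy =>
      rw [map_add]
      exact Submodule.add_mem _ hx hy
    | smul a x _ hx =>
      rw [map_smul]
      exact Submodule.smul_mem _ _ hx
  · intro u hu
    rw [hΨ] at hu ⊢
    intro j hj
    rw [← Module.End.mul_apply, ← pow_succ]
    by_cases hj2 : j + 1 ≤ e
    · exact hu _ hj2
    · have h1 : j + 1 = e + 1 := by omega
      rw [h1, he]
      simp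

/-- Lifting a complementary pair in a summand. -/
theorem compl_lift {C W : Submodule F V} (h : IsCompl C W) (U' W' : Submodule F W) (h' : IsCompl U' W') :
    IsCompl (C ⊔ U'.map W.subtype) (W'.map W.subtype) ∧
      finrank F (C ⊔ U'.map W.subtype : Submodule F V) = finrank F C + finrank F U' := by
  have hsup : (C ⊔ U'.map W.subtype) ⊔ W'.map W.subtype = ⊤ := by
    rw [sup_assoc, ← Submodule.map_sup, h'.sup_eq_top, Submodule.map_top, Submodule.range_subtype, h.sup_eq_top]
  have hd1 : finrank F C + finrank F W = finrank F V := by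
    have := Submodule.finrank_sup_add_finrank_inf_eq C W
    rw [h.sup_eq_top, h.inf_eq_bot, finrank_top, finrank_bot] at this
    omega
  have hd2 : finrank F U' + finrank F W' = finrank F W := by
    have := Submodule.finrank_sup_add_finrank_inf_eq U' W'
    rw [h'.sup_eq_top, h'.inf_eq_bot, finrank_top, finrank_bot] at this
    omega
  have h1 := Submodule.finrank_sup_add_finrank_inf_eq (C ⊔ U'.map W.subtype) (W'.map W.subtype)
  rw [hsup, finrank_top, Submodule.finrank_map_subtype_eq] at h1
  have h2 := Submodule.finrank_add_le_finrank_add_finrank C (U'.map W.subtype)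
  rw [Submodule.finrank_map_subtype_eq] at h2
  have h3 : finrank F ((C ⊔ U'.map W.subtype) ⊓ W'.map W.subtype : Submodule F V) = 0 := by omega
  refine ⟨⟨disjoint_iff.2 (Submodule.finrank_eq_zero.1 h3), codisjoint_iff.2 hsup⟩, by omega⟩

/-- Decomposition of a nilpotent map. -/
theorem nil_decomp (e : ℕ) : ∀ (d : ℕ) (V : Type u) [AddCommGroup V] [Module F V] [FiniteDimensional F V]
    (N : Module.End F V), finrank F V = d → N ^ e = 0 →
    ∃ μ : Multiset ℕ, (∀ a ∈ μ, 0 < a ∧ a ≤ e) ∧ μ.sum = d ∧
      ∀ ν, ν ≤ μ → ∃ U W : Submodule F V, IsCompl U W ∧ (∀ u ∈ U, N u ∈ U) ∧ (∀ u ∈ W, N u ∈ W) ∧ finrank F U = ν.sum := by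
  intro d
  induction d using Nat.strong_induction_on with
  | _ d ih =>
    intro V _ _ _ N hd hN
    classical
    by_cases hd0 : d = 0
    · refine ⟨0, by simp, by simp [hd0], ?_⟩
      intro ν hν
      have h0 : ν = 0 := le_antisymm hν (Multiset.zero_le _)
      refine ⟨⊥, ⊤, isCompl_bot_top, by simp, by simp, by simp [h0]⟩
    haveI : Nontrivial V := by
      apply Module.nontrivial_of_finrank_pos (R := F)
      omega
    obtain ⟨hex⟩ : Nonempty (∃ k, N ^ k = 0) := ⟨⟨e, hN⟩⟩
    obtain ⟨k, hk⟩ : ∃ k, N ^ k = 0 := hex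
    have hfind := Nat.find_spec (⟨k, hk⟩ : ∃ k, N ^ k = 0)
    have hmin := fun m => Nat.find_min (⟨k, hk⟩ : ∃ k, N ^ k = 0) (m := m)
    obtain ⟨e₀, he₀⟩ : ∃ e₀, e₀ = Nat.find (⟨k, hk⟩ : ∃ k, N ^ k = 0) := ⟨_, rfl⟩
    rw [← he₀] at hfind hmin
    have hpos : e₀ ≠ 0 := by
      rintro rfl
      rw [pow_zero] at hfind
      exact one_ne_zero hfind
    obtain ⟨e', rfl⟩ := Nat.exists_eq_succ_of_ne_zero hpos
    have hlee : e' + 1 ≤ e := by
      by_contra hcon
      exact hmin e (by omega) hN
    have hne : N ^ e' ≠ 0 := hmin e' (by omega)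
    obtain ⟨v, hv⟩ : ∃ v, (N ^ e') v ≠ 0 := by
      by_contra hcon
      push Not at hcon
      exact hne (LinearMap.ext hcon)
    obtain ⟨C, W, hCW, hC1, hW1, hC2⟩ := cyclic_compl N e' hfind v hv
    have hd1 : finrank F C + finrank F W = d := by
      have := Submodule.finrank_sup_add_finrank_inf_eq C W
      rw [hCW.sup_eq_top, hCW.inf_eq_bot, finrank_top, finrank_bot] at this
      omega
    have hpow : (N.restrict hW1) ^ e = 0 := by
      ext u
      rw [Module.End.pow_restrict]
      simp [hN]
    obtain ⟨μ₀, hμ1, hμ2, hμ3⟩ := ih (finrank F W) (by omega) W (N.restrict hW1) rfl hpow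
    have hinvmap : ∀ S : Submodule F W, (∀ u ∈ S, (N.restrict hW1) u ∈ S) → ∀ u ∈ S.map W.subtype, N u ∈ S.map W.subtype := by
      intro S hS
      exact flag_map N W hW1 S hS
    have hinvsup : ∀ S : Submodule F V, (∀ u ∈ S, N u ∈ S) → ∀ u ∈ C ⊔ S, N u ∈ C ⊔ S := by
      intro S hS u hu
      obtain ⟨a, ha, b, hb, rfl⟩ := Submodule.mem_sup.1 hu
      rw [map_add]
      exact Submodule.add_mem_sup (hC1 a ha) (hS b hb)
    refine ⟨(e' + 1) ::ₘ μ₀, ?_, ?_, ?_⟩
    · intro a ha
      rcases Multiset.mem_cons.1 ha with rfl | ha'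
      · exact ⟨by omega, hlee⟩
      · exact hμ1 a ha'
    · rw [Multiset.sum_cons, hμ2]
      omega
    · intro ν hν
      by_cases hmem : (e' + 1) ∈ ν
      · obtain ⟨ν', rfl⟩ := Multiset.exists_cons_of_mem hmem
        have hν' : ν' ≤ μ₀ := (Multiset.cons_le_cons_iff _).1 hν
        obtain ⟨U', W', h1, h2, h3, h4⟩ := hμ3 ν' hν'
        obtain ⟨h5, h6⟩ := compl_lift hCW U' W' h1
        refine ⟨C ⊔ U'.map W.subtype, W'.map W.subtype, h5, ?_, hinvmap W' h3, ?_⟩
        · exact hinvsup _ (hinvmap U' h2)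
        · rw [h6, hC2, h4, Multiset.sum_cons]
      · have hν' : ν ≤ μ₀ := (Multiset.le_cons_of_notMem hmem).1 hν
        obtain ⟨U', W', h1, h2, h3, h4⟩ := hμ3 ν hν'
        obtain ⟨h5, _⟩ := compl_lift hCW W' U' h1.symm
        refine ⟨U'.map W.subtype, C ⊔ W'.map W.subtype, h5.symm, hinvmap U' h2, ?_, ?_⟩
        · exact hinvsup _ (hinvmap W' h3)
        · rw [Submodule.finrank_map_subtype_eq, h4]

end Cyclic

section KernelDims

variable {F : Type v} [Field F] {V : Type u} [AddCommGroup V] [Module F V] [FiniteDimensional F V]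

theorem finrank_comap_eq (N : Module.End F V) (S : Submodule F V) :
    finrank F (S.comap N) = finrank F (S ⊓ LinearMap.range N : Submodule F V) + finrank F (LinearMap.ker N) := by
  have h1 := LinearMap.finrank_range_add_finrank_ker (N.domRestrict (S.comap N))
  have h2 : LinearMap.range (N.domRestrict (S.comap N)) = S ⊓ LinearMap.range N := by
    rw [LinearMap.range_domRestrict, Submodule.map_comap_eq, inf_comm]
  have h3 : finrank F (LinearMap.ker (N.domRestrict (S.comap N))) = finrank F (LinearMap.ker N) := by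
    rw [LinearMap.ker_domRestrict]
    have h4 : (LinearMap.ker N ≤ S.comap N) := fun x hx => by
      rw [Submodule.mem_comap, LinearMap.mem_ker.1 hx]
      exact S.zero_mem
    have h5 := Submodule.finrank_map_subtype_eq (S.comap N) ((LinearMap.ker N).comap (S.comap N).subtype)
    rw [Submodule.map_comap_subtype, inf_eq_right.2 h4] at h5
    exact h5.symm
  rw [h2, h3] at h1
  omega

theorem ker_pow_succ_comap (N : Module.End F V) (k : ℕ) :
    LinearMap.ker (N ^ (k + 1)) = (LinearMap.ker (N ^ k)).comap N := by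
  ext v
  rw [LinearMap.mem_ker, Submodule.mem_comap, LinearMap.mem_ker, pow_succ, Module.End.mul_apply]

/-- Concavity of `k ↦ dim ker N^k`. -/
theorem ker_pow_concave (N : Module.End F V) (k : ℕ) :
    finrank F (LinearMap.ker (N ^ (k + 2))) + finrank F (LinearMap.ker (N ^ k)) ≤
      2 * finrank F (LinearMap.ker (N ^ (k + 1))) := by
  have h1 := finrank_comap_eq N (LinearMap.ker (N ^ (k + 1)))
  have h2 := finrank_comap_eq N (LinearMap.ker (N ^ k))
  rw [← ker_pow_succ_comap] at h1 h2
  have hAB : LinearMap.ker (N ^ k) ≤ LinearMap.ker (N ^ (k + 1)) := by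
    intro v hv
    rw [LinearMap.mem_ker] at hv ⊢
    rw [pow_succ', Module.End.mul_apply, hv, map_zero]
  obtain ⟨A, hA⟩ : ∃ A, A = LinearMap.ker (N ^ k) := ⟨_, rfl⟩
  obtain ⟨B, hB⟩ : ∃ B, B = LinearMap.ker (N ^ (k + 1)) := ⟨_, rfl⟩
  obtain ⟨R, hR⟩ : ∃ R, R = LinearMap.range N := ⟨_, rfl⟩
  rw [← hA, ← hB] at hAB
  rw [← hB, ← hR] at h1
  rw [← hA, ← hB, ← hR] at h2
  rw [← hA, ← hB, h1]
  have h3 := Submodule.finrank_sup_add_finrank_inf_eq (B ⊓ R) A
  have h4 : (B ⊓ R) ⊓ A = A ⊓ R := by
    ext v
    simp only [Submodule.mem_inf]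
    exact ⟨fun h => ⟨h.2, h.1.2⟩, fun h => ⟨⟨hAB h.1, h.2⟩, h.1⟩⟩
  rw [h4] at h3
  have h5 : finrank F ((B ⊓ R) ⊔ A : Submodule F V) ≤ finrank F B :=
    Submodule.finrank_mono (sup_le inf_le_left hAB)
  omega

/-- Kernel dimensions of a restricted map. -/
theorem finrank_ker_restrict (N : Module.End F V) (S : Submodule F V) (hS : ∀ v ∈ S, N v ∈ S) (k : ℕ) :
    finrank F (LinearMap.ker ((N.restrict hS) ^ k)) = finrank F (S ⊓ LinearMap.ker (N ^ k) : Submodule F V) := by
  have h1 : (LinearMap.ker ((N.restrict hS) ^ k)) = (LinearMap.ker (N ^ k)).comap S.subtype := by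
    ext v
    rw [LinearMap.mem_ker, Submodule.mem_comap, LinearMap.mem_ker, Module.End.pow_restrict]
    constructor
    · intro h
      have := congrArg Subtype.val h
      simpa using this
    · intro h
      apply Subtype.ext
      simpa using h
  have h2 := Submodule.finrank_map_subtype_eq S ((LinearMap.ker (N ^ k)).comap S.subtype)
  rw [Submodule.map_comap_subtype] at h2
  rw [h1, h2]

/-- Additivity of kernel dimensions along an invariant decomposition. -/
theorem finrank_ker_add (N : Module.End F V) {U W : Submodule F V} (h : IsCompl U W) (hU : ∀ v ∈ U, N v ∈ U)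
    (hW : ∀ v ∈ W, N v ∈ W) (k : ℕ) :
    finrank F (LinearMap.ker (N ^ k)) = finrank F (LinearMap.ker ((N.restrict hU) ^ k)) +
      finrank F (LinearMap.ker ((N.restrict hW) ^ k)) := by
  rw [finrank_ker_restrict, finrank_ker_restrict]
  obtain ⟨K, hK⟩ : ∃ K, K = LinearMap.ker (N ^ k) := ⟨_, rfl⟩
  rw [← hK]
  have hUk : ∀ j : ℕ, ∀ v ∈ U, (N ^ j) v ∈ U := by
    intro j v hv
    induction j with
    | zero => simpa using hv
    | succ j ih =>
      rw [pow_succ', Module.End.mul_apply]
      exact hU _ ih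
  have hWk : ∀ j : ℕ, ∀ v ∈ W, (N ^ j) v ∈ W := by
    intro j v hv
    induction j with
    | zero => simpa using hv
    | succ j ih =>
      rw [pow_succ', Module.End.mul_apply]
      exact hW _ ih
  have hsup : (U ⊓ K) ⊔ (W ⊓ K) = K := by
    apply le_antisymm (sup_le inf_le_right inf_le_right)
    intro v hv
    have htop : v ∈ U ⊔ W := by rw [h.sup_eq_top]; trivial
    obtain ⟨a, ha, b, hb, rfl⟩ := Submodule.mem_sup.1 htop
    rw [hK, LinearMap.mem_ker, map_add] at hv
    have h1 : (N ^ k) a = -(N ^ k) b := eq_neg_of_add_eq_zero_left hv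
    have h2 : (N ^ k) a ∈ U ⊓ W := ⟨hUk k a ha, by rw [h1]; exact W.neg_mem (hWk k b hb)⟩
    rw [h.inf_eq_bot, Submodule.mem_bot] at h2
    have h3 : (N ^ k) b = 0 := by
      rw [h2] at h1
      simpa using h1.symm
    apply Submodule.add_mem_sup
    · exact ⟨ha, by rw [hK]; exact LinearMap.mem_ker.2 h2⟩
    · exact ⟨hb, by rw [hK]; exact LinearMap.mem_ker.2 h3⟩
  have hinf : (U ⊓ K) ⊓ (W ⊓ K) = ⊥ := by
    rw [eq_bot_iff, ← h.inf_eq_bot]
    exact inf_le_inf inf_le_left inf_le_left
  have h1 := Submodule.finrank_sup_add_finrank_inf_eq (U ⊓ K) (W ⊓ K)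
  rw [hsup, hinf, finrank_bot] at h1
  omega

end KernelDims

section Mset

/-- The multiset with prescribed multiplicities. -/
def msetOfSeq (g : ℕ → ℕ) (e : ℕ) : Multiset ℕ :=
  ∑ k ∈ Finset.range e, Multiset.replicate (g k) (k + 1)

theorem count_msetOfSeq (g : ℕ → ℕ) (e j : ℕ) :
    (msetOfSeq g e).count j = if 0 < j ∧ j - 1 < e then g (j - 1) else 0 := by
  classical
  rw [msetOfSeq, Multiset.count_sum']
  simp only [Multiset.count_replicate]
  by_cases h : 0 < j ∧ j - 1 < e
  · rw [if_pos h, Finset.sum_eq_single (j - 1)]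
    · rw [if_pos (by omega)]
    · intro b _ hb
      rw [if_neg (by omega)]
    · intro hj
      exact absurd (Finset.mem_range.2 h.2) hj
  · rw [if_neg h]
    apply Finset.sum_eq_zero
    intro k hk
    have := Finset.mem_range.1 hk
    rw [if_neg (by omega)]

theorem sum_msetOfSeq (g : ℕ → ℕ) (e : ℕ) :
    (msetOfSeq g e).sum = ∑ k ∈ Finset.range e, g k * (k + 1) := by
  rw [msetOfSeq, Multiset.sum_sum]
  apply Finset.sum_congr rfl
  intro k _
  rw [Multiset.sum_replicate, smul_eq_mul]

theorem sum_second_diff (D g : ℕ → ℕ) (hg : ∀ k, g k + D k + D (k + 2) = 2 * D (k + 1)) (e : ℕ) :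
    (∑ k ∈ Finset.range e, g k * (k + 1)) + e * D (e + 1) + D 0 = (e + 1) * D e := by
  induction e with
  | zero => simp
  | succ e ih =>
    rw [Finset.sum_range_succ]
    have h1 := hg e
    have h2 : g e * (e + 1) + (e + 1) * D e + (e + 1) * D (e + 2) = (e + 1) * (2 * D (e + 1)) := by
      rw [← h1]; ring
    nlinarith [h1, h2, ih]

end Mset

section KS

variable {F : Type v} [Field F] {V : Type u} [AddCommGroup V] [Module F V] [FiniteDimensional F V]

/-- Multiplicity formula for the type. -/
theorem count_min_formula (μ : Multiset ℕ) (j : ℕ) :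
    μ.count (j + 1) + (μ.map (fun a => min a j)).sum + (μ.map (fun a => min a (j + 2))).sum =
      2 * (μ.map (fun a => min a (j + 1))).sum := by
  induction μ using Multiset.induction_on with
  | empty => simp
  | cons a s ih =>
    simp only [Multiset.count_cons, Multiset.map_cons, Multiset.sum_cons]
    by_cases h : j + 1 = a
    · rw [if_pos h]
      have h1 : min a j = j := by omega
      have h2 : min a (j + 2) = j + 1 := by omega
      have h3 : min a (j + 1) = j + 1 := by omega
      rw [h1, h2, h3]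
      omega
    · rw [if_neg h]
      have h4 : min a j + min a (j + 2) = 2 * min a (j + 1) := by omega
      omega

/-- Krull–Schmidt: a decomposition of a map of type `μ` gives a sub-multiset of `μ`. -/
theorem ks_lemma (N : Module.End F V) (e : ℕ) (hN : N ^ e = 0) {U W : Submodule F V} (h : IsCompl U W)
    (hU : ∀ v ∈ U, N v ∈ U) (hW : ∀ v ∈ W, N v ∈ W) (μ : Multiset ℕ)
    (hμ : ∀ k, finrank F (LinearMap.ker (N ^ k)) = (μ.map (fun a => min a k)).sum) :
    ∃ ν, ν ≤ μ ∧ ν.sum = finrank F U := by
  classical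
  obtain ⟨DU, hDU⟩ : ∃ D : ℕ → ℕ, D = fun k => finrank F (LinearMap.ker ((N.restrict hU) ^ k)) := ⟨_, rfl⟩
  obtain ⟨DW, hDW⟩ : ∃ D : ℕ → ℕ, D = fun k => finrank F (LinearMap.ker ((N.restrict hW) ^ k)) := ⟨_, rfl⟩
  have hadd : ∀ k, (μ.map (fun a => min a k)).sum = DU k + DW k := by
    intro k
    rw [← hμ, finrank_ker_add N h hU hW, hDU, hDW]
  have hU2 : ∀ k, DU (k + 2) + DU k ≤ 2 * DU (k + 1) := by
    intro k
    rw [hDU]
    exact ker_pow_concave _ k
  have hW2 : ∀ k, DW (k + 2) + DW k ≤ 2 * DW (k + 1) := by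
    intro k
    rw [hDW]
    exact ker_pow_concave _ k
  obtain ⟨gU, hgU⟩ : ∃ g : ℕ → ℕ, g = fun k => 2 * DU (k + 1) - DU k - DU (k + 2) := ⟨_, rfl⟩
  have hgU' : ∀ k, gU k + DU k + DU (k + 2) = 2 * DU (k + 1) := by
    intro k
    have := hU2 k
    rw [hgU]
    show 2 * DU (k + 1) - DU k - DU (k + 2) + DU k + DU (k + 2) = _
    omega
  refine ⟨msetOfSeq gU e, ?_, ?_⟩
  · rw [Multiset.le_iff_count]
    intro j
    rw [count_msetOfSeq]
    by_cases hj : 0 < j ∧ j - 1 < e
    · rw [if_pos hj]
      obtain ⟨i, rfl⟩ : ∃ i, j = i + 1 := ⟨j - 1, by omega⟩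
      have h1 := count_min_formula μ i
      rw [hadd, hadd, hadd] at h1
      have h2 := hW2 i
      have h3 := hgU' i
      simp only [Nat.add_sub_cancel]
      omega
    · rw [if_neg hj]
      exact Nat.zero_le _
  · rw [sum_msetOfSeq]
    have h1 := sum_second_diff DU gU hgU' e
    have hpow : (N.restrict hU) ^ e = 0 := by
      ext u
      rw [Module.End.pow_restrict]
      simp [hN]
    have h2 : DU e = finrank F U := by
      rw [hDU]
      show finrank F (LinearMap.ker ((N.restrict hU) ^ e)) = _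
      rw [hpow, LinearMap.ker_zero, finrank_top]
    have h3 : DU (e + 1) = finrank F U := by
      rw [hDU]
      show finrank F (LinearMap.ker ((N.restrict hU) ^ (e + 1))) = _
      rw [pow_succ, hpow, zero_mul, LinearMap.ker_zero, finrank_top]
    have h4 : DU 0 = 0 := by
      rw [hDU]
      show finrank F (LinearMap.ker ((N.restrict hU) ^ 0)) = _
      rw [pow_zero]
      have : LinearMap.ker (1 : Module.End F U) = ⊥ := LinearMap.ker_id
      rw [this, finrank_bot]
    rw [h2, h3, h4] at h1
    nlinarith [h1]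

end KS

section Model

variable {F : Type v} [Field F]

/-- The shift on `F^a`. -/
noncomputable def shiftMap (a : ℕ) : Module.End F (Fin a → F) where
  toFun v := fun i => if h : (i : ℕ) + 1 < a then v ⟨i + 1, h⟩ else 0
  map_add' v w := by
    funext i
    by_cases h : (i : ℕ) + 1 < a <;> simp [h]
  map_smul' c v := by
    funext i
    by_cases h : (i : ℕ) + 1 < a <;> simp [h]

theorem shiftMap_pow_apply (a k : ℕ) (v : Fin a → F) (i : Fin a) :
    ((shiftMap a) ^ k) v i = if h : (i : ℕ) + k < a then v ⟨i + k, h⟩ else 0 := by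
  induction k generalizing v i with
  | zero =>
    have := i.2
    simp
  | succ k ih =>
    rw [pow_succ, Module.End.mul_apply, ih]
    by_cases h : (i : ℕ) + (k + 1) < a
    · have h1 : (i : ℕ) + k < a := by omega
      rw [dif_pos h1, dif_pos h]
      show (if h : ((⟨i + k, h1⟩ : Fin a) : ℕ) + 1 < a then v ⟨(⟨i + k, h1⟩ : Fin a) + 1, h⟩ else 0) = _
      simp only
      rw [dif_pos (by omega)]
      rfl
    · rw [dif_neg h]
      by_cases h1 : (i : ℕ) + k < a
      · rw [dif_pos h1]
        show (if h : ((⟨i + k, h1⟩ : Fin a) : ℕ) + 1 < a then v ⟨(⟨i + k, h1⟩ : Fin a) + 1, h⟩ else 0) = _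
        simp only
        rw [dif_neg (by omega)]
      · rw [dif_neg h1]

theorem finrank_ker_shift (a k : ℕ) :
    finrank F (LinearMap.ker ((shiftMap (F := F) a) ^ k)) = min a k := by
  classical
  have hmem : ∀ v : Fin a → F, v ∈ LinearMap.ker ((shiftMap (F := F) a) ^ k) ↔ ∀ j : Fin a, k ≤ (j : ℕ) → v j = 0 := by
    intro v
    rw [LinearMap.mem_ker]
    constructor
    · intro h j hj
      have h1 := congrFun h ⟨j - k, by have := j.2; omega⟩
      rw [shiftMap_pow_apply] at h1
      have h2 : ((j : ℕ) - k) + k < a := by have := j.2; omega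
      rw [dif_pos h2] at h1
      have h3 : (⟨(j : ℕ) - k + k, h2⟩ : Fin a) = j := Fin.ext (by simp; omega)
      rw [h3] at h1
      exact h1
    · intro h
      funext i
      rw [shiftMap_pow_apply]
      by_cases h2 : (i : ℕ) + k < a
      · rw [dif_pos h2]
        exact h _ (by simp)
      · rw [dif_neg h2]
        rfl
  let e : LinearMap.ker ((shiftMap (F := F) a) ^ k) ≃ₗ[F] (Fin (min a k) → F) :=
    { toFun := fun v i => v.1 ⟨i, by have := i.2; omega⟩
      map_add' := fun _ _ => rfl
      map_smul' := fun _ _ => rfl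
      invFun := fun w => ⟨fun j => if h : (j : ℕ) < min a k then w ⟨j, h⟩ else 0, by
        rw [hmem]
        intro j hj
        rw [dif_neg (by omega)]⟩
      left_inv := by
        intro v
        apply Subtype.ext
        funext j
        by_cases h : (j : ℕ) < min a k
        · simp [h]
        · simp only [dif_neg h]
          exact ((hmem v.1).1 v.2 j (by have := j.2; omega)).symm
      right_inv := by
        intro w
        funext i
        exact dif_pos i.2 }
  rw [e.finrank_eq]
  simp

/-- A nilpotent map with prescribed kernel dimensions. -/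
theorem nil_model : ∀ (μ : Multiset ℕ) (V : Type u) [AddCommGroup V] [Module F V] [FiniteDimensional F V],
    finrank F V = μ.sum → ∃ N : Module.End F V, ∀ k, finrank F (LinearMap.ker (N ^ k)) = (μ.map (fun a => min a k)).sum := by
  intro μ
  induction μ using Multiset.induction_on with
  | empty =>
    intro V _ _ _ hV
    refine ⟨0, fun k => ?_⟩
    have h1 : finrank F (LinearMap.ker ((0 : Module.End F V) ^ k)) = 0 := by
      have := Submodule.finrank_le (LinearMap.ker ((0 : Module.End F V) ^ k))
      simp only [Multiset.sum_zero] at hV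
      omega
    simp [h1]
  | cons a s ih =>
    intro V _ _ _ hV
    rw [Multiset.sum_cons] at hV
    obtain ⟨B, -, hB⟩ := exists_sub_of_le (F := F) (V := V) ⊤ s.sum (by rw [finrank_top]; omega)
    obtain ⟨M, hM⟩ := ih B hB
    let X := (Fin a → F) × B
    have hX : finrank F V = finrank F X := by
      rw [Module.finrank_prod, hB, hV]
      simp
    let ψ : V ≃ₗ[F] X := LinearEquiv.ofFinrankEq _ _ hX
    let T : Module.End F X := LinearMap.prodMap (shiftMap a) M
    let N : Module.End F V := ψ.symm.toLinearMap ∘ₗ T ∘ₗ ψ.toLinearMap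
    have hNpow : ∀ (k : ℕ) (v : V), (N ^ k) v = ψ.symm ((T ^ k) (ψ v)) := by
      intro k v
      induction k with
      | zero => simp
      | succ k ih =>
        rw [pow_succ', Module.End.mul_apply, ih, pow_succ', Module.End.mul_apply]
        simp [N]
    have hTpow : ∀ (k : ℕ) (w : X), (T ^ k) w = (((shiftMap a) ^ k) w.1, (M ^ k) w.2) := by
      intro k w
      induction k with
      | zero => simp
      | succ k ih =>
        rw [pow_succ', Module.End.mul_apply, ih, pow_succ', pow_succ']
        rfl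
    refine ⟨N, fun k => ?_⟩
    have hker : (LinearMap.ker (N ^ k)) = (LinearMap.ker (T ^ k)).map ψ.symm.toLinearMap := by
      ext v
      rw [LinearMap.mem_ker, hNpow]
      constructor
      · intro h
        refine ⟨ψ v, ?_, by simp⟩
        rw [SetLike.mem_coe, LinearMap.mem_ker]
        simpa using h
      · rintro ⟨w, hw, rfl⟩
        rw [SetLike.mem_coe, LinearMap.mem_ker] at hw
        simp [hw]
    have h1 : finrank F (LinearMap.ker (N ^ k)) = finrank F (LinearMap.ker (T ^ k)) := by
      rw [hker]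
      exact LinearEquiv.finrank_map_eq _ _
    rw [h1]
    let K1 := LinearMap.ker ((shiftMap (F := F) a) ^ k)
    let K2 := LinearMap.ker (M ^ k)
    let E : LinearMap.ker (T ^ k) ≃ₗ[F] (K1 × K2) :=
      { toFun := fun w => (⟨w.1.1, by
            have h2 := LinearMap.mem_ker.1 w.2
            rw [hTpow] at h2
            exact LinearMap.mem_ker.2 (congrArg Prod.fst h2)⟩, ⟨w.1.2, by
            have h2 := LinearMap.mem_ker.1 w.2
            rw [hTpow] at h2
            exact LinearMap.mem_ker.2 (congrArg Prod.snd h2)⟩)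
        map_add' := fun _ _ => rfl
        map_smul' := fun _ _ => rfl
        invFun := fun w => ⟨(w.1.1, w.2.1), by
          rw [LinearMap.mem_ker, hTpow]
          exact Prod.ext (LinearMap.mem_ker.1 w.1.2) (LinearMap.mem_ker.1 w.2.2)⟩
        left_inv := fun _ => rfl
        right_inv := fun _ => rfl }
    rw [E.finrank_eq, Module.finrank_prod, finrank_ker_shift, hM]
    simp

end Model

end Cfsg.Agent.Lib.Geo
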