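import Mathlib
import Cfsg.Agent.Lib.Geo.ElusNil

set_option autoImplicit false

/-! Invariant complements by averaging, the number of complements, and unipotent elements. -/

namespace Cfsg.Agent.Lib.Geo

open Polynomial Module

universe u v

section Average

variable {F : Type v} [Field F] {V : Type u} [AddCommGroup V] [Module F V] [FiniteDimensional F V]

theorem pow_inv_mem (y : Module.End F V) {U : Submodule F V} (hU : ∀ v ∈ U, y v ∈ U) (j : ℕ) :
    ∀ v ∈ U, (y ^ j) v ∈ U := by
  intro v hv
  induction j with
  | zero => simpa using hv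
  | succ j ih =>
    rw [pow_succ', Module.End.mul_apply]
    exact hU _ ih

/-- Maschke's theorem for a map with a scalar power. -/
theorem inv_compl (y : Module.End F V) {r : ℕ} (hr0 : (r : F) ≠ 0) {c : F} (hc : c ≠ 0)
    (hy : y ^ r = c • (1 : Module.End F V)) (U : Submodule F V) (hU : ∀ v ∈ U, y v ∈ U) :
    ∃ W : Submodule F V, IsCompl U W ∧ ∀ v ∈ W, y v ∈ W := by
  classical
  obtain ⟨g, hg⟩ := LinearMap.exists_leftInverse_of_injective U.subtype (Submodule.ker_subtype U)
  have hg' : ∀ u : U, g u = u := fun u => LinearMap.congr_fun hg u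
  let π : Module.End F V := U.subtype ∘ₗ g
  have hπ1 : ∀ v, π v ∈ U := fun v => (g v).2
  have hπ2 : ∀ u ∈ U, π u = u := fun u hu => by
    show ((g (⟨u, hu⟩ : U) : U) : V) = u
    rw [hg']
  let S : Module.End F V := ∑ j ∈ Finset.range r, y ^ j * π * y ^ (r - j)
  have hS1 : ∀ v, S v ∈ U := by
    intro v
    rw [LinearMap.sum_apply]
    apply U.sum_mem
    intro j _
    rw [Module.End.mul_apply, Module.End.mul_apply]
    exact pow_inv_mem y hU j _ (hπ1 _)
  have hS2 : ∀ u ∈ U, S u = ((r : F) * c) • u := by
    intro u hu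
    rw [LinearMap.sum_apply]
    have h1 : ∀ j ∈ Finset.range r, (y ^ j * π * y ^ (r - j)) u = c • u := by
      intro j hj
      have hj' := Finset.mem_range.1 hj
      rw [Module.End.mul_apply, Module.End.mul_apply, hπ2 _ (pow_inv_mem y hU _ u hu), ← Module.End.mul_apply, ← pow_add,
        Nat.add_sub_cancel' hj'.le, hy]
      simp
    rw [Finset.sum_congr rfl h1, Finset.sum_const, Finset.card_range, ← Nat.cast_smul_eq_nsmul F, smul_smul]
  have hS3 : y * S = S * y := by
    have h1 := Finset.sum_range_succ' (fun j => y ^ j * π * y ^ (r + 1 - j)) r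
    have h2 := Finset.sum_range_succ (fun j => y ^ j * π * y ^ (r + 1 - j)) r
    rw [h1] at h2
    simp only [pow_zero, one_mul, Nat.sub_zero] at h2
    have h3 : π * y ^ (r + 1) = c • (π * y) := by
      rw [pow_succ, hy]
      simp [mul_assoc]
    have h4 : y ^ r * π * y ^ (r + 1 - r) = c • (π * y) := by
      rw [hy]
      simp
    rw [h3, h4, add_left_inj] at h2
    have h5 : y * S = ∑ j ∈ Finset.range r, y ^ (j + 1) * π * y ^ (r + 1 - (j + 1)) := by
      rw [Finset.mul_sum]
      apply Finset.sum_congr rfl
      intro j _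
      rw [pow_succ' y j, Nat.add_sub_add_right]
      simp only [mul_assoc]
    have h6 : S * y = ∑ j ∈ Finset.range r, y ^ j * π * y ^ (r + 1 - j) := by
      rw [Finset.sum_mul]
      apply Finset.sum_congr rfl
      intro j hj
      have hj' := Finset.mem_range.1 hj
      have h7 : r + 1 - j = (r - j) + 1 := by omega
      rw [h7, pow_succ]
      simp only [mul_assoc]
    rw [h5, h6, h2]
  have hrc : (r : F) * c ≠ 0 := mul_ne_zero hr0 hc
  let f : V →ₗ[F] U := LinearMap.codRestrict U (((r : F) * c)⁻¹ • S) (fun v => U.smul_mem _ (hS1 v))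
  have hf : ∀ x : U, f x = x := by
    intro x
    apply Subtype.ext
    show ((r : F) * c)⁻¹ • S (x : V) = x
    rw [hS2 _ x.2, smul_smul, inv_mul_cancel₀ hrc, one_smul]
  refine ⟨LinearMap.ker f, LinearMap.isCompl_of_proj hf, ?_⟩
  intro v hv
  have hv' : ((r : F) * c)⁻¹ • S v = 0 := by
    have := congrArg Subtype.val (LinearMap.mem_ker.1 hv)
    exact this
  have hSv : S v = 0 := by
    have := (smul_eq_zero.1 hv').resolve_left (inv_ne_zero hrc)
    exact this
  rw [LinearMap.mem_ker]
  apply Subtype.ext
  show ((r : F) * c)⁻¹ • S (y v) = 0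
  have h7 : S (y v) = y (S v) := by
    rw [← Module.End.mul_apply, ← Module.End.mul_apply, hS3]
  rw [h7, hSv, map_zero, smul_zero]

end Average

section CountCompl

variable {K : Type v} [Field K] [Fintype K] {V : Type u} [AddCommGroup V] [Module K V] [FiniteDimensional K V]

/-- Number of complements of a subspace. -/
theorem card_compl (U : Submodule K V) :
    Nat.card {W : Submodule K V // IsCompl U W} =
      Fintype.card K ^ (finrank K V * finrank K U - finrank K U * finrank K U) := by
  classical
  rw [Nat.card_congr U.isComplEquivProj]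
  obtain ⟨g, hg⟩ := LinearMap.exists_leftInverse_of_injective U.subtype (Submodule.ker_subtype U)
  have hg' : ∀ u : U, g u = u := fun u => LinearMap.congr_fun hg u
  let res : (V →ₗ[K] U) →ₗ[K] (U →ₗ[K] U) := LinearMap.lcomp K U U.subtype
  have hres : ∀ f : V →ₗ[K] U, ∀ u : U, res f u = f u := fun _ _ => rfl
  have hsurj : Function.Surjective res := by
    intro h
    refine ⟨h ∘ₗ g, ?_⟩
    ext u
    rw [hres]
    simp [hg']
  have hrank := LinearMap.finrank_range_add_finrank_ker res
  rw [LinearMap.range_eq_top.2 hsurj, finrank_top, Module.finrank_linearMap, Module.finrank_linearMap] at hrank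
  have hk : finrank K (LinearMap.ker res) = finrank K V * finrank K U - finrank K U * finrank K U := by
    omega
  rw [← hk]
  have hcard := Module.natCard_eq_pow_finrank (K := K) (V := LinearMap.ker res)
  rw [Nat.card_eq_fintype_card (α := K)] at hcard
  rw [← hcard]
  apply Nat.card_congr
  refine
    { toFun := fun f => ⟨f.1 - g, ?_⟩
      invFun := fun h => ⟨h.1 + g, ?_⟩
      left_inv := ?_
      right_inv := ?_ }
  · rw [LinearMap.mem_ker]
    ext u
    rw [hres]
    simp [f.2, hg']
  · intro u
    have h2 := LinearMap.mem_ker.1 h.2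
    have h3 := LinearMap.congr_fun h2 u
    rw [hres] at h3
    rw [LinearMap.add_apply, h3, hg']
    simp
  · intro f
    apply Subtype.ext
    simp
  · intro h
    apply Subtype.ext
    simp

/-- The number of complementary pairs. -/
theorem card_pairs (m : ℕ) :
    Nat.card {P : Submodule K V × Submodule K V // IsCompl P.1 P.2 ∧ finrank K P.1 = m} =
      Nat.card {U : Submodule K V // finrank K U = m} * Fintype.card K ^ (finrank K V * m - m * m) := by
  classical
  haveI : Finite (Submodule K V) := by
    haveI : Finite V := Module.finite_of_finite K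
    exact Finite.of_injective (fun W => (W : Set V)) SetLike.coe_injective
  haveI : Fintype {W : Submodule K V // finrank K W = m} := Fintype.ofFinite _
  let S := {P : Submodule K V × Submodule K V // IsCompl P.1 P.2 ∧ finrank K P.1 = m}
  let f : S → {W : Submodule K V // finrank K W = m} := fun P => ⟨P.1.1, P.2.2⟩
  have hfib : ∀ U : {W : Submodule K V // finrank K W = m}, Nat.card {P : S // f P = U} =
      Fintype.card K ^ (finrank K V * m - m * m) := by
    intro U
    have h0 := card_compl U.1
    rw [U.2] at h0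
    rw [← h0]
    apply Nat.card_congr
    refine
      { toFun := fun P => ⟨P.1.1.2, ?_⟩
        invFun := fun W => ⟨⟨(U.1, W.1), W.2, U.2⟩, rfl⟩
        left_inv := ?_
        right_inv := ?_ }
    · have h1 : P.1.1.1 = U.1 := congrArg Subtype.val P.2
      exact h1 ▸ P.1.2.1
    · intro P
      apply Subtype.ext
      apply Subtype.ext
      have h1 : P.1.1.1 = U.1 := congrArg Subtype.val P.2
      exact Prod.ext h1.symm rfl
    · intro W
      rfl
  have h2 := Nat.card_congr (Equiv.sigmaFiberEquiv f)
  rw [Nat.card_sigma] at h2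
  rw [← h2, Finset.sum_congr rfl (fun U _ => hfib U), Finset.sum_const, Finset.card_univ, smul_eq_mul, Nat.card_eq_fintype_card]

end CountCompl

section Unipotent

variable {F : Type v} [Field F] {p : ℕ} [Fact p.Prime] [CharP F p] {V : Type u} [AddCommGroup V] [Module F V]

include p in
theorem one_add_pow_char (N : Module.End F V) : (1 + N) ^ p = 1 + N ^ p := by
  have h1 : ((1 : F[X]) + X) ^ p = 1 + X ^ p := by
    rw [add_pow_char, one_pow]
  have h2 := congrArg (aeval N) h1
  simpa using h2

include p in
theorem sub_scalar_pow_char (y : Module.End F V) (d : F) :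
    (y - d • (1 : Module.End F V)) ^ p = y ^ p - (d ^ p) • (1 : Module.End F V) := by
  have h1 : ((X : F[X]) - C d) ^ p = X ^ p - C (d ^ p) := by
    rw [sub_pow_char, C_pow]
  have h2 := congrArg (aeval y) h1
  rw [map_pow, map_sub, map_sub, map_pow, aeval_X, aeval_C, aeval_C, Module.algebraMap_end_eq_smul_id,
    Module.algebraMap_end_eq_smul_id] at h2
  exact h2

include p in
theorem eq_one_of_pow_char {d : F} (hd : d ^ p = 1) : d = 1 := by
  have h1 : (d - 1) ^ p = 0 := by
    rw [sub_pow_char, hd, one_pow, sub_self]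
  exact sub_eq_zero.1 (pow_eq_zero_iff (Fact.out : p.Prime).ne_zero |>.1 h1)

end Unipotent

section Mset

/-- A multiset with parts `1` and `2` contains every sum compatible with parity. -/
theorem mset_two_parts (μ : Multiset ℕ) (hμ : ∀ a ∈ μ, 0 < a ∧ a ≤ 2) (m : ℕ) (hm : m ≤ μ.sum)
    (h : Odd μ.sum ∨ Even m) : ∃ ν, ν ≤ μ ∧ ν.sum = m := by
  classical
  obtain ⟨b1, hb1⟩ : ∃ b, b = Multiset.card (μ.filter (· = 1)) := ⟨_, rfl⟩
  obtain ⟨b2, hb2⟩ : ∃ b, b = Multiset.card (μ.filter (fun a => ¬ a = 1)) := ⟨_, rfl⟩
  have h1 : μ.filter (· = 1) = Multiset.replicate b1 1 := by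
    rw [hb1]
    apply Multiset.eq_replicate_card.2
    intro b hb
    exact (Multiset.mem_filter.1 hb).2
  have h2 : μ.filter (fun a => ¬ a = 1) = Multiset.replicate b2 2 := by
    rw [hb2]
    apply Multiset.eq_replicate_card.2
    intro b hb
    have h3 := Multiset.mem_filter.1 hb
    have h4 := hμ b h3.1
    have h5 := h3.2
    omega
  have hsplit : μ = Multiset.replicate b1 1 + Multiset.replicate b2 2 := by
    rw [← h1, ← h2]
    exact (Multiset.filter_add_not _ _).symm
  have hsum : μ.sum = b1 + 2 * b2 := by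
    rw [hsplit, Multiset.sum_add, Multiset.sum_replicate, Multiset.sum_replicate]
    simp
    ring
  rw [hsum] at hm h
  have hu : ∃ u w, u ≤ b2 ∧ w ≤ b1 ∧ w + 2 * u = m := by
    by_cases hc : b2 ≤ m / 2
    · exact ⟨b2, m - 2 * b2, le_rfl, by omega, by omega⟩
    · refine ⟨m / 2, m % 2, by omega, ?_, by omega⟩
      rcases h with ⟨t, ht⟩ | ⟨t, ht⟩ <;> omega
  obtain ⟨u, w, hu1, hw1, huw⟩ := hu
  refine ⟨Multiset.replicate w 1 + Multiset.replicate u 2, ?_, ?_⟩
  · rw [hsplit]
    exact add_le_add ((Multiset.replicate_le_replicate _).2 hw1) ((Multiset.replicate_le_replicate _).2 hu1)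
  · rw [Multiset.sum_add, Multiset.sum_replicate, Multiset.sum_replicate]
    simp
    omega

end Mset

end Cfsg.Agent.Lib.Geo
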