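import Mathlib
import Cfsg.Agent.Lib.Geo.ElusMaschke

set_option autoImplicit false

/-! Maps permuting the summands of a direct sum decomposition. -/

namespace Cfsg.Agent.Lib.Geo

open Polynomial Module

universe u v

section Perm

variable {F : Type v} [Field F] {V : Type u} [AddCommGroup V] [Module F V] {t : ℕ}

theorem perm_pow (y : Module.End F V) (D : Fin t → Submodule F V) (σ : Equiv.Perm (Fin t))
    (h : ∀ j, (D j).map y = D (σ j)) (i : ℕ) (j : Fin t) : (D j).map (y ^ i) = D ((σ ^ i) j) := by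
  induction i generalizing j with
  | zero =>
    have : (D j).map (y ^ 0) = D j := by
      rw [pow_zero]
      exact Submodule.map_id _
    simpa using this
  | succ i ih =>
    rw [pow_succ, Module.End.mul_eq_comp, Submodule.map_comp, h, ih, pow_succ]
    rfl

theorem perm_pow_mem (y : Module.End F V) (D : Fin t → Submodule F V) (σ : Equiv.Perm (Fin t))
    (h : ∀ j, (D j).map y = D (σ j)) (i : ℕ) (j : Fin t) {v : V} (hv : v ∈ D j) : (y ^ i) v ∈ D ((σ ^ i) j) := by
  rw [← perm_pow y D σ h]
  exact Submodule.mem_map_of_mem hv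

theorem perm_fix_of_scalar (y : Module.End F V) (D : Fin t → Submodule F V) (σ : Equiv.Perm (Fin t))
    (h : ∀ j, (D j).map y = D (σ j)) (hind : iSupIndep D) (hne : ∀ j, D j ≠ ⊥) {r : ℕ} {c : F} (hc : c ≠ 0)
    (hy : y ^ r = c • (1 : Module.End F V)) (j : Fin t) : (σ ^ r) j = j := by
  apply hind.injective hne
  rw [← perm_pow y D σ h, hy]
  ext v
  constructor
  · rintro ⟨w, hw, rfl⟩
    exact (D j).smul_mem c hw
  · intro hv
    refine ⟨c⁻¹ • v, (D j).smul_mem _ hv, ?_⟩
    simp [smul_smul, hc]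

theorem perm_pow_ne (σ : Equiv.Perm (Fin t)) {r : ℕ} (hr : r.Prime) (j : Fin t) (h1 : (σ ^ r) j = j) (h2 : σ j ≠ j)
    (i : ℕ) (hi : 0 < i) (hir : i < r) : (σ ^ i) j ≠ j := by
  intro h3
  have hco : Nat.Coprime r i := by
    rw [Nat.Prime.coprime_iff_not_dvd hr]
    intro hd
    exact absurd (Nat.le_of_dvd hi hd) (by omega)
  have hr1 : 1 < r := hr.one_lt
  obtain ⟨u, -, hu⟩ := Nat.exists_mul_mod_eq_one_of_coprime hco.symm hr1
  have h4 : ∀ w : ℕ, (σ ^ (i * w)) j = j := by
    intro w
    induction w with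
    | zero => simp
    | succ w ih =>
      rw [Nat.mul_succ, pow_add]
      show (σ ^ (i * w)) ((σ ^ i) j) = j
      rw [h3, ih]
  have h5 : ∀ w : ℕ, (σ ^ (r * w)) j = j := by
    intro w
    induction w with
    | zero => simp
    | succ w ih =>
      rw [Nat.mul_succ, pow_add]
      show (σ ^ (r * w)) ((σ ^ r) j) = j
      rw [h1, ih]
  have h6 : i * u = r * (i * u / r) + 1 := by
    conv_lhs => rw [← Nat.div_add_mod (i * u) r, hu]
  have h7 := h4 u
  rw [h6, pow_add, pow_one] at h7
  -- `σ^(rw) (σ j) = j`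
  have h8 : (σ ^ (r * (i * u / r))) (σ j) = j := h7
  have h9 : (σ ^ (r * (i * u / r))) j = j := h5 _
  -- commute
  apply h2
  have h10 : (σ ^ (r * (i * u / r))) (σ j) = σ ((σ ^ (r * (i * u / r))) j) := by
    show ((σ ^ (r * (i * u / r))) * σ) j = (σ * (σ ^ (r * (i * u / r)))) j
    rw [← pow_succ, ← pow_succ']
  rw [h10, h9] at h8
  exact h8

/-- A vector in a summand lies in the sum of the others when its image under a sum of powers vanishes. -/
theorem perm_indep_mem (D : Fin t → Submodule F V) (j : Fin t) {ι : Type*} (s : Finset ι) (f : ι → V) (g : ι → Fin t)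
    (hf : ∀ i ∈ s, f i ∈ D (g i)) (hg : ∀ i ∈ s, g i ≠ j) : ∑ i ∈ s, f i ∈ ⨆ (k) (_ : k ≠ j), D k := by
  apply Submodule.sum_mem
  intro i hi
  have h1 : D (g i) ≤ ⨆ (k) (_ : k ≠ j), D k := le_iSup₂_of_le (g i) (hg i hi) le_rfl
  exact h1 (hf i hi)

end Perm

section CharGeom

variable {F : Type v} [Field F] {p : ℕ} [hp : Fact p.Prime] [CharP F p] {V : Type u} [AddCommGroup V] [Module F V]

include p in
theorem sub_one_pow_pred (x : Module.End F V) : (x - 1) ^ (p - 1) = ∑ i ∈ Finset.range p, x ^ i := by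
  have h1 : ((X : F[X]) - 1) ^ (p - 1) = ∑ i ∈ Finset.range p, X ^ i := by
    have hne : ((X : F[X]) - 1) ≠ 0 := by
      have := X_sub_C_ne_zero (1 : F)
      simpa using this
    apply mul_right_cancel₀ hne
    rw [geom_sum_mul, ← pow_succ, Nat.sub_add_cancel hp.out.one_le, sub_pow_char, one_pow]
  have h2 := congrArg (aeval x) h1
  simpa using h2

end CharGeom

section Count

theorem sum_min_pred (p : ℕ) (hp : 1 ≤ p) (μ : Multiset ℕ) (hμ : ∀ b ∈ μ, b ≤ p) :
    μ.sum = (μ.map (fun a => min a (p - 1))).sum + μ.count p := by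
  induction μ using Multiset.induction_on with
  | empty => simp
  | cons a s ih =>
    have h1 := ih (fun b hb => hμ b (Multiset.mem_cons_of_mem hb))
    have h2 := hμ a (Multiset.mem_cons_self a s)
    simp only [Multiset.sum_cons, Multiset.map_cons, Multiset.count_cons]
    by_cases h : p = a
    · rw [if_pos h]
      have h3 : min a (p - 1) = a - 1 := by omega
      omega
    · rw [if_neg h]
      have h3 : min a (p - 1) = a := by omega
      omega

end Count

end Cfsg.Agent.Lib.Geo
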