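import Mathlib
import Cfsg.Agent.Lib.Geo.ElusImprim

set_option autoImplicit false

/-! Families of subspaces: dimension criteria for independence and construction of invariant
decompositions. -/

namespace Cfsg.Agent.Lib.Geo

open Polynomial Module

universe u v

section Dim

variable {F : Type v} [Field F] {V : Type u} [AddCommGroup V] [Module F V] [FiniteDimensional F V]
  {ι : Type*} [Fintype ι] [DecidableEq ι]

theorem finrank_iSup_indep (D : ι → Submodule F V) (h : iSupIndep D) :
    finrank F (⨆ i, D i : Submodule F V) = ∑ i, finrank F (D i) := by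
  have h1 := (iSupIndep_iff_dfinsupp_lsum_injective D).1 h
  rw [Submodule.iSup_eq_range_dfinsupp_lsum]
  have h2 := LinearMap.finrank_range_of_inj h1
  rw [h2]
  exact Module.finrank_directSum F (fun i => D i)

theorem indep_of_finrank_sum (D : ι → Submodule F V)
    (hs : finrank F (⨆ i, D i : Submodule F V) = ∑ i, finrank F (D i)) : iSupIndep D := by
  apply iSupIndep_of_dfinsupp_lsum_injective
  rw [Submodule.iSup_eq_range_dfinsupp_lsum] at hs
  have h1 := LinearMap.finrank_range_add_finrank_ker (DFinsupp.lsum ℕ (M := fun i => D i) fun i => (D i).subtype)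
  have h2 : finrank F (Π₀ i, D i) = ∑ i, finrank F (D i) := Module.finrank_directSum F (fun i => D i)
  have h3 : finrank F (LinearMap.ker (DFinsupp.lsum ℕ (M := fun i => D i) fun i => (D i).subtype)) = 0 := by
    omega
  haveI : FiniteDimensional F (Π₀ i, D i) := inferInstanceAs (FiniteDimensional F (DirectSum ι fun i => D i))
  exact LinearMap.ker_eq_bot.1 (Submodule.finrank_eq_zero.1 h3)

/-- The sum of the dimensions is at most the dimension of the space, for an independent family. -/
theorem sum_finrank_le_of_indep (D : ι → Submodule F V) (h : iSupIndep D) (S : Submodule F V) (hS : ∀ i, D i ≤ S) :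
    ∑ i, finrank F (D i) ≤ finrank F S := by
  rw [← finrank_iSup_indep D h]
  exact Submodule.finrank_mono (iSup_le hS)

end Dim

section Rec

variable {F : Type v} [Field F] {V : Type u} [AddCommGroup V] [Module F V]

/-- Abstract recursion producing an invariant family. -/
theorem fam_rec (y : Module.End F V) (a : ℕ) (Q : ℕ → Submodule F V → Prop)
    (h0 : ∀ Z, Q 0 Z → Z = ⊥)
    (hstep : ∀ t Z, Q (t + 1) Z → ∃ U W, U ⊔ W = Z ∧ (∀ v ∈ U, y v ∈ U) ∧ finrank F U = a ∧ Q t W) :
    ∀ t Z, Q t Z → ∃ D : Fin t → Submodule F V, (∀ j, ∀ v ∈ D j, y v ∈ D j) ∧ (∀ j, finrank F (D j) = a) ∧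
      (⨆ j, D j) = Z := by
  intro t
  induction t with
  | zero =>
    intro Z hZ
    refine ⟨Fin.elim0, fun j => j.elim0, fun j => j.elim0, ?_⟩
    rw [h0 Z hZ]
    exact iSup_of_empty _
  | succ t ih =>
    intro Z hZ
    obtain ⟨U, W, h1, h2, h3, h4⟩ := hstep t Z hZ
    obtain ⟨D, h5, h6, h7⟩ := ih W h4
    refine ⟨Fin.cons U D, ?_, ?_, ?_⟩
    · intro j
      refine Fin.cases ?_ ?_ j
      · simpa using h2
      · intro i
        simpa using h5 i
    · intro j
      refine Fin.cases ?_ ?_ j
      · exact h3
      · intro i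
        exact h6 i
    · rw [← h1, ← h7]
      apply le_antisymm
      · apply iSup_le
        intro j
        refine Fin.cases ?_ ?_ j
        · exact le_sup_left
        · intro i
          exact le_sup_of_le_right (le_iSup D i)
      · apply sup_le
        · exact le_iSup_of_le 0 (by simp)
        · apply iSup_le
          intro i
          exact le_iSup_of_le i.succ (by simp)

end Rec

section Order

variable {F : Type v} [Field F] [Fintype F] {p : ℕ} [Fact p.Prime] [CharP F p] {q : ℕ}
  {r : ℕ} [hr : Fact r.Prime] {V : Type u} [AddCommGroup V] [Module F V] [FiniteDimensional F V]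

theorem mul_mod_of_lt {a c t : ℕ} (hc : 0 < c) (h : t * (a % c) < c) : (a * t) % c = t * (a % c) := by
  have h1 : a * t = c * (t * (a / c)) + t * (a % c) := by
    conv_lhs => rw [← Nat.div_add_mod a c]
    ring
  rw [h1, Nat.mul_add_mod, Nat.mod_eq_of_lt h]

/-- A family of fixed summands for an element with `y^r = 1`, under the residue condition. -/
theorem fam_order (hq : Fintype.card F = q) (hrp : r ≠ p) (y : Module.End F V) (hy : y ^ r = 1) (a t : ℕ)
    (hn : finrank F V = a * t) (h : t * (a % orderOf (q : ZMod r)) < orderOf (q : ZMod r)) :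
    ∃ D : Fin t → Submodule F V, (∀ j, ∀ v ∈ D j, y v ∈ D j) ∧ (∀ j, finrank F (D j) = a) ∧ (⨆ j, D j) = ⊤ := by
  classical
  have hipos := order_pos (F := F) (p := p) hq hrp
  obtain ⟨c, hc⟩ : ∃ c, c = orderOf (q : ZMod r) := ⟨_, rfl⟩
  rw [← hc] at hipos h
  have hr0 : (r : F) ≠ 0 := by
    intro h0
    have h1 := (CharP.cast_eq_zero_iff F p r).1 h0
    exact hrp ((Nat.prime_dvd_prime_iff_eq Fact.out hr.out).1 h1).symm
  let Q : ℕ → Submodule F V → Prop := fun t Z => (∀ v ∈ Z, y v ∈ Z) ∧ finrank F Z = a * t ∧ t * (a % c) < c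
  have key := fam_rec y a Q ?_ ?_ t ⊤ ⟨fun _ _ => Submodule.mem_top, by rw [finrank_top]; exact hn, h⟩
  · exact key
  · rintro Z ⟨-, h1, -⟩
    rw [Nat.mul_zero] at h1
    exact Submodule.finrank_eq_zero.1 h1
  · rintro t Z ⟨h1, h2, h3⟩
    -- work inside `Z`
    have hz : (y.restrict h1) ^ r = 1 := restrict_pow_one y Z h1 hy
    obtain ⟨e, he⟩ := finrank_inv_eq (F := F) (p := p) hq hrp hz ⊤ (fun _ _ => Submodule.mem_top)
    rw [← hc, top_inf_eq, finrank_top, h2] at he
    have h4 : (a * (t + 1)) % c = (t + 1) * (a % c) := mul_mod_of_lt hipos h3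
    have h5 := congrArg (· % c) he
    simp only [Nat.add_mul_mod_self_right] at h5
    have h6 : a % c ≤ finrank F (LinearMap.ker (aeval (y.restrict h1) (X - C 1 : F[X]))) := by
      have h7 := Nat.mod_le (finrank F (LinearMap.ker (aeval (y.restrict h1) (X - C 1 : F[X])))) c
      have h8 : a % c ≤ (t + 1) * (a % c) := Nat.le_mul_of_pos_left _ (by omega)
      omega
    obtain ⟨U', hU1, hU2⟩ := exists_inv_of_mod (F := F) (p := p) hq hrp hz a (by
      rw [h2]; exact Nat.le_mul_of_pos_right _ (by omega)) (by rw [← hc]; exact h6)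
    obtain ⟨W', hW1, hW2⟩ := inv_compl (y.restrict h1) hr0 (c := 1) one_ne_zero (by rw [hz, one_smul]) U' hU1
    have hd : finrank F U' + finrank F W' = finrank F Z := by
      have := Submodule.finrank_sup_add_finrank_inf_eq U' W'
      rw [hW1.sup_eq_top, hW1.inf_eq_bot, finrank_top, finrank_bot] at this
      omega
    refine ⟨U'.map Z.subtype, W'.map Z.subtype, ?_, flag_map y Z h1 U' hU1, ?_, ?_, ?_, ?_⟩
    · rw [← Submodule.map_sup, hW1.sup_eq_top, Submodule.map_top, Submodule.range_subtype]
    · rw [Submodule.finrank_map_subtype_eq, hU2]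
    · exact flag_map y Z h1 W' hW2
    · rw [Submodule.finrank_map_subtype_eq]
      rw [h2, hU2] at hd
      have : a * (t + 1) = a * t + a := by ring
      omega
    · have h9 : t * (a % c) ≤ (t + 1) * (a % c) := Nat.mul_le_mul_right _ (by omega)
      omega

end Order

section Binom

variable {F : Type v} [Field F] {V : Type u} [AddCommGroup V] [Module F V] [FiniteDimensional F V]

/-- A family of fixed summands for `y^r = c` with `c` not an `r`-th power, when `r ∣ a`. -/
theorem fam_binom {r : ℕ} (hr : r.Prime) (hr0 : (r : F) ≠ 0) {c : F} (hc0 : c ≠ 0) (hno : ∀ d : F, d ^ r ≠ c)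
    (y : Module.End F V) (hy : y ^ r = c • (1 : Module.End F V)) (a t : ℕ) (ha : r ∣ a)
    (hn : finrank F V = a * t) :
    ∃ D : Fin t → Submodule F V, (∀ j, ∀ v ∈ D j, y v ∈ D j) ∧ (∀ j, finrank F (D j) = a) ∧ (⨆ j, D j) = ⊤ := by
  classical
  let Q : ℕ → Submodule F V → Prop := fun t Z => (∀ v ∈ Z, y v ∈ Z) ∧ finrank F Z = a * t
  have key := fam_rec y a Q ?_ ?_ t ⊤ ⟨fun _ _ => Submodule.mem_top, by rw [finrank_top]; exact hn⟩
  · exact key
  · rintro Z ⟨-, h1⟩
    rw [Nat.mul_zero] at h1
    exact Submodule.finrank_eq_zero.1 h1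
  · rintro t Z ⟨h1, h2⟩
    have hz : (y.restrict h1) ^ r = c • (1 : Module.End F Z) := restrict_pow_scalar y Z h1 hy
    obtain ⟨e, rfl⟩ := ha
    obtain ⟨U', hU1, hU2⟩ := binom_exists_inv hr hno (y.restrict h1) hz e (by
      rw [h2, mul_comm e r]; exact Nat.le_mul_of_pos_right _ (by omega))
    obtain ⟨W', hW1, hW2⟩ := inv_compl (y.restrict h1) hr0 hc0 hz U' hU1
    have hd : finrank F U' + finrank F W' = finrank F Z := by
      have := Submodule.finrank_sup_add_finrank_inf_eq U' W'
      rw [hW1.sup_eq_top, hW1.inf_eq_bot, finrank_top, finrank_bot] at this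
      omega
    refine ⟨U'.map Z.subtype, W'.map Z.subtype, ?_, flag_map y Z h1 U' hU1, ?_, ?_, ?_⟩
    · rw [← Submodule.map_sup, hW1.sup_eq_top, Submodule.map_top, Submodule.range_subtype]
    · rw [Submodule.finrank_map_subtype_eq, hU2, mul_comm]
    · exact flag_map y Z h1 W' hW2
    · rw [Submodule.finrank_map_subtype_eq]
      rw [h2, hU2] at hd
      have : r * e * (t + 1) = r * e * t + r * e := by ring
      have h3 : e * r = r * e := mul_comm _ _
      omega

end Binom

section Cyclic

variable {F : Type v} [Field F] {V : Type u} [AddCommGroup V] [Module F V]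

/-- The element of `F[X]` with prescribed low coefficients. -/
noncomputable def polyOfFin {d : ℕ} (α : Fin d → F) : F[X] := ∑ i : Fin d, C (α i) * X ^ (i : ℕ)

theorem polyOfFin_degree {d : ℕ} (α : Fin d → F) : (polyOfFin α).degree < d :=
  degree_sum_fin_lt α

theorem polyOfFin_coeff {d : ℕ} (α : Fin d → F) (i : Fin d) : (polyOfFin α).coeff i = α i := by
  classical
  rw [polyOfFin, finset_sum_coeff, Finset.sum_eq_single i]
  · rw [coeff_C_mul_X_pow, if_pos rfl]
  · intro j _ hj
    rw [coeff_C_mul_X_pow, if_neg]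
    exact fun h => hj (Fin.ext h.symm)
  · simp

theorem polyOfFin_aeval {d : ℕ} (α : Fin d → F) (y : Module.End F V) (e : V) :
    aeval y (polyOfFin α) e = ∑ i : Fin d, α i • (y ^ (i : ℕ)) e := by
  rw [polyOfFin, map_sum, LinearMap.sum_apply]
  apply Finset.sum_congr rfl
  intro i _
  rw [map_mul, aeval_C, map_pow, aeval_X, Module.End.mul_apply, Module.algebraMap_end_apply]

theorem aeval_comm' (y : Module.End F V) (A B : F[X]) (v : V) : aeval y A (aeval y B v) = aeval y B (aeval y A v) := by
  rw [← Module.End.mul_apply, ← Module.End.mul_apply, ← map_mul, ← map_mul, mul_comm]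

/-- For irreducible `g` killing `e ≠ 0`, a polynomial killing `e` is a multiple of `g`. -/
theorem irr_dvd_of_kill (y : Module.End F V) {g : F[X]} (hg : Irreducible g) {e : V} (he : e ≠ 0)
    (hge : aeval y g e = 0) (A : F[X]) (hA : aeval y A e = 0) : g ∣ A := by
  by_contra hnd
  obtain ⟨a, b, hab⟩ := (hg.coprime_iff_not_dvd).2 hnd
  have h1 := congrArg (fun P => aeval y P e) hab
  simp only [map_add, map_mul, LinearMap.add_apply, Module.End.mul_apply, map_one, Module.End.one_apply] at h1
  rw [hge, hA, map_zero, map_zero, add_zero] at h1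
  exact he h1.symm

/-- The cyclic vectors of an irreducible polynomial are independent. -/
theorem irr_cyc_indep (y : Module.End F V) {g : F[X]} (hg : Irreducible g) {e : V} (he : e ≠ 0)
    (hge : aeval y g e = 0) : LinearIndependent F (fun i : Fin g.natDegree => (y ^ (i : ℕ)) e) := by
  rw [Fintype.linearIndependent_iff]
  intro α hα
  have h1 : aeval y (polyOfFin α) e = 0 := by
    rw [polyOfFin_aeval]; exact hα
  have h2 := irr_dvd_of_kill y hg he hge _ h1
  have h3 : polyOfFin α = 0 := by
    apply eq_zero_of_dvd_of_degree_lt h2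
    rw [degree_eq_natDegree hg.ne_zero]
    exact polyOfFin_degree α
  intro i
  rw [← polyOfFin_coeff α i, h3, coeff_zero]

end Cyclic

section Block

variable {F : Type v} [Field F] {V : Type u} [AddCommGroup V] [Module F V] [FiniteDimensional F V]

theorem finrank_map_inj (f : V →ₗ[F] V) (hf : Function.Injective f) (S : Submodule F V) :
    finrank F (S.map f) = finrank F S :=
  (LinearEquiv.finrank_eq (Submodule.equivMapOfInjective f hf S)).symm

theorem inj_of_pow_scalar (y : Module.End F V) {r : ℕ} (hr : r ≠ 0) {c : F} (hc : c ≠ 0)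
    (hy : y ^ r = c • (1 : Module.End F V)) : Function.Injective y := by
  rw [injective_iff_map_eq_zero]
  intro v hv
  have h1 : (y ^ r) v = 0 := by
    obtain ⟨r', rfl⟩ := Nat.exists_eq_succ_of_ne_zero hr
    rw [pow_succ, Module.End.mul_apply, hv, map_zero]
  rw [hy] at h1
  simpa [hc] using h1

theorem pow_inj_of_inj (y : Module.End F V) (hy : Function.Injective y) (i : ℕ) : Function.Injective (y ^ i) := by
  rw [Module.End.coe_pow]
  exact hy.iterate i

/-- A block on which `y^r = c` is scalar with no `r`-th root: it has a base `A` with `⨁ y^i A` the block. -/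
theorem binom_block {r : ℕ} (hr : r.Prime) (hr0 : (r : F) ≠ 0) {c : F} (hc0 : c ≠ 0) (hno : ∀ d : F, d ^ r ≠ c)
    (y : Module.End F V) (hy : y ^ r = c • (1 : Module.End F V)) :
    ∀ (a : ℕ) (Z : Submodule F V), (∀ v ∈ Z, y v ∈ Z) → finrank F Z = a * r →
    ∃ A : Submodule F V, A ≤ Z ∧ finrank F A = a ∧ (⨆ i : Fin r, A.map (y ^ (i : ℕ))) = Z := by
  classical
  have hg : Irreducible (X ^ r - C c : F[X]) := X_pow_sub_C_irreducible_of_prime hr hno
  have hgd := binom_natDegree hr.one_le c
  intro a
  induction a with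
  | zero =>
    intro Z _ hd
    rw [zero_mul] at hd
    have hZ : Z = ⊥ := Submodule.finrank_eq_zero.1 hd
    refine ⟨⊥, by rw [hZ], by simp, ?_⟩
    rw [hZ]
    simp
  | succ a ih =>
    intro Z hZ hd
    have hne : Z ≠ ⊥ := by
      rintro rfl
      rw [finrank_bot] at hd
      have := hr.pos
      have h0 : 0 < (a + 1) * r := Nat.mul_pos (by omega) this
      omega
    obtain ⟨e, he, he0⟩ := Submodule.exists_mem_ne_zero_of_ne_bot hne
    have hge : aeval y (X ^ r - C c : F[X]) e = 0 := by
      rw [binom_aeval y hy]; rfl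
    have hind0 := irr_cyc_indep y hg he0 hge
    rw [hgd] at hind0
    obtain ⟨E, hE⟩ : ∃ E, E = Submodule.span F (Set.range (fun i : Fin r => (y ^ (i : ℕ)) e)) := ⟨_, rfl⟩
    have hEfin : finrank F E = r := by
      rw [hE, finrank_span_eq_card hind0, Fintype.card_fin]
    have hpowZ := pow_inv_mem y hZ
    have hEZ : E ≤ Z := by
      rw [hE]
      apply Submodule.span_le.2
      rintro _ ⟨i, rfl⟩
      exact hpowZ i e he
    have hEinv : ∀ v ∈ E, y v ∈ E := by
      intro v hv
      rw [hE] at hv ⊢
      induction hv using Submodule.span_induction with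
      | mem x hx =>
        obtain ⟨i, rfl⟩ := hx
        show y ((y ^ (i : ℕ)) e) ∈ _
        rw [← Module.End.mul_apply, ← pow_succ']
        by_cases hi : (i : ℕ) + 1 < r
        · exact Submodule.subset_span ⟨⟨(i : ℕ) + 1, hi⟩, rfl⟩
        · have h1 : (i : ℕ) + 1 = r := by have := i.2; omega
          rw [h1, hy]
          have h2 : (c • (1 : Module.End F V)) e = c • (y ^ (0 : ℕ)) e := by simp
          rw [h2]
          apply Submodule.smul_mem
          exact Submodule.subset_span ⟨⟨0, hr.pos⟩, rfl⟩
      | zero => simp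
      | add x z _ _ hx hz =>
        rw [map_add]
        exact Submodule.add_mem _ hx hz
      | smul b x _ hx =>
        rw [map_smul]
        exact Submodule.smul_mem _ _ hx
    -- complement inside `Z`
    have hz' : (y.restrict hZ) ^ r = c • (1 : Module.End F Z) := restrict_pow_scalar y Z hZ hy
    obtain ⟨W', hW1, hW2⟩ := inv_compl (y.restrict hZ) hr0 hc0 hz' (E.comap Z.subtype) (by
      intro v hv
      exact hEinv _ hv)
    have hEmap : (E.comap Z.subtype).map Z.subtype = E := by
      rw [Submodule.map_comap_subtype]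
      exact inf_eq_right.2 hEZ
    have hEf' : finrank F (E.comap Z.subtype) = r := by
      have := Submodule.finrank_map_subtype_eq Z (E.comap Z.subtype)
      rw [hEmap, hEfin] at this
      exact this.symm
    have hdW : finrank F W' = a * r := by
      have := Submodule.finrank_sup_add_finrank_inf_eq (E.comap Z.subtype) W'
      rw [hW1.sup_eq_top, hW1.inf_eq_bot, finrank_top, finrank_bot, hd, hEf'] at this
      have h3 : (a + 1) * r = a * r + r := by ring
      omega
    obtain ⟨W, hW⟩ : ∃ W, W = W'.map Z.subtype := ⟨_, rfl⟩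
    have hWfin : finrank F W = a * r := by
      rw [hW, Submodule.finrank_map_subtype_eq, hdW]
    have hWinv : ∀ v ∈ W, y v ∈ W := by
      rw [hW]
      exact flag_map y Z hZ W' hW2
    have hEW : E ⊔ W = Z := by
      rw [hW, ← hEmap, ← Submodule.map_sup, hW1.sup_eq_top, Submodule.map_top, Submodule.range_subtype]
    have hEWinf : E ⊓ W = ⊥ := by
      have h4 := Submodule.finrank_sup_add_finrank_inf_eq E W
      rw [hEW, hd, hEfin, hWfin] at h4
      have h3 : (a + 1) * r = a * r + r := by ring
      apply Submodule.finrank_eq_zero.1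
      omega
    obtain ⟨A', hA1, hA2, hA3⟩ := ih W hWinv hWfin
    have heE : e ∈ E := by
      rw [hE]
      exact Submodule.subset_span ⟨⟨0, hr.pos⟩, by simp⟩
    refine ⟨Submodule.span F {e} ⊔ A', ?_, ?_, ?_⟩
    · apply sup_le
      · exact (Submodule.span_singleton_le_iff_mem _ _).2 he
      · exact hA1.trans (hEW ▸ le_sup_right)
    · have h5 := Submodule.finrank_sup_add_finrank_inf_eq (Submodule.span F {e}) A'
      have h6 : (Submodule.span F {e}) ⊓ A' = ⊥ := by
        rw [eq_bot_iff, ← hEWinf]
        exact inf_le_inf ((Submodule.span_singleton_le_iff_mem _ _).2 heE) hA1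
      rw [h6, finrank_bot, finrank_span_singleton he0, hA2] at h5
      omega
    · rw [← hEW, ← hA3]
      apply le_antisymm
      · apply iSup_le
        intro i
        rw [Submodule.map_sup, Submodule.map_span, Set.image_singleton]
        apply sup_le
        · apply le_sup_of_le_left
          rw [Submodule.span_singleton_le_iff_mem, hE]
          exact Submodule.subset_span ⟨i, rfl⟩
        · exact le_sup_of_le_right (le_iSup (fun i : Fin r => A'.map (y ^ (i : ℕ))) i)
      · apply sup_le
        · rw [hE, Submodule.span_le]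
          rintro _ ⟨i, rfl⟩
          have h7 : (y ^ (i : ℕ)) e ∈ (Submodule.span F {e} ⊔ A').map (y ^ (i : ℕ)) :=
            Submodule.mem_map_of_mem (Submodule.mem_sup_left (Submodule.mem_span_singleton_self e))
          exact Submodule.mem_iSup_of_mem i h7
        · apply iSup_le
          intro i
          exact le_iSup_of_le i (Submodule.map_mono le_sup_right)

/-- The cyclic shift of the translates of a subspace. -/
theorem block_rotate {r : ℕ} [NeZero r] {c : F} (hc : c ≠ 0) (y : Module.End F V)
    (hy : y ^ r = c • (1 : Module.End F V)) (A : Submodule F V) (i : Fin r) :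
    (A.map (y ^ (i : ℕ))).map y = A.map (y ^ (((finRotate r) i : Fin r) : ℕ)) := by
  have h0 : (A.map (y ^ (i : ℕ))).map y = A.map (y ^ ((i : ℕ) + 1)) := by
    rw [← Submodule.map_comp, pow_succ']
    rfl
  rw [h0]
  obtain ⟨r', rfl⟩ := Nat.exists_eq_succ_of_ne_zero (NeZero.ne r)
  by_cases hi : (i : ℕ) = r'
  · have hi' : i = Fin.last r' := Fin.ext hi
    rw [hi', finRotate_last]
    simp only [Fin.val_last, Fin.val_zero, pow_zero]
    have h1 : y ^ (r' + 1) = c • (1 : Module.End F V) := hy
    rw [h1]
    ext v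
    constructor
    · rintro ⟨w, hw, rfl⟩
      have h2 : (c • (1 : Module.End F V)) w = c • w := by simp
      rw [h2]
      have : c • w ∈ A := A.smul_mem c hw
      simpa using this
    · intro hv
      have hv' : v ∈ A := by simpa using hv
      refine ⟨c⁻¹ • v, A.smul_mem _ hv', ?_⟩
      simp [smul_smul, hc]
  · have hlt : (i : ℕ) < r' := by have := i.2; omega
    have h3 : (((finRotate (r' + 1)) i : Fin (r' + 1)) : ℕ) = (i : ℕ) + 1 := coe_finRotate_of_ne_last (fun h => hi (by rw [h]; rfl))
    rw [h3]

end Block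

end Cfsg.Agent.Lib.Geo
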