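import Mathlib
import Cfsg.Agent.Lib.Geo.ElusFam

set_option autoImplicit false

/-! Elements of order `r` permuting a basis, when `q` generates `(ℤ/r)ˣ`. -/

namespace Cfsg.Agent.Lib.Geo

open Polynomial Module

universe u v

section Mono

variable {F : Type v} [Field F] {V : Type u} [AddCommGroup V] [Module F V]

theorem aeval_fixed (y : Module.End F V) {w : V} (hw : y w = w) (A : F[X]) : aeval y A w = A.eval 1 • w := by
  induction A using Polynomial.induction_on' with
  | add a b ha hb =>
    rw [map_add, LinearMap.add_apply, ha, hb, eval_add, add_smul]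
  | monomial n c =>
    have h1 : (y ^ n) w = w := by
      induction n with
      | zero => simp
      | succ n ih => rw [pow_succ, Module.End.mul_apply, hw, ih]
    rw [aeval_monomial, Module.End.mul_apply, h1, eval_monomial, one_pow, mul_one, Module.algebraMap_end_apply]

theorem rotate_vec {r : ℕ} [NeZero r] (y : Module.End F V) (hy : y ^ r = 1) (e : V) (i : Fin r) :
    y ((y ^ (i : ℕ)) e) = (y ^ (((finRotate r) i : Fin r) : ℕ)) e := by
  rw [← Module.End.mul_apply, ← pow_succ']
  obtain ⟨r', rfl⟩ := Nat.exists_eq_succ_of_ne_zero (NeZero.ne r)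
  by_cases hi : (i : ℕ) = r'
  · have hi' : i = Fin.last r' := Fin.ext hi
    rw [hi', finRotate_last]
    simp only [Fin.val_last, Fin.val_zero, pow_zero]
    have h1 : y ^ (r' + 1) = 1 := hy
    rw [h1]
  · have h3 : (((finRotate (r' + 1)) i : Fin (r' + 1)) : ℕ) = (i : ℕ) + 1 := coe_finRotate_of_ne_last (fun h => hi (by rw [h]; rfl))
    rw [h3]

end Mono

section Main

variable {F : Type v} [Field F] [Fintype F] {p : ℕ} [Fact p.Prime] [CharP F p] {q : ℕ}
  {r : ℕ} [hr : Fact r.Prime]

/-- Irreducibility of the cyclotomic polynomial when `q` has order `r - 1`. -/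
theorem cyc_irreducible (hq : Fintype.card F = q) (hrp : r ≠ p) (hc : orderOf (q : ZMod r) = r - 1) :
    Irreducible (cyclotomic r F) := by
  have hr1 : ¬ IsUnit (cyclotomic r F) := by
    intro hu
    have h1 := Polynomial.natDegree_eq_zero_of_isUnit hu
    rw [natDegree_cyclotomic, Nat.totient_prime hr.out] at h1
    have := hr.out.two_le
    omega
  obtain ⟨g, hg, hgd⟩ := WfDvdMonoid.exists_irreducible_factor hr1 (cyclotomic_ne_zero r F)
  have hdeg : g.natDegree = orderOf (q : ZMod r) := irr_deg_cyc (p := p) hq hrp hg hgd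
  obtain ⟨h, hh⟩ := hgd
  have h0 : h ≠ 0 := by
    rintro rfl
    rw [mul_zero] at hh
    exact cyclotomic_ne_zero r F hh
  have hd := congrArg natDegree hh
  rw [natDegree_mul hg.ne_zero h0, natDegree_cyclotomic, Nat.totient_prime hr.out, hdeg, hc] at hd
  have hh0 : h.natDegree = 0 := by omega
  have hu : IsUnit h := by
    rw [natDegree_eq_zero] at hh0
    obtain ⟨u, rfl⟩ := hh0
    have : u ≠ 0 := by
      rintro rfl
      simp at h0
    exact isUnit_C.2 (isUnit_iff_ne_zero.2 this)
  rw [hh]
  exact (irreducible_mul_isUnit hu).2 hg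

/-- A map of order `r` with enough fixed vectors permutes a basis. -/
theorem mono_lines (hq : Fintype.card F = q) (hrp : r ≠ p) (hc : orderOf (q : ZMod r) = r - 1) (hc2 : 2 ≤ r - 1) :
    ∀ (f : ℕ) (V : Type u) [AddCommGroup V] [Module F V] [FiniteDimensional F V] (y : Module.End F V) (g : ℕ),
      y ^ r = 1 → finrank F (LinearMap.ker (aeval y (X - C 1 : F[X]))) = g → finrank F V = g + (r - 1) * f → f ≤ g →
      ∃ (ι : Type) (_ : Fintype ι) (b : ι → V) (τ : Equiv.Perm ι), LinearIndependent F b ∧
        Submodule.span F (Set.range b) = ⊤ ∧ ∀ j, y (b j) = b (τ j) := by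
  intro f
  induction f with
  | zero =>
    intro V _ _ _ y g hy hg hn _
    have h1 : LinearMap.ker (aeval y (X - C 1 : F[X])) = ⊤ := by
      apply Submodule.eq_top_of_finrank_eq
      rw [hg, hn]
      ring
    refine ⟨Fin (finrank F V), inferInstance, Module.finBasis F V, Equiv.refl _, (Module.finBasis F V).linearIndependent, ?_, ?_⟩
    · exact (Module.finBasis F V).span_eq
    · intro j
      have h2 : Module.finBasis F V j ∈ LinearMap.ker (aeval y (X - C 1 : F[X])) := by
        rw [h1]; trivial
      simpa using (mem_ker_aeval_sub_one.1 h2)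
  | succ f ih =>
    intro V _ _ _ y g hy hg hn hfg
    classical
    haveI : NeZero r := ⟨hr.out.ne_zero⟩
    have hr0 : (r : F) ≠ 0 := by
      intro h0
      have h1 := (CharP.cast_eq_zero_iff F p r).1 h0
      exact hrp ((Nat.prime_dvd_prime_iff_eq Fact.out hr.out).1 h1).symm
    have hir := cyc_irreducible (F := F) (p := p) hq hrp hc
    obtain ⟨Cc, hC⟩ : ∃ Cc, Cc = LinearMap.ker (aeval y (X - C 1 : F[X])) := ⟨_, rfl⟩
    obtain ⟨Dc, hD⟩ : ∃ Dc, Dc = LinearMap.ker (aeval y (cyclotomic r F)) := ⟨_, rfl⟩
    have hsplit := inv_split y (coprime_cyc (p := p) hrp) (ann_of_pow hy) ⊤ (by simp)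
    simp only [top_inf_eq, ← hC, ← hD] at hsplit
    obtain ⟨hsup, hinf⟩ := hsplit
    have hdims : finrank F Cc + finrank F Dc = finrank F V := by
      have := Submodule.finrank_sup_add_finrank_inf_eq Cc Dc
      rw [hsup, hinf, finrank_top, finrank_bot] at this
      omega
    rw [← hC] at hg
    have hDfin : finrank F Dc = (r - 1) * (f + 1) := by omega
    have hDne : Dc ≠ ⊥ := by
      rintro h0
      rw [h0, finrank_bot] at hDfin
      have : 0 < (r - 1) * (f + 1) := Nat.mul_pos (by omega) (by omega)
      omega
    have hCne : Cc ≠ ⊥ := by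
      rintro h0
      rw [h0, finrank_bot] at hg
      omega
    obtain ⟨u, hu, hu0⟩ := Submodule.exists_mem_ne_zero_of_ne_bot hDne
    obtain ⟨w, hw, hw0⟩ := Submodule.exists_mem_ne_zero_of_ne_bot hCne
    have hwfix : y w = w := by
      rw [hC] at hw
      exact mem_ker_aeval_sub_one.1 hw
    have huk : aeval y (cyclotomic r F) u = 0 := by
      rw [hD] at hu
      exact hu
    obtain ⟨e, he⟩ : ∃ e, e = u + w := ⟨_, rfl⟩
    have hindE : LinearIndependent F (fun i : Fin r => (y ^ (i : ℕ)) e) := by
      rw [Fintype.linearIndependent_iff]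
      intro α hα
      have h1 : aeval y (polyOfFin α) e = 0 := by
        rw [polyOfFin_aeval]; exact hα
      rw [he, map_add, aeval_fixed y hwfix] at h1
      have h2 : aeval y (polyOfFin α) u ∈ Dc := by
        rw [hD, LinearMap.mem_ker, aeval_comm', huk, map_zero]
      have h3 : (polyOfFin α).eval 1 • w ∈ Cc := Cc.smul_mem _ hw
      have h4 : aeval y (polyOfFin α) u = -((polyOfFin α).eval 1 • w) := eq_neg_of_add_eq_zero_left h1
      have h5 : aeval y (polyOfFin α) u ∈ Cc ⊓ Dc := ⟨by rw [h4]; exact Cc.neg_mem h3, h2⟩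
      rw [hinf, Submodule.mem_bot] at h5
      have h6 : (polyOfFin α).eval 1 • w = 0 := by
        rw [h5] at h1
        simpa using h1
      have h7 : (polyOfFin α).eval 1 = 0 := (smul_eq_zero.1 h6).resolve_right hw0
      have h8 : (X - C 1 : F[X]) ∣ polyOfFin α := dvd_iff_isRoot.2 h7
      have h9 : cyclotomic r F ∣ polyOfFin α := irr_dvd_of_kill y hir hu0 huk _ h5
      have h10 : (X - C 1) * cyclotomic r F ∣ polyOfFin α := (coprime_cyc (p := p) hrp).mul_dvd h8 h9
      have h11 : polyOfFin α = 0 := by
        apply eq_zero_of_dvd_of_degree_lt h10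
        have h12 : ((X - C 1) * cyclotomic r F) = X ^ r - 1 := by
          rw [mul_comm, map_one]
          exact cyclotomic_prime_mul_X_sub_one F r
        rw [h12]
        have h13 : (X ^ r - 1 : F[X]).degree = r := by
          have := degree_X_pow_sub_C hr.out.pos (1 : F)
          simpa using this
        rw [h13]
        exact polyOfFin_degree α
      intro i
      rw [← polyOfFin_coeff α i, h11, coeff_zero]
    obtain ⟨E, hE⟩ : ∃ E, E = Submodule.span F (Set.range (fun i : Fin r => (y ^ (i : ℕ)) e)) := ⟨_, rfl⟩
    have hEfin : finrank F E = r := by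
      rw [hE, finrank_span_eq_card hindE, Fintype.card_fin]
    have hEinv : ∀ v ∈ E, y v ∈ E := by
      intro v hv
      rw [hE] at hv ⊢
      induction hv using Submodule.span_induction with
      | mem x hx =>
        obtain ⟨i, rfl⟩ := hx
        show y ((y ^ (i : ℕ)) e) ∈ _
        rw [rotate_vec y hy]
        exact Submodule.subset_span ⟨_, rfl⟩
      | zero => simp
      | add x z _ _ hx hz =>
        rw [map_add]
        exact Submodule.add_mem _ hx hz
      | smul b x _ hx =>
        rw [map_smul]
        exact Submodule.smul_mem _ _ hx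
    obtain ⟨W, hW1, hW2⟩ := inv_compl y hr0 (c := 1) one_ne_zero (by rw [hy, one_smul]) E hEinv
    have hdEW : finrank F E + finrank F W = finrank F V := by
      have := Submodule.finrank_sup_add_finrank_inf_eq E W
      rw [hW1.sup_eq_top, hW1.inf_eq_bot, finrank_top, finrank_bot] at this
      omega
    -- fixed space splitting
    obtain ⟨N, hN⟩ : ∃ N, N = aeval y (X - C 1 : F[X]) := ⟨_, rfl⟩
    have hNapply : ∀ v, N v = y v - v := by
      intro v
      rw [hN]
      simp
    have hNinv : ∀ S : Submodule F V, (∀ v ∈ S, y v ∈ S) → ∀ v ∈ S, N v ∈ S := by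
      intro S hS v hv
      rw [hNapply]
      exact S.sub_mem (hS v hv) hv
    have hadd := finrank_ker_add N hW1 (hNinv E hEinv) (hNinv W hW2) 1
    have hNC : LinearMap.ker N = Cc := by rw [hN, hC]
    rw [pow_one, finrank_ker_restrict, finrank_ker_restrict, pow_one, hNC] at hadd
    obtain ⟨e', he'⟩ := finrank_inv_eq (F := F) (p := p) hq hrp hy E hEinv
    rw [hc, ← hC, hEfin] at he'
    have hE1 : finrank F (E ⊓ Cc : Submodule F V) = 1 := by
      obtain ⟨d, hd⟩ : ∃ d, d = finrank F (E ⊓ Cc : Submodule F V) := ⟨_, rfl⟩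
      rw [← hd] at he' ⊢
      have hr2 : r = (r - 1) + 1 := by have := hr.out.pos; omega
      rcases e' with _ | e'
      · exfalso
        have h1 : E ⊓ Cc = E := by
          apply Submodule.eq_of_le_of_finrank_eq inf_le_left
          rw [hEfin, ← hd]
          omega
        have h2 : e ∈ E := by
          rw [hE]
          exact Submodule.subset_span ⟨⟨0, hr.out.pos⟩, by simp⟩
        have h3 : e ∈ Cc := by
          rw [← h1] at h2
          exact h2.2
        rw [hC] at h3
        have h4 := mem_ker_aeval_sub_one.1 h3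
        rw [he, map_add, hwfix] at h4
        have h5 : y u = u := add_right_cancel h4
        have h6 : u ∈ Cc := by
          rw [hC]
          exact mem_ker_aeval_sub_one.2 h5
        have h7 : u ∈ Cc ⊓ Dc := ⟨h6, hu⟩
        rw [hinf, Submodule.mem_bot] at h7
        exact hu0 h7
      · rcases e' with _ | e'
        · omega
        · exfalso
          have h1 : (e' + 1 + 1) * (r - 1) = e' * (r - 1) + 2 * (r - 1) := by ring
          omega
    have hWinv : (y.restrict hW2) ^ r = 1 := restrict_pow_one y W hW2 hy
    have hWker : finrank F (LinearMap.ker (aeval (y.restrict hW2) (X - C 1 : F[X]))) = g - 1 := by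
      have h1 : aeval (y.restrict hW2) (X - C 1 : F[X]) = N.restrict (hNinv W hW2) := by
        ext v
        have h3 : ((N.restrict (hNinv W hW2)) v : V) = N v := rfl
        rw [h3, hNapply]
        simp
      rw [h1]
      have h2 := finrank_ker_restrict N W (hNinv W hW2) 1
      rw [pow_one, pow_one, hNC] at h2
      rw [h2]
      omega
    obtain ⟨ι', _, b', τ', hb1, hb2, hb3⟩ := ih W (y.restrict hW2) (g - 1) hWinv hWker (by
      have h1 : (r - 1) * (f + 1) = (r - 1) * f + (r - 1) := by ring
      have h2 : r = (r - 1) + 1 := by have := hr.out.pos; omega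
      omega) (by omega)
    refine ⟨Fin r ⊕ ι', inferInstance, Sum.elim (fun i : Fin r => (y ^ (i : ℕ)) e) (fun j => (b' j : V)),
      Equiv.sumCongr (finRotate r) τ', ?_, ?_, ?_⟩
    · apply LinearIndependent.sum_type hindE (hb1.map' W.subtype (Submodule.ker_subtype W))
      have h1 : Submodule.span F (Set.range (fun j => (b' j : V))) ≤ W := by
        apply Submodule.span_le.2
        rintro _ ⟨j, rfl⟩
        exact (b' j).2
      rw [← hE]
      exact hW1.disjoint.mono_right h1
    · rw [Set.Sum.elim_range, Submodule.span_union, ← hE]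
      have h1 : Submodule.span F (Set.range (fun j => (b' j : V))) = W := by
        have h2 : (Set.range (fun j => (b' j : V))) = W.subtype '' (Set.range b') := by
          ext v
          simp
        rw [h2, ← Submodule.map_span, hb2, Submodule.map_top, Submodule.range_subtype]
      rw [h1, hW1.sup_eq_top]
    · intro j
      rcases j with i | j
      · exact rotate_vec y hy e i
      · have h1 := hb3 j
        have h2 := congrArg Subtype.val h1
        exact h2

end Main

end Cfsg.Agent.Lib.Geo
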