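import Mathlib
import Cfsg.Agent.Lib.Geo.ElusMono
import Cfsg.Agent.Lib.Geo.Decomp

set_option autoImplicit false

/-! The set of direct sum decompositions as a `GL`-set; maps permuting a decomposition. -/

namespace Cfsg.Agent.Lib.Geo

open Polynomial Module
open scoped MatrixGroups

universe u v

section Omega

variable {F : Type v} [Field F]

/-- The type of ordered decompositions of `F^n` into `t` subspaces of dimension `a`. -/
def DecT (F : Type v) [Field F] (n a t : ℕ) : Type v :=
  {D : Fin t → Submodule F (Fin n → F) // Cfsg.Geo.IsMDecomposition a D}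

variable {n a t : ℕ}

theorem decT_ne_bot (D : DecT F n a t) (j : Fin t) : D.1 j ≠ ⊥ := by
  intro h0
  have h1 := D.2.finrank_eq j
  rw [h0, finrank_bot] at h1
  have := D.2.pos
  omega

theorem decT_inj (D : DecT F n a t) : Function.Injective D.1 :=
  D.2.indep.injective (decT_ne_bot D)

instance : MulAction (Equiv.Perm (Fin t)) (DecT F n a t) where
  smul π D := ⟨fun j => D.1 (π⁻¹ j), {
    two_le := D.2.two_le
    pos := D.2.pos
    finrank_eq := fun j => D.2.finrank_eq _
    indep := D.2.indep.comp (Equiv.injective π⁻¹)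
    iSup_eq_top := by
      rw [← D.2.iSup_eq_top]
      exact (Equiv.iSup_comp (g := fun j => D.1 j) (π⁻¹)) }⟩
  one_smul D := by
    apply Subtype.ext
    rfl
  mul_smul π ρ D := by
    apply Subtype.ext
    rfl

theorem decT_card_div (hne : Nonempty (DecT F n a t)) {r : ℕ} (hr : r ∣ Nat.card (DecT F n a t) / t.factorial) :
    r ∣ Nat.card (DecT F n a t) := by
  have hfree : ∀ D : DecT F n a t, MulAction.stabilizer (Equiv.Perm (Fin t)) D = ⊥ := by
    intro D
    rw [eq_bot_iff]
    intro π hπ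
    rw [MulAction.mem_stabilizer_iff] at hπ
    rw [Subgroup.mem_bot]
    have h1 : ∀ j, D.1 (π⁻¹ j) = D.1 j := fun j => congrFun (congrArg Subtype.val hπ) j
    have h2 : ∀ j, π⁻¹ j = j := fun j => decT_inj D (h1 j)
    have h3 : π⁻¹ = 1 := Equiv.ext h2
    exact inv_eq_one.1 h3
  have h1 := Nat.card_congr (MulAction.selfEquivOrbitsQuotientProd (G := Equiv.Perm (Fin t)) (X := DecT F n a t) hfree)
  rw [Nat.card_prod, Nat.card_eq_fintype_card (α := Equiv.Perm (Fin t)), Fintype.card_perm, Fintype.card_fin] at h1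
  rw [h1, Nat.mul_div_cancel _ (Nat.factorial_pos t)] at hr
  rw [h1]
  exact hr.mul_right _

/-- A map carrying one decomposition to another. -/
theorem exists_elt_of_maps {D D' : Fin t → Submodule F (Fin n → F)} (hind : iSupIndep D) (htop : iSup D = ⊤)
    (hind' : iSupIndep D') (htop' : iSup D' = ⊤)
    (θ : ∀ l, D l →ₗ[F] D' l) (hsurj : ∀ l, Function.Surjective (θ l)) :
    ∃ h : GL (Fin n) F, ∀ l (x : D l), act h (x : Fin n → F) = θ l x := by
  classical
  obtain ⟨π, h1, h2, h3, h4⟩ := exists_proj hind htop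
  obtain ⟨π', h1', h2', h3', h4'⟩ := exists_proj hind' htop'
  let T : (Fin n → F) →ₗ[F] (Fin n → F) := ∑ l, (D' l).subtype ∘ₗ θ l ∘ₗ (π l).codRestrict (D l) (h1 l)
  have hT : ∀ l (x : D l), T (x : Fin n → F) = θ l x := by
    intro l x
    simp only [T, LinearMap.sum_apply, LinearMap.comp_apply]
    rw [Finset.sum_eq_single l]
    · have : (π l).codRestrict (D l) (h1 l) (x : Fin n → F) = x := Subtype.ext (h2 l x x.2)
      rw [this]
      rfl
    · intro m _ hm
      have : (π m).codRestrict (D m) (h1 m) (x : Fin n → F) = 0 := Subtype.ext (h3 m l hm x x.2)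
      rw [this, map_zero]
      rfl
    · simp
  have hTs : Function.Surjective T := by
    intro y
    have h5 : ∀ l, ∃ x, T x = π' l y := by
      intro l
      obtain ⟨x, hx⟩ := hsurj l ⟨π' l y, h1' l y⟩
      refine ⟨x, ?_⟩
      rw [hT, hx]
    choose x hx using h5
    refine ⟨∑ l, x l, ?_⟩
    rw [map_sum]
    simp only [hx]
    exact h4' y
  have hTi : Function.Injective T := LinearMap.injective_iff_surjective.2 hTs
  let e : (Fin n → F) ≃ₗ[F] (Fin n → F) := LinearEquiv.ofBijective T ⟨hTi, hTs⟩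
  refine ⟨act.symm e, fun l x => ?_⟩
  rw [MulEquiv.apply_symm_apply]
  exact hT l x

theorem map_act_eq (g : GL (Fin n) F) (S : Submodule F (Fin n → F)) :
    S.map ((act g : (Fin n → F) ≃ₗ[F] (Fin n → F)) : (Fin n → F) →ₗ[F] (Fin n → F)) =
      S.map (Matrix.toLin' (g : Matrix (Fin n) (Fin n) F)) := by
  congr 1

noncomputable instance : MulAction (GL (Fin n) F) (DecT F n a t) where
  smul g D := ⟨fun j => (D.1 j).map ((act g : (Fin n → F) ≃ₗ[F] (Fin n → F)) : (Fin n → F) →ₗ[F] (Fin n → F)), by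
    have hfin : ∀ j, finrank F ((D.1 j).map ((act g : (Fin n → F) ≃ₗ[F] (Fin n → F)) : (Fin n → F) →ₗ[F] (Fin n → F))) = a := by
      intro j
      rw [LinearEquiv.finrank_map_eq, D.2.finrank_eq]
    have htop : ⨆ j, (D.1 j).map ((act g : (Fin n → F) ≃ₗ[F] (Fin n → F)) : (Fin n → F) →ₗ[F] (Fin n → F)) = ⊤ := by
      rw [← Submodule.map_iSup, D.2.iSup_eq_top, Submodule.map_top, LinearEquiv.range]
    refine ⟨D.2.two_le, D.2.pos, hfin, ?_, htop⟩
    apply indep_of_finrank_sum
    rw [htop]
    have h1 := finrank_iSup_indep D.1 D.2.indep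
    rw [D.2.iSup_eq_top] at h1
    rw [h1]
    apply Finset.sum_congr rfl
    intro j _
    rw [hfin, D.2.finrank_eq]⟩
  one_smul D := by
    apply Subtype.ext
    funext j
    show (D.1 j).map _ = D.1 j
    rw [map_one]
    exact Submodule.map_id _
  mul_smul g h D := by
    apply Subtype.ext
    funext j
    show (D.1 j).map _ = ((D.1 j).map _).map _
    rw [← Submodule.map_comp, map_mul]
    rfl

theorem decT_smul_val (g : GL (Fin n) F) (D : DecT F n a t) (j : Fin t) :
    (g • D).1 j = (D.1 j).map ((act g : (Fin n → F) ≃ₗ[F] (Fin n → F)) : (Fin n → F) →ₗ[F] (Fin n → F)) := rfl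

theorem decT_transitive (D D' : DecT F n a t) : ∃ g : GL (Fin n) F, g • D = D' := by
  classical
  have hfin : ∀ l, finrank F (D.1 l) = finrank F (D'.1 l) := fun l => by rw [D.2.finrank_eq, D'.2.finrank_eq]
  let θ : ∀ l, D.1 l →ₗ[F] D'.1 l := fun l => (LinearEquiv.ofFinrankEq _ _ (hfin l)).toLinearMap
  have hsurj : ∀ l, Function.Surjective (θ l) := fun l => (LinearEquiv.ofFinrankEq _ _ (hfin l)).surjective
  obtain ⟨g, hg⟩ := exists_elt_of_maps D.2.indep D.2.iSup_eq_top D'.2.indep D'.2.iSup_eq_top θ hsurj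
  refine ⟨g, ?_⟩
  apply Subtype.ext
  funext j
  rw [decT_smul_val]
  apply Submodule.eq_of_le_of_finrank_eq
  · rintro _ ⟨x, hx, rfl⟩
    have := hg j ⟨x, hx⟩
    show act g x ∈ _
    rw [this]
    exact (θ j ⟨x, hx⟩).2
  · rw [LinearEquiv.finrank_map_eq, hfin]

theorem decT_card_dvd (hne : Nonempty (DecT F n a t)) [Finite F] : Nat.card (DecT F n a t) ∣ Nat.card (GL (Fin n) F) := by
  obtain ⟨D⟩ := hne
  have h1 := MulAction.index_stabilizer (GL (Fin n) F) D
  have h2 : MulAction.orbit (GL (Fin n) F) D = Set.univ := by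
    ext D'
    simp only [Set.mem_univ, iff_true]
    obtain ⟨g, hg⟩ := decT_transitive D D'
    exact ⟨g, hg⟩
  rw [h2, Set.ncard_univ] at h1
  rw [← h1]
  exact Subgroup.index_dvd_card _

end Omega

section Existence

variable {F : Type v} [Field F] {V : Type u} [AddCommGroup V] [Module F V] [FiniteDimensional F V]

/-- Existence of a family of subspaces with the right dimensions. -/
theorem exists_family (a t : ℕ) (hn : finrank F V = a * t) :
    ∃ D : Fin t → Submodule F V, (∀ j, finrank F (D j) = a) ∧ (⨆ j, D j) = ⊤ := by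
  let Q : ℕ → Submodule F V → Prop := fun t Z => finrank F Z = a * t
  have key := fam_rec (1 : Module.End F V) a Q ?_ ?_ t ⊤ (by show finrank F (⊤ : Submodule F V) = _; rw [finrank_top]; exact hn)
  · obtain ⟨D, -, h1, h2⟩ := key
    exact ⟨D, h1, h2⟩
  · rintro Z h1
    have h2 : finrank F Z = a * 0 := h1
    rw [Nat.mul_zero] at h2
    exact Submodule.finrank_eq_zero.1 h2
  · rintro t Z h1
    have h1' : finrank F Z = a * (t + 1) := h1
    have h2 : a ≤ finrank F Z := by rw [h1']; exact Nat.le_mul_of_pos_right _ (by omega)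
    obtain ⟨U, hU1, hU2⟩ := exists_sub_of_le (F := F) (V := V) Z a h2
    obtain ⟨W', hW'⟩ := Submodule.exists_isCompl (U.comap Z.subtype)
    have hEmap : (U.comap Z.subtype).map Z.subtype = U := by
      rw [Submodule.map_comap_subtype]
      exact inf_eq_right.2 hU1
    have hUf : finrank F (U.comap Z.subtype) = a := by
      have := Submodule.finrank_map_subtype_eq Z (U.comap Z.subtype)
      rw [hEmap, hU2] at this
      exact this.symm
    have hdW : finrank F W' = a * t := by
      have := Submodule.finrank_sup_add_finrank_inf_eq (U.comap Z.subtype) W'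
      rw [hW'.sup_eq_top, hW'.inf_eq_bot, finrank_top, finrank_bot, h1', hUf] at this
      have h3 : a * (t + 1) = a * t + a := by ring
      omega
    refine ⟨U, W'.map Z.subtype, ?_, by simp, hU2, ?_⟩
    · rw [← hEmap, ← Submodule.map_sup, hW'.sup_eq_top, Submodule.map_top, Submodule.range_subtype]
    · show finrank F (W'.map Z.subtype) = a * t
      rw [Submodule.finrank_map_subtype_eq, hdW]

end Existence

section Main

variable {F : Type v} [Field F] {n a t : ℕ}

theorem isMDec_of_family (ht : 2 ≤ t) (ha : 0 < a) (hn : n = a * t) (D : Fin t → Submodule F (Fin n → F))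
    (h1 : ∀ j, finrank F (D j) = a) (h2 : (⨆ j, D j) = ⊤) : Cfsg.Geo.IsMDecomposition a D := by
  refine ⟨ht, ha, h1, ?_, h2⟩
  apply indep_of_finrank_sum
  rw [h2, finrank_top]
  simp [h1, hn, mul_comm]

theorem decT_nonempty (ht : 2 ≤ t) (ha : 0 < a) (hn : n = a * t) : Nonempty (DecT F n a t) := by
  obtain ⟨D, h1, h2⟩ := exists_family (F := F) (V := Fin n → F) a t (by simp [hn])
  exact ⟨⟨D, isMDec_of_family ht ha hn D h1 h2⟩⟩

variable [Fintype F] {p : ℕ} [Fact p.Prime] [CharP F p] {q : ℕ} {r : ℕ} [hr : Fact r.Prime]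

/-- A prime dividing the number of decompositions has order of `q` at most `n`. -/
theorem order_le_of_dvd_decomp (hq : Fintype.card F = q) (hrp : r ≠ p) (ht : 2 ≤ t) (ha : 0 < a) (hn : n = a * t)
    (hΩ : r ∣ Nat.card {D : Fin t → Submodule F (Fin n → F) // Cfsg.Geo.IsMDecomposition a D} / t.factorial) :
    orderOf (q : ZMod r) ≤ n := by
  have hne := decT_nonempty (F := F) ht ha hn
  have h1 : r ∣ Nat.card (DecT F n a t) := decT_card_div hne hΩ
  have h2 := h1.trans (decT_card_dvd hne)
  rw [Matrix.card_GL_field, hq, prod_pow_sub q n n (by rw [← hq]; exact Fintype.one_lt_card) le_rfl] at h2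
  have hq1 : 1 ≤ q := by rw [← hq]; exact Fintype.card_pos
  rcases (Nat.Prime.dvd_mul hr.out).1 h2 with h3 | h3
  · exfalso
    obtain ⟨i, _, hi⟩ := (hr.out.prime.dvd_finset_prod_iff _).1 h3
    have h4 := hr.out.dvd_of_dvd_pow hi
    obtain ⟨f, hpos, hf⟩ := FiniteField.card F p
    rw [← hq, hf] at h4
    have h5 := hr.out.dvd_of_dvd_pow h4
    exact hrp ((Nat.prime_dvd_prime_iff_eq hr.out Fact.out).1 h5)
  · obtain ⟨i, _, hi⟩ := (hr.out.prime.dvd_finset_prod_iff _).1 h3
    have h4 := (order_dvd_iff hq1).1 hi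
    have h5 : 0 < n - i := by have := i.2; omega
    have h6 := Nat.le_of_dvd h5 h4
    omega

end Main

end Cfsg.Agent.Lib.Geo
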