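import Mathlib
import Cfsg.Agent.Lib.Geo.ElusOrbit

set_option autoImplicit false

/-! Fixed vectors of a map of prime order permuting the summands of a decomposition. -/

namespace Cfsg.Agent.Lib.Geo

open Polynomial Module

universe v

section Perm

variable {t : ℕ}

theorem perm_pow_sub_ne (σ : Equiv.Perm (Fin t)) {r : ℕ} (hr : r.Prime) (j : Fin t) (h1 : (σ ^ r) j = j) (h2 : σ j ≠ j)
    {a b : ℕ} (hab : a < b) (hb : b < r) : (σ ^ a) j ≠ (σ ^ b) j := by
  intro h
  have h3 : σ ^ b = σ ^ a * σ ^ (b - a) := by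
    rw [← pow_add]
    congr 1
    omega
  rw [h3] at h
  have h4 : (σ ^ (b - a)) j = j := by
    apply (σ ^ a).injective
    exact h.symm
  exact perm_pow_ne σ hr j h1 h2 (b - a) (by omega) (by omega) h4

/-- Orbit representatives. -/
theorem orbit_reps (σ : Equiv.Perm (Fin t)) {r : ℕ} (hr : r.Prime) (hσ : ∀ j, (σ ^ r) j = j) :
    ∃ R : Finset (Fin t), (∀ l ∈ R, ∀ m ∈ R, ∀ i : ℕ, (σ ^ i) l = m → l = m) ∧ t ≤ R.card * r := by
  classical
  have hσ1 : σ ^ r = 1 := Equiv.ext hσ
  let R : Finset (Fin t) := Finset.univ.filter (fun m => ∀ i : ℕ, m ≤ (σ ^ i) m)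
  refine ⟨R, ?_, ?_⟩
  · intro l hl m hm i hi
    apply le_antisymm
    · rw [← hi]
      exact (Finset.mem_filter.1 hl).2 i
    · have h1 := (Finset.mem_filter.1 hm).2 (i * (r - 1))
      have h2 : (σ ^ (i * (r - 1))) m = l := by
        rw [← hi]
        show (σ ^ (i * (r - 1)) * σ ^ i) l = l
        rw [← pow_add]
        have h3 : i * (r - 1) + i = r * i := by
          have hr1 := hr.one_le
          obtain ⟨s, rfl⟩ : ∃ s, r = s + 1 := ⟨r - 1, by omega⟩
          simp only [Nat.add_sub_cancel]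
          ring
        rw [h3, pow_mul, hσ1, one_pow]
        rfl
      rw [h2] at h1
      exact h1
  · have hcover : (Finset.univ : Finset (Fin t)) ⊆ R.biUnion (fun m => (Finset.range r).image (fun i => (σ ^ i) m)) := by
      intro j _
      -- the minimum of the orbit
      obtain ⟨i₀, hi₀, hmin⟩ := Finset.exists_min_image (Finset.range r) (fun i => (σ ^ i) j) ⟨0, Finset.mem_range.2 hr.pos⟩
      have hi₀' := Finset.mem_range.1 hi₀
      have hmod : ∀ i : ℕ, (σ ^ i) j = (σ ^ (i % r)) j := by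
        intro i
        conv_lhs => rw [← Nat.div_add_mod i r, pow_add, pow_mul, hσ1, one_pow, one_mul]
      rw [Finset.mem_biUnion]
      refine ⟨(σ ^ i₀) j, ?_, ?_⟩
      · rw [Finset.mem_filter]
        refine ⟨Finset.mem_univ _, fun i => ?_⟩
        have h1 : (σ ^ i) ((σ ^ i₀) j) = (σ ^ (i + i₀)) j := by
          rw [pow_add]; rfl
        rw [h1, hmod (i + i₀)]
        exact hmin _ (Finset.mem_range.2 (Nat.mod_lt _ hr.pos))
      · rw [Finset.mem_image]
        refine ⟨r - i₀ - 1 + 1 - 1 + (if i₀ = 0 then 0 else 1) - (if i₀ = 0 then r - 1 else 0) , ?_, ?_⟩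
        · rw [Finset.mem_range]
          split_ifs <;> omega
        · have h2 : (σ ^ (r - i₀ - 1 + 1 - 1 + (if i₀ = 0 then 0 else 1) - (if i₀ = 0 then r - 1 else 0))) ((σ ^ i₀) j) =
              (σ ^ ((r - i₀ - 1 + 1 - 1 + (if i₀ = 0 then 0 else 1) - (if i₀ = 0 then r - 1 else 0)) + i₀)) j := by
            rw [pow_add]; rfl
          rw [h2]
          split_ifs with h0
          · subst h0
            simp
          · have h3 : r - i₀ - 1 + 1 - 1 + 1 - 0 + i₀ = r := by omega
            rw [h3, hσ1]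
            rfl
    have h1 := Finset.card_le_card hcover
    rw [Finset.card_univ, Fintype.card_fin] at h1
    refine h1.trans (Finset.card_biUnion_le_card_mul _ _ r ?_)
    intro m _
    calc _ ≤ (Finset.range r).card := Finset.card_image_le
      _ = r := Finset.card_range r

end Perm

section Main

variable {F : Type v} [Field F] {n t : ℕ}

/-- Equivariance of the projections. -/
theorem proj_equiv {D : Fin t → Submodule F (Fin n → F)} {π : Fin t → ((Fin n → F) →ₗ[F] (Fin n → F))}
    (h1 : ∀ l x, π l x ∈ D l) (h2 : ∀ l, ∀ x ∈ D l, π l x = x) (h3 : ∀ l m, l ≠ m → ∀ x ∈ D m, π l x = 0)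
    (h4 : ∀ x, ∑ l, π l x = x) (y : Module.End F (Fin n → F)) (σ : Equiv.Perm (Fin t))
    (hσ : ∀ j, (D j).map y = D (σ j)) (k : Fin t) (v : Fin n → F) : π (σ k) (y v) = y (π k v) := by
  classical
  have hmem : ∀ l x, x ∈ D l → y x ∈ D (σ l) := by
    intro l x hx
    rw [← hσ]
    exact Submodule.mem_map_of_mem hx
  conv_lhs => rw [← h4 v, map_sum, map_sum]
  rw [Finset.sum_eq_single k]
  · exact h2 _ _ (hmem k _ (h1 k v))
  · intro l _ hl
    exact h3 _ _ (fun h => hl (σ.injective h).symm) _ (hmem l _ (h1 l v))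
  · simp

end Main

section Fixed

variable {F : Type v} [Field F] {n t : ℕ}

theorem mem_ker_sub_one {V : Type*} [AddCommGroup V] [Module F V] (y : Module.End F V) {v : V} :
    v ∈ LinearMap.ker (aeval y (X - C 1 : F[X])) ↔ y v = v := by
  rw [LinearMap.mem_ker]
  simp [sub_eq_zero]

/-- The number of fixed vectors is at least the sum of the dimensions of a set of orbit representatives. -/
theorem fixed_ge {D : Fin t → Submodule F (Fin n → F)} (hind : iSupIndep D) (htop : iSup D = ⊤)
    (y : Module.End F (Fin n → F)) (σ : Equiv.Perm (Fin t)) (hσ : ∀ j, (D j).map y = D (σ j))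
    {r : ℕ} (hr : r.Prime) (hr0 : (r : F) ≠ 0) (hy : y ^ r = 1) (hσr : ∀ j, (σ ^ r) j = j)
    (R : Finset (Fin t)) (hR1 : ∀ l ∈ R, ∀ m ∈ R, ∀ i : ℕ, (σ ^ i) l = m → l = m)
    (hR2 : ∀ l ∈ R, σ l ≠ l ∨ ∀ v ∈ D l, y v = v) :
    ∑ l ∈ R, finrank F (D l) ≤ finrank F (LinearMap.ker (aeval y (X - C 1 : F[X]))) := by
  classical
  obtain ⟨π, h1, h2, h3, h4⟩ := exists_proj hind htop
  obtain ⟨T, hT⟩ : ∃ T : Module.End F (Fin n → F), T = ∑ i ∈ Finset.range r, y ^ i := ⟨_, rfl⟩
  have hTfix : ∀ v, y (T v) = T v := by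
    intro v
    have h5 : (y - 1) * T = 0 := by
      rw [hT, mul_geom_sum, hy, sub_self]
    have h6 := LinearMap.congr_fun h5 v
    have h7 : y (T v) - T v = 0 := h6
    exact sub_eq_zero.1 h7
  let X₀ := (l : {l // l ∈ R}) → D l.1
  let Θ₀ : X₀ →ₗ[F] (Fin n → F) := ∑ l : {l // l ∈ R}, T ∘ₗ (D l.1).subtype ∘ₗ LinearMap.proj l
  have hΘ : ∀ u : X₀, Θ₀ u = ∑ l : {l // l ∈ R}, T (u l : Fin n → F) := by
    intro u
    simp only [Θ₀, LinearMap.sum_apply]
    rfl
  have hΘmem : ∀ u, Θ₀ u ∈ LinearMap.ker (aeval y (X - C 1 : F[X])) := by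
    intro u
    rw [mem_ker_sub_one, hΘ, map_sum]
    exact Finset.sum_congr rfl (fun l _ => hTfix _)
  let Θ : X₀ →ₗ[F] LinearMap.ker (aeval y (X - C 1 : F[X])) := Θ₀.codRestrict _ hΘmem
  have hinj : Function.Injective Θ := by
    rw [injective_iff_map_eq_zero]
    intro u hu
    have hu' : Θ₀ u = 0 := congrArg Subtype.val hu
    rw [hΘ] at hu'
    funext m
    apply Subtype.ext
    show (u m : Fin n → F) = 0
    have h5 := congrArg (π m.1) hu'
    rw [map_sum, map_zero, Finset.sum_eq_single m] at h5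
    · rw [hT, LinearMap.sum_apply, map_sum] at h5
      rcases hR2 m.1 m.2 with hmv | hfix
      · rw [Finset.sum_eq_single 0] at h5
        · simpa [h2 m.1 _ (u m).2] using h5
        · intro i hi hi0
          have hi' := Finset.mem_range.1 hi
          have h6 := perm_pow_ne σ hr m.1 (hσr m.1) hmv i (by omega) hi'
          exact h3 _ _ (Ne.symm h6) _ (perm_pow_mem y D σ hσ i m.1 (u m).2)
        · intro h0
          exact absurd (Finset.mem_range.2 hr.pos) h0
      · have h7 : ∀ i : ℕ, (y ^ i) (u m : Fin n → F) = (u m : Fin n → F) := by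
          intro i
          induction i with
          | zero => simp
          | succ i ih => rw [pow_succ, Module.End.mul_apply, hfix _ (u m).2, ih]
        have h6 : ∀ i ∈ Finset.range r, π m.1 ((y ^ i) (u m : Fin n → F)) = (u m : Fin n → F) := by
          intro i _
          rw [h7]
          exact h2 m.1 _ (u m).2
        rw [Finset.sum_congr rfl h6, Finset.sum_const, Finset.card_range, ← Nat.cast_smul_eq_nsmul F] at h5
        exact (smul_eq_zero.1 h5).resolve_left hr0
    · intro l _ hl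
      rw [hT, LinearMap.sum_apply, map_sum]
      apply Finset.sum_eq_zero
      intro i _
      apply h3
      · intro h6
        exact hl (Subtype.ext (hR1 l.1 l.2 m.1 m.2 i h6.symm))
      · exact perm_pow_mem y D σ hσ i l.1 (u l).2
    · simp
  have h8 := LinearMap.finrank_le_finrank_of_injective hinj
  have h9 : finrank F X₀ = ∑ l ∈ R, finrank F (D l) := by
    rw [Module.finrank_pi_fintype]
    exact Finset.sum_coe_sort R (fun l => finrank F (D l))
  omega

/-- A moved summand forces a small fixed space. -/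
theorem moved_bound {D : Fin t → Submodule F (Fin n → F)} (hind : iSupIndep D) (htop : iSup D = ⊤)
    (y : Module.End F (Fin n → F)) (σ : Equiv.Perm (Fin t)) (hσ : ∀ j, (D j).map y = D (σ j))
    {r : ℕ} (hr : r.Prime) (hy : y ^ r = 1) (hσr : ∀ j, (σ ^ r) j = j) {a : ℕ} (ha : ∀ j, finrank F (D j) = a)
    (j : Fin t) (hj : σ j ≠ j) :
    finrank F (LinearMap.ker (aeval y (X - C 1 : F[X]))) + (r - 1) * a ≤ n := by
  classical
  obtain ⟨π, h1, h2, h3, h4⟩ := exists_proj hind htop
  have hinjy : Function.Injective y := inj_of_pow_scalar y hr.ne_zero (c := 1) one_ne_zero (by rw [hy, one_smul])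
  let orb : Fin (r - 1) → Fin t := fun i => (σ ^ (i : ℕ)) j
  have horb : Function.Injective orb := by
    intro i i' hii
    by_contra hne
    have hne' : (i : ℕ) ≠ i' := fun h => hne (Fin.ext h)
    rcases lt_or_gt_of_ne hne' with hlt | hlt
    · exact perm_pow_sub_ne σ hr j (hσr j) hj hlt (by have := i'.2; omega) hii
    · exact perm_pow_sub_ne σ hr j (hσr j) hj hlt (by have := i.2; omega) hii.symm
  have hind' : iSupIndep (D ∘ orb) := hind.comp horb
  have hfin : finrank F (⨆ i, (D ∘ orb) i : Submodule F (Fin n → F)) = (r - 1) * a := by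
    rw [finrank_iSup_indep _ hind']
    simp [ha]
  obtain ⟨S, hS⟩ : ∃ S, S = ⨆ i, (D ∘ orb) i := ⟨_, rfl⟩
  rw [← hS] at hfin
  obtain ⟨Cc, hC⟩ : ∃ Cc, Cc = LinearMap.ker (aeval y (X - C 1 : F[X])) := ⟨_, rfl⟩
  rw [← hC]
  have hinf : S ⊓ Cc = ⊥ := by
    rw [eq_bot_iff]
    rintro w ⟨hw1, hw2⟩
    rw [SetLike.mem_coe, hC] at hw2
    have hwfix : y w = w := (mem_ker_sub_one y).1 hw2
    have hcomp : ∀ i : ℕ, π ((σ ^ i) j) w = (y ^ i) (π j w) := by
      intro i
      induction i with
      | zero => simp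
      | succ i ih =>
        rw [pow_succ', Equiv.Perm.mul_apply, pow_succ', Module.End.mul_apply, ← ih]
        have := proj_equiv h1 h2 h3 h4 y σ hσ ((σ ^ i) j) w
        rw [hwfix] at this
        exact this
    have hzero : ∀ k, (∀ i, k ≠ orb i) → π k w = 0 := by
      intro k hk
      have h5 : S ≤ LinearMap.ker (π k) := by
        rw [hS]
        apply iSup_le
        intro i v hv
        exact h3 k (orb i) (hk i) v hv
      exact h5 hw1
    have h6 : π ((σ ^ (r - 1)) j) w = 0 := by
      apply hzero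
      intro i h7
      have h8 : (σ ^ (i : ℕ)) j = (σ ^ (r - 1)) j := h7.symm
      have hr1 := hr.pos
      exact perm_pow_sub_ne σ hr j (hσr j) hj (a := i) (b := r - 1) i.2 (by omega) h8
    rw [hcomp] at h6
    have h7 : π j w = 0 := pow_inj_of_inj y hinjy (r - 1) (by rw [h6, map_zero])
    have h8 : ∀ k, π k w = 0 := by
      intro k
      by_cases hk : ∃ i, k = orb i
      · obtain ⟨i, rfl⟩ := hk
        show π ((σ ^ (i : ℕ)) j) w = 0
        rw [hcomp, h7, map_zero]
      · push Not at hk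
        exact hzero k hk
    have h9 := h4 w
    rw [Finset.sum_eq_zero (fun k _ => h8 k)] at h9
    exact h9.symm
  have h10 := Submodule.finrank_sup_add_finrank_inf_eq S Cc
  rw [hinf, finrank_bot, hfin] at h10
  have h11 : finrank F (S ⊔ Cc : Submodule F (Fin n → F)) ≤ n := by
    have := Submodule.finrank_le (S ⊔ Cc)
    simpa using this
  have h12 : (r - 1) * a + finrank F Cc = finrank F Cc + (r - 1) * a := by ring
  omega

end Fixed

section FixedPart

variable {F : Type v} [Field F] [Fintype F] {p : ℕ} [Fact p.Prime] [CharP F p] {q : ℕ} {r : ℕ} [hr : Fact r.Prime]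
  {V : Type*} [AddCommGroup V] [Module F V] [FiniteDimensional F V]

/-- An invariant subspace of dimension less than the order consists of fixed vectors. -/
theorem fixed_part_le (hq : Fintype.card F = q) (hrp : r ≠ p) {y : Module.End F V} (hy : y ^ r = 1)
    (U : Submodule F V) (hU : ∀ v ∈ U, y v ∈ U) (ha : finrank F U < orderOf (q : ZMod r)) : ∀ v ∈ U, y v = v := by
  obtain ⟨e, he⟩ := finrank_inv_eq (F := F) (p := p) hq hrp hy U hU
  have h1 : e = 0 := by
    by_contra h0
    have h2 : 1 ≤ e := Nat.one_le_iff_ne_zero.2 h0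
    have h3 : orderOf (q : ZMod r) ≤ e * orderOf (q : ZMod r) := Nat.le_mul_of_pos_left _ (by omega)
    omega
  rw [h1, zero_mul, add_zero] at he
  have h4 : U ⊓ LinearMap.ker (aeval y (X - C 1 : F[X])) = U :=
    Submodule.eq_of_le_of_finrank_eq inf_le_left he.symm
  intro v hv
  rw [← h4] at hv
  exact mem_ker_aeval_sub_one.1 hv.2

end FixedPart

section Assemble

variable {F : Type v} [Field F] {n : ℕ}

theorem map_eq_of_inv {V : Type*} [AddCommGroup V] [Module F V] [FiniteDimensional F V] (f : Module.End F V)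
    (hf : Function.Injective f) (S : Submodule F V) (hS : ∀ v ∈ S, f v ∈ S) : S.map f = S := by
  apply Submodule.eq_of_le_of_finrank_eq
  · rintro _ ⟨v, hv, rfl⟩
    exact hS v hv
  · rw [finrank_map_inj f hf]

/-- From a permuted basis to a permuted decomposition into lines. -/
theorem lines_of_mono {ι : Type} [Fintype ι] (b : ι → (Fin n → F)) (τ : Equiv.Perm ι) (hb : LinearIndependent F b)
    (hs : Submodule.span F (Set.range b) = ⊤) (w : Module.End F (Fin n → F)) (hw : ∀ j, w (b j) = b (τ j)) (hn : 2 ≤ n) :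
    ∃ D : Fin n → Submodule F (Fin n → F), Cfsg.Geo.IsMDecomposition 1 D ∧ ∃ σ : Equiv.Perm (Fin n), ∀ j, (D j).map w = D (σ j) := by
  classical
  let B := Basis.mk hb (by rw [hs])
  have hcard : Fintype.card ι = n := by
    have := Module.finrank_eq_card_basis B
    rw [← this]
    simp
  let e : Fin n ≃ ι := (Fintype.equivFinOfCardEq hcard).symm
  refine ⟨fun j => Submodule.span F {b (e j)}, ?_, e.trans (τ.trans e.symm), ?_⟩
  · apply isMDec_of_family hn (by omega) (by omega)
    · intro j
      exact finrank_span_singleton (hb.ne_zero (e j))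
    · rw [eq_top_iff, ← hs]
      apply Submodule.span_le.2
      rintro _ ⟨i, rfl⟩
      have h1 : b i ∈ Submodule.span F {b (e (e.symm i))} := by
        rw [Equiv.apply_symm_apply]
        exact Submodule.mem_span_singleton_self _
      exact Submodule.mem_iSup_of_mem (e.symm i) h1
  · intro j
    rw [Submodule.map_span, Set.image_singleton, hw]
    simp

/-- Decomposition permuted cyclically by an element with `y^r` a scalar which is not an `r`-th power. -/
theorem cycle_of_binom {r : ℕ} (hr : r.Prime) (hr0 : (r : F) ≠ 0) {c : F} (hc0 : c ≠ 0) (hno : ∀ d : F, d ^ r ≠ c)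
    (y : Module.End F (Fin n → F)) (hy : y ^ r = c • (1 : Module.End F (Fin n → F))) (a t' : ℕ) (ha : 0 < a)
    (ht : 2 ≤ t' * r) (hn : n = a * (t' * r)) :
    ∃ D : Fin (t' * r) → Submodule F (Fin n → F), Cfsg.Geo.IsMDecomposition a D ∧
      ∃ σ : Equiv.Perm (Fin (t' * r)), ∀ j, (D j).map y = D (σ j) := by
  classical
  haveI : NeZero r := ⟨hr.ne_zero⟩
  have hfin : finrank F (Fin n → F) = (r * a) * t' := by
    simp [hn]
    ring
  obtain ⟨Z, hZ1, hZ2, hZ3⟩ := fam_binom hr hr0 hc0 hno y hy (r * a) t' (dvd_mul_right _ _) hfin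
  have hblock : ∀ m, ∃ A : Submodule F (Fin n → F), A ≤ Z m ∧ finrank F A = a ∧ (⨆ i : Fin r, A.map (y ^ (i : ℕ))) = Z m := by
    intro m
    exact binom_block hr hr0 hc0 hno y hy a (Z m) (hZ1 m) (by rw [hZ2, mul_comm])
  choose A hA1 hA2 hA3 using hblock
  have hinj := inj_of_pow_scalar y hr.ne_zero hc0 hy
  let e : Fin t' × Fin r ≃ Fin (t' * r) := finProdFinEquiv
  let f : Fin t' × Fin r → Submodule F (Fin n → F) := fun P => (A P.1).map (y ^ ((P.2 : Fin r) : ℕ))
  refine ⟨fun j => f (e.symm j), ?_, e.symm.trans ((Equiv.prodCongr (Equiv.refl _) (finRotate r)).trans e), ?_⟩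
  · apply isMDec_of_family ht ha hn
    · intro j
      show finrank F ((A (e.symm j).1).map (y ^ (((e.symm j).2 : Fin r) : ℕ))) = a
      rw [finrank_map_inj _ (pow_inj_of_inj y hinj _), hA2]
    · rw [Equiv.iSup_comp (g := f) e.symm, iSup_prod]
      simp only [f]
      simp_rw [hA3]
      exact hZ3
  · intro j
    have h1 := block_rotate hc0 y hy (A (e.symm j).1) (e.symm j).2
    show ((A (e.symm j).1).map (y ^ (((e.symm j).2 : Fin r) : ℕ))).map y = f (e.symm (e ((e.symm j).1, (finRotate r) (e.symm j).2)))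
    rw [h1, Equiv.symm_apply_apply]

end Assemble

end Cfsg.Agent.Lib.Geo
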