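import Mathlib
import Cfsg.Agent.Lib.Geo.ElusBlocks
import Cfsg.Agent.Lib.Geo.SympMax

set_option autoImplicit false

/-! Alternating forms and maps with scalar square: orthogonal decompositions into planes permuted
by the map. -/

namespace Cfsg.Agent.Lib.Geo

open Module Submodule

variable {F V : Type*} [Field F] [AddCommGroup V] [Module F V]

/-- A non-degenerate alternating form, as a function. -/
structure AForm (f : V → V → F) : Prop where
  add_left : ∀ a b c, f (a + b) c = f a c + f b c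
  smul_left : ∀ (r : F) a b, f (r • a) b = r * f a b
  add_right : ∀ a b c, f a (b + c) = f a b + f a c
  smul_right : ∀ (r : F) a b, f a (r • b) = r * f a b
  alt : ∀ a, f a a = 0
  nd : ∀ a, a ≠ 0 → ∃ b, f a b ≠ 0

namespace AForm

variable {f : V → V → F} (hf : AForm f)
include hf

theorem zero_left (a : V) : f 0 a = 0 := by
  have := hf.smul_left 0 (0 : V) a
  simpa using this

theorem zero_right (a : V) : f a 0 = 0 := by
  have := hf.smul_right 0 a (0 : V)
  simpa using this

theorem skew (a b : V) : f a b = - f b a := by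
  have h := hf.alt (a + b)
  rw [hf.add_left, hf.add_right, hf.add_right, hf.alt, hf.alt] at h
  linear_combination h

theorem sub_right (a b c : V) : f a (b - c) = f a b - f a c := by
  rw [sub_eq_add_neg, hf.add_right, ← neg_one_smul F c, hf.smul_right]; ring

theorem sub_left (a b c : V) : f (a - b) c = f a c - f b c := by
  rw [sub_eq_add_neg, hf.add_left, ← neg_one_smul F b, hf.smul_left]; ring

end AForm

/-- The form is non-degenerate on `W`. -/
def NDOn (f : V → V → F) (W : Submodule F V) : Prop := ∀ u ∈ W, u ≠ 0 → ∃ v ∈ W, f u v ≠ 0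

/-- Orthogonal of a subspace. -/
def aperp {f : V → V → F} (hf : AForm f) (P : Submodule F V) : Submodule F V where
  carrier := {u | ∀ p ∈ P, f u p = 0}
  add_mem' := fun {a b} ha hb p hp => by rw [hf.add_left, ha p hp, hb p hp, add_zero]
  zero_mem' := fun p _ => hf.zero_left p
  smul_mem' := fun c a ha p hp => by rw [hf.smul_left, ha p hp, mul_zero]

theorem mem_aperp {f : V → V → F} {hf : AForm f} {P : Submodule F V} {u : V} :
    u ∈ aperp hf P ↔ ∀ p ∈ P, f u p = 0 := Iff.rfl

theorem aperp_symm {f : V → V → F} {hf : AForm f} {P Q : Submodule F V} (h : P ≤ aperp hf Q) :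
    Q ≤ aperp hf P := by
  intro q hq p hp
  rw [hf.skew, h hp q hq, neg_zero]

/-- The plane spanned by two vectors. -/
abbrev plane (F : Type*) {V : Type*} [Field F] [AddCommGroup V] [Module F V] (a b : V) :
    Submodule F V := span F {a, b}

theorem left_mem_plane (a b : V) : a ∈ plane F a b := subset_span (by simp)

theorem right_mem_plane (a b : V) : b ∈ plane F a b := subset_span (by simp)

theorem plane_le {a b : V} {W : Submodule F V} (ha : a ∈ W) (hb : b ∈ W) : plane F a b ≤ W := by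
  rw [span_le]
  rintro w (rfl | rfl)
  · exact ha
  · exact hb

theorem mem_aperp_plane {f : V → V → F} {hf : AForm f} {a b u : V} :
    u ∈ aperp hf (plane F a b) ↔ f u a = 0 ∧ f u b = 0 := by
  constructor
  · intro h
    exact ⟨h a (left_mem_plane a b), h b (right_mem_plane a b)⟩
  · rintro ⟨h1, h2⟩ p hp
    obtain ⟨c, d, rfl⟩ := mem_span_pair.1 hp
    rw [hf.add_right, hf.smul_right, hf.smul_right, h1, h2]
    ring

section Perp

variable {f : V → V → F} (hf : AForm f) {W : Submodule F V} {a b : V}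
include hf

theorem plane_perp_nd (hW : NDOn f W) (ha : a ∈ W) (hb : b ∈ W) (hab : f a b = 1) :
    NDOn f (W ⊓ aperp hf (plane F a b)) := by
  rintro u ⟨huW, hu⟩ hne
  obtain ⟨w, hw, hne2⟩ := hW u huW hne
  obtain ⟨h1, h2⟩ := mem_aperp_plane.1 hu
  have hba : f b a = -1 := by rw [hf.skew, hab]
  refine ⟨w - f w b • a + f w a • b, Submodule.mem_inf.2 ⟨?_, ?_⟩, ?_⟩
  · exact W.add_mem (W.sub_mem hw (W.smul_mem _ ha)) (W.smul_mem _ hb)
  · rw [mem_aperp_plane]
    constructor
    · simp only [hf.add_left, hf.sub_left, hf.smul_left, hf.alt, hba]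
      ring
    · simp only [hf.add_left, hf.sub_left, hf.smul_left, hf.alt, hab]
      ring
  · simp only [hf.add_right, hf.sub_right, hf.smul_right, h1, h2]
    simpa using hne2

theorem plane_sup_perp (ha : a ∈ W) (hb : b ∈ W) (hab : f a b = 1) :
    plane F a b ⊔ (W ⊓ aperp hf (plane F a b)) = W := by
  have hba : f b a = -1 := by rw [hf.skew, hab]
  apply le_antisymm (sup_le (plane_le ha hb) inf_le_left)
  intro u hu
  have h3 : u - f u b • a + f u a • b ∈ W ⊓ aperp hf (plane F a b) := by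
    refine Submodule.mem_inf.2 ⟨W.add_mem (W.sub_mem hu (W.smul_mem _ ha)) (W.smul_mem _ hb), ?_⟩
    rw [mem_aperp_plane]
    constructor
    · simp only [hf.add_left, hf.sub_left, hf.smul_left, hf.alt, hba]
      ring
    · simp only [hf.add_left, hf.sub_left, hf.smul_left, hf.alt, hab]
      ring
  have h4 : u = (f u b • a - f u a • b) + (u - f u b • a + f u a • b) := by abel
  rw [h4]
  refine add_mem_sup (mem_span_pair.2 ⟨f u b, - f u a, ?_⟩) h3
  rw [neg_smul, sub_eq_add_neg]

theorem plane_lt_of (ha : a ∈ W) (hb : b ∈ W) (hab : f a b = 1) :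
    W ⊓ aperp hf (plane F a b) < W := by
  refine lt_of_le_of_ne inf_le_left fun he => ?_
  have h1 : a ∈ W ⊓ aperp hf (plane F a b) := by rw [he]; exact ha
  have h2 := (mem_aperp_plane.1 h1.2).2
  rw [hab] at h2
  exact one_ne_zero h2

end Perp

variable (x : V →ₗ[F] V) (z : F)

/-- The family of planes. -/
structure PlaneFam (f : V → V → F) (W : Submodule F V) (𝓟 : Finset (Submodule F V)) : Prop where
  hyp : ∀ P ∈ 𝓟, ∃ a b, a ∈ W ∧ b ∈ W ∧ f a b = 1 ∧ P = plane F a b
  orth : ∀ P ∈ 𝓟, ∀ Q ∈ 𝓟, P ≠ Q → ∀ u ∈ P, ∀ v ∈ Q, f u v = 0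
  sup : 𝓟.sup id = W
  stable : ∀ P ∈ 𝓟, P.map x ∈ 𝓟
  inv2 : (2 : F) ≠ 0 → ∀ P ∈ 𝓟, P.map x = P

theorem plane_map_eq {a b : V} (hz : z ≠ 0) (hx : ∀ v, x (x v) = z • v)
    (hxa : x a ∈ plane F a b) (hxb : x b ∈ plane F a b) : (plane F a b).map x = plane F a b := by
  apply le_antisymm
  · rw [Submodule.map_le_iff_le_comap]
    exact plane_le hxa hxb
  · apply plane_le
    · have h := Submodule.smul_mem _ z⁻¹ (Submodule.mem_map_of_mem (f := x) hxa)
      rwa [hx, smul_smul, inv_mul_cancel₀ hz, one_smul] at h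
    · have h := Submodule.smul_mem _ z⁻¹ (Submodule.mem_map_of_mem (f := x) hxb)
      rwa [hx, smul_smul, inv_mul_cancel₀ hz, one_smul] at h

theorem map_map_eq (hz : z ≠ 0) (hx : ∀ v, x (x v) = z • v) (P : Submodule F V) :
    (P.map x).map x = P := by
  ext v
  constructor
  · rintro ⟨_, ⟨u, hu, rfl⟩, rfl⟩
    show x (x u) ∈ P
    rw [hx]
    exact P.smul_mem _ hu
  · intro hv
    refine ⟨x (z⁻¹ • v), ⟨z⁻¹ • v, P.smul_mem _ hv, rfl⟩, ?_⟩
    show x (x (z⁻¹ • v)) = v
    rw [hx, smul_smul, mul_inv_cancel₀ hz, one_smul]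

section Step

variable {x z}
variable {f : V → V → F} (hf : AForm f) {W : Submodule F V}
include hf

/-- The key step: a plane which is invariant, or orthogonal to its image. -/
theorem exists_good_plane (hz : z ≠ 0) (hx : ∀ v, x (x v) = z • v)
    (hiso : ∀ u v, f (x u) (x v) = f u v) (hWx : ∀ v ∈ W, x v ∈ W) (hW : NDOn f W) (hne : W ≠ ⊥) :
    (∃ a b, a ∈ W ∧ b ∈ W ∧ f a b = 1 ∧ (plane F a b).map x = plane F a b) ∨
    ((2 : F) = 0 ∧ z = 1 ∧ ∃ a b, a ∈ W ∧ b ∈ W ∧ f a b = 1 ∧ f a (x a) = 0 ∧ f a (x b) = 0 ∧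
      f b (x a) = 0 ∧ f b (x b) = 0) := by
  by_cases h : ∃ v ∈ W, f v (x v) ≠ 0
  · -- an anisotropic pair
    obtain ⟨v, hv, hc⟩ := h
    left
    refine ⟨v, (f v (x v))⁻¹ • x v, hv, W.smul_mem _ (hWx v hv), ?_, ?_⟩
    · rw [hf.smul_right, inv_mul_cancel₀ hc]
    · apply plane_map_eq x z hz hx
      · have h := Submodule.smul_mem (plane F v ((f v (x v))⁻¹ • x v)) (f v (x v)) (right_mem_plane v ((f v (x v))⁻¹ • x v))
        rwa [smul_smul, mul_inv_cancel₀ hc, one_smul] at h
      · rw [map_smul, hx, smul_smul]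
        exact Submodule.smul_mem _ _ (left_mem_plane _ _)
  · push Not at h
    have hpol : ∀ u ∈ W, ∀ v ∈ W, f u (x v) = - f v (x u) := by
      intro u hu v hv
      have h1 := h (u + v) (W.add_mem hu hv)
      rw [map_add, hf.add_left, hf.add_right, hf.add_right, h u hu, h v hv] at h1
      linear_combination h1
    obtain ⟨u₀, hu₀, hu₀ne⟩ := Submodule.exists_mem_ne_zero_of_ne_bot hne
    have hinj : ∀ u, x u = 0 → u = 0 := by
      intro u hu
      have h1 := hx u
      rw [hu, map_zero] at h1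
      exact (smul_eq_zero.1 h1.symm).resolve_left hz
    have hz1 : z = 1 := by
      have hxu₀ : x u₀ ≠ 0 := fun hc => hu₀ne (hinj _ hc)
      obtain ⟨v, hv, hne2⟩ := hW (x u₀) (hWx _ hu₀) hxu₀
      have h1 := hiso v (x u₀)
      rw [hx, hf.smul_right] at h1
      have h2 := hpol u₀ hu₀ v hv
      have h3 : f (x v) u₀ = f v (x u₀) := by
        rw [hf.skew, h2, neg_neg]
      rw [h3] at h1
      have h4 : f v (x u₀) ≠ 0 := by
        rw [hf.skew]
        exact neg_ne_zero.2 hne2
      have h5 : (z - 1) * f v (x u₀) = 0 := by linear_combination h1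
      have := (mul_eq_zero.1 h5).resolve_right h4
      exact sub_eq_zero.1 this
    subst hz1
    by_cases hid : ∀ u ∈ W, x u = u
    · left
      obtain ⟨b₀, hb₀, hne2⟩ := hW u₀ hu₀ hu₀ne
      refine ⟨u₀, (f u₀ b₀)⁻¹ • b₀, hu₀, W.smul_mem _ hb₀, ?_, ?_⟩
      · rw [hf.smul_right, inv_mul_cancel₀ hne2]
      · apply plane_map_eq x 1 hz hx
        · rw [hid _ hu₀]; exact left_mem_plane _ _
        · rw [hid _ (W.smul_mem _ hb₀)]; exact right_mem_plane _ _
    · push Not at hid
      obtain ⟨u, hu, hun⟩ := hid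
      have hyne : x u - u ≠ 0 := sub_ne_zero.2 hun
      have hyW : x u - u ∈ W := W.sub_mem (hWx u hu) hu
      obtain ⟨v₀, hv₀, hne3⟩ := hW _ hyW hyne
      by_cases h2 : (2 : F) = 0
      · right
        refine ⟨h2, rfl, ?_⟩
        have hch : ∀ t : V, t + t = 0 := by
          intro t
          rw [← two_smul F t, h2, zero_smul]
        have hc0 : f v₀ (x u - u) ≠ 0 := by
          rw [hf.skew]
          exact neg_ne_zero.2 hne3
        obtain ⟨w₁, hw₁⟩ : ∃ w₁, w₁ = (f v₀ (x u - u))⁻¹ • u := ⟨_, rfl⟩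
        have hw₁W : w₁ ∈ W := hw₁ ▸ W.smul_mem _ hu
        obtain ⟨y, hy⟩ : ∃ y, y = x w₁ - w₁ := ⟨_, rfl⟩
        have hyW : y ∈ W := hy ▸ W.sub_mem (hWx _ hw₁W) hw₁W
        have hyw₁ : f v₀ y = 1 := by
          rw [hy, hw₁, map_smul, ← smul_sub, hf.smul_right, inv_mul_cancel₀ hc0]
        have hyy : x y = - y := by
          rw [hy, map_sub, hx, one_smul]; abel
        obtain ⟨s, hs⟩ : ∃ s, s = f v₀ w₁ := ⟨_, rfl⟩
        obtain ⟨b, hb⟩ : ∃ b, b = w₁ + (1 - s) • y := ⟨_, rfl⟩
        have hbW : b ∈ W := hb ▸ W.add_mem hw₁W (W.smul_mem _ hyW)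
        have hxb : x b = b + y := by
          have h3 : (1 - s) • y + (1 - s) • y = 0 := hch _
          rw [hb, map_add, map_smul, hyy, hy, smul_neg, ← hy]
          have h4 : x w₁ = w₁ + y := by rw [hy]; abel
          rw [h4]
          have h5 : - ((1 - s) • y) = (1 - s) • y := by
            rw [neg_eq_iff_add_eq_zero]; exact h3
          rw [h5]
          abel
        have hab : f v₀ b = 1 := by
          rw [hb, hf.add_right, hf.smul_right, hyw₁, ← hs]; ring
        have h1 : f v₀ (x b) = 0 := by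
          rw [hxb, hf.add_right, hab, hyw₁, ← two_mul, h2, zero_mul]
        refine ⟨v₀, b, hv₀, hbW, hab, h v₀ hv₀, h1, ?_, h b hbW⟩
        rw [hpol b hbW v₀ hv₀, h1, neg_zero]
      · left
        obtain ⟨v₁, hv₁⟩ : ∃ v₁, v₁ = x u - u := ⟨_, rfl⟩
        rw [← hv₁] at hne3 hyne hyW
        have hxv₁ : x v₁ = - v₁ := by
          rw [hv₁, map_sub, hx, one_smul]; abel
        obtain ⟨w, hw⟩ : ∃ w, w = (2 : F)⁻¹ • (v₀ - x v₀) := ⟨_, rfl⟩
        have hxw : x w = - w := by
          rw [hw, map_smul, map_sub, hx, one_smul, ← smul_neg]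
          congr 1
          abel
        have hwW : w ∈ W := hw ▸ W.smul_mem _ (W.sub_mem hv₀ (hWx _ hv₀))
        have hfw : f v₁ w = f v₁ v₀ := by
          have h3 := hiso v₁ v₀
          rw [hxv₁, ← neg_one_smul F v₁, hf.smul_left] at h3
          rw [hw, hf.smul_right, hf.sub_right]
          field_simp
          linear_combination h3
        refine ⟨v₁, (f v₁ v₀)⁻¹ • w, hyW, W.smul_mem _ hwW, ?_, ?_⟩
        · rw [hf.smul_right, hfw, inv_mul_cancel₀ hne3]
        · apply plane_map_eq x 1 hz hx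
          · rw [hxv₁]
            exact Submodule.neg_mem _ (left_mem_plane _ _)
          · rw [map_smul, hxw, smul_neg]
            exact Submodule.neg_mem _ (right_mem_plane _ _)

/-- Existence of the family of planes. -/
theorem exists_planeFam [FiniteDimensional F V] [DecidableEq (Submodule F V)] (hz : z ≠ 0) (hx : ∀ v, x (x v) = z • v)
    (hiso : ∀ u v, f (x u) (x v) = f u v) : ∀ (n : ℕ) (W : Submodule F V), finrank F W = n →
    (∀ v ∈ W, x v ∈ W) → NDOn f W → ∃ 𝓟, PlaneFam x f W 𝓟 := by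
  intro n
  induction n using Nat.strong_induction_on with
  | _ n ih =>
    intro W hn hWx hW
    by_cases hne : W = ⊥
    · subst hne
      exact ⟨∅, by simp, by simp, by simp, by simp, by simp⟩
    have hxW' : ∀ (P : Submodule F V), P.map x = P → ∀ v ∈ W ⊓ aperp hf P, x v ∈ W ⊓ aperp hf P := by
      intro P hP v hv
      refine Submodule.mem_inf.2 ⟨hWx v hv.1, fun p hp => ?_⟩
      rw [← hP] at hp
      obtain ⟨p₀, hp₀, rfl⟩ := hp
      rw [hiso]
      exact (Submodule.mem_inf.1 hv).2 p₀ hp₀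
    rcases exists_good_plane hf hz hx hiso hWx hW hne with ⟨a, b, ha, hb, hab, hP⟩ | ⟨h2, hz1, a, b, ha, hb, hab, h1, h3, h4, h5⟩
    · have hlt := plane_lt_of hf ha hb hab
      obtain ⟨𝓟', h⟩ := ih _ (by rw [← hn]; exact Submodule.finrank_lt_finrank_of_lt hlt) _ rfl
        (hxW' _ hP) (plane_perp_nd hf hW ha hb hab)
      have hmem : ∀ Q ∈ 𝓟', Q ≤ W ⊓ aperp hf (plane F a b) := fun Q hQ => by
        rw [← h.sup]; exact Finset.le_sup (f := id) hQ
      refine ⟨insert (plane F a b) 𝓟', ⟨?_, ?_, ?_, ?_, ?_⟩⟩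
      · intro P hP'
        rcases Finset.mem_insert.1 hP' with rfl | hP'
        · exact ⟨a, b, ha, hb, hab, rfl⟩
        · obtain ⟨a', b', h1, h2, h3, h4⟩ := h.hyp P hP'
          exact ⟨a', b', (Submodule.mem_inf.1 h1).1, (Submodule.mem_inf.1 h2).1, h3, h4⟩
      · intro P₁ hP₁ P₂ hP₂ hne' u hu v hv
        rcases Finset.mem_insert.1 hP₁ with rfl | hP₁ <;> rcases Finset.mem_insert.1 hP₂ with rfl | hP₂
        · exact absurd rfl hne'
        · rw [hf.skew]
          rw [(Submodule.mem_inf.1 (hmem _ hP₂ hv)).2 u hu, neg_zero]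
        · exact (Submodule.mem_inf.1 (hmem _ hP₁ hu)).2 v hv
        · exact h.orth _ hP₁ _ hP₂ hne' u hu v hv
      · rw [Finset.sup_insert, id, h.sup]
        exact plane_sup_perp hf ha hb hab
      · intro P hP'
        rcases Finset.mem_insert.1 hP' with rfl | hP'
        · rw [hP]; exact Finset.mem_insert_self _ _
        · exact Finset.mem_insert_of_mem (h.stable _ hP')
      · intro h2 P hP'
        rcases Finset.mem_insert.1 hP' with rfl | hP'
        · exact hP
        · exact h.inv2 h2 _ hP'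
    · subst hz1
      -- the two planes
      have hlt₁ := plane_lt_of hf ha hb hab
      have hba : f (x a) (x b) = 1 := by rw [hiso, hab]
      have hxa₁ : x a ∈ W ⊓ aperp hf (plane F a b) := Submodule.mem_inf.2 ⟨hWx a ha, by
        rw [mem_aperp_plane]
        constructor
        · rw [hf.skew, h1, neg_zero]
        · rw [hf.skew, h4, neg_zero]⟩
      have hxb₁ : x b ∈ W ⊓ aperp hf (plane F a b) := Submodule.mem_inf.2 ⟨hWx b hb, by
        rw [mem_aperp_plane]
        constructor
        · rw [hf.skew, h3, neg_zero]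
        · rw [hf.skew, h5, neg_zero]⟩
      have hnd₁ := plane_perp_nd hf hW ha hb hab
      have hnd₂ := plane_perp_nd hf hnd₁ hxa₁ hxb₁ hba
      have hlt₂ := plane_lt_of hf hxa₁ hxb₁ hba
      have hlt := hlt₂.trans hlt₁
      have hmap : (plane F a b).map x = plane F (x a) (x b) := by
        rw [Submodule.map_span, Set.image_pair]
      have hmap₂ : (plane F (x a) (x b)).map x = plane F a b := by
        rw [← hmap]; exact map_map_eq x 1 hz hx _
      have hinv : ∀ v ∈ (W ⊓ aperp hf (plane F a b)) ⊓ aperp hf (plane F (x a) (x b)),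
          x v ∈ (W ⊓ aperp hf (plane F a b)) ⊓ aperp hf (plane F (x a) (x b)) := by
        intro v hv
        have hv1 := (Submodule.mem_inf.1 hv).1
        have hv2 := (Submodule.mem_inf.1 hv).2
        have hv3 := (Submodule.mem_inf.1 hv1).1
        have hv4 := (Submodule.mem_inf.1 hv1).2
        refine Submodule.mem_inf.2 ⟨Submodule.mem_inf.2 ⟨hWx v hv3, ?_⟩, ?_⟩
        · intro p hp
          rw [← hmap₂] at hp
          obtain ⟨p₀, hp₀, rfl⟩ := hp
          rw [hiso]
          exact hv2 p₀ hp₀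
        · intro p hp
          rw [← hmap] at hp
          obtain ⟨p₀, hp₀, rfl⟩ := hp
          rw [hiso]
          exact hv4 p₀ hp₀
      obtain ⟨𝓟', h⟩ := ih _ (by rw [← hn]; exact Submodule.finrank_lt_finrank_of_lt hlt) _ rfl
        hinv hnd₂
      have hmem : ∀ Q ∈ 𝓟', Q ≤ (W ⊓ aperp hf (plane F a b)) ⊓ aperp hf (plane F (x a) (x b)) := fun Q hQ => by
        rw [← h.sup]; exact Finset.le_sup (f := id) hQ
      refine ⟨insert (plane F a b) (insert (plane F (x a) (x b)) 𝓟'), ⟨?_, ?_, ?_, ?_, ?_⟩⟩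
      · intro P hP'
        rcases Finset.mem_insert.1 hP' with rfl | hP'
        · exact ⟨a, b, ha, hb, hab, rfl⟩
        rcases Finset.mem_insert.1 hP' with rfl | hP'
        · exact ⟨x a, x b, hWx a ha, hWx b hb, hba, rfl⟩
        · obtain ⟨a', b', h1, h2, h3, h4⟩ := h.hyp P hP'
          exact ⟨a', b', (Submodule.mem_inf.1 (Submodule.mem_inf.1 h1).1).1, (Submodule.mem_inf.1 (Submodule.mem_inf.1 h2).1).1, h3, h4⟩
      · have h01 : ∀ u ∈ plane F a b, ∀ v ∈ plane F (x a) (x b), f u v = 0 := by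
          intro u hu v hv
          rw [hf.skew]
          have : plane F (x a) (x b) ≤ W ⊓ aperp hf (plane F a b) := plane_le hxa₁ hxb₁
          rw [(Submodule.mem_inf.1 (this hv)).2 u hu, neg_zero]
        have h02 : ∀ Q ∈ 𝓟', ∀ u ∈ plane F a b, ∀ v ∈ Q, f u v = 0 := by
          intro Q hQ u hu v hv
          rw [hf.skew]
          rw [(Submodule.mem_inf.1 (Submodule.mem_inf.1 (hmem Q hQ hv)).1).2 u hu, neg_zero]
        have h03 : ∀ Q ∈ 𝓟', ∀ u ∈ plane F (x a) (x b), ∀ v ∈ Q, f u v = 0 := by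
          intro Q hQ u hu v hv
          rw [hf.skew]
          rw [(Submodule.mem_inf.1 (hmem Q hQ hv)).2 u hu, neg_zero]
        have hsw : ∀ P Q : Submodule F V, (∀ u ∈ P, ∀ v ∈ Q, f u v = 0) → ∀ u ∈ Q, ∀ v ∈ P, f u v = 0 := by
          intro P Q hPQ u hu v hv
          rw [hf.skew, hPQ v hv u hu, neg_zero]
        intro P₁ hP₁ P₂ hP₂ hne'
        rcases Finset.mem_insert.1 hP₁ with rfl | hP₁
        · rcases Finset.mem_insert.1 hP₂ with rfl | hP₂
          · exact absurd rfl hne'
          rcases Finset.mem_insert.1 hP₂ with rfl | hP₂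
          · exact h01
          · exact h02 _ hP₂
        rcases Finset.mem_insert.1 hP₁ with rfl | hP₁
        · rcases Finset.mem_insert.1 hP₂ with rfl | hP₂
          · exact hsw _ _ h01
          rcases Finset.mem_insert.1 hP₂ with rfl | hP₂
          · exact absurd rfl hne'
          · exact h03 _ hP₂
        · rcases Finset.mem_insert.1 hP₂ with rfl | hP₂
          · exact hsw _ _ (h02 _ hP₁)
          rcases Finset.mem_insert.1 hP₂ with rfl | hP₂
          · exact hsw _ _ (h03 _ hP₁)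
          · exact h.orth _ hP₁ _ hP₂ hne'
      · rw [Finset.sup_insert, Finset.sup_insert, id, id, h.sup]
        rw [plane_sup_perp hf hxa₁ hxb₁ hba, plane_sup_perp hf ha hb hab]
      · intro P hP'
        rcases Finset.mem_insert.1 hP' with rfl | hP'
        · rw [hmap]; exact Finset.mem_insert_of_mem (Finset.mem_insert_self _ _)
        rcases Finset.mem_insert.1 hP' with rfl | hP'
        · rw [hmap₂]; exact Finset.mem_insert_self _ _
        · exact Finset.mem_insert_of_mem (Finset.mem_insert_of_mem (h.stable _ hP'))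
      · intro h3 _ _
        exact absurd h2 h3

end Step

section Assemble

variable {x z}
variable {f : V → V → F} (hf : AForm f) {𝓟 : Finset (Submodule F V)}
include hf

theorem fam_le_aperp [DecidableEq (Submodule F V)] (h : PlaneFam x f ⊤ 𝓟) {B C : Finset (Submodule F V)} (hB : B ⊆ 𝓟) (hC : C ⊆ 𝓟)
    (hd : Disjoint B C) : B.sup id ≤ aperp hf (C.sup id) := by
  apply Finset.sup_le
  intro P hP
  apply aperp_symm
  apply Finset.sup_le
  intro Q hQ
  intro u hu p hp
  have hne : Q ≠ P := by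
    rintro rfl
    exact (Finset.disjoint_left.1 hd hP) hQ
  exact h.orth Q (hC hQ) P (hB hP) hne u hu p hp

theorem fam_nd [DecidableEq (Submodule F V)] (h : PlaneFam x f ⊤ 𝓟) {B : Finset (Submodule F V)} (hB : B ⊆ 𝓟) :
    NDOn f (B.sup id) := by
  intro u hu hne
  obtain ⟨w, hw⟩ := hf.nd u hne
  have htop : B.sup id ⊔ (𝓟 \ B).sup id = ⊤ := by
    rw [← Finset.sup_union, Finset.union_sdiff_of_subset hB, h.sup]
  have hmem : w ∈ B.sup id ⊔ (𝓟 \ B).sup id := by rw [htop]; trivial
  obtain ⟨w₁, hw₁, w₂, hw₂, rfl⟩ := Submodule.mem_sup.1 hmem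
  have h0 : f u w₂ = 0 := fam_le_aperp hf h hB Finset.sdiff_subset Finset.disjoint_sdiff hu w₂ hw₂
  rw [hf.add_right, h0, add_zero] at hw
  exact ⟨w₁, hw₁, hw⟩

theorem fam_finrank [DecidableEq (Submodule F V)] [FiniteDimensional F V] (h : PlaneFam x f ⊤ 𝓟) (B : Finset (Submodule F V)) (hB : B ⊆ 𝓟) :
    finrank F (B.sup id : Submodule F V) = 2 * B.card := by
  induction B using Finset.induction_on with
  | empty => simp
  | insert P B hP ih =>
    have hBs : B ⊆ 𝓟 := (Finset.subset_insert _ _).trans hB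
    have hP𝓟 : P ∈ 𝓟 := hB (Finset.mem_insert_self _ _)
    obtain ⟨a, b, -, -, hab, rfl⟩ := h.hyp P hP𝓟
    rw [Finset.sup_insert, id, Finset.card_insert_of_notMem hP]
    have hinf : plane F a b ⊓ B.sup id = ⊥ := by
      rw [eq_bot_iff]
      intro u hu
      have hu1 := (Submodule.mem_inf.1 hu).1
      have hu2 := (Submodule.mem_inf.1 hu).2
      have hd : Disjoint ({plane F a b} : Finset (Submodule F V)) B := by
        simpa using hP
      have h0 := fam_le_aperp hf h (by simpa using hP𝓟) hBs hd (by simpa using hu1)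
      have h1 := fam_le_aperp hf h hBs (by simpa using hP𝓟) hd.symm hu2
      obtain ⟨c, d, rfl⟩ := mem_span_pair.1 hu1
      have h3 : f (c • a + d • b) a = 0 := h1 a (by simpa using left_mem_plane a b)
      have h4 : f (c • a + d • b) b = 0 := h1 b (by simpa using right_mem_plane a b)
      have hba : f b a = -1 := by rw [hf.skew, hab]
      simp only [hf.add_left, hf.smul_left, hf.alt, hab, hba] at h3 h4
      have hd0 : d = 0 := by linear_combination -h3
      have hc0 : c = 0 := by linear_combination h4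
      simp [hc0, hd0]
    have hp : finrank F (plane F a b) = 2 := by
      have hli : LinearIndependent F ![a, b] := by
        rw [LinearIndependent.pair_iff]
        intro c d hcd
        have h3 := congrArg (fun t => f t a) hcd
        have h4 := congrArg (fun t => f t b) hcd
        have hba : f b a = -1 := by rw [hf.skew, hab]
        simp only [hf.add_left, hf.smul_left, hf.alt, hab, hba, hf.zero_left] at h3 h4
        exact ⟨by linear_combination h4, by linear_combination -h3⟩
      have := finrank_span_eq_card hli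
      simp only [Fintype.card_fin] at this
      rwa [Matrix.range_cons, Matrix.range_cons, Matrix.range_empty, Set.union_empty, Set.singleton_union] at this
    have h5 := Submodule.finrank_sup_add_finrank_inf_eq (plane F a b) (B.sup id)
    rw [hinf, finrank_bot, hp, ih hBs] at h5
    omega

end Assemble

/-- Blocks of planes: an orthogonal decomposition permuted by the map. -/
theorem exists_plane_blocks [FiniteDimensional F V] {x : V →ₗ[F] V} {z : F} {f : V → V → F} (hf : AForm f) (hz : z ≠ 0) (hx : ∀ v, x (x v) = z • v)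
    (hiso : ∀ u v, f (x u) (x v) = f u v) (a t : ℕ) (ha : 1 ≤ a) (hcard : finrank F V = 2 * (a * t)) :
    ∃ D : Fin t → Submodule F V, (∀ j, finrank F (D j) = 2 * a) ∧ iSupIndep D ∧ iSup D = ⊤ ∧
      (∀ j, NDOn f (D j)) ∧ (∀ i j, i ≠ j → ∀ u ∈ D i, ∀ v ∈ D j, f u v = 0) ∧
      ∃ σ : Equiv.Perm (Fin t), ∀ j, (D j).map x = D (σ j) := by
  classical
  obtain ⟨𝓟, h⟩ := exists_planeFam hf hz hx hiso _ ⊤ rfl (fun _ _ => trivial) (by
    intro u _ hne
    obtain ⟨v, hv⟩ := hf.nd u hne
    exact ⟨v, trivial, hv⟩)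
  have hc𝓟 : 𝓟.card = a * t := by
    have := fam_finrank hf h 𝓟 (Finset.Subset.refl _)
    rw [h.sup, finrank_top, hcard] at this
    omega
  obtain ⟨B, h1, h2, h3, σ, hσ⟩ := exists_blocks_fin (fun P : Submodule F V => P.map x) a t ha 𝓟
    (fun P hP => ⟨h.stable P hP, map_map_eq x z hz hx P⟩) hc𝓟
  refine ⟨fun j => (B j).sup id, ?_, ?_, ?_, ?_, ?_, σ, ?_⟩
  · intro j
    show finrank F ((B j).sup id : Submodule F V) = _
    rw [fam_finrank hf h _ (h1 j).1, (h1 j).2]
  · rw [iSupIndep_def]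
    intro j
    rw [Submodule.disjoint_def]
    intro u hu hu'
    by_contra hne
    obtain ⟨v, hv, hfv⟩ := fam_nd hf h (h1 j).1 u hu hne
    apply hfv
    have hle : (⨆ k, ⨆ (_ : k ≠ j), (B k).sup id) ≤ aperp hf ((B j).sup id) :=
      iSup_le fun k => iSup_le fun hk => fam_le_aperp hf h (h1 k).1 (h1 j).1 (h2 k j hk)
    exact hle hu' v hv
  · rw [eq_top_iff, ← h.sup]
    apply Finset.sup_le
    intro P hP
    obtain ⟨j, hj⟩ := h3 P hP
    exact le_trans (Finset.le_sup (f := id) hj) (le_iSup (fun j => (B j).sup id) j)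
  · intro j
    exact fam_nd hf h (h1 j).1
  · intro i j hij u hu v hv
    exact fam_le_aperp hf h (h1 i).1 (h1 j).1 (h2 i j hij) hu v hv
  · intro j
    show ((B j).sup id).map x = (B (σ j)).sup id
    rw [← hσ j, Finset.sup_image]
    have : ∀ C : Finset (Submodule F V), (C.sup id).map x = C.sup ((fun P : Submodule F V => P.map x)) := by
      intro C
      induction C using Finset.induction_on with
      | empty => simp
      | insert P C _ ih => rw [Finset.sup_insert, Finset.sup_insert, Submodule.map_sup, ih]; rfl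
    rw [this]
    rfl

section Lagrangian

theorem indep_of_eigen (x : V →ₗ[F] V) {P Q : V} {α β : F} (hαβ : α ≠ β) (hP : x P = α • P) (hQ : x Q = β • Q)
    (hP0 : P ≠ 0) (hQ0 : Q ≠ 0) : ∀ c d : F, c • P + d • Q = 0 → c = 0 ∧ d = 0 := by
  intro c d hcd
  have h5 := congrArg x hcd
  rw [map_add, map_smul, map_smul, hP, hQ, map_zero] at h5
  have h6 : (d * (β - α)) • Q = (c • α • P + d • β • Q) - α • (c • P + d • Q) := by module
  rw [h5, hcd, smul_zero, sub_zero] at h6
  have hd : d = 0 := by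
    have := (smul_eq_zero.1 h6).resolve_right hQ0
    exact (mul_eq_zero.1 this).resolve_right (sub_ne_zero.2 (Ne.symm hαβ))
  subst hd
  rw [zero_smul, add_zero] at hcd
  exact ⟨(smul_eq_zero.1 hcd).resolve_right hP0, rfl⟩

theorem finrank_pair_eq {p q : V} (h : ∀ c d : F, c • p + d • q = 0 → c = 0 ∧ d = 0) :
    finrank F (plane F p q) = 2 := by
  have hli : LinearIndependent F ![p, q] := by
    rw [LinearIndependent.pair_iff]
    exact h
  have := finrank_span_eq_card hli
  simp only [Fintype.card_fin] at this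
  rwa [Matrix.range_cons, Matrix.range_cons, Matrix.range_empty, Set.union_empty, Set.singleton_union] at this

variable {f : V → V → F} (hf : AForm f) {x : V →ₗ[F] V} {z : F}
include hf

theorem finrank_plane_of {a b : V} (hab : f a b = 1) : finrank F (plane F a b) = 2 := by
  apply finrank_pair_eq
  intro c d hcd
  have h3 := congrArg (fun t => f t a) hcd
  have h4 := congrArg (fun t => f t b) hcd
  have hba : f b a = -1 := by rw [hf.skew, hab]
  simp only [hf.add_left, hf.smul_left, hf.alt, hab, hba, hf.zero_left] at h3 h4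
  exact ⟨by linear_combination h4, by linear_combination -h3⟩

theorem plane_eq_of_pair [FiniteDimensional F V] {a b p q : V} (hab : f a b = 1) (hp : p ∈ plane F a b) (hq : q ∈ plane F a b)
    (h : ∀ c d : F, c • p + d • q = 0 → c = 0 ∧ d = 0) : plane F p q = plane F a b := by
  apply Submodule.eq_of_le_of_finrank_eq (plane_le hp hq)
  rw [finrank_pair_eq h, finrank_plane_of hf hab]

/-- Eigenvectors spanning an invariant plane when the scalar is a square. -/
theorem eigen_pair [FiniteDimensional F V] {a b : V} (h2 : (2 : F) ≠ 0) {w : F} (hw : w * w = z) (hz : z ≠ 0)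
    (hx : ∀ v, x (x v) = z • v) (hab : f a b = 1) (hP : (plane F a b).map x = plane F a b) :
    ∃ p q, p ∈ plane F a b ∧ q ∈ plane F a b ∧ plane F a b ≤ plane F p q ∧
      (∃ c : F, c ≠ 0 ∧ x p = c • p) ∧ (∃ c : F, c ≠ 0 ∧ x q = c • q) := by
  have hw0 : w ≠ 0 := by
    rintro rfl
    exact hz (by rw [← hw, zero_mul])
  have hxP : ∀ t ∈ plane F a b, x t ∈ plane F a b := by
    intro t ht
    rw [← hP]
    exact Submodule.mem_map_of_mem ht
  have hplus : ∀ t, x (x t + w • t) = w • (x t + w • t) := by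
    intro t
    rw [map_add, map_smul, hx, smul_add, smul_smul, hw, add_comm]
  have hminus : ∀ t, x (x t - w • t) = (-w) • (x t - w • t) := by
    intro t
    rw [map_sub, map_smul, hx, smul_sub, smul_smul, neg_mul, hw, neg_smul, neg_smul]
    abel
  have hsplit : ∀ t ∈ plane F a b, (x t + w • t ≠ 0 ∧ x t - w • t ≠ 0) →
      ∃ p q, p ∈ plane F a b ∧ q ∈ plane F a b ∧ plane F a b ≤ plane F p q ∧
      (∃ c : F, c ≠ 0 ∧ x p = c • p) ∧ (∃ c : F, c ≠ 0 ∧ x q = c • q) := by
    rintro t ht ⟨h3, h4⟩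
    have hp' : x t + w • t ∈ plane F a b := Submodule.add_mem _ (hxP t ht) (Submodule.smul_mem _ _ ht)
    have hq' : x t - w • t ∈ plane F a b := Submodule.sub_mem _ (hxP t ht) (Submodule.smul_mem _ _ ht)
    refine ⟨_, _, hp', hq', ?_, ⟨w, hw0, hplus t⟩, ⟨-w, neg_ne_zero.2 hw0, hminus t⟩⟩
    rw [plane_eq_of_pair hf hab hp' hq']
    apply indep_of_eigen x (α := w) (β := -w) ?_ (hplus t) (hminus t) h3 h4
    intro hc
    have : (2 : F) * w = 0 := by linear_combination hc
    exact (mul_ne_zero h2 hw0) this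
  have heig : ∀ t, ¬ (x t + w • t ≠ 0 ∧ x t - w • t ≠ 0) → ∃ c : F, c ≠ 0 ∧ x t = c • t := by
    intro t ht
    push Not at ht
    by_cases h3 : x t + w • t = 0
    · refine ⟨-w, neg_ne_zero.2 hw0, ?_⟩
      rw [neg_smul]
      exact eq_neg_of_add_eq_zero_left h3
    · refine ⟨w, hw0, ?_⟩
      exact sub_eq_zero.1 (ht h3)
  by_cases ha : (x a + w • a ≠ 0 ∧ x a - w • a ≠ 0)
  · exact hsplit a (left_mem_plane a b) ha
  by_cases hb : (x b + w • b ≠ 0 ∧ x b - w • b ≠ 0)
  · exact hsplit b (right_mem_plane a b) hb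
  exact ⟨a, b, left_mem_plane a b, right_mem_plane a b, le_rfl, heig a ha, heig b hb⟩

/-- A plane spanned by a vector and its image, when the scalar is not a square. -/
theorem swap_pair [FiniteDimensional F V] {a b : V} (hsq : ¬ ∃ w : F, w * w = z)
    (hx : ∀ v, x (x v) = z • v) (hab : f a b = 1) (hP : (plane F a b).map x = plane F a b) :
    x a ∈ plane F a b ∧ plane F a b ≤ plane F a (x a) := by
  have hxa : x a ∈ plane F a b := by
    rw [← hP]
    exact Submodule.mem_map_of_mem (left_mem_plane a b)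
  refine ⟨hxa, ?_⟩
  have ha0 : a ≠ 0 := by
    rintro rfl
    rw [hf.zero_left] at hab
    exact zero_ne_one hab
  rw [plane_eq_of_pair hf hab (left_mem_plane a b) hxa]
  intro c d hcd
  have hd : d = 0 := by
    by_contra hd
    apply hsq
    refine ⟨-(c / d), ?_⟩
    have h1 : x a = (-(c / d)) • a := by
      have : x a = d⁻¹ • (d • x a) := by rw [smul_smul, inv_mul_cancel₀ hd, one_smul]
      rw [this, eq_neg_of_add_eq_zero_right hcd, smul_neg, smul_smul, neg_smul, div_eq_mul_inv, mul_comm]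
    have h3 := hx a
    rw [h1, map_smul, h1, smul_smul] at h3
    have h4 : ((-(c / d)) * (-(c / d)) - z) • a = 0 := by
      rw [sub_smul, h3, sub_self]
    have := (smul_eq_zero.1 h4).resolve_right ha0
    exact sub_eq_zero.1 this
  subst hd
  rw [zero_smul, add_zero] at hcd
  exact ⟨(smul_eq_zero.1 hcd).resolve_right ha0, rfl⟩

theorem ti_span {S : Set V} (h : ∀ s ∈ S, ∀ t ∈ S, f s t = 0) :
    ∀ u ∈ span F S, ∀ v ∈ span F S, f u v = 0 := by
  have h1 : span F S ≤ aperp hf (span F S) := by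
    rw [span_le]
    intro s hs
    apply aperp_symm (hf := hf)
    rw [span_le]
    intro t ht
    intro p hp
    obtain ⟨c, rfl⟩ := mem_span_singleton.1 hp
    rw [hf.smul_right, h t ht s hs, mul_zero]
    exact mem_span_singleton_self s
  exact fun u hu v hv => h1 hu v hv

/-- Complementary totally isotropic subspaces fixed or interchanged by the map, in odd
characteristic. -/
theorem exists_lagr_pair [FiniteDimensional F V] (h2 : (2 : F) ≠ 0) (hz : z ≠ 0) (hx : ∀ v, x (x v) = z • v)
    (hiso : ∀ u v, f (x u) (x v) = f u v) :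
    ∃ U W : Submodule F V, IsCompl U W ∧ (∀ u ∈ U, ∀ v ∈ U, f u v = 0) ∧ (∀ u ∈ W, ∀ v ∈ W, f u v = 0) ∧
      ((U.map x = U ∧ W.map x = W) ∨ (U.map x = W ∧ W.map x = U)) := by
  classical
  obtain ⟨𝓟, h⟩ := exists_planeFam hf hz hx hiso _ ⊤ rfl (fun _ _ => trivial) (by
    intro u _ hne
    obtain ⟨v, hv⟩ := hf.nd u hne
    exact ⟨v, trivial, hv⟩)
  have key : ∀ (p q : Submodule F V → V), (∀ P ∈ 𝓟, p P ∈ P ∧ q P ∈ P ∧ P ≤ plane F (p P) (q P)) →
      IsCompl (span F (p '' 𝓟)) (span F (q '' 𝓟)) ∧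
      (∀ u ∈ span F (p '' 𝓟), ∀ v ∈ span F (p '' 𝓟), f u v = 0) ∧
      (∀ u ∈ span F (q '' 𝓟), ∀ v ∈ span F (q '' 𝓟), f u v = 0) := by
    intro p q hpq
    have hU : ∀ u ∈ span F (p '' 𝓟), ∀ v ∈ span F (p '' 𝓟), f u v = 0 := by
      apply ti_span hf
      rintro _ ⟨P, hP, rfl⟩ _ ⟨Q, hQ, rfl⟩
      by_cases hPQ : P = Q
      · subst hPQ; exact hf.alt _
      · exact h.orth P hP Q hQ hPQ _ (hpq P hP).1 _ (hpq Q hQ).1
    have hW : ∀ u ∈ span F (q '' 𝓟), ∀ v ∈ span F (q '' 𝓟), f u v = 0 := by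
      apply ti_span hf
      rintro _ ⟨P, hP, rfl⟩ _ ⟨Q, hQ, rfl⟩
      by_cases hPQ : P = Q
      · subst hPQ; exact hf.alt _
      · exact h.orth P hP Q hQ hPQ _ (hpq P hP).2.1 _ (hpq Q hQ).2.1
    have hsup : span F (p '' 𝓟) ⊔ span F (q '' 𝓟) = ⊤ := by
      rw [eq_top_iff, ← h.sup]
      apply Finset.sup_le
      intro P hP
      refine (hpq P hP).2.2.trans (plane_le ?_ ?_)
      · exact Submodule.mem_sup_left (subset_span ⟨P, hP, rfl⟩)
      · exact Submodule.mem_sup_right (subset_span ⟨P, hP, rfl⟩)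
    refine ⟨⟨?_, ?_⟩, hU, hW⟩
    · rw [Submodule.disjoint_def]
      intro u hu hu'
      by_contra hne
      obtain ⟨v, hv⟩ := hf.nd u hne
      have hmem : v ∈ span F (p '' 𝓟) ⊔ span F (q '' 𝓟) := by rw [hsup]; trivial
      obtain ⟨v₁, hv₁, v₂, hv₂, rfl⟩ := Submodule.mem_sup.1 hmem
      rw [hf.add_right, hU u hu v₁ hv₁, hW u hu' v₂ hv₂, add_zero] at hv
      exact hv rfl
    · rw [codisjoint_iff, hsup]
  by_cases hsq : ∃ w : F, w * w = z
  · obtain ⟨w, hw⟩ := hsq
    have h1 : ∀ P ∈ 𝓟, ∃ p q, p ∈ P ∧ q ∈ P ∧ P ≤ plane F p q ∧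
        (∃ c : F, c ≠ 0 ∧ x p = c • p) ∧ (∃ c : F, c ≠ 0 ∧ x q = c • q) := by
      intro P hP
      obtain ⟨a, b, -, -, hab, rfl⟩ := h.hyp P hP
      exact eigen_pair hf h2 hw hz hx hab (h.inv2 h2 _ hP)
    choose! p q hp hq hle hpc hqc using h1
    obtain ⟨k1, k2, k3⟩ := key p q (fun P hP => ⟨hp P hP, hq P hP, hle P hP⟩)
    refine ⟨_, _, k1, k2, k3, Or.inl ⟨?_, ?_⟩⟩
    · have hmain : ∀ r : Submodule F V → V, (∀ P ∈ 𝓟, ∃ c : F, c ≠ 0 ∧ x (r P) = c • r P) →
          (span F (r '' 𝓟)).map x = span F (r '' 𝓟) := by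
        intro r hr
        rw [Submodule.map_span]
        apply le_antisymm
        · rw [span_le]
          rintro _ ⟨_, ⟨P, hP, rfl⟩, rfl⟩
          obtain ⟨c, -, hc⟩ := hr P hP
          show x (r P) ∈ _
          rw [hc]
          exact Submodule.smul_mem _ _ (subset_span ⟨P, hP, rfl⟩)
        · rw [span_le]
          rintro _ ⟨P, hP, rfl⟩
          obtain ⟨c, hc0, hc⟩ := hr P hP
          have : r P = c⁻¹ • x (r P) := by rw [hc, smul_smul, inv_mul_cancel₀ hc0, one_smul]
          rw [this]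
          exact Submodule.smul_mem _ _ (subset_span ⟨_, ⟨P, hP, rfl⟩, rfl⟩)
      exact hmain p hpc
    · have hmain : ∀ r : Submodule F V → V, (∀ P ∈ 𝓟, ∃ c : F, c ≠ 0 ∧ x (r P) = c • r P) →
          (span F (r '' 𝓟)).map x = span F (r '' 𝓟) := by
        intro r hr
        rw [Submodule.map_span]
        apply le_antisymm
        · rw [span_le]
          rintro _ ⟨_, ⟨P, hP, rfl⟩, rfl⟩
          obtain ⟨c, -, hc⟩ := hr P hP
          show x (r P) ∈ _
          rw [hc]
          exact Submodule.smul_mem _ _ (subset_span ⟨P, hP, rfl⟩)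
        · rw [span_le]
          rintro _ ⟨P, hP, rfl⟩
          obtain ⟨c, hc0, hc⟩ := hr P hP
          have : r P = c⁻¹ • x (r P) := by rw [hc, smul_smul, inv_mul_cancel₀ hc0, one_smul]
          rw [this]
          exact Submodule.smul_mem _ _ (subset_span ⟨_, ⟨P, hP, rfl⟩, rfl⟩)
      exact hmain q hqc
  · have h1 : ∀ P ∈ 𝓟, ∃ a, a ∈ P ∧ x a ∈ P ∧ P ≤ plane F a (x a) := by
      intro P hP
      obtain ⟨a, b, -, -, hab, rfl⟩ := h.hyp P hP
      have := swap_pair hf hsq hx hab (h.inv2 h2 _ hP)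
      exact ⟨a, left_mem_plane a b, this.1, this.2⟩
    choose! p hp hq hle using h1
    obtain ⟨k1, k2, k3⟩ := key p (fun P => x (p P)) (fun P hP => ⟨hp P hP, hq P hP, hle P hP⟩)
    have hm : (span F (p '' 𝓟)).map x = span F ((fun P => x (p P)) '' 𝓟) := by
      rw [Submodule.map_span, Set.image_image]
    refine ⟨_, _, k1, k2, k3, Or.inr ⟨hm, ?_⟩⟩
    rw [← hm]
    exact map_map_eq x z hz hx _

end Lagrangian

/-- The standard alternating form. -/
theorem aform_sympForm (d : ℕ) (F : Type*) [Field F] : AForm (Cfsg.sympForm d F) where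
  add_left := fun a b c => Cfsg.Agent.Lib.Classical.sympForm_add_left a b c
  smul_left := fun r a b => Cfsg.Agent.Lib.Classical.sympForm_smul_left r a b
  add_right := fun a b c => Cfsg.Agent.Lib.Classical.sympForm_add_right a b c
  smul_right := fun r a b => Cfsg.Agent.Lib.Classical.sympForm_smul_right r a b
  alt := fun a => Cfsg.Agent.Lib.Classical.sympForm_self a
  nd := by
    intro a ha
    by_contra hc
    push Not at hc
    apply ha
    apply Cfsg.Agent.Lib.Classical.sympForm_eq_zero_iff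
    intro u
    rw [Cfsg.Agent.Lib.Classical.sympForm_flip, hc u, neg_zero]

end Cfsg.Agent.Lib.Geo
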