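import Mathlib
import Cfsg.Agent.Lib.Geo.ElusPermFam
import Cfsg.Agent.Lib.Geo.ElusPlanes
import Cfsg.Agent.Lib.Classical.SympStd

set_option autoImplicit false

/-! Nondegenerate alternating forms preserved up to a scalar by a linear map. -/

namespace Cfsg.Agent.Lib.Geo

open Polynomial Module

universe u v

section Basic

variable {F : Type v} [Field F] {V : Type u} [AddCommGroup V] [Module F V]

/-- The bilinear form attached to an `AForm`. -/
def AForm.toBilin {f : V → V → F} (hf : AForm f) : LinearMap.BilinForm F V :=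
  LinearMap.mk₂ F f hf.add_left hf.smul_left hf.add_right hf.smul_right

theorem AForm.toBilin_apply {f : V → V → F} (hf : AForm f) (u v : V) : hf.toBilin u v = f u v := rfl

theorem AForm.toBilin_alt {f : V → V → F} (hf : AForm f) : hf.toBilin.IsAlt := fun a => hf.alt a

theorem AForm.toBilin_nondeg {f : V → V → F} (hf : AForm f) : hf.toBilin.Nondegenerate := by
  have hinj : ∀ a : V, (∀ b, f a b = 0) → a = 0 := by
    intro a ha
    by_contra h0
    obtain ⟨b, hb⟩ := hf.nd a h0
    exact hb (ha b)
  refine ⟨fun a ha => hinj a ha, fun a ha => hinj a (fun b => ?_)⟩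
  have := ha b
  rw [AForm.toBilin_apply] at this
  rw [hf.skew, this, neg_zero]

/-- Transport of a form along a linear equivalence. -/
theorem aform_comp {V' : Type*} [AddCommGroup V'] [Module F V'] {f : V' → V' → F} (hf : AForm f) (e : V ≃ₗ[F] V') :
    AForm (fun u v => f (e u) (e v)) where
  add_left := fun a b c => by simp only [map_add, hf.add_left]
  smul_left := fun r a b => by simp only [map_smul, hf.smul_left]
  add_right := fun a b c => by simp only [map_add, hf.add_right]
  smul_right := fun r a b => by simp only [map_smul, hf.smul_right]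
  alt := fun a => hf.alt _
  nd := by
    intro a ha
    obtain ⟨b, hb⟩ := hf.nd (e a) (by simpa using ha)
    exact ⟨e.symm b, by simpa using hb⟩

/-- The orthogonal sum on a product. -/
theorem aform_prod {U W : Type*} [AddCommGroup U] [Module F U] [AddCommGroup W] [Module F W]
    {f : U → U → F} {g : W → W → F} (hf : AForm f) (hg : AForm g) :
    AForm (fun (a b : U × W) => f a.1 b.1 + g a.2 b.2) where
  add_left := fun a b c => by simp only [Prod.fst_add, Prod.snd_add, hf.add_left, hg.add_left]; ring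
  smul_left := fun r a b => by simp only [Prod.smul_fst, Prod.smul_snd, hf.smul_left, hg.smul_left]; ring
  add_right := fun a b c => by simp only [Prod.fst_add, Prod.snd_add, hf.add_right, hg.add_right]; ring
  smul_right := fun r a b => by simp only [Prod.smul_fst, Prod.smul_snd, hf.smul_right, hg.smul_right]; ring
  alt := fun a => by simp only [hf.alt, hg.alt, add_zero]
  nd := by
    rintro ⟨a, b⟩ hab
    by_cases ha : a = 0
    · have hb : b ≠ 0 := fun hb => hab (by rw [ha, hb]; rfl)
      obtain ⟨c, hc⟩ := hg.nd b hb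
      exact ⟨(0, c), by simpa [ha, hf.zero_left] using hc⟩
    · obtain ⟨c, hc⟩ := hf.nd a ha
      exact ⟨(c, 0), by simpa [hg.zero_right] using hc⟩

/-- Scaling a form. -/
theorem aform_smul {f : V → V → F} (hf : AForm f) {c : F} (hc : c ≠ 0) : AForm (fun u v => c * f u v) where
  add_left := fun a b d => by rw [hf.add_left]; ring
  smul_left := fun r a b => by rw [hf.smul_left]; ring
  add_right := fun a b d => by rw [hf.add_right]; ring
  smul_right := fun r a b => by rw [hf.smul_right]; ring
  alt := fun a => by rw [hf.alt, mul_zero]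
  nd := by
    intro a ha
    obtain ⟨b, hb⟩ := hf.nd a ha
    exact ⟨b, mul_ne_zero hc hb⟩

/-- `y` preserves a nondegenerate alternating form up to the scalar `c`. -/
def HasForm (y : Module.End F V) (c : F) : Prop :=
  ∃ f : V → V → F, AForm f ∧ ∀ u v, f (y u) (y v) = c * f u v

theorem hasForm_trivial (y : Module.End F V) (c : F) [FiniteDimensional F V] (h : finrank F V = 0) : HasForm y c := by
  have hs : Subsingleton V := (Module.finrank_zero_iff (R := F)).1 h
  refine ⟨fun _ _ => 0, ?_, by simp⟩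
  exact
    { add_left := by simp
      smul_left := by simp
      add_right := by simp
      smul_right := by simp
      alt := by simp
      nd := fun a ha => absurd (Subsingleton.elim a 0) ha }

theorem hasForm_smul {y : Module.End F V} {c : F} (h : HasForm y c) (w : F) : HasForm (w • y) (w ^ 2 * c) := by
  obtain ⟨f, hf, h1⟩ := h
  refine ⟨f, hf, fun u v => ?_⟩
  rw [LinearMap.smul_apply, LinearMap.smul_apply, hf.smul_left, hf.smul_right, h1]
  ring

/-- Gluing along an invariant decomposition. -/
theorem hasForm_sum (y : Module.End F V) {U W : Submodule F V} (h : IsCompl U W) (hU : ∀ v ∈ U, y v ∈ U)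
    (hW : ∀ v ∈ W, y v ∈ W) {c : F} (h1 : HasForm (y.restrict hU) c) (h2 : HasForm (y.restrict hW) c) : HasForm y c := by
  obtain ⟨f, hf, hf1⟩ := h1
  obtain ⟨g, hg, hg1⟩ := h2
  let e : (U × W) ≃ₗ[F] V := Submodule.prodEquivOfIsCompl U W h
  have hP := aform_prod hf hg
  refine ⟨_, aform_comp hP e.symm, ?_⟩
  intro u v
  have hey : ∀ u, e.symm (y u) = ((y.restrict hU) (e.symm u).1, (y.restrict hW) (e.symm u).2) := by
    intro u
    rw [LinearEquiv.symm_apply_eq]
    have h5 : ((e.symm u).1 : V) + ((e.symm u).2 : V) = u := e.apply_symm_apply u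
    show y u = ((y.restrict hU) (e.symm u).1 : V) + ((y.restrict hW) (e.symm u).2 : V)
    conv_lhs => rw [← h5]
    rw [map_add]
    rfl
  show f _ _ + g _ _ = c * (f _ _ + g _ _)
  rw [hey, hey]
  simp only
  rw [hf1, hg1]
  ring

end Basic

section Plane

variable {F : Type v} [Field F] {V : Type u} [AddCommGroup V] [Module F V]

/-- On a plane every alternating form is multiplied by the determinant. -/
theorem plane_mult {f : V → V → F} (hf : AForm f) (h2 : finrank F V = 2) (s : Module.End F V) (u v : V) :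
    f (s u) (s v) = LinearMap.det s * f u v := by
  classical
  haveI : FiniteDimensional F V := Module.finite_of_finrank_pos (by omega)
  let b := Module.finBasisOfFinrankEq F V h2
  have hexp : ∀ x y : V, f x y = ((b.repr x 0) * (b.repr y 1) - (b.repr x 1) * (b.repr y 0)) * f (b 0) (b 1) := by
    intro x y
    conv_lhs => rw [← b.sum_repr x, ← b.sum_repr y]
    simp only [Fin.sum_univ_two, hf.add_left, hf.add_right, hf.smul_left, hf.smul_right, hf.alt]
    rw [hf.skew (b 1) (b 0)]
    ring
  have hrep : ∀ x : V, b.repr (s x) = (LinearMap.toMatrix b b s).mulVec (b.repr x) := by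
    intro x
    have := LinearMap.toMatrix_mulVec_repr b b s x
    exact this.symm
  rw [hexp, hexp u v, hrep, hrep, ← LinearMap.det_toMatrix b s, Matrix.det_fin_two]
  simp only [Matrix.mulVec, dotProduct, Fin.sum_univ_two]
  ring

/-- Every map on a plane preserves an alternating form up to its determinant. -/
theorem plane_hasForm (h2 : finrank F V = 2) (s : Module.End F V) : HasForm s (LinearMap.det s) := by
  classical
  haveI : FiniteDimensional F V := Module.finite_of_finrank_pos (by omega)
  let b := Module.finBasisOfFinrankEq F V h2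
  have hf : AForm (fun x y : V => (b.repr x 0) * (b.repr y 1) - (b.repr x 1) * (b.repr y 0)) :=
    { add_left := fun a c d => by simp only [map_add, Finsupp.add_apply]; ring
      smul_left := fun r a c => by simp only [map_smul, Finsupp.smul_apply, smul_eq_mul]; ring
      add_right := fun a c d => by simp only [map_add, Finsupp.add_apply]; ring
      smul_right := fun r a c => by simp only [map_smul, Finsupp.smul_apply, smul_eq_mul]; ring
      alt := fun a => by ring
      nd := by
        intro a ha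
        by_cases h0 : b.repr a 0 = 0
        · have h1 : b.repr a 1 ≠ 0 := by
            intro h1
            apply ha
            apply b.repr.injective
            ext i
            fin_cases i
            · simpa using h0
            · simpa using h1
          refine ⟨b 0, ?_⟩
          simpa [h0] using h1
        · refine ⟨b 1, ?_⟩
          simpa using h0 }
  exact ⟨_, hf, fun u v => plane_mult hf h2 s u v⟩

end Plane

section Even

variable {F : Type v} [Field F] {V : Type u} [AddCommGroup V] [Module F V] [FiniteDimensional F V]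

/-- Dimension of a space with an alternating nondegenerate form is even. -/
theorem aform_even {f : V → V → F} (hf : AForm f) : Even (finrank F V) := by
  classical
  obtain ⟨m', k, b, h1, h2, h3, h4⟩ := Cfsg.Agent.S0752.result hf.toBilin hf.toBilin_alt
  have hk : k = 0 := by
    by_contra hk
    have hpos : 0 < k := Nat.pos_of_ne_zero hk
    have h0 := hf.toBilin_nondeg.1 (b (Sum.inr ⟨0, hpos⟩)) (h4 ⟨0, hpos⟩)
    exact b.ne_zero _ h0
  subst hk
  have := Module.finrank_eq_card_basis b
  rw [this]
  simp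

/-- All nondegenerate alternating forms on spaces of the same dimension are isometric. -/
theorem aform_isometry {V' : Type*} [AddCommGroup V'] [Module F V'] [FiniteDimensional F V'] {f : V → V → F} {f' : V' → V' → F}
    (hf : AForm f) (hf' : AForm f') (hd : finrank F V = finrank F V') :
    ∃ θ : V ≃ₗ[F] V', ∀ u v, f' (θ u) (θ v) = f u v := by
  obtain ⟨m, hm⟩ := aform_even hf
  have hm2 : finrank F V = 2 * m := by omega
  obtain ⟨θ₁, h1⟩ := Cfsg.Agent.Lib.Classical.exists_symp_isometry hf.toBilin hf.toBilin_nondeg hf.toBilin_alt m hm2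
  obtain ⟨θ₂, h2⟩ := Cfsg.Agent.Lib.Classical.exists_symp_isometry hf'.toBilin hf'.toBilin_nondeg hf'.toBilin_alt m (by omega)
  refine ⟨θ₁.trans θ₂.symm, fun u v => ?_⟩
  have h3 := h2 (θ₂.symm (θ₁ u)) (θ₂.symm (θ₁ v))
  rw [LinearEquiv.apply_symm_apply, LinearEquiv.apply_symm_apply, h1] at h3
  exact h3.symm

end Even

section Conj

variable {F : Type v} [Field F] {n : ℕ}

theorem aform_of_symp {f : (Fin n → F) → (Fin n → F) → F} (hf : Cfsg.Geo.IsSymplecticForm f) : AForm f where
  add_left := hf.bilinear.add_left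
  smul_left := hf.bilinear.smul_left
  add_right := hf.bilinear.add_right
  smul_right := hf.bilinear.smul_right
  alt := hf.alternating
  nd := fun a ha => (hf.nondegenerate a ha).2

/-- An element conjugate into the similarity group preserves some form. -/
theorem form_of_conj {f : (Fin n → F) → (Fin n → F) → F} (hf : Cfsg.Geo.IsSymplecticForm f)
    (x P : Matrix.SpecialLinearGroup (Fin n) F)
    (h : P⁻¹ * x * P ∈ ((Cfsg.Geo.similarityGroup f).comap
      (Matrix.SpecialLinearGroup.toGL : Matrix.SpecialLinearGroup (Fin n) F →* GL (Fin n) F))) :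
    ∃ (c : F), c ≠ 0 ∧ HasForm (Matrix.toLin' (x : Matrix (Fin n) (Fin n) F)) c := by
  obtain ⟨c, hc⟩ := h
  refine ⟨c, c.ne_zero, ?_⟩
  have hA := aform_of_symp hf
  -- the linear equivalence of `P⁻¹`
  let e : (Fin n → F) ≃ₗ[F] (Fin n → F) := Matrix.toLinearEquiv' ((P⁻¹ : Matrix.SpecialLinearGroup (Fin n) F) : Matrix (Fin n) (Fin n) F)
    (Matrix.invertibleOfIsUnitDet _ (by
      rw [(P⁻¹ : Matrix.SpecialLinearGroup (Fin n) F).2]; exact isUnit_one))
  have he : ∀ u, e u = ((P⁻¹ : Matrix.SpecialLinearGroup (Fin n) F) : Matrix (Fin n) (Fin n) F).mulVec u := fun u => rfl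
  refine ⟨_, aform_comp hA e, fun u v => ?_⟩
  show f (e _) (e _) = _ * f (e _) (e _)
  have hcomm : ∀ w, e ((Matrix.toLin' (x : Matrix (Fin n) (Fin n) F)) w) =
      ((P⁻¹ * x * P : Matrix.SpecialLinearGroup (Fin n) F) : Matrix (Fin n) (Fin n) F).mulVec (e w) := by
    intro w
    rw [he, he, Matrix.toLin'_apply, Matrix.mulVec_mulVec, Matrix.mulVec_mulVec]
    congr 1
    simp only [Matrix.SpecialLinearGroup.coe_mul]
    have h6 : (P⁻¹ * x * P * P⁻¹ : Matrix.SpecialLinearGroup (Fin n) F) = P⁻¹ * x := by group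
    have h7 := congrArg (fun A : Matrix.SpecialLinearGroup (Fin n) F => (A : Matrix (Fin n) (Fin n) F)) h6
    simp only [Matrix.SpecialLinearGroup.coe_mul] at h7 ⊢
    exact h7.symm
  rw [hcomm, hcomm]
  exact hc _ _

/-- Conversely, a form and an invariant plane give a conjugating element of determinant one. -/
theorem conj_sim_of_split {f : (Fin n → F) → (Fin n → F) → F} (hf : Cfsg.Geo.IsSymplecticForm f)
    (x : Matrix.SpecialLinearGroup (Fin n) F) {Z W : Submodule F (Fin n → F)} (hZW : IsCompl Z W)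
    (hZ2 : finrank F Z = 2)
    (hZ : ∀ v ∈ Z, Matrix.toLin' (x : Matrix (Fin n) (Fin n) F) v ∈ Z)
    (hW : ∀ v ∈ W, Matrix.toLin' (x : Matrix (Fin n) (Fin n) F) v ∈ W) {c : F} (hc : c ≠ 0)
    (h1 : HasForm ((Matrix.toLin' (x : Matrix (Fin n) (Fin n) F)).restrict hZ) c)
    (h2 : HasForm ((Matrix.toLin' (x : Matrix (Fin n) (Fin n) F)).restrict hW) c) :
    ∃ P : Matrix.SpecialLinearGroup (Fin n) F, P⁻¹ * x * P ∈ ((Cfsg.Geo.similarityGroup f).comap
      (Matrix.SpecialLinearGroup.toGL : Matrix.SpecialLinearGroup (Fin n) F →* GL (Fin n) F)) := by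
  classical
  obtain ⟨y, hy⟩ : ∃ y, y = Matrix.toLin' (x : Matrix (Fin n) (Fin n) F) := ⟨_, rfl⟩
  have hA := aform_of_symp hf
  obtain ⟨fZ, hfZ, hfZ1⟩ := h1
  obtain ⟨fW, hfW, hfW1⟩ := h2
  let e : (Z × W) ≃ₗ[F] (Fin n → F) := Submodule.prodEquivOfIsCompl Z W hZW
  have hform : ∀ t : F, t ≠ 0 → AForm (fun u v : Fin n → F => t * fZ (e.symm u).1 (e.symm v).1 + fW (e.symm u).2 (e.symm v).2) :=
    fun t ht => aform_comp (aform_prod (aform_smul hfZ ht) hfW) e.symm
  obtain ⟨θ₁, hθ₁⟩ := aform_isometry (hform 1 one_ne_zero) hA rfl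
  obtain ⟨D, hD⟩ : ∃ D : F, D = LinearMap.det (θ₁ : (Fin n → F) →ₗ[F] (Fin n → F)) := ⟨_, rfl⟩
  have hD0 : D ≠ 0 := by
    rw [hD]
    exact (LinearEquiv.isUnit_det' θ₁).ne_zero
  -- the dilation on the plane
  let b := Module.finBasisOfFinrankEq F Z hZ2
  let sZ : Module.End F Z := Matrix.toLin b b (Matrix.diagonal ![D⁻¹, 1])
  have hsZ : LinearMap.det sZ = D⁻¹ := by
    rw [LinearMap.det_toLin, Matrix.det_diagonal, Fin.prod_univ_two]
    simp
  let T : Module.End F (Z × W) := LinearMap.prodMap sZ LinearMap.id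
  have hT : LinearMap.det T = D⁻¹ := by
    rw [LinearMap.det_prodMap, hsZ, LinearMap.det_id, mul_one]
  let s : Module.End F (Fin n → F) := (e : (Z × W) →ₗ[F] (Fin n → F)) ∘ₗ T ∘ₗ (e.symm : (Fin n → F) →ₗ[F] (Z × W))
  have hs : LinearMap.det s = D⁻¹ := by
    show LinearMap.det ((e : (Z × W) →ₗ[F] (Fin n → F)) ∘ₗ T ∘ₗ (e.symm : (Fin n → F) →ₗ[F] (Z × W))) = _
    rw [LinearMap.det_conj, hT]
  have hsym : ∀ u, e.symm (s u) = (sZ (e.symm u).1, (e.symm u).2) := by
    intro u
    simp [s, T]
  let θ : Module.End F (Fin n → F) := (θ₁ : (Fin n → F) →ₗ[F] (Fin n → F)) ∘ₗ s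
  have hθdet : LinearMap.det θ = 1 := by
    show LinearMap.det ((θ₁ : (Fin n → F) →ₗ[F] (Fin n → F)) * s) = 1
    rw [map_mul, hs, ← hD, mul_inv_cancel₀ hD0]
  have hθ : ∀ u v, f (θ u) (θ v) = D⁻¹ * fZ (e.symm u).1 (e.symm v).1 + fW (e.symm u).2 (e.symm v).2 := by
    intro u v
    show f (θ₁ (s u)) (θ₁ (s v)) = _
    rw [hθ₁, hsym, hsym, one_mul]
    simp only
    rw [plane_mult hfZ hZ2, hsZ]
  have hey : ∀ u, e.symm (y u) = ((y.restrict (hy ▸ hZ)) (e.symm u).1, (y.restrict (hy ▸ hW)) (e.symm u).2) := by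
    intro u
    rw [LinearEquiv.symm_apply_eq]
    have h5 : ((e.symm u).1 : Fin n → F) + ((e.symm u).2 : Fin n → F) = u := e.apply_symm_apply u
    show y u = ((y.restrict (hy ▸ hZ)) (e.symm u).1 : Fin n → F) + ((y.restrict (hy ▸ hW)) (e.symm u).2 : Fin n → F)
    conv_lhs => rw [← h5]
    rw [map_add]
    rfl
  subst hy
  obtain ⟨Q, hQ⟩ := sl_exists_of_det θ hθdet
  refine ⟨Q⁻¹, ⟨Units.mk0 c hc, fun u v => ?_⟩⟩
  have hmat : ∀ u : Fin n → F, (((Matrix.SpecialLinearGroup.toGL ((Q⁻¹)⁻¹ * x * Q⁻¹) : GL (Fin n) F) : Matrix (Fin n) (Fin n) F)).mulVec u =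
      θ (Matrix.toLin' (x : Matrix (Fin n) (Fin n) F) (((Q⁻¹ : Matrix.SpecialLinearGroup (Fin n) F) : Matrix (Fin n) (Fin n) F).mulVec u)) := by
    intro u
    rw [← hQ, Matrix.toLin'_apply, Matrix.toLin'_apply, Matrix.mulVec_mulVec, Matrix.mulVec_mulVec]
    congr 1
    simp only [inv_inv]
    rfl
  have hu : ∀ u : Fin n → F, u = θ (((Q⁻¹ : Matrix.SpecialLinearGroup (Fin n) F) : Matrix (Fin n) (Fin n) F).mulVec u) := by
    intro u
    rw [← hQ, Matrix.toLin'_apply, Matrix.mulVec_mulVec, ← Matrix.SpecialLinearGroup.coe_mul, mul_inv_cancel]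
    simp
  rw [hmat, hmat, hθ, hey, hey]
  conv_rhs => rw [hu u, hu v, hθ]
  simp only
  rw [hfZ1, hfW1]
  simp only [Units.val_mk0]
  ring

end Conj

section More

variable {F : Type v} [Field F] {V : Type u} [AddCommGroup V] [Module F V]

/-- The determinant on an invariant decomposition. -/
theorem det_of_compl (y : Module.End F V) {U W : Submodule F V} (h : IsCompl U W) (hU : ∀ v ∈ U, y v ∈ U)
    (hW : ∀ v ∈ W, y v ∈ W) [FiniteDimensional F V] :
    LinearMap.det y = LinearMap.det (y.restrict hU) * LinearMap.det (y.restrict hW) := by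
  let e : (U × W) ≃ₗ[F] V := Submodule.prodEquivOfIsCompl U W h
  have h1 := LinearMap.det_conj (LinearMap.prodMap (y.restrict hU) (y.restrict hW)) e
  rw [LinearMap.det_prodMap] at h1
  rw [← h1]
  congr 1
  ext v
  have h5 : ((e.symm v).1 : V) + ((e.symm v).2 : V) = v := e.apply_symm_apply v
  show y v = ((y.restrict hU) (e.symm v).1 : V) + ((y.restrict hW) (e.symm v).2 : V)
  conv_lhs => rw [← h5]
  rw [map_add]
  rfl

theorem exists_aform [FiniteDimensional F V] (h : Even (finrank F V)) : ∃ f : V → V → F, AForm f := by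
  obtain ⟨m, hm⟩ := h
  have h2 : finrank F V = finrank F (Fin m ⊕ Fin m → F) := by
    rw [Module.finrank_fintype_fun_eq_card]
    simp [hm]
  let e : V ≃ₗ[F] (Fin m ⊕ Fin m → F) := LinearEquiv.ofFinrankEq _ _ h2
  exact ⟨_, aform_comp (aform_sympForm m F) e⟩

/-- A scalar preserves any form up to its square. -/
theorem hasForm_scalar [FiniteDimensional F V] (h : Even (finrank F V)) (y : Module.End F V) (w : F)
    (hy : ∀ v, y v = w • v) : HasForm y (w ^ 2) := by
  obtain ⟨f, hf⟩ := exists_aform (F := F) (V := V) h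
  refine ⟨f, hf, fun u v => ?_⟩
  rw [hy, hy, hf.smul_left, hf.smul_right]
  ring

/-- Peeling off planes of prescribed determinant. -/
theorem hasForm_of_step {z c : F}
    (hstep : ∀ (V : Type u) [AddCommGroup V] [Module F V] [FiniteDimensional F V] (y : Module.End F V),
      2 ≤ finrank F V → y ^ 2 = z • (1 : Module.End F V) →
      ∃ Z W : Submodule F V, IsCompl Z W ∧ finrank F Z = 2 ∧ ∃ (hZ : ∀ v ∈ Z, y v ∈ Z) (hW : ∀ v ∈ W, y v ∈ W),
        LinearMap.det (y.restrict hZ) = c ∧ (y.restrict hW) ^ 2 = z • (1 : Module.End F W)) :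
    ∀ (d : ℕ) (V : Type u) [AddCommGroup V] [Module F V] [FiniteDimensional F V] (y : Module.End F V),
      finrank F V = 2 * d → y ^ 2 = z • (1 : Module.End F V) → HasForm y c := by
  intro d
  induction d with
  | zero =>
    intro V _ _ _ y h1 _
    exact hasForm_trivial y c (by omega)
  | succ d ih =>
    intro V _ _ _ y h1 hy
    obtain ⟨Z, W, hc, hZ2, hZ, hW, h3, h4⟩ := hstep V y (by omega) hy
    refine hasForm_sum y hc hZ hW ?_ ?_
    · have := plane_hasForm hZ2 (y.restrict hZ)
      rwa [h3] at this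
    · have hd := Submodule.finrank_add_eq_of_isCompl hc
      exact ih W (y.restrict hW) (by omega) h4

end More

end Cfsg.Agent.Lib.Geo
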