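import Mathlib
import Cfsg.Agent.Lib.Geo.ElusForm

set_option autoImplicit false

/-! Maps with scalar square: invariant planes and compatible forms. -/

namespace Cfsg.Agent.Lib.Geo

open Polynomial Module

universe u v

section Steps

variable {F : Type v} [Field F]

/-- Non-square case: a plane of determinant `-z`. -/
theorem step_nonsquare (h2 : (2 : F) ≠ 0) {z : F} (hno : ∀ d : F, d ^ 2 ≠ z)
    (V : Type u) [AddCommGroup V] [Module F V] [FiniteDimensional F V] (y : Module.End F V)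
    (hdim : 2 ≤ finrank F V) (hy : y ^ 2 = z • (1 : Module.End F V)) :
    ∃ Z W : Submodule F V, IsCompl Z W ∧ finrank F Z = 2 ∧ ∃ (hZ : ∀ v ∈ Z, y v ∈ Z) (hW : ∀ v ∈ W, y v ∈ W),
      LinearMap.det (y.restrict hZ) = -z ∧ (y.restrict hW) ^ 2 = z • (1 : Module.End F W) := by
  have hz : z ≠ 0 := fun h => hno 0 (by rw [h]; ring)
  obtain ⟨Z, hZ, hZ2⟩ := binom_exists_inv Nat.prime_two hno y hy 1 (by omega)
  rw [one_mul] at hZ2
  obtain ⟨W, hc, hW⟩ := inv_compl y (r := 2) (by exact_mod_cast h2) hz hy Z hZ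
  refine ⟨Z, W, hc, hZ2, hZ, hW, ?_, restrict_pow_scalar y W hW hy⟩
  have h3 := binom_det Nat.prime_two hno (y.restrict hZ) (restrict_pow_scalar y Z hZ hy)
  rw [hZ2] at h3
  rw [h3]
  norm_num

/-- Characteristic two: a plane of determinant `z`. -/
theorem step_char_two (h2 : (2 : F) = 0) {z w : F} (hw : w ≠ 0) (hwz : w ^ 2 = z)
    (V : Type u) [AddCommGroup V] [Module F V] [FiniteDimensional F V] (y : Module.End F V)
    (hdim : 2 ≤ finrank F V) (hy : y ^ 2 = z • (1 : Module.End F V)) :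
    ∃ Z W : Submodule F V, IsCompl Z W ∧ finrank F Z = 2 ∧ ∃ (hZ : ∀ v ∈ Z, y v ∈ Z) (hW : ∀ v ∈ W, y v ∈ W),
      LinearMap.det (y.restrict hZ) = z ∧ (y.restrict hW) ^ 2 = z • (1 : Module.End F W) := by
  obtain ⟨N, hN⟩ : ∃ N : Module.End F V, N = w⁻¹ • y - 1 := ⟨_, rfl⟩
  have hyN : ∀ v, y v = w • (N v + v) := by
    intro v
    rw [hN]
    simp only [LinearMap.sub_apply, LinearMap.smul_apply, Module.End.one_apply, sub_add_cancel]
    rw [smul_smul, mul_inv_cancel₀ hw, one_smul]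
  have hN2 : N ^ 2 = 0 := by
    ext v
    have h5 : y (y v) = z • v := by
      have := LinearMap.congr_fun hy v
      simpa [pow_two] using this
    have h6 : (2 : F) • (y v) = 0 := by rw [h2, zero_smul]
    have h7 : (2 : F) • v = 0 := by rw [h2, zero_smul]
    rw [hN]
    simp only [pow_two, Module.End.mul_apply, LinearMap.sub_apply, LinearMap.smul_apply, Module.End.one_apply,
      map_sub, map_smul, h5, LinearMap.zero_apply]
    rw [← hwz, smul_smul]
    have h8 : w⁻¹ * w ^ 2 = w := by field_simp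
    rw [h8, smul_sub, smul_smul, inv_mul_cancel₀ hw, one_smul]
    have h9 : (2 : F) • (w⁻¹ • y v) = 0 := by rw [h2, zero_smul]
    have h10 : v - w⁻¹ • y v - (w⁻¹ • y v - v) = (2 : F) • v - (2 : F) • (w⁻¹ • y v) := by
      rw [two_smul, two_smul]
      abel
    rw [h10, h7, h9, sub_zero]
  have hdetZ : ∀ (Z : Submodule F V) (hZ : ∀ v ∈ Z, y v ∈ Z), finrank F Z = 2 → LinearMap.det (y.restrict hZ) = z := by
    intro Z hZ hZ2
    have h3 := restrict_pow_scalar y Z hZ hy
    have h4 := congrArg LinearMap.det h3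
    rw [map_pow, LinearMap.det_smul, hZ2, map_one, mul_one] at h4
    have h5 : (LinearMap.det (y.restrict hZ) - z) ^ 2 = 0 := by
      linear_combination h4 + (z ^ 2 - LinearMap.det (y.restrict hZ) * z) * h2
    exact sub_eq_zero.1 (pow_eq_zero_iff (by norm_num) |>.1 h5)
  by_cases h0 : N = 0
  · have hs : ∀ v, y v = w • v := by
      intro v
      rw [hyN, h0]
      simp
    obtain ⟨Z, _, hZ2⟩ := exists_sub_of_le (⊤ : Submodule F V) 2 (by rwa [finrank_top])
    obtain ⟨W, hc⟩ := Submodule.exists_isCompl Z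
    have hZ : ∀ v ∈ Z, y v ∈ Z := fun v hv => by rw [hs]; exact Z.smul_mem _ hv
    have hW : ∀ v ∈ W, y v ∈ W := fun v hv => by rw [hs]; exact W.smul_mem _ hv
    exact ⟨Z, W, hc, hZ2, hZ, hW, hdetZ Z hZ hZ2, restrict_pow_scalar y W hW hy⟩
  · obtain ⟨v, hv⟩ : ∃ v, N v ≠ 0 := by
      by_contra hcon
      push Not at hcon
      exact h0 (LinearMap.ext hcon)
    obtain ⟨Z, W, hc, hN1, hN3, hZ2⟩ := cyclic_compl N 1 hN2 v (by simpa using hv)
    have hZ : ∀ v ∈ Z, y v ∈ Z := fun v hv => by rw [hyN]; exact Z.smul_mem _ (Z.add_mem (hN1 v hv) hv)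
    have hW : ∀ v ∈ W, y v ∈ W := fun v hv => by rw [hyN]; exact W.smul_mem _ (W.add_mem (hN3 v hv) hv)
    exact ⟨Z, W, hc, hZ2, hZ, hW, hdetZ Z hZ hZ2, restrict_pow_scalar y W hW hy⟩

end Steps

section Square

variable {F : Type v} [Field F] {V : Type u} [AddCommGroup V] [Module F V]

/-- Eigenspace decomposition of a map with square `w²`. -/
theorem eigen_compl (h2 : (2 : F) ≠ 0) {w : F} (hw : w ≠ 0) (y : Module.End F V)
    (hy : y ^ 2 = (w ^ 2) • (1 : Module.End F V)) :
    IsCompl (LinearMap.ker (y - w • 1)) (LinearMap.ker (y - (-w) • 1)) := by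
  have hyy : ∀ v, y (y v) = (w ^ 2) • v := fun v => by
    have := LinearMap.congr_fun hy v
    simpa [pow_two] using this
  have hmem1 : ∀ v, v ∈ LinearMap.ker (y - w • (1 : Module.End F V)) ↔ y v = w • v := by
    intro v
    simp [sub_eq_zero]
  have hmem2 : ∀ v, v ∈ LinearMap.ker (y - (-w) • (1 : Module.End F V)) ↔ y v = (-w) • v := by
    intro v
    simp only [LinearMap.mem_ker, LinearMap.sub_apply, LinearMap.smul_apply, Module.End.one_apply, sub_eq_zero]
  constructor
  · rw [Submodule.disjoint_def]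
    intro v h1 h3
    rw [hmem1] at h1
    rw [hmem2] at h3
    have h4 : (2 * w) • v = 0 := by
      have : w • v = (-w) • v := h1.symm.trans h3
      rw [two_mul, add_smul]
      nth_rw 1 [this]
      simp
    exact (smul_eq_zero.1 h4).resolve_left (mul_ne_zero h2 hw)
  · rw [codisjoint_iff, eq_top_iff]
    intro v _
    have h5 : v = (2⁻¹ : F) • (v + w⁻¹ • y v) + (2⁻¹ : F) • (v - w⁻¹ • y v) := by
      rw [smul_add, smul_sub, add_add_sub_cancel, ← add_smul]
      have : (2⁻¹ : F) + 2⁻¹ = 1 := by field_simp; norm_num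
      rw [this, one_smul]
    rw [h5]
    refine Submodule.add_mem_sup (Submodule.smul_mem _ _ ?_) (Submodule.smul_mem _ _ ?_)
    · rw [hmem1, map_add, map_smul, hyy, smul_add, smul_smul]
      have : w⁻¹ * w ^ 2 = w := by field_simp
      rw [this, smul_smul, mul_inv_cancel₀ hw, one_smul, add_comm]
    · rw [hmem2, map_sub, map_smul, hyy, smul_sub, smul_smul]
      have : w⁻¹ * w ^ 2 = w := by field_simp
      rw [this, smul_smul, neg_mul, mul_inv_cancel₀ hw, neg_smul, neg_smul, one_smul, sub_neg_eq_add, sub_eq_neg_add]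

/-- The form when both eigenspaces have even dimension. -/
theorem hasForm_sq [FiniteDimensional F V] (h2 : (2 : F) ≠ 0) {w : F} (hw : w ≠ 0) (y : Module.End F V)
    (hy : y ^ 2 = (w ^ 2) • (1 : Module.End F V))
    (ha : Even (finrank F (LinearMap.ker (y - w • (1 : Module.End F V)))))
    (hb : Even (finrank F (LinearMap.ker (y - (-w) • (1 : Module.End F V))))) : HasForm y (w ^ 2) := by
  have hc := eigen_compl h2 hw y hy
  have hmem1 : ∀ t : F, ∀ v, v ∈ LinearMap.ker (y - t • (1 : Module.End F V)) ↔ y v = t • v := by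
    intro t v
    simp only [LinearMap.mem_ker, LinearMap.sub_apply, LinearMap.smul_apply, Module.End.one_apply, sub_eq_zero]
  have hA : ∀ v ∈ LinearMap.ker (y - w • (1 : Module.End F V)), y v ∈ LinearMap.ker (y - w • (1 : Module.End F V)) := by
    intro v hv
    have h3 := (hmem1 w v).1 hv
    rw [h3]
    exact Submodule.smul_mem _ _ hv
  have hB : ∀ v ∈ LinearMap.ker (y - (-w) • (1 : Module.End F V)), y v ∈ LinearMap.ker (y - (-w) • (1 : Module.End F V)) := by
    intro v hv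
    have h3 := (hmem1 (-w) v).1 hv
    rw [h3]
    exact Submodule.smul_mem _ _ hv
  refine hasForm_sum y hc hA hB ?_ ?_
  · refine hasForm_scalar ha _ w ?_
    rintro ⟨v, hv⟩
    ext
    exact (hmem1 w v).1 hv
  · have := hasForm_scalar hb (y.restrict hB) (-w) (by
      rintro ⟨v, hv⟩
      ext
      exact (hmem1 (-w) v).1 hv)
    rwa [neg_sq] at this

/-- A plane in an eigenspace, and the rest. -/
theorem split_sq_aux [FiniteDimensional F V] (h2 : (2 : F) ≠ 0) {w : F} (hw : w ≠ 0) (y : Module.End F V)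
    (hy : y ^ 2 = (w ^ 2) • (1 : Module.End F V))
    (ha : Even (finrank F (LinearMap.ker (y - w • (1 : Module.End F V)))))
    (hb : Even (finrank F (LinearMap.ker (y - (-w) • (1 : Module.End F V)))))
    (hdim : 2 ≤ finrank F (LinearMap.ker (y - w • (1 : Module.End F V)))) :
    ∃ Z W : Submodule F V, IsCompl Z W ∧ finrank F Z = 2 ∧ ∃ (hZ : ∀ v ∈ Z, y v ∈ Z) (hW : ∀ v ∈ W, y v ∈ W),
      HasForm (y.restrict hZ) (w ^ 2) ∧ HasForm (y.restrict hW) (w ^ 2) := by
  have hmem1 : ∀ t : F, ∀ v, v ∈ LinearMap.ker (y - t • (1 : Module.End F V)) ↔ y v = t • v := by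
    intro t v
    simp only [LinearMap.mem_ker, LinearMap.sub_apply, LinearMap.smul_apply, Module.End.one_apply, sub_eq_zero]
  obtain ⟨Z, hZA, hZ2⟩ := exists_sub_of_le _ 2 hdim
  have hZs : ∀ v ∈ Z, y v = w • v := fun v hv => (hmem1 w v).1 (hZA hv)
  have hZ : ∀ v ∈ Z, y v ∈ Z := fun v hv => by rw [hZs v hv]; exact Z.smul_mem _ hv
  obtain ⟨W, hc, hW⟩ := inv_compl y (r := 2) (by exact_mod_cast h2) (pow_ne_zero 2 hw) hy Z hZ
  refine ⟨Z, W, hc, hZ2, hZ, hW, ?_, ?_⟩
  · refine hasForm_scalar (by rw [hZ2]; exact even_two) _ w ?_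
    rintro ⟨v, hv⟩
    ext
    exact hZs v hv
  · have hker : ∀ t : F, finrank F (LinearMap.ker (y - t • (1 : Module.End F V))) =
        finrank F (LinearMap.ker ((y - t • (1 : Module.End F V)).restrict (fun v (hv : v ∈ Z) => by
          show (y - t • (1 : Module.End F V)) v ∈ Z
          simp only [LinearMap.sub_apply, LinearMap.smul_apply, Module.End.one_apply]
          exact Z.sub_mem (hZ v hv) (Z.smul_mem _ hv)))) +
        finrank F (LinearMap.ker ((y.restrict hW) - t • (1 : Module.End F W))) := by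
      intro t
      have hinvZ : ∀ v ∈ Z, (y - t • (1 : Module.End F V)) v ∈ Z := fun v hv => by
        simp only [LinearMap.sub_apply, LinearMap.smul_apply, Module.End.one_apply]
        exact Z.sub_mem (hZ v hv) (Z.smul_mem _ hv)
      have hinvW : ∀ v ∈ W, (y - t • (1 : Module.End F V)) v ∈ W := fun v hv => by
        simp only [LinearMap.sub_apply, LinearMap.smul_apply, Module.End.one_apply]
        exact W.sub_mem (hW v hv) (W.smul_mem _ hv)
      have h3 := finrank_ker_add (y - t • (1 : Module.End F V)) hc hinvZ hinvW 1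
      rw [pow_one, pow_one, pow_one] at h3
      rw [h3]
      congr 2
    have hk1 := hker w
    have hk2 := hker (-w)
    have hz1 : LinearMap.ker ((y - w • (1 : Module.End F V)).restrict (fun v (hv : v ∈ Z) => by
          show (y - w • (1 : Module.End F V)) v ∈ Z
          simp only [LinearMap.sub_apply, LinearMap.smul_apply, Module.End.one_apply]
          exact Z.sub_mem (hZ v hv) (Z.smul_mem _ hv))) = ⊤ := by
      rw [LinearMap.ker_eq_top]
      ext ⟨v, hv⟩
      simp [hZs v hv]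
    have hz2 : LinearMap.ker ((y - (-w) • (1 : Module.End F V)).restrict (fun v (hv : v ∈ Z) => by
          show (y - (-w) • (1 : Module.End F V)) v ∈ Z
          simp only [LinearMap.sub_apply, LinearMap.smul_apply, Module.End.one_apply]
          exact Z.sub_mem (hZ v hv) (Z.smul_mem _ hv))) = ⊥ := by
      rw [LinearMap.ker_eq_bot']
      rintro ⟨v, hv⟩ h0
      have h3 : (y - (-w) • (1 : Module.End F V)) v = 0 := congrArg Subtype.val h0
      simp only [LinearMap.sub_apply, LinearMap.smul_apply, Module.End.one_apply, hZs v hv] at h3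
      have h4 : (2 * w) • v = 0 := by
        rw [two_mul, add_smul]
        simpa using h3
      have := (smul_eq_zero.1 h4).resolve_left (mul_ne_zero h2 hw)
      subst this
      rfl
    rw [hz1, finrank_top, hZ2] at hk1
    rw [hz2, finrank_bot] at hk2
    have hy' := restrict_pow_scalar y W hW hy
    refine hasForm_sq h2 hw _ hy' ?_ ?_
    · obtain ⟨m, hm⟩ := ha
      exact ⟨m - 1, by omega⟩
    · obtain ⟨m, hm⟩ := hb
      exact ⟨m, by omega⟩

end Square

section Parity

variable {F : Type v} [Field F] {V : Type u} [AddCommGroup V] [Module F V]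

/-- Determinant of a map with square `w²` in terms of the eigenspace dimension. -/
theorem det_eigen [FiniteDimensional F V] (h2 : (2 : F) ≠ 0) {w : F} (hw : w ≠ 0) (y : Module.End F V)
    (hy : y ^ 2 = (w ^ 2) • (1 : Module.End F V)) :
    LinearMap.det y = w ^ (finrank F V) * (-1) ^ finrank F (LinearMap.ker (y - (-w) • (1 : Module.End F V))) := by
  have hc := eigen_compl h2 hw y hy
  have hmem1 : ∀ t : F, ∀ v, v ∈ LinearMap.ker (y - t • (1 : Module.End F V)) ↔ y v = t • v := by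
    intro t v
    simp only [LinearMap.mem_ker, LinearMap.sub_apply, LinearMap.smul_apply, Module.End.one_apply, sub_eq_zero]
  have hA : ∀ v ∈ LinearMap.ker (y - w • (1 : Module.End F V)), y v ∈ LinearMap.ker (y - w • (1 : Module.End F V)) := by
    intro v hv
    have h3 := (hmem1 w v).1 hv
    rw [h3]
    exact Submodule.smul_mem _ _ hv
  have hB : ∀ v ∈ LinearMap.ker (y - (-w) • (1 : Module.End F V)), y v ∈ LinearMap.ker (y - (-w) • (1 : Module.End F V)) := by
    intro v hv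
    have h3 := (hmem1 (-w) v).1 hv
    rw [h3]
    exact Submodule.smul_mem _ _ hv
  have hd := Submodule.finrank_add_eq_of_isCompl hc
  rw [det_of_compl y hc hA hB]
  have h3 : y.restrict hA = w • (1 : Module.End F (LinearMap.ker (y - w • (1 : Module.End F V)))) := by
    ext ⟨v, hv⟩
    exact (hmem1 w v).1 hv
  have h4 : y.restrict hB = (-w) • (1 : Module.End F (LinearMap.ker (y - (-w) • (1 : Module.End F V)))) := by
    ext ⟨v, hv⟩
    exact (hmem1 (-w) v).1 hv
  rw [h3, h4, LinearMap.det_smul, LinearMap.det_smul, map_one, map_one, mul_one, mul_one, ← hd, pow_add,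
    neg_pow (w), mul_comm ((-1) ^ _) (w ^ _), mul_assoc]

theorem pow_ne_neg_one {q n : ℕ} [Fintype F] (hq : Fintype.card F = q) (h2 : (2 : F) ≠ 0) (hn : n ≠ 0)
    (hle : padicValNat 2 (q - 1) ≤ padicValNat 2 n) (w : F) (hw : w ≠ 0) : w ^ n ≠ -1 := by
  intro h
  haveI : Fact (Nat.Prime 2) := ⟨Nat.prime_two⟩
  have hq1 : 1 < q := by rw [← hq]; exact Fintype.one_lt_card
  have hq0 : q - 1 ≠ 0 := by omega
  have hnot := pow_succ_padicValNat_not_dvd (p := 2) hq0
  have hdvd1 := pow_padicValNat_dvd (p := 2) (n := q - 1)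
  have hdvd2 : 2 ^ padicValNat 2 (q - 1) ∣ n := (pow_dvd_pow 2 hle).trans pow_padicValNat_dvd
  obtain ⟨e, he⟩ : ∃ e, e = padicValNat 2 (q - 1) := ⟨_, rfl⟩
  rw [← he] at hnot hdvd1 hdvd2
  obtain ⟨m, hm⟩ := hdvd1
  obtain ⟨n', hn'⟩ := hdvd2
  have hmodd : Odd m := by
    rw [← Nat.not_even_iff_odd]
    rintro ⟨t, ht⟩
    apply hnot
    rw [pow_succ]
    exact ⟨t, by rw [hm, ht]; ring⟩
  have h3 : w ^ (q - 1) = 1 := by
    rw [← hq]
    exact FiniteField.pow_card_sub_one_eq_one w hw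
  have h4 : (w ^ n) ^ m = 1 := by
    have h5 : n * m = (q - 1) * n' := by
      rw [hm, hn']
      ring
    rw [← pow_mul, h5, pow_mul, h3, one_pow]
  rw [h, hmodd.neg_one_pow] at h4
  apply h2
  linear_combination -h4

theorem exists_pow_eq_neg_one {p q n : ℕ} [Fact p.Prime] [CharP F p] [Fintype F] (hq : Fintype.card F = q) (hn : n ≠ 0)
    (hlt : padicValNat 2 n < padicValNat 2 (q - 1)) : (2 : F) ≠ 0 ∧ ∃ w : F, w ≠ 0 ∧ w ^ n = -1 := by
  classical
  haveI : Fact (Nat.Prime 2) := ⟨Nat.prime_two⟩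
  have hq1 : 1 < q := by rw [← hq]; exact Fintype.one_lt_card
  have hq0 : q - 1 ≠ 0 := by omega
  have hdvd1 : 2 ^ (padicValNat 2 n + 1) ∣ q - 1 := (pow_dvd_pow 2 hlt).trans pow_padicValNat_dvd
  have hdvd2 := pow_padicValNat_dvd (p := 2) (n := n)
  have hnot := pow_succ_padicValNat_not_dvd (p := 2) hn
  obtain ⟨b, hb⟩ : ∃ b, b = padicValNat 2 n := ⟨_, rfl⟩
  rw [← hb] at hdvd1 hdvd2 hnot
  obtain ⟨d, hd⟩ := hdvd1
  obtain ⟨n', hn'⟩ := hdvd2
  have hn'odd : Odd n' := by
    rw [← Nat.not_even_iff_odd]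
    rintro ⟨t, ht⟩
    apply hnot
    rw [pow_succ]
    exact ⟨t, by rw [hn', ht]; ring⟩
  have hd2 : q - 1 = 2 * (2 ^ b * d) := by rw [hd, pow_succ]; ring
  have hpos : 0 < 2 ^ b * d := Nat.pos_of_ne_zero (fun h0 => hq0 (by rw [hd2, h0]))
  have h2F : (2 : F) ≠ 0 := by
    intro h
    have h3 : ((2 : ℕ) : F) = 0 := by exact_mod_cast h
    have h4 : p ∣ 2 := (CharP.cast_eq_zero_iff F p 2).1 h3
    have h5 : p = 2 := (Nat.prime_dvd_prime_iff_eq (Fact.out : p.Prime) Nat.prime_two).1 h4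
    subst h5
    obtain ⟨k, _, hk⟩ := FiniteField.card F 2
    have h7 : q = 2 ^ (k : ℕ) := by rw [← hq]; exact hk
    have h8 : 2 ∣ q := by rw [h7]; exact dvd_pow_self 2 k.ne_zero
    omega
  refine ⟨h2F, ?_⟩
  obtain ⟨ω, hω⟩ := IsCyclic.exists_generator (α := Fˣ)
  have hord : orderOf ω = q - 1 := by
    rw [orderOf_eq_card_of_forall_mem_zpowers hω, Nat.card_eq_fintype_card, Fintype.card_units, hq]
  obtain ⟨s, hs⟩ : ∃ s : Fˣ, s = ω ^ (2 ^ b * d) := ⟨_, rfl⟩
  have hs2 : s ^ 2 = 1 := by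
    rw [hs, ← pow_mul]
    have : 2 ^ b * d * 2 = orderOf ω := by rw [hord, hd2]; ring
    rw [this, pow_orderOf_eq_one]
  have hs1 : s ≠ 1 := by
    rw [hs]
    apply pow_ne_one_of_lt_orderOf hpos.ne'
    rw [hord, hd2]
    nlinarith
  have hs3 : (s : F) = -1 := by
    have h3 : ((s : F) - 1) * ((s : F) + 1) = 0 := by
      have := congrArg (Units.val) hs2
      simp only [Units.val_pow_eq_pow_val, Units.val_one] at this
      linear_combination this
    rcases mul_eq_zero.1 h3 with h4 | h4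
    · exfalso
      apply hs1
      ext
      simpa [sub_eq_zero] using h4
    · linear_combination h4
  refine ⟨((ω ^ d : Fˣ) : F), Units.ne_zero _, ?_⟩
  have h5 : ((ω ^ d : Fˣ) : F) ^ n = (s : F) ^ n' := by
    rw [hs, ← Units.val_pow_eq_pow_val, ← Units.val_pow_eq_pow_val, ← pow_mul, ← pow_mul]
    congr 2
    rw [hn']
    ring
  rw [h5, hs3, hn'odd.neg_one_pow]

/-- A reflection preserves no nondegenerate alternating form up to a scalar. -/
theorem refl_no_form {n : ℕ} (h2 : (2 : F) ≠ 0) (hn : 3 ≤ n) {g : (Fin n → F) → (Fin n → F) → F} (hg : AForm g)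
    (D : (Fin n → F) → (Fin n → F)) (hD : ∀ u i, D u i = if i = (⟨0, by omega⟩ : Fin n) then - u i else u i) (μ : F)
    (h : ∀ u v, g (D u) (D v) = μ * g u v) : False := by
  classical
  obtain ⟨i₀, hi₀⟩ : ∃ i₀ : Fin n, i₀ = ⟨0, by omega⟩ := ⟨_, rfl⟩
  obtain ⟨i₁, hi₁⟩ : ∃ i₁ : Fin n, i₁ = ⟨1, by omega⟩ := ⟨_, rfl⟩
  obtain ⟨i₂, hi₂⟩ : ∃ i₂ : Fin n, i₂ = ⟨2, by omega⟩ := ⟨_, rfl⟩
  rw [← hi₀] at hD
  have h01 : i₁ ≠ i₀ := by rw [hi₀, hi₁]; simp [Fin.ext_iff]
  have h02 : i₂ ≠ i₀ := by rw [hi₀, hi₂]; simp [Fin.ext_iff]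
  have h12 : i₁ ≠ i₂ := by rw [hi₁, hi₂]; simp [Fin.ext_iff]
  have hfix : ∀ u : Fin n → F, u i₀ = 0 → D u = u := by
    intro u hu
    ext i
    rw [hD]
    split_ifs with h3
    · rw [h3, hu, neg_zero]
    · rfl
  obtain ⟨e₀, he₀⟩ : ∃ e₀ : Fin n → F, e₀ = Pi.single i₀ 1 := ⟨_, rfl⟩
  have hDe : D e₀ = - e₀ := by
    ext i
    rw [hD]
    split_ifs with h3
    · rfl
    · rw [he₀]
      simp [Pi.single_apply, h3]
  have he0 : e₀ i₀ = 1 := by rw [he₀]; simp
  have he0ne : e₀ ≠ 0 := fun h0 => by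
    rw [h0] at he0
    exact one_ne_zero he0.symm
  have hdec : ∀ v : Fin n → F, (v - v i₀ • e₀) i₀ = 0 := by
    intro v
    simp [he0]
  have hsplit : ∀ u v : Fin n → F, g u v = v i₀ * g u e₀ + g u (v - v i₀ • e₀) := by
    intro u v
    have h3 : v = v i₀ • e₀ + (v - v i₀ • e₀) := by abel
    conv_lhs => rw [h3]
    rw [hg.add_right, hg.smul_right]
  have hμ : μ ^ 2 = 1 := by
    obtain ⟨b, hb⟩ := hg.nd e₀ he0ne
    have hDD : ∀ u, D (D u) = u := by
      intro u
      ext i
      rw [hD, hD]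
      split_ifs <;> simp
    have h3 := h (D e₀) (D b)
    rw [hDD, hDD, h, ← mul_assoc] at h3
    have h4 : (μ * μ - 1) * g e₀ b = 0 := by linear_combination -h3
    have h5 := (mul_eq_zero.1 h4).resolve_right hb
    linear_combination h5
  have hμ' : (μ - 1) * (μ + 1) = 0 := by linear_combination hμ
  rcases mul_eq_zero.1 hμ' with h3 | h3
  · have hμ1 : μ = 1 := sub_eq_zero.1 h3
    subst hμ1
    have h4 : ∀ v : Fin n → F, v i₀ = 0 → g e₀ v = 0 := by
      intro v hv
      have h5 := h e₀ v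
      rw [hDe, hfix v hv] at h5
      have h6 : g (-e₀) v = - g e₀ v := by
        have : (-e₀) = (-1 : F) • e₀ := by simp
        rw [this, hg.smul_left]
        ring
      rw [h6, one_mul] at h5
      have h7 : 2 * g e₀ v = 0 := by linear_combination -h5
      exact (mul_eq_zero.1 h7).resolve_left h2
    obtain ⟨b, hb⟩ := hg.nd e₀ he0ne
    apply hb
    rw [hsplit, hg.alt, mul_zero, zero_add]
    exact h4 _ (hdec b)
  · have hμ1 : μ = -1 := by linear_combination h3
    subst hμ1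
    have h4 : ∀ u v : Fin n → F, u i₀ = 0 → v i₀ = 0 → g u v = 0 := by
      intro u v hu hv
      have h5 := h u v
      rw [hfix u hu, hfix v hv] at h5
      have h7 : 2 * g u v = 0 := by linear_combination h5
      exact (mul_eq_zero.1 h7).resolve_left h2
    obtain ⟨e₁, he₁⟩ : ∃ e : Fin n → F, e = Pi.single i₁ 1 := ⟨_, rfl⟩
    obtain ⟨e₂, he₂⟩ : ∃ e : Fin n → F, e = Pi.single i₂ 1 := ⟨_, rfl⟩
    have he1 : e₁ i₀ = 0 := by rw [he₁]; simp [Pi.single_apply, h01.symm]
    have he2 : e₂ i₀ = 0 := by rw [he₂]; simp [Pi.single_apply, h02.symm]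
    have hfin : ∀ t : Fin n → F, t ≠ 0 → t i₀ = 0 → g t e₀ = 0 → False := by
      intro t ht0 ht1 ht2
      obtain ⟨b, hb⟩ := hg.nd t ht0
      apply hb
      rw [hsplit, ht2, mul_zero, zero_add]
      exact h4 _ _ ht1 (hdec b)
    by_cases ha : g e₁ e₀ = 0
    · refine hfin e₁ ?_ he1 ha
      intro h0
      have : e₁ i₁ = 1 := by rw [he₁]; simp
      rw [h0] at this
      exact one_ne_zero this.symm
    · refine hfin (g e₂ e₀ • e₁ - g e₁ e₀ • e₂) ?_ ?_ ?_
      · intro h0
        have h5 := congrFun h0 i₂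
        have h6 : e₁ i₂ = 0 := by rw [he₁]; simp [Pi.single_apply, h12.symm]
        have h7 : e₂ i₂ = 1 := by rw [he₂]; simp
        simp [h6, h7] at h5
        exact ha h5
      · simp [he1, he2]
      · rw [hg.sub_left, hg.smul_left, hg.smul_left]
        ring

end Parity

end Cfsg.Agent.Lib.Geo
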