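import Mathlib
import Cfsg.Agent.Lib.Geo.ElusInvol
import Cfsg.Agent.Lib.Geo.Transv
import Cfsg.Agent.Lib.Classical.OrderAlt

set_option autoImplicit false

/-! Primes dividing the index of the symplectic similitude group, and elements preserving no form. -/

namespace Cfsg.Agent.Lib.Geo

open Polynomial Module

universe u v

section Arith

theorem prod_range_two_mul (g : ℕ → ℕ) (m : ℕ) :
    ∏ i ∈ Finset.range (2 * m), g i = (∏ i ∈ Finset.range m, g (2 * i + 1)) * ∏ i ∈ Finset.range m, g (2 * i) := by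
  induction m with
  | zero => simp
  | succ m ih =>
    rw [show 2 * (m + 1) = 2 * m + 1 + 1 by ring, Finset.prod_range_succ, Finset.prod_range_succ, ih,
      Finset.prod_range_succ, Finset.prod_range_succ]
    ring

theorem prod_fin_split (q m : ℕ) :
    ∏ i : Fin (2 * m), (q ^ (2 * m - (i : ℕ)) - 1) =
      (∏ i ∈ Finset.range m, (q ^ (2 * (i + 1)) - 1)) * ∏ i ∈ Finset.range m, (q ^ (2 * i + 1) - 1) := by
  rw [Fin.prod_univ_eq_prod_range (fun i => q ^ (2 * m - i) - 1) (2 * m)]
  have h1 : ∏ i ∈ Finset.range (2 * m), (q ^ (2 * m - i) - 1) = ∏ j ∈ Finset.range (2 * m), (q ^ (2 * m - 1 - j + 1) - 1) := by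
    apply Finset.prod_congr rfl
    intro j hj
    rw [Finset.mem_range] at hj
    congr 2
    omega
  rw [h1, Finset.prod_range_reflect (fun j => q ^ (j + 1) - 1) (2 * m), prod_range_two_mul]
  rfl

end Arith

section Index

variable {F : Type v} [Field F] [Fintype F]

/-- A prime dividing the index of the symplectic similitudes of determinant one. -/
theorem index_prime_cases {p q : ℕ} [Fact p.Prime] [CharP F p] (hq : Fintype.card F = q) {m n : ℕ} (hn : n = 2 * m)
    (hm : 1 ≤ m) {f : (Fin n → F) → (Fin n → F) → F} (hf : Cfsg.Geo.IsSymplecticForm f) {r : ℕ} (hrp : r.Prime)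
    (hr : r ∣ ((Cfsg.Geo.similarityGroup f).comap (Matrix.SpecialLinearGroup.toGL : Matrix.SpecialLinearGroup (Fin n) F →* GL (Fin n) F)).index) :
    r = p ∨ ∃ i < m, r ∣ q ^ (2 * i + 1) - 1 := by
  classical
  subst hn
  have hA := aform_of_symp hf
  have hq2 : 2 ≤ q := by rw [← hq]; exact Fintype.one_lt_card
  obtain ⟨M, hM⟩ : ∃ M, M = Cfsg.Geo.similarityGroup f := ⟨_, rfl⟩
  obtain ⟨L, hL⟩ : ∃ L : Subgroup (GL (Fin (2 * m)) F), L = (Matrix.SpecialLinearGroup.toGL : Matrix.SpecialLinearGroup (Fin (2 * m)) F →* GL (Fin (2 * m)) F).range := ⟨_, rfl⟩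
  rw [← hM, Subgroup.index_comap, ← hL] at hr
  have hLdet : L = (Matrix.GeneralLinearGroup.det : GL (Fin (2 * m)) F →* Fˣ).ker := by
    rw [hL]
    ext g
    constructor
    · rintro ⟨x, rfl⟩
      rw [MonoidHom.mem_ker]
      ext
      exact x.2
    · intro hg
      rw [MonoidHom.mem_ker] at hg
      exact ⟨⟨(g : Matrix (Fin (2 * m)) (Fin (2 * m)) F), congrArg Units.val hg⟩, by ext; rfl⟩
  rw [← Subgroup.inf_relIndex_right] at hr
  have h1 := Subgroup.relIndex_mul_index (inf_le_right : M ⊓ L ≤ L)
  have h2 := Subgroup.relIndex_mul_index (inf_le_left : M ⊓ L ≤ M)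
  have h3 : r ∣ (M ⊓ L).index := by
    rw [← h1]
    exact dvd_mul_of_dvd_left hr _
  rw [← h2] at h3
  rcases (Nat.Prime.dvd_mul hrp).1 h3 with h4 | h4
  · rw [Subgroup.inf_relIndex_left] at h4
    right
    refine ⟨0, by omega, ?_⟩
    haveI : L.Normal := by rw [hLdet]; infer_instance
    have h5 := Subgroup.relIndex_dvd_index_of_normal L M
    have h6 : L.index ∣ q - 1 := by
      rw [hLdet, Subgroup.index_ker]
      have h7 := Subgroup.card_subgroup_dvd_card (Matrix.GeneralLinearGroup.det : GL (Fin (2 * m)) F →* Fˣ).range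
      rwa [Nat.card_eq_fintype_card (α := Fˣ), Fintype.card_units, hq] at h7
    simpa using h4.trans (h5.trans h6)
  · -- the isometry group
    let B := hA.toBilin
    have hcard := Cfsg.Agent.Lib.Classical.Abs.card_isoG_alt q hq m (Fin (2 * m) → F) B hA.toBilin_nondeg hA.toBilin_alt (by simp)
    obtain ⟨S, hS⟩ : ∃ S : Subgroup (GL (Fin (2 * m)) F), S = (Cfsg.Agent.Lib.Classical.Abs.isoG (fun u v : Fin (2 * m) → F => B u v)).comap (act (ι := Fin (2 * m)) (F := F)).toMonoidHom := ⟨_, rfl⟩
    have hSM : S ≤ M := by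
      intro g hg
      rw [hS] at hg
      rw [hM]
      refine ⟨1, fun u v => ?_⟩
      have h5 := hg u v
      rw [Units.val_one, one_mul]
      exact h5
    have h5 : r ∣ S.index := h4.trans (Subgroup.index_dvd_of_le hSM)
    have hcS : Nat.card S = Nat.card (Cfsg.Agent.Lib.Classical.Abs.isoG (fun u v : Fin (2 * m) → F => B u v)) := by
      rw [hS]
      apply Nat.card_congr
      exact (act (ι := Fin (2 * m)) (F := F)).toEquiv.subtypeEquiv (fun a => Iff.rfl)
    have hL1 := Subgroup.card_mul_index S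
    rw [hcS, hcard, Matrix.card_GL_field (𝔽 := F) (n := 2 * m), hq, prod_pow_sub q (2 * m) (2 * m) hq2 le_rfl, prod_fin_split] at hL1
    obtain ⟨E, hE⟩ : ∃ E, E = ∏ i ∈ Finset.range m, (q ^ (2 * (i + 1)) - 1) := ⟨_, rfl⟩
    obtain ⟨O, hO⟩ : ∃ O, O = ∏ i ∈ Finset.range m, (q ^ (2 * i + 1) - 1) := ⟨_, rfl⟩
    obtain ⟨Q, hQ⟩ : ∃ Q, Q = ∏ i : Fin (2 * m), q ^ (i : ℕ) := ⟨_, rfl⟩
    rw [← hE, ← hO, ← hQ] at hL1
    have hE0 : 0 < E := by
      rw [hE]
      refine Finset.prod_pos (fun i _ => ?_)
      have : q ^ 1 ≤ q ^ (2 * (i + 1)) := Nat.pow_le_pow_right (by omega) (by omega)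
      have h6 : 2 ≤ q ^ 1 := by simpa using hq2
      omega
    have h6 : q ^ m ^ 2 * S.index = Q * O := by
      apply Nat.eq_of_mul_eq_mul_right hE0
      rw [mul_assoc Q, mul_comm O E, ← hL1]
      ring
    have h7 : r ∣ Q * O := by
      rw [← h6]
      exact dvd_mul_of_dvd_right h5 _
    rcases (Nat.Prime.dvd_mul hrp).1 h7 with h8 | h8
    · left
      rw [hQ] at h8
      have h9 : r ∣ q := by
        obtain ⟨i, _, hi⟩ := (Prime.dvd_finset_prod_iff hrp.prime _).1 h8
        exact hrp.dvd_of_dvd_pow hi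
      obtain ⟨k, hkp, hk⟩ := FiniteField.card F p
      rw [hq] at hk
      rw [hk] at h9
      exact (Nat.prime_dvd_prime_iff_eq hrp (Fact.out : p.Prime)).1 (hrp.dvd_of_dvd_pow h9)
    · right
      rw [hO] at h8
      obtain ⟨i, hi, hi2⟩ := (Prime.dvd_finset_prod_iff hrp.prime _).1 h8
      exact ⟨i, Finset.mem_range.1 hi, hi2⟩

end Index

section FormFacts

variable {F : Type v} [Field F] {V : Type u} [AddCommGroup V] [Module F V]

/-- Iterating the similitude relation. -/
theorem form_pow {f : V → V → F} (y : Module.End F V) {c : F} (h : ∀ u v, f (y u) (y v) = c * f u v) (k : ℕ) (u v : V) :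
    f ((y ^ k) u) ((y ^ k) v) = c ^ k * f u v := by
  induction k with
  | zero => simp
  | succ k ih =>
    rw [pow_succ', Module.End.mul_apply, Module.End.mul_apply, h, ih, pow_succ]
    ring

/-- The multiplier of a map of finite order. -/
theorem mult_pow_eq_one [Nontrivial V] {f : V → V → F} (hf : AForm f) (y : Module.End F V) {c : F}
    (h : ∀ u v, f (y u) (y v) = c * f u v) {r : ℕ} (hy : y ^ r = 1) : c ^ r = 1 := by
  obtain ⟨a, ha⟩ := exists_ne (0 : V)
  obtain ⟨b, hb⟩ := hf.nd a ha
  have h1 := form_pow y h r a b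
  rw [hy] at h1
  simp only [Module.End.one_apply] at h1
  have h2 : (c ^ r - 1) * f a b = 0 := by linear_combination -h1
  have h3 := (mul_eq_zero.1 h2).resolve_right hb
  exact sub_eq_zero.1 h3

/-- An invariant complement of the fixed space of an isometry carries a nondegenerate form. -/
theorem even_compl_fixed [FiniteDimensional F V] {f : V → V → F} (hf : AForm f) (y : Module.End F V)
    (h : ∀ u v, f (y u) (y v) = f u v) {W : Submodule F V} (hW : ∀ v ∈ W, y v ∈ W)
    (hc : IsCompl (LinearMap.ker (y - 1)) W) : Even (finrank F W) := by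
  have hmem : ∀ v, v ∈ LinearMap.ker (y - 1) ↔ y v = v := by
    intro v
    simp only [LinearMap.mem_ker, LinearMap.sub_apply, Module.End.one_apply, sub_eq_zero]
  -- `y - 1` is bijective on `W`
  have hinv : ∀ v ∈ W, (y - 1) v ∈ W := by
    intro v hv
    simp only [LinearMap.sub_apply, Module.End.one_apply]
    exact W.sub_mem (hW v hv) hv
  have hinj : Function.Injective ((y - 1).restrict hinv) := by
    rw [← LinearMap.ker_eq_bot, LinearMap.ker_eq_bot']
    rintro ⟨v, hv⟩ h0
    have h1 : (y - 1) v = 0 := congrArg Subtype.val h0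
    have h2 : v ∈ LinearMap.ker (y - 1) := h1
    have h3 : v = 0 := (Submodule.disjoint_def.1 hc.disjoint) v h2 hv
    subst h3
    rfl
  have hsurj : Function.Surjective ((y - 1).restrict hinv) := LinearMap.surjective_of_injective hinj
  have hperp : ∀ u ∈ LinearMap.ker (y - 1), ∀ v ∈ W, f u v = 0 := by
    intro u hu v hv
    obtain ⟨⟨w, hw⟩, hw2⟩ := hsurj ⟨v, hv⟩
    have h1 : (y - 1) w = v := congrArg Subtype.val hw2
    rw [← h1]
    simp only [LinearMap.sub_apply, Module.End.one_apply]
    rw [hf.sub_right, ← h u w, (hmem u).1 hu, sub_self]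
  have hA : AForm (fun a b : W => f a b) :=
    { add_left := fun a b d => hf.add_left _ _ _
      smul_left := fun c a b => hf.smul_left _ _ _
      add_right := fun a b d => hf.add_right _ _ _
      smul_right := fun c a b => hf.smul_right _ _ _
      alt := fun a => hf.alt _
      nd := by
        rintro ⟨a, ha⟩ ha0
        have ha1 : a ≠ 0 := fun h0 => ha0 (by subst h0; rfl)
        obtain ⟨b, hb⟩ := hf.nd a ha1
        have htop : b ∈ LinearMap.ker (y - 1) ⊔ W := by rw [hc.sup_eq_top]; trivial
        obtain ⟨b₁, hb₁, b₂, hb₂, rfl⟩ := Submodule.mem_sup.1 htop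
        refine ⟨⟨b₂, hb₂⟩, ?_⟩
        show f a b₂ ≠ 0
        intro h0
        apply hb
        rw [hf.add_right, h0, add_zero, hf.skew, hperp b₁ hb₁ a ha, neg_zero] }
  exact aform_even hA

/-- A form on a space, and a nilpotent map of cube zero: `N²` is self-adjoint. -/
theorem form_nil_adj {f : V → V → F} (hf : AForm f) (N : Module.End F V) (hN : N ^ 3 = 0)
    (h : ∀ u v, f ((1 + N) u) ((1 + N) v) = f u v) (u v : V) : f ((N ^ 2) u) v = f u ((N ^ 2) v) := by
  have hstar : ∀ u v, f (N u) v + f u (N v) + f (N u) (N v) = 0 := by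
    intro u v
    have h1 := h u v
    simp only [LinearMap.add_apply, Module.End.one_apply, hf.add_left, hf.add_right] at h1
    linear_combination h1
  have hN3 : ∀ w, N (N (N w)) = 0 := fun w => by
    have := LinearMap.congr_fun hN w
    simpa [pow_succ] using this
  have h1 := hstar (N u) v
  have h2 := hstar u (N v)
  have h3 := hstar (N (N u)) v
  have h4 := hstar u (N (N v))
  simp only [hN3, hf.zero_left, hf.zero_right, zero_add, add_zero] at h3 h4
  simp only [pow_two, Module.End.mul_apply]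
  linear_combination h1 - h2 - h3 + h4

/-- The Jordan type `(3, 1, …, 1)` is not symplectic in odd characteristic. -/
theorem no_form_J3 [FiniteDimensional F V] (h2 : (2 : F) ≠ 0) {f : V → V → F} (hf : AForm f) (N : Module.End F V) (hN : N ^ 3 = 0)
    (hrank : finrank F (LinearMap.range (N ^ 2)) = 1)
    (h : ∀ u v, f ((1 + N) u) ((1 + N) v) = f u v) : False := by
  have hadj := form_nil_adj hf N hN h
  have hne : LinearMap.range (N ^ 2) ≠ ⊥ := by
    intro h0
    rw [h0, finrank_bot] at hrank
    omega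
  obtain ⟨a, ha⟩ : ∃ a, (N ^ 2) a ≠ 0 := by
    by_contra hcon
    push Not at hcon
    apply hne
    rw [LinearMap.range_eq_bot]
    exact LinearMap.ext hcon
  have halt : ∀ u, f ((N ^ 2) u) u = 0 := by
    intro u
    have h3 := hadj u u
    rw [hf.skew u] at h3
    have h4 : 2 * f ((N ^ 2) u) u = 0 := by linear_combination h3
    exact (mul_eq_zero.1 h4).resolve_left h2
  obtain ⟨b, hb⟩ := hf.nd _ ha
  have h5 : ∃ t : F, (N ^ 2) b = t • (N ^ 2) a := by
    have hx : (⟨(N ^ 2) a, a, rfl⟩ : LinearMap.range (N ^ 2)) ≠ 0 := fun h0 => ha (congrArg Subtype.val h0)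
    obtain ⟨t, ht⟩ := (finrank_eq_one_iff_of_nonzero' _ hx).1 hrank ⟨(N ^ 2) b, b, rfl⟩
    exact ⟨t, (congrArg Subtype.val ht).symm⟩
  obtain ⟨t, ht⟩ := h5
  have h6 := hadj b a
  rw [ht, hf.smul_left, halt a, mul_zero, hf.skew] at h6
  apply hb
  linear_combination h6

end FormFacts

section Diagonal

variable {F : Type v} [Field F] {n : ℕ}

/-- For a diagonal map preserving a form up to a scalar, every index has a partner. -/
theorem diag_partner {g : (Fin n → F) → (Fin n → F) → F} (hg : AForm g) (d : Fin n → F) (c : F)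
    (h : ∀ u v, g (fun i => d i * u i) (fun i => d i * v i) = c * g u v) (i j : Fin n)
    (hij : g (Pi.single i 1) (Pi.single j 1) ≠ 0) : d i * d j = c := by
  classical
  have h1 := h (Pi.single i 1) (Pi.single j 1)
  have hs : ∀ k : Fin n, (fun l => d l * (Pi.single k (1 : F) : Fin n → F) l) = d k • (Pi.single k (1 : F) : Fin n → F) := by
    intro k
    ext l
    by_cases hl : l = k
    · subst hl
      simp
    · simp [Pi.single_apply, hl]
  rw [hs, hs, hg.smul_left, hg.smul_right] at h1
  have h2 : (d i * d j - c) * g (Pi.single i 1) (Pi.single j 1) = 0 := by linear_combination h1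
  exact sub_eq_zero.1 ((mul_eq_zero.1 h2).resolve_right hij)

/-- Expanding in the standard basis: some standard vector pairs nontrivially. -/
theorem exists_partner {g : (Fin n → F) → (Fin n → F) → F} (hg : AForm g) (i : Fin n) :
    ∃ j, j ≠ i ∧ g (Pi.single i 1) (Pi.single j 1) ≠ 0 := by
  classical
  have hne : (Pi.single i (1 : F) : Fin n → F) ≠ 0 := by
    intro h0
    have := congrFun h0 i
    simp at this
  obtain ⟨b, hb⟩ := hg.nd _ hne
  by_contra hcon
  push Not at hcon
  apply hb
  have hb2 : b = ∑ j, b j • (Pi.single j (1 : F) : Fin n → F) := by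
    ext l
    simp [Finset.sum_apply, Pi.single_apply]
  rw [hb2]
  let Φ : (Fin n → F) →ₗ[F] F := hg.toBilin (Pi.single i 1)
  have h3 : ∀ w, Φ w = g (Pi.single i 1) w := fun w => rfl
  rw [← h3, map_sum]
  apply Finset.sum_eq_zero
  intro j _
  rw [map_smul, h3]
  by_cases hj : j = i
  · subst hj
    rw [hg.alt, smul_zero]
  · rw [hcon j hj, smul_zero]

/-- A totally isotropic coordinate subspace has at most half the dimension. -/
theorem ti_card {g : (Fin n → F) → (Fin n → F) → F} (hg : AForm g) (s : Finset (Fin n))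
    (h : ∀ i ∈ s, ∀ j ∈ s, g (Pi.single i 1) (Pi.single j 1) = 0) : 2 * s.card ≤ n := by
  classical
  let Φ : (s → F) →ₗ[F] (({j // j ∉ s}) → F) :=
    { toFun := fun a j => ∑ i : s, a i * g (Pi.single (i : Fin n) 1) (Pi.single (j : Fin n) 1)
      map_add' := by
        intro a b
        ext j
        simp only [Pi.add_apply, add_mul, Finset.sum_add_distrib]
      map_smul' := by
        intro t a
        ext j
        simp only [Pi.smul_apply, smul_eq_mul, RingHom.id_apply, Finset.mul_sum, mul_assoc] }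
  have hinj : Function.Injective Φ := by
    rw [← LinearMap.ker_eq_bot, LinearMap.ker_eq_bot']
    intro a ha
    obtain ⟨w, hw⟩ : ∃ w : Fin n → F, w = ∑ i : s, a i • (Pi.single (i : Fin n) (1 : F) : Fin n → F) := ⟨_, rfl⟩
    have hexp : ∀ j, g w (Pi.single j 1) = ∑ i : s, a i * g (Pi.single (i : Fin n) 1) (Pi.single j 1) := by
      intro j
      let Φ' : (Fin n → F) →ₗ[F] F := hg.toBilin.flip (Pi.single j 1)
      have h3 : ∀ x, Φ' x = g x (Pi.single j 1) := fun x => rfl
      rw [hw, ← h3, map_sum]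
      apply Finset.sum_congr rfl
      intro i _
      rw [map_smul, h3, smul_eq_mul]
    have hw0 : w = 0 := by
      by_contra hne
      obtain ⟨b, hb⟩ := hg.nd w hne
      apply hb
      have hb2 : b = ∑ j, b j • (Pi.single j (1 : F) : Fin n → F) := by
        ext l
        simp [Finset.sum_apply, Pi.single_apply]
      rw [hb2]
      let Φ'' : (Fin n → F) →ₗ[F] F := hg.toBilin w
      have h3 : ∀ x, Φ'' x = g w x := fun x => rfl
      rw [← h3, map_sum]
      apply Finset.sum_eq_zero
      intro j _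
      rw [map_smul, h3, hexp]
      by_cases hj : j ∈ s
      · rw [Finset.sum_eq_zero, smul_zero]
        intro i _
        rw [h i i.2 j hj, mul_zero]
      · have := congrFun ha ⟨j, hj⟩
        rw [show (Φ a ⟨j, hj⟩) = ∑ i : s, a i * g (Pi.single (i : Fin n) 1) (Pi.single j 1) from rfl] at this
        rw [this]
        simp
    ext i
    have h5 := congrFun hw0 i
    rw [hw] at h5
    simp only [Finset.sum_apply, Pi.smul_apply, Pi.single_apply, smul_eq_mul, Pi.zero_apply] at h5
    have h6 : ∑ k : s, a k * (if (i : Fin n) = (k : Fin n) then (1 : F) else 0) = a i := by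
      rw [Finset.sum_eq_single i]
      · simp
      · intro b _ hb
        have : (i : Fin n) ≠ b := fun h0 => hb (Subtype.ext h0.symm)
        simp [this]
      · simp
    rw [h6] at h5
    exact h5
  have h1 := LinearMap.finrank_le_finrank_of_injective hinj
  rw [Module.finrank_fintype_fun_eq_card, Module.finrank_fintype_fun_eq_card] at h1
  simp only [Fintype.card_coe] at h1
  have h2 : Fintype.card {j // j ∉ s} = n - s.card := by
    rw [Fintype.card_subtype_compl]
    simp
  have h3 : s.card ≤ n := by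
    have := Finset.card_le_univ s
    simpa using this
  omega

end Diagonal

section Algebra

variable {F : Type v} [Field F] {n : ℕ}

/-- The element `diag(z, z, z⁻², 1, …, 1)` for `z` of order at least five. -/
theorem no_form_diag_ge5 {g : (Fin n → F) → (Fin n → F) → F} (hg : AForm g) (d : Fin n → F) (c : F)
    (h : ∀ u v, g (fun i => d i * u i) (fun i => d i * v i) = c * g u v) {z t : F} (hzt : z * t = 1)
    (h1 : z ≠ 1) (h2 : z ^ 2 ≠ 1) (h3 : z ^ 3 ≠ 1) (h4 : z ^ 4 ≠ 1) (i₀ i₂ i₃ : Fin n)
    (hd0 : d i₀ = z) (hd2 : d i₂ = t ^ 2) (hd3 : d i₃ = 1) (hne : ∀ j, j = i₂ ∨ d j = z ∨ d j = 1) : False := by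
  have hval : ∀ i : Fin n, ∃ j, (j ≠ i) ∧ d i * d j = c := by
    intro i
    obtain ⟨j, hj, hj2⟩ := exists_partner hg i
    exact ⟨j, hj, diag_partner hg d c h i j hj2⟩
  have ht1 : t ≠ 1 := fun h0 => h1 (by rw [h0, mul_one] at hzt; exact hzt)
  -- row of `i₂`
  have hc2 : c = t ∨ c = t ^ 2 := by
    obtain ⟨j, hj, hj2⟩ := hval i₂
    rcases hne j with h5 | h5 | h5
    · exact absurd h5 hj
    · left
      rw [hd2, h5] at hj2
      rw [← hj2]
      linear_combination t * hzt
    · right
      rw [hd2, h5, mul_one] at hj2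
      exact hj2.symm
  have hval3 : c = z ∨ c = t ^ 2 ∨ c = 1 := by
    obtain ⟨j, _, hj2⟩ := hval i₃
    rw [hd3, one_mul] at hj2
    rcases hne j with h5 | h5 | h5
    · right; left
      rw [h5, hd2] at hj2
      exact hj2.symm
    · left
      rw [← hj2, h5]
    · right; right
      rw [← hj2, h5]
  have hval0 : c = z ^ 2 ∨ c = t ∨ c = z := by
    obtain ⟨j, _, hj2⟩ := hval i₀
    rw [hd0] at hj2
    rcases hne j with h5 | h5 | h5
    · right; left
      rw [h5, hd2] at hj2
      rw [← hj2]
      linear_combination t * hzt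
    · left
      rw [← hj2, h5]
      ring
    · right; right
      rw [← hj2, h5, mul_one]
  rcases hc2 with hc | hc
  · rcases hval3 with h5 | h5 | h5
    · apply h2
      have : t = z := hc.symm.trans h5
      rw [this] at hzt
      linear_combination hzt
    · apply ht1
      have h6 : t * (t - 1) = 0 := by
        have : t = t ^ 2 := hc.symm.trans h5
        linear_combination -this
      have ht0 : t ≠ 0 := fun h0 => by
        rw [h0, mul_zero] at hzt
        exact zero_ne_one hzt
      exact sub_eq_zero.1 ((mul_eq_zero.1 h6).resolve_left ht0)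
    · exact ht1 (hc.symm.trans h5)
  · rcases hval0 with h5 | h5 | h5
    · apply h4
      have h6 : t ^ 2 = z ^ 2 := hc.symm.trans h5
      have h7 : z ^ 2 * t ^ 2 = 1 := by
        have : z ^ 2 * t ^ 2 = (z * t) ^ 2 := by ring
        rw [this, hzt, one_pow]
      rw [h6] at h7
      linear_combination h7
    · apply ht1
      have h6 : t * (t - 1) = 0 := by
        have : t ^ 2 = t := hc.symm.trans h5
        linear_combination this
      have ht0 : t ≠ 0 := fun h0 => by
        rw [h0, mul_zero] at hzt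
        exact zero_ne_one hzt
      exact sub_eq_zero.1 ((mul_eq_zero.1 h6).resolve_left ht0)
    · apply h3
      have h6 : t ^ 2 = z := hc.symm.trans h5
      have h7 : z ^ 2 * t ^ 2 = 1 := by
        have : z ^ 2 * t ^ 2 = (z * t) ^ 2 := by ring
        rw [this, hzt, one_pow]
      rw [h6] at h7
      linear_combination h7

/-- The element `diag(z, z, z, 1, …, 1)`. -/
theorem no_form_diag_three {g : (Fin n → F) → (Fin n → F) → F} (hg : AForm g) (d : Fin n → F) (c : F)
    (h : ∀ u v, g (fun i => d i * u i) (fun i => d i * v i) = c * g u v) {z : F} (hz0 : z ≠ 0)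
    (h1 : z ≠ 1) (h2 : z ^ 2 ≠ 1) (s : Finset (Fin n)) (hs : s.card = 3) (hsn : 4 ≤ n)
    (hd : ∀ i, d i = if i ∈ s then z else 1) (hn6 : n ≠ 6) : False := by
  classical
  have hzz : z ^ 2 ≠ z := by
    intro h0
    apply h1
    have h3 : z * (z - 1) = 0 := by linear_combination h0
    exact sub_eq_zero.1 ((mul_eq_zero.1 h3).resolve_left hz0)
  obtain ⟨i₀, hi₀⟩ : ∃ i, i ∈ s := Finset.card_pos.1 (by omega)
  obtain ⟨k, hk⟩ : ∃ k, k ∉ s := by
    by_contra hcon
    push Not at hcon
    have h6 : s = Finset.univ := Finset.eq_univ_iff_forall.2 hcon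
    rw [h6, Finset.card_univ, Fintype.card_fin] at hs
    omega
  have hk1 : c = z ∨ c = 1 := by
    obtain ⟨j, _, hj2⟩ := exists_partner hg k
    have h5 := diag_partner hg d c h k j hj2
    rw [hd k, if_neg hk, one_mul, hd j] at h5
    split_ifs at h5
    · left; exact h5.symm
    · right; exact h5.symm
  have hk2 : c = z ^ 2 ∨ c = z := by
    obtain ⟨j, _, hj2⟩ := exists_partner hg i₀
    have h5 := diag_partner hg d c h i₀ j hj2
    rw [hd i₀, if_pos hi₀, hd j] at h5
    split_ifs at h5
    · left; rw [← h5]; ring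
    · right; rw [← h5, mul_one]
  have hc : c = z := by
    rcases hk1 with h3 | h3
    · exact h3
    · rcases hk2 with h4 | h4
      · exact absurd (h4.symm.trans h3) h2
      · exact absurd (h4.symm.trans h3) h1
  have h5 := ti_card hg s (fun i hi j hj => by
    by_contra h0
    have h6 := diag_partner hg d c h i j h0
    rw [hd i, hd j, if_pos hi, if_pos hj, hc] at h6
    exact hzz (by rw [pow_two]; exact h6))
  have h6 := ti_card hg sᶜ (fun i hi j hj => by
    by_contra h0
    have h7 := diag_partner hg d c h i j h0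
    rw [Finset.mem_compl] at hi hj
    rw [hd i, hd j, if_neg hi, if_neg hj, hc, mul_one] at h7
    exact h1 h7.symm)
  rw [Finset.card_compl, Fintype.card_fin, hs] at h6
  rw [hs] at h5
  omega

/-- Lifting a map to the special linear group. -/
theorem sl_lift {r : ℕ} (y : Module.End F (Fin n → F)) (hdet : LinearMap.det y = 1) {c : F}
    (hy : y ^ r = c • (1 : Module.End F (Fin n → F))) (hns : ∀ z : F, y ≠ z • (1 : Module.End F (Fin n → F))) :
    ∃ x : Matrix.SpecialLinearGroup (Fin n) F, Matrix.toLin' (x : Matrix (Fin n) (Fin n) F) = y ∧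
      (∃ z : F, ((x ^ r : Matrix.SpecialLinearGroup (Fin n) F) : Matrix (Fin n) (Fin n) F) = z • (1 : Matrix (Fin n) (Fin n) F)) ∧
      (∀ z : F, (x : Matrix (Fin n) (Fin n) F) ≠ z • (1 : Matrix (Fin n) (Fin n) F)) := by
  obtain ⟨x, hx⟩ := sl_exists_of_det y hdet
  refine ⟨x, hx, ⟨c, ?_⟩, fun z hz => hns z ?_⟩
  · apply Matrix.toLin'.injective
    rw [sl_lin_pow, hx, hy, lin_smul_one]
  · rw [← hx, hz, lin_smul_one]

/-- What an element conjugate into the similarity group gives. -/
theorem form_of_conj' {f : (Fin n → F) → (Fin n → F) → F} (hf : Cfsg.Geo.IsSymplecticForm f)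
    (x P : Matrix.SpecialLinearGroup (Fin n) F) (y : Module.End F (Fin n → F)) (hx : Matrix.toLin' (x : Matrix (Fin n) (Fin n) F) = y)
    (h : P⁻¹ * x * P ∈ ((Cfsg.Geo.similarityGroup f).comap
      (Matrix.SpecialLinearGroup.toGL : Matrix.SpecialLinearGroup (Fin n) F →* GL (Fin n) F))) :
    ∃ (c : F) (g : (Fin n → F) → (Fin n → F) → F), c ≠ 0 ∧ AForm g ∧ ∀ u v, g (y u) (y v) = c * g u v := by
  obtain ⟨c, hc0, g, hg, h1⟩ := form_of_conj hf x P h
  rw [hx] at h1
  exact ⟨c, g, hc0, hg, h1⟩

end Algebra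

end Cfsg.Agent.Lib.Geo
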