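import Mathlib
import Cfsg.Agent.Lib.Geo.ElusGSp

set_option autoImplicit false

/-! Subfield subgroups of the special linear group: integral normal forms and conjugation. -/

namespace Cfsg.Agent.Lib.Geo

open Polynomial Module

universe u v

section Group

variable {G : Type*} [Group G] [Finite G]

/-- For a normal subgroup `N`, the index `[N : N ∩ M]` divides `[G : M]`. -/
theorem relIndex_dvd_index_normal (M N : Subgroup G) [N.Normal] : M.relIndex N ∣ M.index := by
  have h1 := Subgroup.relIndex_mul_index (inf_le_left : M ⊓ N ≤ M)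
  have h2 := Subgroup.relIndex_mul_index (inf_le_right : M ⊓ N ≤ N)
  have h3 := Subgroup.relIndex_mul_index (le_sup_right : N ≤ M ⊔ N)
  rw [Subgroup.relIndex_sup_right] at h3
  rw [Subgroup.inf_relIndex_left] at h1
  rw [Subgroup.inf_relIndex_right] at h2
  have h0 : N.relIndex M ≠ 0 := Subgroup.index_ne_zero_of_finite
  have h4 : N.relIndex M * M.index = N.relIndex M * (M.relIndex N * (M ⊔ N).index) := by
    rw [h1, ← h2, ← h3]
    ring
  exact ⟨_, Nat.eq_of_mul_eq_mul_left (Nat.pos_of_ne_zero h0) h4⟩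

end Group

section Mem

variable {F : Type v} [Field F] {n : ℕ} {F₀ : Subfield F}

/-- Elements of the subfield group are scalar multiples of matrices over the subfield. -/
theorem entries_of_mem_subfield {g : GL (Fin n) F} (hg : g ∈ Cfsg.Geo.subfieldSubgroup F₀ 1) :
    ∃ (c : F) (a : Matrix (Fin n) (Fin n) F₀), c ≠ 0 ∧ ∀ i j, (g : Matrix (Fin n) (Fin n) F) i j = c * (a i j : F) := by
  obtain ⟨A, hA, rfl⟩ := hg
  obtain ⟨B, ⟨C, rfl⟩, S, hS, rfl⟩ := Subgroup.mem_sup_of_normal_right.1 hA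
  rw [Cfsg.Geo.mem_scalars_iff] at hS
  obtain ⟨c, hc⟩ := hS
  refine ⟨c, (C : Matrix (Fin n) (Fin n) F₀), c.ne_zero, fun i j => ?_⟩
  have e : (MulAut.conj (1 : GL (Fin n) F)).toMonoidHom (Matrix.GeneralLinearGroup.map (F₀.subtype : F₀ →+* F) C * S)
      = Matrix.GeneralLinearGroup.map (F₀.subtype : F₀ →+* F) C * S := by simp
  rw [e, Units.val_mul, hc, Matrix.mul_smul, Matrix.mul_one, Matrix.smul_apply, smul_eq_mul]
  rfl

/-- Conversely. -/
theorem mem_subfield_of_entries {g : GL (Fin n) F} {c : F} (hc : c ≠ 0) (a : Matrix (Fin n) (Fin n) F₀)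
    (h : ∀ i j, (g : Matrix (Fin n) (Fin n) F) i j = c * (a i j : F)) : g ∈ Cfsg.Geo.subfieldSubgroup F₀ 1 := by
  have hg : (g : Matrix (Fin n) (Fin n) F) = c • (F₀.subtype : F₀ →+* F).mapMatrix a := by
    ext i j
    rw [h]
    rfl
  have hdet : a.det ≠ 0 := by
    intro h0
    have h1 : (g : Matrix (Fin n) (Fin n) F).det ≠ 0 := by
      have := g.isUnit
      exact ((Matrix.isUnit_iff_isUnit_det _).1 this).ne_zero
    rw [hg, Matrix.det_smul, ← RingHom.map_det, h0, map_zero, mul_zero] at h1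
    exact h1 rfl
  obtain ⟨A, hA⟩ : ∃ A : GL (Fin n) F₀, (A : Matrix (Fin n) (Fin n) F₀) = a :=
    ⟨Matrix.GeneralLinearGroup.mkOfDetNeZero a hdet, rfl⟩
  refine ⟨g, ?_, by simp⟩
  have hS : g = Matrix.GeneralLinearGroup.map (F₀.subtype : F₀ →+* F) A * (Units.map (Matrix.scalar (Fin n) : F →+* Matrix (Fin n) (Fin n) F).toMonoidHom (Units.mk0 c hc)) := by
    ext i j
    rw [hg, Units.val_mul]
    have e1 : ((Units.map (Matrix.scalar (Fin n) : F →+* Matrix (Fin n) (Fin n) F).toMonoidHom (Units.mk0 c hc) : GL (Fin n) F) : Matrix (Fin n) (Fin n) F) = c • 1 := by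
      simp [Matrix.smul_one_eq_diagonal]
    rw [e1, Matrix.mul_smul, Matrix.mul_one, ← hA]
    rfl
  rw [hS]
  exact Subgroup.mul_mem_sup ⟨A, rfl⟩ ⟨_, rfl⟩

/-- A family of column vectors with unit determinant and rational structure constants gives the conjugation. -/
theorem conj_of_family (x : Matrix.SpecialLinearGroup (Fin n) F) (c : Fin n → Fin n → F)
    (hdet : (Matrix.of fun i j => c j i).det = 1) (G : Matrix (Fin n) (Fin n) F)
    (h : ∀ j, (x : Matrix (Fin n) (Fin n) F).mulVec (c j) = ∑ l, G l j • c l) {w : F} (hw : w ≠ 0)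
    (a : Matrix (Fin n) (Fin n) F₀) (hG : ∀ i j, G i j = w * (a i j : F)) :
    ∃ P : Matrix.SpecialLinearGroup (Fin n) F, P⁻¹ * x * P ∈ ((Cfsg.Geo.subfieldSubgroup F₀ 1).comap
      (Matrix.SpecialLinearGroup.toGL : Matrix.SpecialLinearGroup (Fin n) F →* GL (Fin n) F)) := by
  obtain ⟨P, hP⟩ : ∃ P : Matrix.SpecialLinearGroup (Fin n) F, (P : Matrix (Fin n) (Fin n) F) = Matrix.of fun i j => c j i :=
    ⟨⟨_, hdet⟩, rfl⟩
  refine ⟨P, ?_⟩
  have hmul : (x : Matrix (Fin n) (Fin n) F) * (P : Matrix (Fin n) (Fin n) F) = (P : Matrix (Fin n) (Fin n) F) * G := by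
    ext i j
    have h1 := congrFun (h j) i
    rw [Finset.sum_apply] at h1
    rw [hP, Matrix.mul_apply, Matrix.mul_apply]
    simp only [Matrix.of_apply, Pi.smul_apply, smul_eq_mul] at h1 ⊢
    rw [show ∑ k, (x : Matrix (Fin n) (Fin n) F) i k * c j k = (x : Matrix (Fin n) (Fin n) F).mulVec (c j) i from rfl, h1]
    apply Finset.sum_congr rfl
    intro l _
    ring
  have hval : ((P⁻¹ * x * P : Matrix.SpecialLinearGroup (Fin n) F) : Matrix (Fin n) (Fin n) F) = G := by
    rw [Matrix.SpecialLinearGroup.coe_mul, Matrix.SpecialLinearGroup.coe_mul, Matrix.mul_assoc, hmul, ← Matrix.mul_assoc,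
      ← Matrix.SpecialLinearGroup.coe_mul, inv_mul_cancel]
    simp
  rw [Subgroup.mem_comap]
  refine mem_subfield_of_entries hw a (fun i j => ?_)
  rw [Matrix.SpecialLinearGroup.coe_GL_coe_matrix, hval, hG]

end Mem

section Dil

variable {F : Type v} [Field F] {V : Type u} [AddCommGroup V] [Module F V] [FiniteDimensional F V]

/-- A dilation on an invariant summand commutes with the map. -/
theorem exists_dil {U W : Submodule F V} (h : IsCompl U W) (y : Module.End F V) (hU : ∀ v ∈ U, y v ∈ U)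
    (hW : ∀ v ∈ W, y v ∈ W) (t : F) :
    ∃ T : Module.End F V, (∀ v, T (y v) = y (T v)) ∧ LinearMap.det T = t ^ finrank F U := by
  let e : (U × W) ≃ₗ[F] V := Submodule.prodEquivOfIsCompl U W h
  let T₀ : Module.End F (U × W) := LinearMap.prodMap (t • LinearMap.id) LinearMap.id
  refine ⟨(e : (U × W) →ₗ[F] V) ∘ₗ T₀ ∘ₗ (e.symm : V →ₗ[F] (U × W)), fun v => ?_, ?_⟩
  · have hey : ∀ u, e.symm (y u) = ((y.restrict hU) (e.symm u).1, (y.restrict hW) (e.symm u).2) := by
      intro u
      rw [LinearEquiv.symm_apply_eq]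
      have h5 : ((e.symm u).1 : V) + ((e.symm u).2 : V) = u := e.apply_symm_apply u
      show y u = ((y.restrict hU) (e.symm u).1 : V) + ((y.restrict hW) (e.symm u).2 : V)
      conv_lhs => rw [← h5]
      rw [map_add]
      rfl
    have hT : ∀ u, ((e : (U × W) →ₗ[F] V) ∘ₗ T₀ ∘ₗ (e.symm : V →ₗ[F] (U × W))) u =
        t • ((e.symm u).1 : V) + ((e.symm u).2 : V) := fun u => rfl
    rw [hT, hT, hey, map_add, map_smul]
    rfl
  · rw [LinearMap.det_conj, LinearMap.det_prodMap, LinearMap.det_id, mul_one, LinearMap.det_smul, LinearMap.det_id, mul_one]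

end Dil

section Jordan

variable {F : Type v} [Field F] {V : Type u} [AddCommGroup V] [Module F V]

/-- Gluing bases along a decomposition. -/
theorem basis_of_compl {U W : Submodule F V} (h : IsCompl U W) {ι₁ ι₂ : Type*} (b₁ : Basis ι₁ F U) (b₂ : Basis ι₂ F W) :
    ∃ B : Basis (ι₁ ⊕ ι₂) F V, (∀ i, B (Sum.inl i) = b₁ i) ∧ ∀ i, B (Sum.inr i) = b₂ i := by
  refine ⟨(b₁.prod b₂).map (Submodule.prodEquivOfIsCompl U W h), fun i => ?_, fun i => ?_⟩
  · simp
  · simp

/-- The cyclic subspace of maximal length has an invariant complement; generators made explicit. -/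
theorem cyclic_compl_gen [FiniteDimensional F V] (N : Module.End F V) (e : ℕ) (he : N ^ (e + 1) = 0) (v : V) (hv : (N ^ e) v ≠ 0) :
    ∃ W : Submodule F V, ∃ hgen : LinearIndependent F (fun j : Fin (e + 1) => (N ^ (j : ℕ)) v),
      IsCompl (Submodule.span F (Set.range (fun j : Fin (e + 1) => (N ^ (j : ℕ)) v))) W ∧ (∀ u ∈ W, N u ∈ W) := by
  classical
  obtain ⟨φ, hφ⟩ : ∃ φ : Module.Dual F V, φ ((N ^ e) v) ≠ 0 := by
    by_contra hcon
    push Not at hcon
    exact hv ((Module.forall_dual_apply_eq_zero_iff F _).1 hcon)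
  let Ψ : V →ₗ[F] (Fin (e + 1) → F) := LinearMap.pi (fun j => φ ∘ₗ (N ^ (j : ℕ)))
  have hΨ : ∀ u, u ∈ LinearMap.ker Ψ ↔ ∀ j : ℕ, j ≤ e → φ ((N ^ j) u) = 0 := by
    intro u
    rw [LinearMap.mem_ker]
    constructor
    · intro h j hj
      have := congrFun h ⟨j, by omega⟩
      simpa [Ψ] using this
    · intro h
      funext j
      exact h j (by have := j.2; omega)
  let gen : Fin (e + 1) → V := fun j => (N ^ (j : ℕ)) v
  have hgen : LinearIndependent F gen := by
    rw [Fintype.linearIndependent_iff]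
    intro g hg
    exact cyc_coef_zero N e he v φ hφ g 0 hg (by simp)
  refine ⟨LinearMap.ker Ψ, hgen, ?_, ?_⟩
  · obtain ⟨C, hC⟩ : ∃ C, C = Submodule.span F (Set.range gen) := ⟨_, rfl⟩
    have hCfin : finrank F C = e + 1 := by
      rw [hC, finrank_span_eq_card hgen, Fintype.card_fin]
    have hdisj : C ⊓ LinearMap.ker Ψ = ⊥ := by
      rw [eq_bot_iff]
      rintro c ⟨hc1, hc2⟩
      rw [SetLike.mem_coe, hC] at hc1
      obtain ⟨g, hg⟩ := (Submodule.mem_span_range_iff_exists_fun F).1 hc1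
      have h1 := cyc_coef_zero N e he v φ hφ g c hg ((hΨ c).1 hc2)
      rw [Submodule.mem_bot, ← hg]
      simp [h1]
    have hW2 : finrank F V ≤ finrank F (LinearMap.ker Ψ) + (e + 1) := by
      have h1 := LinearMap.finrank_range_add_finrank_ker Ψ
      have h2 : finrank F (LinearMap.range Ψ) ≤ e + 1 := by
        have := Submodule.finrank_le (LinearMap.range Ψ)
        simpa using this
      omega
    have htop : C ⊔ LinearMap.ker Ψ = ⊤ := by
      apply Submodule.eq_top_of_finrank_eq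
      apply le_antisymm (Submodule.finrank_le _)
      have h1 := Submodule.finrank_sup_add_finrank_inf_eq C (LinearMap.ker Ψ)
      rw [hdisj, finrank_bot] at h1
      omega
    rw [← hC]
    exact ⟨disjoint_iff.2 hdisj, codisjoint_iff.2 htop⟩
  · intro u hu
    rw [hΨ] at hu ⊢
    intro j hj
    rw [← Module.End.mul_apply, ← pow_succ]
    by_cases hj2 : j + 1 ≤ e
    · exact hu _ hj2
    · have h1 : j + 1 = e + 1 := by omega
      rw [h1, he]
      simp

/-- Jordan bases of nilpotent maps. -/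
theorem jordan_basis (E : ℕ) : ∀ (d : ℕ) (V : Type u) [AddCommGroup V] [Module F V] [FiniteDimensional F V]
    (N : Module.End F V), finrank F V = d → N ^ E = 0 →
    ∃ (ι : Type) (_ : Fintype ι) (b : Basis ι F V), ∀ i, N (b i) = 0 ∨ ∃ j, N (b i) = b j := by
  intro d
  induction d using Nat.strong_induction_on with
  | _ d ih =>
    intro V _ _ _ N hd hN
    classical
    by_cases h0 : N = 0
    · exact ⟨_, inferInstance, Module.finBasis F V, fun i => Or.inl (by rw [h0]; rfl)⟩
    -- choose the nilpotency index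
    have hex : ∃ k, N ^ k = 0 := ⟨E, hN⟩
    obtain ⟨e, he1, he2⟩ : ∃ e, N ^ (e + 1) = 0 ∧ N ^ e ≠ 0 := by
      refine ⟨Nat.find hex - 1, ?_, ?_⟩
      · have h1 : Nat.find hex ≠ 0 := by
          intro h2
          have h3 := Nat.find_spec hex
          rw [h2, pow_zero] at h3
          exact h0 (by rw [← mul_one N, h3, mul_zero])
        rw [Nat.sub_add_cancel (Nat.pos_of_ne_zero h1)]
        exact Nat.find_spec hex
      · exact Nat.find_min hex (by
          have h1 : Nat.find hex ≠ 0 := by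
            intro h2
            have h3 := Nat.find_spec hex
            rw [h2, pow_zero] at h3
            exact h0 (by rw [← mul_one N, h3, mul_zero])
          omega)
    obtain ⟨v, hv⟩ : ∃ v, (N ^ e) v ≠ 0 := by
      by_contra hcon
      push Not at hcon
      exact he2 (LinearMap.ext hcon)
    obtain ⟨W, hgen, hc, hW⟩ := cyclic_compl_gen N e he1 v hv
    have hdim := Submodule.finrank_add_eq_of_isCompl hc
    rw [finrank_span_eq_card hgen, Fintype.card_fin] at hdim
    have hNW : (N.restrict hW) ^ E = 0 := by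
      ext u
      rw [Module.End.pow_restrict]
      simp [hN]
    obtain ⟨ι, _, b, hb⟩ := ih (finrank F W) (by omega) W (N.restrict hW) rfl hNW
    obtain ⟨B, hB1, hB2⟩ := basis_of_compl hc (Basis.span hgen) b
    refine ⟨Fin (e + 1) ⊕ ι, inferInstance, B, ?_⟩
    rintro (i | i)
    · rw [hB1, Basis.span_apply]
      simp only
      rw [← Module.End.mul_apply, ← pow_succ']
      by_cases hi : (i : ℕ) + 1 < e + 1
      · right
        refine ⟨Sum.inl ⟨(i : ℕ) + 1, hi⟩, ?_⟩
        rw [hB1, Basis.span_apply]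
      · left
        have h1 : (i : ℕ) + 1 = e + 1 := by have := i.2; omega
        rw [h1, he1]
        rfl
    · rw [hB2]
      rcases hb i with h1 | ⟨j, h1⟩
      · left
        have := congrArg Subtype.val h1
        simpa using this
      · right
        refine ⟨Sum.inr j, ?_⟩
        rw [hB2]
        exact congrArg Subtype.val h1

/-- Integral normal forms. -/
def IntForm (y : Module.End F V) : Prop :=
  ∃ (ι : Type) (_ : Fintype ι) (_ : DecidableEq ι) (b : Basis ι F V) (A : ι → ι → ℤ), ∀ j, y (b j) = ∑ i, (A i j : F) • b i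

theorem intForm_one_add [FiniteDimensional F V] (N : Module.End F V) (E : ℕ) (hN : N ^ E = 0) : IntForm (1 + N) := by
  classical
  obtain ⟨ι, _, b, hb⟩ := jordan_basis E _ V N rfl hN
  have hch : ∀ j, ∃ A : ι → ℤ, (1 + N) (b j) = ∑ i, (A i : F) • b i := by
    intro j
    rcases hb j with h1 | ⟨l, h1⟩
    · refine ⟨fun i => if i = j then 1 else 0, ?_⟩
      simp [h1]
    · refine ⟨fun i => (if i = j then 1 else 0) + (if i = l then 1 else 0), ?_⟩
      simp only [LinearMap.add_apply, Module.End.one_apply, h1]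
      push_cast
      simp only [add_smul, Finset.sum_add_distrib]
      simp
  choose A hA using hch
  exact ⟨ι, inferInstance, inferInstance, b, fun i j => A j i, hA⟩

theorem intForm_sum [FiniteDimensional F V] (y : Module.End F V) {U W : Submodule F V} (h : IsCompl U W) (hU : ∀ v ∈ U, y v ∈ U)
    (hW : ∀ v ∈ W, y v ∈ W) (h1 : IntForm (y.restrict hU)) (h2 : IntForm (y.restrict hW)) : IntForm y := by
  classical
  obtain ⟨ι₁, _, _, b₁, A₁, hb₁⟩ := h1
  obtain ⟨ι₂, _, _, b₂, A₂, hb₂⟩ := h2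
  obtain ⟨B, hB1, hB2⟩ := basis_of_compl h b₁ b₂
  refine ⟨ι₁ ⊕ ι₂, inferInstance, inferInstance, B, fun i j => ?_, ?_⟩
  · exact match i, j with
    | Sum.inl i, Sum.inl j => A₁ i j
    | Sum.inr i, Sum.inr j => A₂ i j
    | _, _ => 0
  · rintro (j | j)
    · rw [hB1, Fintype.sum_sum_type]
      have h3 := congrArg Subtype.val (hb₁ j)
      simp only [hB1, hB2]
      have h4 : y (b₁ j : V) = ∑ i, (A₁ i j : F) • (b₁ i : V) := by
        rw [show y (b₁ j : V) = ((y.restrict hU) (b₁ j) : V) from rfl, hb₁ j]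
        simp
      rw [h4]
      simp
    · rw [hB2, Fintype.sum_sum_type]
      simp only [hB1, hB2]
      have h4 : y (b₂ j : V) = ∑ i, (A₂ i j : F) • (b₂ i : V) := by
        rw [show y (b₂ j : V) = ((y.restrict hW) (b₂ j) : V) from rfl, hb₂ j]
        simp
      rw [h4]
      simp

theorem intForm_scalar [FiniteDimensional F V] (y : Module.End F V) (a : ℤ) (h : ∀ v, y v = (a : F) • v) : IntForm y := by
  classical
  refine ⟨_, inferInstance, inferInstance, Module.finBasis F V, fun i j => if i = j then a else 0, fun j => ?_⟩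
  rw [h]
  simp only [Int.cast_ite, Int.cast_zero, ite_smul, zero_smul, Finset.sum_ite_eq', Finset.mem_univ, if_true]

/-- Involutions have a diagonal form. -/
theorem intForm_involution [FiniteDimensional F V] (h2 : (2 : F) ≠ 0) (y : Module.End F V) (hy : y ^ 2 = 1) : IntForm y := by
  have hy' : y ^ 2 = ((1 : F) ^ 2) • (1 : Module.End F V) := by rw [hy]; simp
  have hc := eigen_compl h2 one_ne_zero y hy'
  have hmem1 : ∀ t : F, ∀ v, v ∈ LinearMap.ker (y - t • (1 : Module.End F V)) ↔ y v = t • v := by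
    intro t v
    simp only [LinearMap.mem_ker, LinearMap.sub_apply, LinearMap.smul_apply, Module.End.one_apply, sub_eq_zero]
  have hA : ∀ v ∈ LinearMap.ker (y - (1 : F) • (1 : Module.End F V)), y v ∈ LinearMap.ker (y - (1 : F) • (1 : Module.End F V)) := by
    intro v hv
    have h3 := (hmem1 1 v).1 hv
    rw [h3]
    exact Submodule.smul_mem _ _ hv
  have hB : ∀ v ∈ LinearMap.ker (y - (-1 : F) • (1 : Module.End F V)), y v ∈ LinearMap.ker (y - (-1 : F) • (1 : Module.End F V)) := by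
    intro v hv
    have h3 := (hmem1 (-1) v).1 hv
    rw [h3]
    exact Submodule.smul_mem _ _ hv
  refine intForm_sum y hc hA hB (intForm_scalar _ 1 ?_) (intForm_scalar _ (-1) ?_)
  · rintro ⟨v, hv⟩
    ext
    simpa using (hmem1 1 v).1 hv
  · rintro ⟨v, hv⟩
    ext
    simpa using (hmem1 (-1) v).1 hv

end Jordan

section Main

variable {F : Type v} [Field F] {n : ℕ} {F₀ : Subfield F}

/-- From an integral form and freedom in the determinant to conjugation into the subfield group. -/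
theorem conj_of_intForm (hn : 1 ≤ n) (x : Matrix.SpecialLinearGroup (Fin n) F) {w : F} (hw : w ≠ 0) (y : Module.End F (Fin n → F))
    (hxy : Matrix.toLin' (x : Matrix (Fin n) (Fin n) F) = w • y) (hI : IntForm y)
    (hT : ∀ D : F, D ≠ 0 → ∃ (T : Module.End F (Fin n → F)) (a : F), a ∈ F₀ ∧ a ≠ 0 ∧ (∀ v, T (y v) = y (T v)) ∧ LinearMap.det T * a = D) :
    ∃ P : Matrix.SpecialLinearGroup (Fin n) F, P⁻¹ * x * P ∈ ((Cfsg.Geo.subfieldSubgroup F₀ 1).comap
      (Matrix.SpecialLinearGroup.toGL : Matrix.SpecialLinearGroup (Fin n) F →* GL (Fin n) F)) := by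
  classical
  obtain ⟨ι, _, _, b, A, hb⟩ := hI
  have hcard : Fintype.card ι = n := by
    have := Module.finrank_eq_card_basis b
    rw [← this]
    simp
  let e : Fin n ≃ ι := (Fintype.equivFinOfCardEq hcard).symm
  let i₀ : Fin n := ⟨0, by omega⟩
  -- the matrix of the basis
  obtain ⟨P₀, hP₀⟩ : ∃ P₀ : Matrix (Fin n) (Fin n) F, P₀ = Matrix.of fun i j => b (e j) i := ⟨_, rfl⟩
  have hD₀ : P₀.det ≠ 0 := by
    have h1 : P₀ = (Pi.basisFun F (Fin n)).toMatrix (b.reindex e.symm) := by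
      rw [hP₀]
      ext i j
      simp [Module.Basis.toMatrix_apply]
    have h2 := (Pi.basisFun F (Fin n)).isUnit_det (b.reindex e.symm)
    rw [Module.Basis.det_apply, ← h1] at h2
    exact h2.ne_zero
  obtain ⟨T, a, ha, ha0, hTc, hTd⟩ := hT P₀.det⁻¹ (inv_ne_zero hD₀)
  -- the scaling factors
  obtain ⟨r, hr⟩ : ∃ r : Fin n → F, r = fun j => if j = i₀ then a else 1 := ⟨_, rfl⟩
  have hr0 : ∀ j, r j ≠ 0 := by
    intro j
    rw [hr]
    simp only
    split_ifs
    · exact ha0
    · exact one_ne_zero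
  have hrm : ∀ j, r j ∈ F₀ := by
    intro j
    rw [hr]
    simp only
    split_ifs
    · exact ha
    · exact F₀.one_mem
  have hprod : ∏ j, r j = a := by
    rw [hr, Finset.prod_ite_eq' Finset.univ i₀ (fun _ => a)]
    simp
  obtain ⟨c, hc⟩ : ∃ c : Fin n → Fin n → F, c = fun j => r j • T (b (e j)) := ⟨_, rfl⟩
  have hdet : (Matrix.of fun i j => c j i).det = 1 := by
    have h1 : (Matrix.of fun i j => c j i) = LinearMap.toMatrix' T * P₀ * Matrix.diagonal r := by
      ext i j
      rw [Matrix.mul_diagonal, Matrix.mul_apply, Matrix.of_apply, hc, hP₀]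
      simp only [Pi.smul_apply, smul_eq_mul, Matrix.of_apply]
      have h2 : T (b (e j)) i = ∑ l, LinearMap.toMatrix' T i l * b (e j) l := by
        rw [← LinearMap.toMatrix'_mulVec]
        rfl
      rw [h2]
      ring
    rw [h1, Matrix.det_mul, Matrix.det_mul, Matrix.det_diagonal, hprod, LinearMap.det_toMatrix']
    calc LinearMap.det T * P₀.det * a = (LinearMap.det T * a) * P₀.det := by ring
      _ = 1 := by rw [hTd, inv_mul_cancel₀ hD₀]
  -- the rational structure constants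
  obtain ⟨a', ha'⟩ : ∃ a' : Fin n → Fin n → F₀, ∀ l j, (a' l j : F) = r j * (r l)⁻¹ * (A (e l) (e j) : F) := by
    have h3 : ∀ l j, r j * (r l)⁻¹ * (A (e l) (e j) : F) ∈ F₀ := fun l j =>
      F₀.mul_mem (F₀.mul_mem (hrm j) (F₀.inv_mem (hrm l))) (intCast_mem F₀ _)
    exact ⟨fun l j => ⟨_, h3 l j⟩, fun l j => rfl⟩
  refine conj_of_family x c hdet (fun l j => w * (a' l j : F)) (fun j => ?_) hw (Matrix.of a') (fun i j => rfl)
  have h5 : (x : Matrix (Fin n) (Fin n) F).mulVec (c j) = Matrix.toLin' (x : Matrix (Fin n) (Fin n) F) (c j) := rfl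
  rw [h5, hxy, hc]
  simp only [LinearMap.smul_apply, map_smul]
  rw [← hTc, hb, map_sum]
  have h6 : ∑ i, T ((A i (e j) : F) • b i) = ∑ l, T ((A (e l) (e j) : F) • b (e l)) := by
    exact (Equiv.sum_comp e (fun i => T ((A i (e j) : F) • b i))).symm
  rw [h6, Finset.smul_sum, Finset.smul_sum]
  apply Finset.sum_congr rfl
  intro l _
  rw [ha' l j, map_smul, smul_smul, smul_smul, smul_smul]
  congr 1
  have := hr0 l
  field_simp

end Main

section Squares

variable {F : Type v} [Field F] [Fintype F]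

/-- Elements of the subfield of index two are squares. -/
theorem sq_of_mem_subfield {F₀ : Subfield F} {q q₀ : ℕ} (hq : Fintype.card F = q) (hF₀ : Nat.card F₀ = q₀) (hqk : q = q₀ ^ 2)
    (h2 : (2 : F) ≠ 0) {e : F} (he : e ∈ F₀) (he0 : e ≠ 0) : ∃ s : F, s ^ 2 = e := by
  classical
  haveI : Fintype F₀ := Fintype.ofFinite _
  have hch : ringChar F ≠ 2 := by
    intro h
    apply h2
    have := ringChar.Nat.cast_ringChar (R := F)
    rw [h] at this
    exact_mod_cast this
  have hodd : q % 2 = 1 := by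
    rw [← hq]
    exact FiniteField.odd_card_of_char_ne_two hch
  obtain ⟨t, ht⟩ : Odd q₀ := by
    rw [← Nat.not_even_iff_odd]
    rintro ⟨t, ht⟩
    rw [hqk, ht] at hodd
    have : (t + t) ^ 2 = 2 * (2 * t * t) := by ring
    rw [this] at hodd
    omega
  have hcard0 : Fintype.card F₀ = q₀ := by rw [← Nat.card_eq_fintype_card, hF₀]
  have h3 : ((⟨e, he⟩ : F₀) : F₀) ^ (q₀ - 1) = 1 := by
    rw [← hcard0]
    apply FiniteField.pow_card_sub_one_eq_one
    intro h0
    exact he0 (congrArg Subtype.val h0)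
  have h4 : e ^ (q₀ - 1) = 1 := by
    have := congrArg Subtype.val h3
    simpa using this
  have h5 : q / 2 = (q₀ - 1) * (t + 1) := by
    rw [hqk, ht]
    have h6 : (2 * t + 1) ^ 2 = 2 * ((2 * t + 1 - 1) * (t + 1)) + 1 := by
      rw [Nat.add_sub_cancel]
      ring
    rw [h6]
    omega
  have h7 := (FiniteField.isSquare_iff hch he0).2 (by rw [hq, h5, pow_mul, h4, one_pow])
  obtain ⟨s, hs⟩ := h7
  exact ⟨s, by rw [hs]; ring⟩

/-- The range of the special linear group is normal. -/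
theorem range_toGL_normal {n : ℕ} : ((Matrix.SpecialLinearGroup.toGL : Matrix.SpecialLinearGroup (Fin n) F →* GL (Fin n) F).range).Normal := by
  have hLdet : (Matrix.SpecialLinearGroup.toGL : Matrix.SpecialLinearGroup (Fin n) F →* GL (Fin n) F).range = (Matrix.GeneralLinearGroup.det : GL (Fin n) F →* Fˣ).ker := by
    ext g
    constructor
    · rintro ⟨x, rfl⟩
      rw [MonoidHom.mem_ker]
      ext
      exact x.2
    · intro hg
      rw [MonoidHom.mem_ker] at hg
      exact ⟨⟨(g : Matrix (Fin n) (Fin n) F), congrArg Units.val hg⟩, by ext; rfl⟩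
  rw [hLdet]
  infer_instance

/-- Multiplying out a geometric sum. -/
theorem geom_sum_nat (a k : ℕ) (ha : 1 ≤ a) : a ^ k - 1 = (a - 1) * ∑ l ∈ Finset.range k, a ^ l := by
  obtain ⟨x, rfl⟩ : ∃ x, a = x + 1 := ⟨a - 1, by omega⟩
  have := geom_sum_mul_add x k
  rw [Nat.add_sub_cancel, mul_comm, ← this, Nat.add_sub_cancel]

theorem geom_sum_odd (a k : ℕ) (ha : Odd a) (hk : Odd k) : Odd (∑ l ∈ Finset.range k, a ^ l) := by
  have h1 : ∀ k, (∑ l ∈ Finset.range k, a ^ l) % 2 = k % 2 := by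
    intro k
    induction k with
    | zero => simp
    | succ k ih =>
      rw [Finset.sum_range_succ, Nat.add_mod, ih]
      have h2 : a ^ k % 2 = 1 := Nat.odd_iff.1 (ha.pow)
      rw [h2]
      omega
  rw [Nat.odd_iff, h1]
  exact Nat.odd_iff.1 hk

/-- The index of the subfield group is odd when `q` is odd and the degree is odd. -/
theorem subfield_index_odd {q q₀ k n : ℕ} (hq : Fintype.card F = q) (hn : 1 ≤ n) (F₀ : Subfield F)
    (hF₀ : Nat.card F₀ = q₀) (hqk : q = q₀ ^ k) (hk : Odd k) (hodd : Odd q) :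
    ¬ 2 ∣ ((Cfsg.Geo.subfieldSubgroup F₀ 1).comap
      (Matrix.SpecialLinearGroup.toGL : Matrix.SpecialLinearGroup (Fin n) F →* GL (Fin n) F)).index := by
  classical
  intro hdvd
  haveI : Fintype F₀ := Fintype.ofFinite _
  have hcard0 : Fintype.card F₀ = q₀ := by rw [← Nat.card_eq_fintype_card, hF₀]
  have hq₀2 : 2 ≤ q₀ := by rw [← hcard0]; exact Fintype.one_lt_card
  have hq₀odd : Odd q₀ := by
    rw [← Nat.not_even_iff_odd]
    intro h
    rw [hqk] at hodd
    exact (Nat.not_even_iff_odd.2 hodd) (h.pow_of_ne_zero hk.pos.ne')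
  let i₀ : Fin n := ⟨0, by omega⟩
  obtain ⟨A, hA⟩ : ∃ A, A = (Matrix.GeneralLinearGroup.map (n := Fin n) (F₀.subtype : F₀ →+* F)).range := ⟨_, rfl⟩
  obtain ⟨Z, hZ⟩ : ∃ Z, Z = Cfsg.Geo.scalars (Fin n) F := ⟨_, rfl⟩
  haveI : Z.Normal := by rw [hZ]; infer_instance
  have hM : Cfsg.Geo.subfieldSubgroup F₀ (1 : GL (Fin n) F) = A ⊔ Z := by
    rw [hA, hZ]
    ext g
    constructor
    · rintro ⟨a, ha, rfl⟩
      simpa using ha
    · intro hg
      exact ⟨g, hg, by simp⟩
  rw [hM, Subgroup.index_comap] at hdvd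
  haveI := range_toGL_normal (F := F) (n := n)
  have h1 : 2 ∣ (A ⊔ Z).index := hdvd.trans (relIndex_dvd_index_normal _ _)
  -- cardinalities
  have hinjA : Function.Injective (Matrix.GeneralLinearGroup.map (n := Fin n) (F₀.subtype : F₀ →+* F)) := by
    intro a b hab
    ext i j
    exact congrArg (fun g : GL (Fin n) F => (g : Matrix (Fin n) (Fin n) F) i j) hab
  have hcA : Nat.card A = ∏ i : Fin n, (q₀ ^ n - q₀ ^ (i : ℕ)) := by
    rw [hA, Nat.card_congr (MonoidHom.ofInjective hinjA).toEquiv.symm, Matrix.card_GL_field (𝔽 := F₀) (n := n), hcard0]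
  have hcG : Nat.card (GL (Fin n) F) = ∏ i : Fin n, (q ^ n - q ^ (i : ℕ)) := by
    rw [Matrix.card_GL_field (𝔽 := F) (n := n), hq]
  have hinjZ : Function.Injective (Units.map (Matrix.scalar (Fin n) : F →+* Matrix (Fin n) (Fin n) F).toMonoidHom) := by
    intro a b hab
    have := congrArg (fun g : GL (Fin n) F => (g : Matrix (Fin n) (Fin n) F) i₀ i₀) hab
    ext
    simpa using this
  have hcZ : Nat.card Z = q - 1 := by
    rw [hZ, show Cfsg.Geo.scalars (Fin n) F = (Units.map (Matrix.scalar (Fin n) : F →+* Matrix (Fin n) (Fin n) F).toMonoidHom).range from rfl,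
      Nat.card_congr (MonoidHom.ofInjective hinjZ).toEquiv.symm, Nat.card_eq_fintype_card, Fintype.card_units, hq]
  -- the intersection
  have hcI : Nat.card (Z.subgroupOf A) = q₀ - 1 := by
    rw [← hcard0, ← Fintype.card_units, ← Nat.card_eq_fintype_card]
    apply Nat.card_congr
    refine (Equiv.ofBijective (fun c : F₀ˣ => (⟨⟨Matrix.GeneralLinearGroup.map (n := Fin n) (F₀.subtype : F₀ →+* F) (Units.map (Matrix.scalar (Fin n) : F₀ →+* Matrix (Fin n) (Fin n) F₀).toMonoidHom c), hA ▸ ⟨_, rfl⟩⟩, ?_⟩ : Z.subgroupOf A)) ⟨?_, ?_⟩).symm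
    · rw [Subgroup.mem_subgroupOf, hZ, Cfsg.Geo.mem_scalars_iff]
      refine ⟨Units.map (F₀.subtype : F₀ →+* F).toMonoidHom c, ?_⟩
      ext i j
      show (F₀.subtype : F₀ →+* F) ((Matrix.scalar (Fin n) (c : F₀)) i j) = _
      by_cases hij : i = j
      · subst hij
        simp
      · simp [hij]
    · intro a b hab
      have h2 := congrArg (fun g : Z.subgroupOf A => ((g : A) : GL (Fin n) F)) hab
      have h3 := congrArg (fun g : GL (Fin n) F => (g : Matrix (Fin n) (Fin n) F) i₀ i₀) h2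
      ext
      have h4 : (F₀.subtype : F₀ →+* F) ((Matrix.scalar (Fin n) (a : F₀)) i₀ i₀) = (F₀.subtype : F₀ →+* F) ((Matrix.scalar (Fin n) (b : F₀)) i₀ i₀) := h3
      simpa using h4
    · rintro ⟨⟨g, hg⟩, hg2⟩
      rw [Subgroup.mem_subgroupOf, hZ, Cfsg.Geo.mem_scalars_iff] at hg2
      obtain ⟨c, hc⟩ := hg2
      rw [hA] at hg
      obtain ⟨C, rfl⟩ := hg
      simp only at hc
      have hentry : ∀ i j, ((C : Matrix (Fin n) (Fin n) F₀) i j : F) = (c : F) * (if i = j then 1 else 0) := by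
        intro i j
        have := congrFun (congrFun hc i) j
        simpa [Matrix.one_apply] using this
      have hc0 : (C : Matrix (Fin n) (Fin n) F₀) i₀ i₀ ≠ 0 := by
        intro h0
        have h5 := hentry i₀ i₀
        rw [h0] at h5
        simp only [if_true, mul_one, ZeroMemClass.coe_zero] at h5
        exact c.ne_zero h5.symm
      refine ⟨Units.mk0 _ hc0, ?_⟩
      apply Subtype.ext
      apply Subtype.ext
      ext i j
      show (F₀.subtype : F₀ →+* F) ((Matrix.scalar (Fin n) (_ : F₀)) i j) = _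
      have h6 : ((C : Matrix (Fin n) (Fin n) F₀) i₀ i₀ : F) = c := by
        rw [hentry]
        simp
      by_cases hij : i = j
      · subst hij
        have h7 := hentry i i
        simp only [if_true, mul_one] at h7
        simp only [Matrix.scalar_apply, Matrix.diagonal_apply_eq, Units.val_mk0]
        rw [Subfield.subtype_apply, h6]
        exact h7.symm
      · have h7 := hentry i j
        simp only [if_neg hij, mul_zero] at h7
        simp only [Matrix.scalar_apply, Matrix.diagonal_apply_ne _ hij, map_zero]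
        exact h7.symm
  -- the product formula
  have hsup : Z.relIndex (A ⊔ Z) = Z.relIndex A := Subgroup.relIndex_sup_right A Z
  have h2 := Subgroup.card_mul_index (Z.subgroupOf A)
  rw [hcI] at h2
  have h3 := Subgroup.card_mul_index (Z.subgroupOf (A ⊔ Z))
  have h4 : Nat.card (Z.subgroupOf (A ⊔ Z)) = Nat.card Z :=
    Nat.card_congr (Subgroup.subgroupOfEquivOfLe (le_sup_right : Z ≤ A ⊔ Z)).toEquiv
  rw [h4, hcZ] at h3
  have h5 := Subgroup.card_mul_index (A ⊔ Z)
  obtain ⟨idx, hidx⟩ : ∃ idx, idx = (A ⊔ Z).index := ⟨_, rfl⟩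
  rw [← hidx] at h5 h1
  obtain ⟨s, hs⟩ : ∃ s, s = Z.relIndex A := ⟨_, rfl⟩
  have h2' : (q₀ - 1) * s = Nat.card A := by rw [hs]; exact h2
  have h3' : (q - 1) * s = Nat.card ↥(A ⊔ Z) := by
    rw [hs, ← hsup]
    exact h3
  -- combine
  have hq1 : 1 ≤ q₀ := by omega
  have hgeom : ∀ j : ℕ, q ^ j - 1 = (q₀ ^ j - 1) * ∑ l ∈ Finset.range k, (q₀ ^ j) ^ l := by
    intro j
    rw [hqk, ← pow_mul, mul_comm k j, pow_mul, ← geom_sum_nat _ _ (Nat.one_le_pow _ _ (by omega))]
  have hq₀pos : 0 < q₀ - 1 := by omega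
  rw [hcA, prod_pow_sub q₀ n n hq₀2 le_rfl] at h2'
  rw [hcG, prod_pow_sub q n n (by rw [← hq]; exact Fintype.one_lt_card) le_rfl, ← h3'] at h5
  simp only [hgeom] at h5
  rw [Finset.prod_mul_distrib] at h5
  obtain ⟨W₀, hW₀⟩ : ∃ W₀, W₀ = ∏ i : Fin n, (q₀ ^ (n - (i : ℕ)) - 1) := ⟨_, rfl⟩
  obtain ⟨Q, hQ⟩ : ∃ Q, Q = ∏ i : Fin n, q ^ (i : ℕ) := ⟨_, rfl⟩
  obtain ⟨Q₀, hQ₀⟩ : ∃ Q₀, Q₀ = ∏ i : Fin n, q₀ ^ (i : ℕ) := ⟨_, rfl⟩
  obtain ⟨R, hR⟩ : ∃ R, R = ∏ i : Fin n, ∑ l ∈ Finset.range k, (q₀ ^ (n - (i : ℕ))) ^ l := ⟨_, rfl⟩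
  rw [← hW₀, ← hQ, ← hR] at h5
  rw [← hW₀, ← hQ₀] at h2'
  have hW₀pos : 0 < W₀ := by
    rw [hW₀]
    refine Finset.prod_pos (fun i _ => ?_)
    have h6 : q₀ ^ 1 ≤ q₀ ^ (n - (i : ℕ)) := Nat.pow_le_pow_right (by omega) (by have := i.2; omega)
    simp only [pow_one] at h6
    omega
  have hgeom1 := hgeom 1
  simp only [pow_one] at hgeom1
  obtain ⟨R₁, hR₁⟩ : ∃ R₁, R₁ = ∑ l ∈ Finset.range k, q₀ ^ l := ⟨_, rfl⟩
  rw [← hR₁] at hgeom1
  have hmain : Q * R * W₀ = idx * (s * R₁) * (q₀ - 1) := by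
    have : (q - 1) * s * idx = Q * (W₀ * R) := h5
    rw [hgeom1] at this
    linear_combination this.symm
  have hmain2 : Q * R * W₀ * (q₀ - 1) = idx * R₁ * Q₀ * W₀ * (q₀ - 1) := by
    have : Q * R * W₀ * (q₀ - 1) = idx * R₁ * ((q₀ - 1) * s) * (q₀ - 1) := by
      rw [hmain]
      ring
    rw [this, h2']
    ring
  have hfin : Q * R = idx * R₁ * Q₀ := by
    apply Nat.eq_of_mul_eq_mul_right (Nat.mul_pos hW₀pos hq₀pos)
    rw [← mul_assoc, hmain2]
    ring
  have hoddQ : Odd Q := by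
    rw [hQ]
    exact Finset.prod_induction _ Odd (fun _ _ => Odd.mul) odd_one (fun i _ => hodd.pow)
  have hoddR : Odd R := by
    rw [hR]
    exact Finset.prod_induction _ Odd (fun _ _ => Odd.mul) odd_one (fun i _ => geom_sum_odd _ _ hq₀odd.pow hk)
  have hev : Even (Q * R) := by
    rw [hfin]
    have : Even idx := even_iff_two_dvd.2 h1
    exact (this.mul_right _).mul_right _
  exact (Nat.not_even_iff_odd.2 (hoddQ.mul hoddR)) hev

end Squares

end Cfsg.Agent.Lib.Geo
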