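import Mathlib
import Cfsg.Agent.Lib.Geo.ElusSubfield

set_option autoImplicit false

/-! Maps annihilated by an irreducible polynomial: the standard model, conjugacy, invariant
complements and commuting maps of prescribed determinant. -/

namespace Cfsg.Agent.Lib.Geo

open Polynomial Module

universe u

variable {F : Type*} [Field F] {V : Type u} [AddCommGroup V] [Module F V] [FiniteDimensional F V]

section Irr

variable (y : V →ₗ[F] V) {g : F[X]} (hg : Irreducible g) (hy : aeval y g = 0)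
include hg hy

/-- The standard model. -/
theorem irr_model : ∃ (s : ℕ) (ψ : V ≃ₗ[F] (Fin s → AdjoinRoot g)), finrank F V = s * g.natDegree ∧
    ∀ v, ψ (y v) = AdjoinRoot.root g • ψ v := by
  classical
  haveI : Fact (Irreducible g) := ⟨hg⟩
  obtain ⟨φ, hφ⟩ := exists_root_hom y hg hy
  letI : Module (AdjoinRoot g) V := Module.compHom V (φ : AdjoinRoot g →+* Module.End F V)
  haveI : IsScalarTower F (AdjoinRoot g) V := ⟨fun c l v => by
    show φ (c • l) v = c • φ l v
    rw [map_smul]; rfl⟩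
  haveI : FiniteDimensional (AdjoinRoot g) V := FiniteDimensional.right F (AdjoinRoot g) V
  have h1 := Module.finrank_mul_finrank F (AdjoinRoot g) V
  have h2 : finrank F (AdjoinRoot g) = g.natDegree := by
    rw [(AdjoinRoot.powerBasis hg.ne_zero).finrank, AdjoinRoot.powerBasis_dim]
  rw [h2] at h1
  let b := Module.finBasisOfFinrankEq (AdjoinRoot g) V (rfl : finrank (AdjoinRoot g) V = finrank (AdjoinRoot g) V)
  refine ⟨finrank (AdjoinRoot g) V, b.equivFun.restrictScalars F, ?_, ?_⟩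
  · rw [mul_comm, h1]
  · intro v
    have h4 : y v = AdjoinRoot.root g • v := by
      show y v = φ (AdjoinRoot.root g) v
      rw [← AdjoinRoot.mk_X, hφ, aeval_X]
    rw [h4]
    exact b.equivFun.map_smul _ _

/-- Invariant complements. -/
theorem irr_exists_compl (W : Submodule F V) (hW : ∀ v ∈ W, y v ∈ W) :
    ∃ W' : Submodule F V, IsCompl W W' ∧ ∀ v ∈ W', y v ∈ W' := by
  classical
  haveI : Fact (Irreducible g) := ⟨hg⟩
  obtain ⟨φ, hφ⟩ := exists_root_hom y hg hy
  letI : Module (AdjoinRoot g) V := Module.compHom V (φ : AdjoinRoot g →+* Module.End F V)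
  haveI : IsScalarTower F (AdjoinRoot g) V := ⟨fun c l v => by
    show φ (c • l) v = c • φ l v
    rw [map_smul]; rfl⟩
  let S : Submodule (AdjoinRoot g) V :=
    { carrier := W
      add_mem' := W.add_mem
      zero_mem' := W.zero_mem
      smul_mem' := by
        intro l v hv
        obtain ⟨p, rfl⟩ := AdjoinRoot.mk_surjective l
        show φ (AdjoinRoot.mk g p) v ∈ W
        rw [hφ]
        exact aeval_mem_of_inv y W hW p v hv }
  obtain ⟨S', hS'⟩ := Submodule.exists_isCompl S
  refine ⟨S'.restrictScalars F, ?_, ?_⟩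
  · constructor
    · rw [Submodule.disjoint_def]
      intro v h1 h2
      exact (Submodule.disjoint_def.1 hS'.disjoint) v h1 h2
    · rw [codisjoint_iff, eq_top_iff]
      intro v _
      have h3 : v ∈ S ⊔ S' := by rw [hS'.sup_eq_top]; trivial
      obtain ⟨a, ha, b, hb, rfl⟩ := Submodule.mem_sup.1 h3
      exact Submodule.add_mem_sup ha hb
  · intro v hv
    have h3 : AdjoinRoot.root g • v ∈ S' := S'.smul_mem _ hv
    have h4 : AdjoinRoot.root g • v = y v := by
      show φ (AdjoinRoot.root g) v = y v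
      rw [← AdjoinRoot.mk_X, hφ, aeval_X]
    rw [← h4]
    exact h3

end Irr

/-- Maps annihilated by the same irreducible polynomial are conjugate. -/
theorem conj_of_irr (y₁ y₂ : V →ₗ[F] V) {g : F[X]} (hg : Irreducible g) (h₁ : aeval y₁ g = 0) (h₂ : aeval y₂ g = 0) :
    ∃ e : V ≃ₗ[F] V, ∀ v, e (y₁ v) = y₂ (e v) := by
  obtain ⟨s₁, ψ₁, h1, h2⟩ := irr_model y₁ hg h₁
  obtain ⟨s₂, ψ₂, h3, h4⟩ := irr_model y₂ hg h₂
  have hd := hg.natDegree_pos
  have hs : s₁ = s₂ := by
    rw [h1] at h3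
    exact Nat.eq_of_mul_eq_mul_right hd h3
  subst hs
  refine ⟨ψ₁.trans ψ₂.symm, fun v => ?_⟩
  apply ψ₂.injective
  simp only [LinearEquiv.trans_apply, LinearEquiv.apply_symm_apply]
  rw [h2, h4, LinearEquiv.apply_symm_apply]

/-- A map commuting with `y` with prescribed determinant. -/
theorem exists_norm_comm [Finite F] (y : V →ₗ[F] V) {g : F[X]} (hg : Irreducible g) (hy : aeval y g = 0) (hV : 0 < finrank F V) {t : F} :
    ∃ T : Module.End F V, (∀ v, T (y v) = y (T v)) ∧ LinearMap.det T = t := by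
  classical
  haveI : Fact (Irreducible g) := ⟨hg⟩
  have hd := hg.natDegree_pos
  have hdv := irr_dvd_finrank y hg hy
  have hle := Nat.le_of_dvd hV hdv
  obtain ⟨W, hW1, hW2⟩ := irr_exists_inv y hg hy 1 (by omega)
  rw [one_mul] at hW2
  obtain ⟨W', hW'1, hW'2⟩ := irr_exists_compl y hg hy W hW1
  have hyW : aeval (y.restrict hW1) g = 0 := by
    ext u
    rw [aeval_restrict_coe, hy]
    rfl
  obtain ⟨s, ψ, hs1, hs2⟩ := irr_model (y.restrict hW1) hg hyW
  have hs : s = 1 := by
    rw [hW2] at hs1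
    have : 1 * g.natDegree = s * g.natDegree := by omega
    exact (Nat.eq_of_mul_eq_mul_right hd this).symm
  subst hs
  let ψ' : W ≃ₗ[F] AdjoinRoot g := ψ.trans (LinearEquiv.funUnique (Fin 1) F (AdjoinRoot g))
  have hψ' : ∀ v, ψ' ((y.restrict hW1) v) = AdjoinRoot.root g * ψ' v := by
    intro v
    show (ψ ((y.restrict hW1) v)) 0 = _
    rw [hs2]
    rfl
  haveI : Module.Finite F (AdjoinRoot g) := (AdjoinRoot.powerBasis hg.ne_zero).finite
  haveI : Finite (AdjoinRoot g) := Module.finite_of_finite F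
  obtain ⟨c, hc⟩ := FiniteField.norm_surjective F (AdjoinRoot g) t
  let T₁ : Module.End F W := (ψ'.symm : AdjoinRoot g →ₗ[F] W) ∘ₗ (LinearMap.mulLeft F c) ∘ₗ (ψ' : W →ₗ[F] AdjoinRoot g)
  have hT₁ : ∀ v, ψ' (T₁ v) = c * ψ' v := by
    intro v
    simp [T₁]
  have hT₁y : ∀ v, T₁ ((y.restrict hW1) v) = (y.restrict hW1) (T₁ v) := by
    intro v
    apply ψ'.injective
    rw [hT₁, hψ', hψ', hT₁]
    ring
  have hdet₁ : LinearMap.det T₁ = t := by
    have h1 := LinearMap.det_conj (LinearMap.mulLeft F c) ψ'.symm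
    have h2 : Algebra.norm F c = LinearMap.det (LinearMap.mulLeft F c) := by
      rw [Algebra.norm_apply]
      rfl
    rw [← hc, h2, ← h1]
    rfl
  obtain ⟨T, hT⟩ : ∃ T : Module.End F V, T = LinearMap.ofIsCompl hW'1 (W.subtype ∘ₗ T₁) W'.subtype := ⟨_, rfl⟩
  have h1 : ∀ a : W, T a = T₁ a := by
    intro a
    rw [hT, LinearMap.ofIsCompl_left_apply]
    rfl
  have h2 : ∀ b : W', T b = b := by
    intro b
    rw [hT, LinearMap.ofIsCompl_right_apply]
    rfl
  refine ⟨T, ?_, ?_⟩
  · intro v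
    have h3 : v ∈ W ⊔ W' := by rw [hW'1.sup_eq_top]; trivial
    obtain ⟨a, ha, b, hb, rfl⟩ := Submodule.mem_sup.1 h3
    have h4 : T a = T₁ ⟨a, ha⟩ := h1 ⟨a, ha⟩
    have h5 : T b = b := h2 ⟨b, hb⟩
    have h6 : T (y a) = y (T a) := by
      have h7 := h1 ⟨y a, hW1 a ha⟩
      have h8 := hT₁y ⟨a, ha⟩
      have h9 : (⟨y a, hW1 a ha⟩ : W) = (y.restrict hW1) ⟨a, ha⟩ := rfl
      rw [h9, h8] at h7
      rw [h4]
      exact h7
    have h10 : T (y b) = y b := h2 ⟨y b, hW'2 b hb⟩
    rw [map_add, map_add, map_add, h6, h10, h5, map_add]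
  · have hTW : ∀ v ∈ W, T v ∈ W := by
      intro v hv
      have h3 := h1 ⟨v, hv⟩
      simp only at h3
      rw [h3]
      exact (T₁ ⟨v, hv⟩).2
    have hTW' : ∀ v ∈ W', T v ∈ W' := by
      intro v hv
      have h3 := h2 ⟨v, hv⟩
      simp only at h3
      rw [h3]
      exact hv
    rw [det_of_compl T hW'1 hTW hTW']
    have h5 : T.restrict hTW = T₁ := by
      apply LinearMap.ext
      intro v
      apply Subtype.ext
      exact h1 v
    have h6 : T.restrict hTW' = 1 := by
      apply LinearMap.ext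
      intro v
      apply Subtype.ext
      exact h2 v
    rw [h5, h6, map_one, mul_one, hdet₁]

end Cfsg.Agent.Lib.Geo
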