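import Mathlib
import Cfsg.Agent.Lib.Geo.ElusIrrModel
import Cfsg.Agent.Lib.Geo.ElusInvol
import Cfsg.Agent.Lib.Geo.FieldNorm

set_option autoImplicit false

/-! Degree two field structures and maps normalizing them. -/

namespace Cfsg.Agent.Lib.Geo

open Polynomial Module

universe u

section Tools

variable {F : Type*} [Field F] {V : Type u} [AddCommGroup V] [Module F V] [FiniteDimensional F V]

/-- A map with an eigenvector and an invariant complement of the eigenspace can be corrected to have any determinant. -/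
theorem exists_eigen_dil {y : V →ₗ[F] V} {A B : Submodule F V} (hc : IsCompl A B) {lam : F} (hA : ∀ v ∈ A, y v = lam • v)
    (hB : ∀ v ∈ B, y v ∈ B) (hne : A ≠ ⊥) (t : F) :
    ∃ T : Module.End F V, (∀ v, T (y v) = y (T v)) ∧ LinearMap.det T = t := by
  obtain ⟨u, hu, hu0⟩ := Submodule.exists_mem_ne_zero_of_ne_bot hne
  have hnot : (⟨u, hu⟩ : A) ∉ (⊥ : Submodule F A) := by
    intro h
    exact hu0 (by simpa using h)
  obtain ⟨ψ, hψ, -⟩ := exists_functional_abstract (⊥ : Submodule F A) hnot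
  obtain ⟨φ, hφ⟩ : ∃ φ : V →ₗ[F] F, φ = ψ ∘ₗ Submodule.linearProjOfIsCompl A B hc := ⟨_, rfl⟩
  have hφu : φ u = 1 := by
    rw [hφ, LinearMap.comp_apply]
    have h1 : Submodule.linearProjOfIsCompl A B hc u = ⟨u, hu⟩ := Submodule.linearProjOfIsCompl_apply_left hc ⟨u, hu⟩
    rw [h1, hψ]
  have hφy : ∀ v, φ (y v) = lam * φ v := by
    intro v
    have h3 : v ∈ A ⊔ B := by rw [hc.sup_eq_top]; trivial
    obtain ⟨a, ha, b, hb, rfl⟩ := Submodule.mem_sup.1 h3
    have h4 : ∀ (a : V) (ha : a ∈ A), ∀ b ∈ B, φ (a + b) = ψ ⟨a, ha⟩ := by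
      intro a ha b hb
      rw [hφ, LinearMap.comp_apply, map_add]
      have h1 : Submodule.linearProjOfIsCompl A B hc a = ⟨a, ha⟩ := Submodule.linearProjOfIsCompl_apply_left hc ⟨a, ha⟩
      have h2 : Submodule.linearProjOfIsCompl A B hc b = 0 := Submodule.linearProjOfIsCompl_apply_right hc ⟨b, hb⟩
      rw [h1, h2, add_zero]
    rw [map_add, hA a ha, h4 _ (A.smul_mem lam ha) _ (hB b hb), h4 a ha b hb, ← smul_eq_mul, ← map_smul]
    rfl
  have hcompl : IsCompl (Submodule.span F {u}) (LinearMap.ker φ) := by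
    constructor
    · rw [Submodule.disjoint_def]
      intro v hv h0
      obtain ⟨c, rfl⟩ := Submodule.mem_span_singleton.1 hv
      have h5 : φ (c • u) = 0 := h0
      rw [map_smul, hφu, smul_eq_mul, mul_one] at h5
      rw [h5, zero_smul]
    · rw [codisjoint_iff, eq_top_iff]
      intro v _
      have h6 : v = φ v • u + (v - φ v • u) := by abel
      rw [h6]
      apply Submodule.add_mem_sup (Submodule.smul_mem _ _ (Submodule.mem_span_singleton_self u))
      show φ (v - φ v • u) = 0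
      rw [map_sub, map_smul, hφu, smul_eq_mul, mul_one, sub_self]
  obtain ⟨T, h1, h2⟩ := exists_dil hcompl y (by
    intro v hv
    obtain ⟨c, rfl⟩ := Submodule.mem_span_singleton.1 hv
    rw [map_smul, hA u hu, smul_comm]
    exact Submodule.smul_mem _ _ (Submodule.smul_mem _ _ (Submodule.mem_span_singleton_self u))) (by
    intro v hv
    show φ (y v) = 0
    rw [hφy]
    have : φ v = 0 := hv
    rw [this, mul_zero]) t
  refine ⟨T, h1, ?_⟩
  rw [h2, finrank_span_singleton hu0, pow_one]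

/-- Maps with the same eigenspace dimensions are conjugate. -/
theorem conj_of_eigen {y₁ y₂ : V →ₗ[F] V} {w : F} (h2 : (2 : F) ≠ 0) (hw : w ≠ 0)
    (h₁ : y₁ ^ 2 = (w ^ 2) • (1 : Module.End F V)) (h₂ : y₂ ^ 2 = (w ^ 2) • (1 : Module.End F V))
    (hd : finrank F (LinearMap.ker (y₁ - w • (1 : Module.End F V))) = finrank F (LinearMap.ker (y₂ - w • (1 : Module.End F V)))) :
    ∃ e : V ≃ₗ[F] V, ∀ v, e (y₁ v) = y₂ (e v) := by
  have hc₁ := eigen_compl h2 hw y₁ h₁
  have hc₂ := eigen_compl h2 hw y₂ h₂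
  have hmem : ∀ (y : Module.End F V) (t : F) (v : V), v ∈ LinearMap.ker (y - t • (1 : Module.End F V)) ↔ y v = t • v := by
    intro y t v
    simp only [LinearMap.mem_ker, LinearMap.sub_apply, LinearMap.smul_apply, Module.End.one_apply, sub_eq_zero]
  have hd' : finrank F (LinearMap.ker (y₁ - (-w) • (1 : Module.End F V))) = finrank F (LinearMap.ker (y₂ - (-w) • (1 : Module.End F V))) := by
    have h3 := Submodule.finrank_add_eq_of_isCompl hc₁
    have h4 := Submodule.finrank_add_eq_of_isCompl hc₂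
    omega
  let A := LinearEquiv.ofFinrankEq _ _ hd
  let B := LinearEquiv.ofFinrankEq _ _ hd'
  obtain ⟨T, hT⟩ : ∃ T : V →ₗ[F] V, T = LinearMap.ofIsCompl hc₁ ((LinearMap.ker (y₂ - w • (1 : Module.End F V))).subtype ∘ₗ A.toLinearMap)
      ((LinearMap.ker (y₂ - (-w) • (1 : Module.End F V))).subtype ∘ₗ B.toLinearMap) := ⟨_, rfl⟩
  have h5 : ∀ a, T ((a : LinearMap.ker (y₁ - w • (1 : Module.End F V))) : V) = A a := by
    intro a
    rw [hT, LinearMap.ofIsCompl_left_apply]
    rfl
  have h6 : ∀ b, T ((b : LinearMap.ker (y₁ - (-w) • (1 : Module.End F V))) : V) = B b := by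
    intro b
    rw [hT, LinearMap.ofIsCompl_right_apply]
    rfl
  have hTs : Function.Surjective T := by
    intro v
    have h3 : v ∈ LinearMap.ker (y₂ - w • (1 : Module.End F V)) ⊔ LinearMap.ker (y₂ - (-w) • (1 : Module.End F V)) := by
      rw [hc₂.sup_eq_top]; trivial
    obtain ⟨a, ha, b, hb, rfl⟩ := Submodule.mem_sup.1 h3
    refine ⟨(A.symm ⟨a, ha⟩ : LinearMap.ker (y₁ - w • (1 : Module.End F V))) + (B.symm ⟨b, hb⟩ : LinearMap.ker (y₁ - (-w) • (1 : Module.End F V))), ?_⟩
    rw [map_add, h5, h6]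
    simp
  have hTi : Function.Injective T := LinearMap.injective_iff_surjective.2 hTs
  refine ⟨LinearEquiv.ofBijective T ⟨hTi, hTs⟩, ?_⟩
  intro v
  show T (y₁ v) = y₂ (T v)
  have h3 : v ∈ LinearMap.ker (y₁ - w • (1 : Module.End F V)) ⊔ LinearMap.ker (y₁ - (-w) • (1 : Module.End F V)) := by
    rw [hc₁.sup_eq_top]; trivial
  obtain ⟨a, ha, b, hb, rfl⟩ := Submodule.mem_sup.1 h3
  have ha' := (hmem y₁ w a).1 ha
  have hb' := (hmem y₁ (-w) b).1 hb
  have h7 : T a = A ⟨a, ha⟩ := h5 ⟨a, ha⟩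
  have h8 : T b = B ⟨b, hb⟩ := h6 ⟨b, hb⟩
  have h9 := (hmem y₂ w _).1 (A ⟨a, ha⟩).2
  have h10 := (hmem y₂ (-w) _).1 (B ⟨b, hb⟩).2
  rw [map_add, map_add, ha', hb', map_add, map_add, map_smul, map_smul, h7, h8, h9, h10]

end Tools

section Struct

variable {F : Type*} [Field F] {n : ℕ}

/-- The structure of a field of degree two in the matrices. -/
theorem k2_struct (hn : 0 < n) {K : Subalgebra F (Matrix (Fin n) (Fin n) F)} (hK : Cfsg.Geo.IsFieldSubalgebra 2 K) :
    ∃ (θ : Matrix (Fin n) (Fin n) F) (t m : F), θ ∈ K ∧ (∀ c : F, θ ≠ c • 1) ∧ (∀ k ∈ K, ∃ a b : F, k = a • 1 + b • θ) ∧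
      θ * θ = t • θ - m • 1 ∧ Irreducible (X ^ 2 - C t * X + C m : F[X]) := by
  classical
  haveI : Nonempty (Fin n) := ⟨⟨0, hn⟩⟩
  have hone : (1 : Matrix (Fin n) (Fin n) F) ≠ 0 := one_ne_zero
  have hfK : finrank F (Subalgebra.toSubmodule K) = 2 := hK.finrank_eq
  obtain ⟨θ, hθK, hθ1⟩ : ∃ θ ∈ K, ∀ c : F, θ ≠ c • 1 := by
    by_contra hcon
    push Not at hcon
    have hle : Subalgebra.toSubmodule K ≤ Submodule.span F {(1 : Matrix (Fin n) (Fin n) F)} := by
      intro k hk
      obtain ⟨c, rfl⟩ := hcon k hk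
      exact Submodule.smul_mem _ _ (Submodule.mem_span_singleton_self _)
    have h1 := Submodule.finrank_mono hle
    rw [hfK, finrank_span_singleton hone] at h1
    omega
  have hli : LinearIndependent F ![(1 : Matrix (Fin n) (Fin n) F), θ] := by
    rw [LinearIndependent.pair_iff]
    intro a b hab
    by_cases hb : b = 0
    · subst hb
      simp only [zero_smul, add_zero] at hab
      exact ⟨(smul_eq_zero.1 hab).resolve_right hone, rfl⟩
    · exfalso
      apply hθ1 (-(a / b))
      have h1 : θ = b⁻¹ • (b • θ) := by rw [smul_smul, inv_mul_cancel₀ hb, one_smul]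
      rw [h1, eq_neg_of_add_eq_zero_right hab, smul_neg, smul_smul, neg_smul]
      congr 2
      field_simp
  have hspan : Subalgebra.toSubmodule K = Submodule.span F (Set.range ![(1 : Matrix (Fin n) (Fin n) F), θ]) := by
    symm
    apply Submodule.eq_of_le_of_finrank_eq
    · rw [Submodule.span_le]
      rintro _ ⟨i, rfl⟩
      fin_cases i
      · exact K.one_mem
      · exact hθK
    · rw [finrank_span_eq_card hli, hfK]
      simp
  have hexp : ∀ k ∈ K, ∃ a b : F, k = a • 1 + b • θ := by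
    intro k hk
    have h1 : k ∈ Submodule.span F (Set.range ![(1 : Matrix (Fin n) (Fin n) F), θ]) := by
      rw [← hspan]; exact hk
    rw [Matrix.range_cons, Matrix.range_cons, Matrix.range_empty, Set.union_empty, Set.singleton_union] at h1
    obtain ⟨a, b, hab⟩ := Submodule.mem_span_pair.1 h1
    exact ⟨a, b, hab.symm⟩
  obtain ⟨a, b, hab⟩ := hexp (θ * θ) (K.mul_mem hθK hθK)
  refine ⟨θ, b, -a, hθK, hθ1, hexp, ?_, ?_⟩
  · rw [hab, neg_smul, sub_neg_eq_add, add_comm]
  · have hsc : ∀ c : F, c • (1 : Matrix (Fin n) (Fin n) F) ∈ K := fun c => by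
      rw [← Algebra.algebraMap_eq_smul_one]
      exact K.algebraMap_mem c
    have hmon : (X ^ 2 - C b * X + C (-a) : F[X]).Monic := by
      have : (X ^ 2 - C b * X + C (-a) : F[X]) = X ^ 2 + (C (-b) * X + C (-a)) := by
        simp only [C_neg]; ring
      rw [this]
      apply monic_X_pow_add
      calc (C (-b) * X + C (-a) : F[X]).degree ≤ 1 := degree_linear_le
        _ < 2 := by norm_num
    have hdeg : (X ^ 2 - C b * X + C (-a) : F[X]).natDegree = 2 := by
      have : (X ^ 2 - C b * X + C (-a) : F[X]) = C 1 * X ^ 2 + C (-b) * X + C (-a) := by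
        simp only [C_neg, C_1]; ring
      rw [this]
      exact natDegree_quadratic one_ne_zero
    apply (Monic.irreducible_iff_roots_eq_zero_of_degree_le_three hmon (by omega) (by omega)).2
    rw [Multiset.eq_zero_iff_forall_notMem]
    intro c hc
    have hc' : c ^ 2 - b * c + (-a) = 0 := by
      have := (mem_roots'.1 hc).2
      simpa [IsRoot.def] using this
    -- `θ - c` and `θ - (b - c)` multiply to zero
    have h1 : (θ - c • 1) * (θ - (b - c) • 1) = 0 := by
      have h2 : (θ - c • 1) * (θ - (b - c) • 1) = θ * θ - b • θ + (c * (b - c)) • 1 := by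
        obtain ⟨d, hd⟩ : ∃ d, d = b - c := ⟨_, rfl⟩
        have hb : b = d + c := by rw [hd]; ring
        rw [← hd, hb]
        have e1 : θ * (d • (1 : Matrix (Fin n) (Fin n) F)) = d • θ := by rw [mul_smul_comm, mul_one]
        have e2 : (c • (1 : Matrix (Fin n) (Fin n) F)) * θ = c • θ := by rw [smul_mul_assoc, one_mul]
        have e3 : (c • (1 : Matrix (Fin n) (Fin n) F)) * (d • (1 : Matrix (Fin n) (Fin n) F)) = (c * d) • 1 := by
          rw [smul_mul_assoc, one_mul, smul_smul]
        rw [sub_mul, mul_sub, mul_sub, e1, e2, e3, add_smul]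
        abel
      rw [h2, hab]
      have h3 : c * (b - c) = -a := by linear_combination -hc'
      rw [h3, neg_smul]
      abel
    by_cases h4 : θ - c • 1 = 0
    · exact hθ1 c (sub_eq_zero.1 h4)
    · obtain ⟨w, hw, hw2⟩ := hK.inv _ (K.sub_mem hθK (hsc c)) h4
      have h5 : w * (θ - c • 1) = 1 := by
        rw [hK.comm w hw _ (K.sub_mem hθK (hsc c)), hw2]
      have h6 : θ - (b - c) • 1 = 0 := by
        calc θ - (b - c) • 1 = (w * (θ - c • 1)) * (θ - (b - c) • 1) := by rw [h5, one_mul]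
          _ = 0 := by rw [mul_assoc, h1, mul_zero]
      exact hθ1 (b - c) (sub_eq_zero.1 h6)

end Struct

section Norm

variable {F : Type*} [Field F] {n : ℕ} {K : Subalgebra F (Matrix (Fin n) (Fin n) F)}

/-- Elements of `K` cancel. -/
theorem k2_cancel (hK : Cfsg.Geo.IsFieldSubalgebra 2 K) {a : Matrix (Fin n) (Fin n) F} (ha : a ∈ K) (ha0 : a ≠ 0) :
    ∃ w, w * a = 1 := by
  obtain ⟨w, hw, hw2⟩ := hK.inv a ha ha0
  exact ⟨w, by rw [hK.comm w hw a ha, hw2]⟩

/-- An element normalizing `K` acts as the identity or the conjugation on `K`. -/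
theorem k2_dichotomy (hK : Cfsg.Geo.IsFieldSubalgebra 2 K) {θ : Matrix (Fin n) (Fin n) F} {t m : F} (hθK : θ ∈ K)
    (hθθ : θ * θ = t • θ - m • 1) (g : GL (Fin n) F) (hg : g ∈ Cfsg.Geo.subalgebraNormalizer K) :
    (g : Matrix (Fin n) (Fin n) F) * θ = θ * g ∨ (g : Matrix (Fin n) (Fin n) F) * θ = (t • 1 - θ) * g := by
  have hsc : ∀ c : F, c • (1 : Matrix (Fin n) (Fin n) F) ∈ K := fun c => by
    rw [← Algebra.algebraMap_eq_smul_one]
    exact K.algebraMap_mem c
  obtain ⟨θ', hθ'⟩ : ∃ θ', θ' = (g : Matrix (Fin n) (Fin n) F) * θ * ((g⁻¹ : GL (Fin n) F) : Matrix (Fin n) (Fin n) F) := ⟨_, rfl⟩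
  have hθ'K : θ' ∈ K := by
    rw [hθ']
    exact (hg θ).1 hθK
  have hgg : ((g⁻¹ : GL (Fin n) F) : Matrix (Fin n) (Fin n) F) * g = 1 := by
    rw [← Units.val_mul, inv_mul_cancel, Units.val_one]
  have hgg2 : (g : Matrix (Fin n) (Fin n) F) * ((g⁻¹ : GL (Fin n) F) : Matrix (Fin n) (Fin n) F) = 1 := by
    rw [← Units.val_mul, mul_inv_cancel, Units.val_one]
  have hgθ : θ' * g = (g : Matrix (Fin n) (Fin n) F) * θ := by
    rw [hθ', mul_assoc, hgg, mul_one]
  have hsq : θ' * θ' = t • θ' - m • 1 := by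
    have h1 : θ' * θ' = (g : Matrix (Fin n) (Fin n) F) * (θ * θ) * ((g⁻¹ : GL (Fin n) F) : Matrix (Fin n) (Fin n) F) := by
      rw [hθ']
      calc _ = (g : Matrix (Fin n) (Fin n) F) * θ * (((g⁻¹ : GL (Fin n) F) : Matrix (Fin n) (Fin n) F) * g) * θ * ((g⁻¹ : GL (Fin n) F) : Matrix (Fin n) (Fin n) F) := by
            simp only [mul_assoc]
        _ = _ := by rw [hgg, mul_one]; simp only [mul_assoc]
    rw [h1, hθθ, mul_sub, sub_mul, hθ', mul_smul_comm, smul_mul_assoc, mul_smul_comm, smul_mul_assoc, mul_one, hgg2]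
  have hcomm := hK.comm θ' hθ'K θ hθK
  have hprod : (θ' - θ) * (θ' - (t • 1 - θ)) = 0 := by
    have e1 : θ' * (t • (1 : Matrix (Fin n) (Fin n) F)) = t • θ' := by rw [mul_smul_comm, mul_one]
    have e2 : θ * (t • (1 : Matrix (Fin n) (Fin n) F)) = t • θ := by rw [mul_smul_comm, mul_one]
    rw [sub_mul, mul_sub, mul_sub, mul_sub, mul_sub, hsq, hθθ, e1, e2, hcomm]
    abel
  by_cases h0 : θ' - θ = 0
  · left
    rw [← hgθ, sub_eq_zero.1 h0]
  · right
    obtain ⟨w, hw⟩ := k2_cancel hK (K.sub_mem hθ'K hθK) h0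
    have h1 : θ' - (t • 1 - θ) = 0 := by
      calc θ' - (t • 1 - θ) = (w * (θ' - θ)) * (θ' - (t • 1 - θ)) := by rw [hw, one_mul]
        _ = 0 := by rw [mul_assoc, hprod, mul_zero]
    rw [← hgθ, sub_eq_zero.1 h1]

/-- Maps preserving the field up to a polynomial in `θ` normalize it. -/
theorem k2_mem_norm [Finite F] {θ : Matrix (Fin n) (Fin n) F} (hθK : θ ∈ K) (hexp : ∀ k ∈ K, ∃ a b : F, k = a • 1 + b • θ)
    (g : GL (Fin n) F) {a b : F} (hg : (g : Matrix (Fin n) (Fin n) F) * θ = (a • 1 + b • θ) * g) :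
    g ∈ Cfsg.Geo.subalgebraNormalizer K := by
  have hsc : ∀ c : F, c • (1 : Matrix (Fin n) (Fin n) F) ∈ K := fun c => by
    rw [← Algebra.algebraMap_eq_smul_one]
    exact K.algebraMap_mem c
  have hgg : ((g⁻¹ : GL (Fin n) F) : Matrix (Fin n) (Fin n) F) * g = 1 := by
    rw [← Units.val_mul, inv_mul_cancel, Units.val_one]
  have hgg2 : (g : Matrix (Fin n) (Fin n) F) * ((g⁻¹ : GL (Fin n) F) : Matrix (Fin n) (Fin n) F) = 1 := by
    rw [← Units.val_mul, mul_inv_cancel, Units.val_one]
  have hfwd : ∀ k ∈ K, (g : Matrix (Fin n) (Fin n) F) * k * ((g⁻¹ : GL (Fin n) F) : Matrix (Fin n) (Fin n) F) ∈ K := by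
    intro k hk
    obtain ⟨c, d, rfl⟩ := hexp k hk
    rw [mul_add, add_mul, mul_smul_comm, mul_smul_comm, mul_one, smul_mul_assoc, smul_mul_assoc, hg, mul_assoc, hgg2, mul_one]
    exact K.add_mem (hsc c) (K.smul_mem (K.add_mem (hsc a) (K.smul_mem hθK b)) d)
  intro k
  refine ⟨hfwd k, fun hk => ?_⟩
  -- the conjugation on `K` is injective, hence surjective
  let c : K →ₗ[F] K :=
    { toFun := fun u => ⟨(g : Matrix (Fin n) (Fin n) F) * u * ((g⁻¹ : GL (Fin n) F) : Matrix (Fin n) (Fin n) F), hfwd u u.2⟩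
      map_add' := fun u v => by
        apply Subtype.ext
        simp [mul_add, add_mul]
      map_smul' := fun r u => by
        apply Subtype.ext
        simp }
  have hinj : Function.Injective c := by
    intro u v huv
    have h1 := congrArg Subtype.val huv
    simp only [c, LinearMap.coe_mk, AddHom.coe_mk] at h1
    apply Subtype.ext
    have h2 := congrArg (fun A => ((g⁻¹ : GL (Fin n) F) : Matrix (Fin n) (Fin n) F) * A * g) h1
    simp only [mul_assoc, hgg, mul_one] at h2
    simpa only [← mul_assoc, hgg, one_mul] using h2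
  haveI : Finite K := Finite.of_injective (fun u : K => (u : Matrix (Fin n) (Fin n) F)) Subtype.val_injective
  haveI : Module.Finite F K := Module.Finite.of_finite
  have hsurj := LinearMap.injective_iff_surjective.1 hinj
  obtain ⟨u, hu⟩ := hsurj ⟨_, hk⟩
  have h1 := congrArg Subtype.val hu
  simp only [c, LinearMap.coe_mk, AddHom.coe_mk] at h1
  have h2 := congrArg (fun A => ((g⁻¹ : GL (Fin n) F) : Matrix (Fin n) (Fin n) F) * A * g) h1
  simp only [mul_assoc, hgg, mul_one] at h2
  have h3 : (u : Matrix (Fin n) (Fin n) F) = k := by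
    simpa only [← mul_assoc, hgg, one_mul] using h2
  rw [← h3]
  exact u.2

/-- Elements of the normalizer have small eigenspaces. -/
theorem k2_ker_bound (hn : 3 ≤ n) (hev : Even n) (hK : Cfsg.Geo.IsFieldSubalgebra 2 K) {θ : Matrix (Fin n) (Fin n) F} {t m : F}
    (hθK : θ ∈ K) (hθ1 : ∀ c : F, θ ≠ c • 1) (hθθ : θ * θ = t • θ - m • 1) (hirr : Irreducible (X ^ 2 - C t * X + C m : F[X]))
    (g : GL (Fin n) F) (hg : g ∈ Cfsg.Geo.subalgebraNormalizer K) {α : F} (hα : α ≠ 0)
    (hW : finrank F (LinearMap.ker (Matrix.toLin' (g : Matrix (Fin n) (Fin n) F) - α • (1 : Module.End F (Fin n → F)))) = n - 1) : False := by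
  obtain ⟨y, hy⟩ : ∃ y : Module.End F (Fin n → F), y = Matrix.toLin' θ := ⟨_, rfl⟩
  obtain ⟨G, hG⟩ : ∃ G : Module.End F (Fin n → F), G = Matrix.toLin' (g : Matrix (Fin n) (Fin n) F) := ⟨_, rfl⟩
  rw [← hG] at hW
  have hGy : ∀ (A : Matrix (Fin n) (Fin n) F) (v : Fin n → F), Matrix.toLin' A v = A.mulVec v := fun A v => rfl
  have hann : aeval y (X ^ 2 - C t * X + C m : F[X]) = 0 := by
    apply LinearMap.ext
    intro v
    have h1 : y (y v) = t • y v - m • v := by
      rw [hy, hGy, hGy, Matrix.mulVec_mulVec, hθθ, Matrix.sub_mulVec, Matrix.smul_mulVec, Matrix.smul_mulVec, Matrix.one_mulVec]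
    simp only [map_add, map_sub, map_mul, map_pow, aeval_X, aeval_C, LinearMap.add_apply, LinearMap.sub_apply, pow_two,
      Module.End.mul_apply, Module.algebraMap_end_apply, LinearMap.zero_apply]
    rw [h1]
    abel
  have hmem : ∀ v, v ∈ LinearMap.ker (G - α • (1 : Module.End F (Fin n → F))) ↔ G v = α • v := by
    intro v
    simp only [LinearMap.mem_ker, LinearMap.sub_apply, LinearMap.smul_apply, Module.End.one_apply, sub_eq_zero]
  obtain ⟨W, hWd⟩ : ∃ W, W = LinearMap.ker (G - α • (1 : Module.End F (Fin n → F))) := ⟨_, rfl⟩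
  rw [← hWd] at hW
  have hWmem : ∀ v, v ∈ W ↔ G v = α • v := fun v => by rw [hWd]; exact hmem v
  obtain ⟨e, he⟩ := hev
  rcases k2_dichotomy hK hθK hθθ g hg with h1 | h1
  · have hcomm : ∀ v, G (y v) = y (G v) := by
      intro v
      rw [hG, hy, hGy, hGy, hGy, hGy, Matrix.mulVec_mulVec, Matrix.mulVec_mulVec, h1]
    have hinv : ∀ v ∈ W, y v ∈ W := by
      intro v hv
      rw [hWmem] at hv ⊢
      rw [hcomm, hv, map_smul]
    have hd := irr_dvd_of_inv y hirr hann W hinv
    have hdeg : (X ^ 2 - C t * X + C m : F[X]).natDegree = 2 := by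
      have : (X ^ 2 - C t * X + C m : F[X]) = C 1 * X ^ 2 + C (-t) * X + C m := by
        simp only [C_neg, C_1]; ring
      rw [this]
      exact natDegree_quadratic one_ne_zero
    rw [hdeg, hW] at hd
    omega
  · have hc : ∀ v, G (y v) = t • G v - y (G v) := by
      intro v
      rw [hG, hy, hGy, hGy, hGy, hGy, Matrix.mulVec_mulVec, Matrix.mulVec_mulVec, h1, Matrix.sub_mul, Matrix.sub_mulVec, Matrix.smul_mul, Matrix.one_mul, Matrix.smul_mulVec]
    have hyinj : Function.Injective y := by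
      rw [injective_iff_map_eq_zero]
      intro v hv
      have h0 : θ ≠ 0 := by
        intro h
        apply hθ1 0
        rw [h, zero_smul]
      obtain ⟨w, hw⟩ := k2_cancel hK hθK h0
      have h2 : (w * θ).mulVec v = w.mulVec (θ.mulVec v) := (Matrix.mulVec_mulVec _ _ _).symm
      rw [hw, Matrix.one_mulVec] at h2
      rw [h2]
      have h3 : θ.mulVec v = 0 := by rw [← hGy, ← hy]; exact hv
      rw [h3, Matrix.mulVec_zero]
    have hinf : W ⊓ W.map y = ⊥ := by
      rw [eq_bot_iff]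
      rintro u ⟨h2, u', h3, rfl⟩
      rw [SetLike.mem_coe, hWmem] at h2 h3
      have h4 : α • y u' = t • G u' - y (G u') := by rw [← h2, hc]
      rw [h3, map_smul, smul_comm] at h4
      have h5 : α • (y u' - (t • u' - y u')) = 0 := by
        rw [smul_sub, h4, smul_sub]
        abel
      have h6 : y u' - (t • u' - y u') = 0 := (smul_eq_zero.1 h5).resolve_left hα
      by_cases hne : θ - (t • 1 - θ) = 0
      · -- the two coincide: then `G` commutes with `y`
        have h7 : t • (1 : Matrix (Fin n) (Fin n) F) - θ = θ := (sub_eq_zero.1 hne).symm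
        rw [h7] at h1
        have hcomm : ∀ v, G (y v) = y (G v) := by
          intro v
          rw [hG, hy, hGy, hGy, hGy, hGy, Matrix.mulVec_mulVec, Matrix.mulVec_mulVec, h1]
        exfalso
        have hinv : ∀ v ∈ W, y v ∈ W := by
          intro v hv
          rw [hWmem] at hv ⊢
          rw [hcomm, hv, map_smul]
        have hd := irr_dvd_of_inv y hirr hann W hinv
        have hdeg : (X ^ 2 - C t * X + C m : F[X]).natDegree = 2 := by
          have : (X ^ 2 - C t * X + C m : F[X]) = C 1 * X ^ 2 + C (-t) * X + C m := by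
            simp only [C_neg, C_1]; ring
          rw [this]
          exact natDegree_quadratic one_ne_zero
        rw [hdeg, hW] at hd
        omega
      · have hsc : t • (1 : Matrix (Fin n) (Fin n) F) ∈ K := by
          rw [← Algebra.algebraMap_eq_smul_one]
          exact K.algebraMap_mem t
        obtain ⟨w, hw⟩ := k2_cancel hK (K.sub_mem hθK (K.sub_mem hsc hθK)) hne
        have h8 : (θ - (t • 1 - θ)).mulVec u' = 0 := by
          rw [Matrix.sub_mulVec, Matrix.sub_mulVec, Matrix.smul_mulVec, Matrix.one_mulVec, ← hGy, ← hy]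
          exact h6
        have h9 : (w * (θ - (t • 1 - θ))).mulVec u' = w.mulVec ((θ - (t • 1 - θ)).mulVec u') := (Matrix.mulVec_mulVec _ _ _).symm
        rw [hw, Matrix.one_mulVec, h8, Matrix.mulVec_zero] at h9
        rw [h9, map_zero]
        rfl
    have h10 := Submodule.finrank_sup_add_finrank_inf_eq W (W.map y)
    rw [hinf, finrank_bot, finrank_map_inj y hyinj, hW, add_zero] at h10
    have h11 := Submodule.finrank_le (W ⊔ W.map y)
    simp only [finrank_fin_fun] at h11
    omega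

end Norm

section Pos

variable {F : Type*} [Field F] {n : ℕ}

theorem finrank_ker_conj (P : Matrix.SpecialLinearGroup (Fin n) F) (x : Matrix.SpecialLinearGroup (Fin n) F) (α : F) :
    finrank F (LinearMap.ker (Matrix.toLin' ((P⁻¹ * x * P : Matrix.SpecialLinearGroup (Fin n) F) : Matrix (Fin n) (Fin n) F) - α • (1 : Module.End F (Fin n → F)))) =
      finrank F (LinearMap.ker (Matrix.toLin' (x : Matrix (Fin n) (Fin n) F) - α • (1 : Module.End F (Fin n → F)))) := by
  have hPP : ∀ v, Matrix.toLin' (P : Matrix (Fin n) (Fin n) F) (Matrix.toLin' ((P⁻¹ : Matrix.SpecialLinearGroup (Fin n) F) : Matrix (Fin n) (Fin n) F) v) = v := by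
    intro v
    rw [Matrix.toLin'_apply, Matrix.toLin'_apply, Matrix.mulVec_mulVec, ← Matrix.SpecialLinearGroup.coe_mul, mul_inv_cancel, Matrix.SpecialLinearGroup.coe_one, Matrix.one_mulVec]
  have hPP' : ∀ v, Matrix.toLin' ((P⁻¹ : Matrix.SpecialLinearGroup (Fin n) F) : Matrix (Fin n) (Fin n) F) (Matrix.toLin' (P : Matrix (Fin n) (Fin n) F) v) = v := by
    intro v
    rw [Matrix.toLin'_apply, Matrix.toLin'_apply, Matrix.mulVec_mulVec, ← Matrix.SpecialLinearGroup.coe_mul, inv_mul_cancel, Matrix.SpecialLinearGroup.coe_one, Matrix.one_mulVec]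
  have hA : ∀ v, Matrix.toLin' ((P⁻¹ * x * P : Matrix.SpecialLinearGroup (Fin n) F) : Matrix (Fin n) (Fin n) F) v =
      Matrix.toLin' ((P⁻¹ : Matrix.SpecialLinearGroup (Fin n) F) : Matrix (Fin n) (Fin n) F) (Matrix.toLin' (x : Matrix (Fin n) (Fin n) F) (Matrix.toLin' (P : Matrix (Fin n) (Fin n) F) v)) := by
    intro v
    simp only [Matrix.SpecialLinearGroup.coe_mul, Matrix.toLin'_apply, Matrix.mulVec_mulVec]
    rw [mul_assoc]
  have hinj : Function.Injective (Matrix.toLin' (P : Matrix (Fin n) (Fin n) F)) :=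
    Function.LeftInverse.injective hPP'
  have h1 : (LinearMap.ker (Matrix.toLin' (x : Matrix (Fin n) (Fin n) F) - α • (1 : Module.End F (Fin n → F)))) =
      (LinearMap.ker (Matrix.toLin' ((P⁻¹ * x * P : Matrix.SpecialLinearGroup (Fin n) F) : Matrix (Fin n) (Fin n) F) - α • (1 : Module.End F (Fin n → F)))).map (Matrix.toLin' (P : Matrix (Fin n) (Fin n) F)) := by
    ext v
    simp only [LinearMap.mem_ker, LinearMap.sub_apply, LinearMap.smul_apply, Module.End.one_apply, sub_eq_zero, Submodule.mem_map]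
    constructor
    · intro h
      refine ⟨Matrix.toLin' ((P⁻¹ : Matrix.SpecialLinearGroup (Fin n) F) : Matrix (Fin n) (Fin n) F) v, ?_, hPP v⟩
      rw [hA, hPP, h, map_smul]
    · rintro ⟨u, hu, rfl⟩
      rw [hA] at hu
      have h2 := congrArg (Matrix.toLin' (P : Matrix (Fin n) (Fin n) F)) hu
      rw [hPP, map_smul] at h2
      exact h2
  rw [h1, finrank_map_inj _ hinj]

/-- From a conjugating map of determinant one to a conjugate in the special linear group. -/
theorem sl_conj_of_end (x : Matrix.SpecialLinearGroup (Fin n) F) (e : Module.End F (Fin n → F)) (hdet : LinearMap.det e = 1)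
    (x' : Module.End F (Fin n → F)) (h : ∀ v, e (x' v) = Matrix.toLin' (x : Matrix (Fin n) (Fin n) F) (e v)) :
    ∃ P : Matrix.SpecialLinearGroup (Fin n) F, Matrix.toLin' ((P⁻¹ * x * P : Matrix.SpecialLinearGroup (Fin n) F) : Matrix (Fin n) (Fin n) F) = x' := by
  obtain ⟨P, hP⟩ := sl_exists_of_det e hdet
  refine ⟨P, ?_⟩
  apply LinearMap.ext
  intro v
  have hPinj : Function.Injective (Matrix.toLin' (P : Matrix (Fin n) (Fin n) F)) := by
    apply Function.LeftInverse.injective (g := Matrix.toLin' ((P⁻¹ : Matrix.SpecialLinearGroup (Fin n) F) : Matrix (Fin n) (Fin n) F))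
    intro v
    rw [Matrix.toLin'_apply, Matrix.toLin'_apply, Matrix.mulVec_mulVec, ← Matrix.SpecialLinearGroup.coe_mul, inv_mul_cancel, Matrix.SpecialLinearGroup.coe_one, Matrix.one_mulVec]
  apply hPinj
  rw [hP, h, ← hP]
  simp only [Matrix.SpecialLinearGroup.coe_mul, Matrix.toLin'_apply, Matrix.mulVec_mulVec]
  rw [← mul_assoc, ← mul_assoc, ← Matrix.SpecialLinearGroup.coe_mul, mul_inv_cancel, Matrix.SpecialLinearGroup.coe_one, one_mul]

/-- The final step: membership in the normalizer. -/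
theorem k2_final [Finite F] {K : Subalgebra F (Matrix (Fin n) (Fin n) F)} {θ : Matrix (Fin n) (Fin n) F} (hθK : θ ∈ K)
    (hexp : ∀ k ∈ K, ∃ a b : F, k = a • 1 + b • θ) (x : Matrix.SpecialLinearGroup (Fin n) F) (e : Module.End F (Fin n → F))
    (hdet : LinearMap.det e = 1) (x' : Module.End F (Fin n → F)) (h : ∀ v, e (x' v) = Matrix.toLin' (x : Matrix (Fin n) (Fin n) F) (e v))
    {a b : F} (hx' : ∀ v, x' (Matrix.toLin' θ v) = a • x' v + b • Matrix.toLin' θ (x' v)) :
    ∃ P : Matrix.SpecialLinearGroup (Fin n) F, P⁻¹ * x * P ∈ ((Cfsg.Geo.subalgebraNormalizer K).comap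
      (Matrix.SpecialLinearGroup.toGL : Matrix.SpecialLinearGroup (Fin n) F →* GL (Fin n) F)) := by
  obtain ⟨P, hP⟩ := sl_conj_of_end x e hdet x' h
  refine ⟨P, ?_⟩
  rw [Subgroup.mem_comap]
  apply k2_mem_norm hθK hexp _ (a := a) (b := b)
  show ((P⁻¹ * x * P : Matrix.SpecialLinearGroup (Fin n) F) : Matrix (Fin n) (Fin n) F) * θ = _ * ((P⁻¹ * x * P : Matrix.SpecialLinearGroup (Fin n) F) : Matrix (Fin n) (Fin n) F)
  apply Matrix.toLin'.injective
  apply LinearMap.ext
  intro v
  have e1 := hx' v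
  rw [← hP] at e1
  simp only [Matrix.toLin'_apply] at e1
  simp only [Matrix.toLin'_apply, Matrix.add_mul, Matrix.smul_mul, Matrix.one_mul, Matrix.add_mulVec, Matrix.smul_mulVec]
  rw [← Matrix.mulVec_mulVec, e1, Matrix.mulVec_mulVec]

/-- A map with prescribed eigenspaces. -/
theorem exists_eigen_model {V : Type*} [AddCommGroup V] [Module F V] {U₁ U₂ : Submodule F V} (hc : IsCompl U₁ U₂) (w : F) :
    ∃ x' : Module.End F V, (∀ u ∈ U₁, x' u = w • u) ∧ ∀ u ∈ U₂, x' u = (-w) • u := by
  refine ⟨LinearMap.ofIsCompl hc (w • U₁.subtype) ((-w) • U₂.subtype), fun u hu => ?_, fun u hu => ?_⟩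
  · have := LinearMap.ofIsCompl_left_apply hc (φ := w • U₁.subtype) (ψ := (-w) • U₂.subtype) ⟨u, hu⟩
    simpa using this
  · have := LinearMap.ofIsCompl_right_apply hc (φ := w • U₁.subtype) (ψ := (-w) • U₂.subtype) ⟨u, hu⟩
    simpa using this

end Pos

section Phi

variable {F : Type*} [Field F] {V : Type*} [AddCommGroup V] [Module F V] [FiniteDimensional F V]

/-- Independent pairs in a plane are conjugate. -/
theorem exists_equiv_pair (hV : finrank F V = 2) {a b a' b' : V} (h : LinearIndependent F ![a, b]) (h' : LinearIndependent F ![a', b']) :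
    ∃ e : V ≃ₗ[F] V, e a = a' ∧ e b = b' := by
  let B := basisOfLinearIndependentOfCardEqFinrank h (by simp [hV])
  let B' := basisOfLinearIndependentOfCardEqFinrank h' (by simp [hV])
  refine ⟨B.equiv B' (Equiv.refl _), ?_, ?_⟩
  · have := B.equiv_apply 0 B' (Equiv.refl _)
    simpa [B, B'] using this
  · have := B.equiv_apply 1 B' (Equiv.refl _)
    simpa [B, B'] using this

/-- The conjugation on a plane. -/
theorem k2_phi (hV : finrank F V = 2) (y : V →ₗ[F] V) {t m : F} (hyy : ∀ v, y (y v) = t • y v - m • v) {v₀ : V}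
    (hli : LinearIndependent F ![v₀, y v₀]) :
    ∃ φ : V →ₗ[F] V, φ v₀ = v₀ ∧ φ (y v₀) = t • v₀ - y v₀ ∧ (∀ v, φ (φ v) = v) ∧ ∀ v, φ (y v) = t • φ v - y (φ v) := by
  let B := basisOfLinearIndependentOfCardEqFinrank hli (by simp [hV])
  have hB0 : B 0 = v₀ := by simp [B]
  have hB1 : B 1 = y v₀ := by simp [B]
  have hext : ∀ A C : V →ₗ[F] V, A v₀ = C v₀ → A (y v₀) = C (y v₀) → A = C := by
    intro A C h0 h1
    apply B.ext
    intro i
    fin_cases i
    · show A (B 0) = C (B 0)
      rw [hB0]; exact h0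
    · show A (B 1) = C (B 1)
      rw [hB1]; exact h1
  obtain ⟨φ, hφ⟩ : ∃ φ, φ = B.constr F ![v₀, t • v₀ - y v₀] := ⟨_, rfl⟩
  have hφB : ∀ i, φ (B i) = ![v₀, t • v₀ - y v₀] i := fun i => by rw [hφ, Module.Basis.constr_basis]
  have h0 : φ v₀ = v₀ := by
    have h := hφB 0
    rw [hB0] at h
    simpa using h
  have h1 : φ (y v₀) = t • v₀ - y v₀ := by
    have h := hφB 1
    rw [hB1] at h
    simpa using h
  refine ⟨φ, h0, h1, ?_, ?_⟩
  · have h2 : φ ∘ₗ φ = LinearMap.id := by
      apply hext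
      · simp [h0]
      · simp only [LinearMap.comp_apply, LinearMap.id_apply, h1, map_sub, map_smul, h0]
        abel
    intro v
    exact LinearMap.congr_fun h2 v
  · have h2 : φ ∘ₗ y = t • φ - y ∘ₗ φ := by
      apply hext
      · simp only [LinearMap.comp_apply, LinearMap.sub_apply, LinearMap.smul_apply, h0, h1]
      · simp only [LinearMap.comp_apply, LinearMap.sub_apply, LinearMap.smul_apply, h1, hyy, map_sub, map_smul, h0, smul_sub, smul_smul]
        (module)
    intro v
    exact LinearMap.congr_fun h2 v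

/-- Maps with the same square-zero part in a plane are conjugate. -/
theorem conj_of_sq_zero (hV : finrank F V = 2) {T₁ T₂ : Module.End F V} {w : F}
    (h₁ : ∀ v, (T₁ - w • (1 : Module.End F V)) ((T₁ - w • (1 : Module.End F V)) v) = 0) (h₂ : ∀ v, (T₂ - w • (1 : Module.End F V)) ((T₂ - w • (1 : Module.End F V)) v) = 0)
    (hne₁ : T₁ ≠ w • (1 : Module.End F V)) (hne₂ : T₂ ≠ w • (1 : Module.End F V)) : ∃ e : V ≃ₗ[F] V, ∀ v, e (T₁ v) = T₂ (e v) := by
  have hex : ∀ {T : Module.End F V}, (∀ v, (T - w • (1 : Module.End F V)) ((T - w • (1 : Module.End F V)) v) = 0) → T ≠ w • (1 : Module.End F V) →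
      ∃ u, LinearIndependent F ![(T - w • (1 : Module.End F V)) u, u] := by
    intro T h hne
    obtain ⟨u, hu⟩ : ∃ u, (T - w • (1 : Module.End F V)) u ≠ 0 := by
      by_contra hcon
      push Not at hcon
      apply hne
      apply LinearMap.ext
      intro v
      have := hcon v
      simpa [sub_eq_zero] using this
    refine ⟨u, ?_⟩
    rw [LinearIndependent.pair_iff]
    intro a b hab
    have h1 := congrArg (T - w • (1 : Module.End F V)) hab
    rw [map_add, map_smul, map_smul, h, smul_zero, zero_add, map_zero] at h1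
    have hb : b = 0 := (smul_eq_zero.1 h1).resolve_right hu
    subst hb
    rw [zero_smul, add_zero] at hab
    exact ⟨(smul_eq_zero.1 hab).resolve_right hu, rfl⟩
  obtain ⟨u₁, hu₁⟩ := hex h₁ hne₁
  obtain ⟨u₂, hu₂⟩ := hex h₂ hne₂
  obtain ⟨e, he1, he2⟩ := exists_equiv_pair hV hu₁ hu₂
  refine ⟨e, ?_⟩
  let B := basisOfLinearIndependentOfCardEqFinrank hu₁ (by simp [hV])
  have hB0 : B 0 = (T₁ - w • (1 : Module.End F V)) u₁ := by simp [B]
  have hB1 : B 1 = u₁ := by simp [B]
  have h3 : (e : V →ₗ[F] V) ∘ₗ T₁ = T₂ ∘ₗ (e : V →ₗ[F] V) := by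
    apply B.ext
    intro i
    have e1 : T₁ ((T₁ - w • (1 : Module.End F V)) u₁) = w • ((T₁ - w • (1 : Module.End F V)) u₁) := by
      have := h₁ u₁
      simp only [LinearMap.sub_apply, LinearMap.smul_apply, Module.End.one_apply] at this ⊢
      rw [← sub_eq_zero]
      exact this
    have e2 : T₂ ((T₂ - w • (1 : Module.End F V)) u₂) = w • ((T₂ - w • (1 : Module.End F V)) u₂) := by
      have := h₂ u₂
      simp only [LinearMap.sub_apply, LinearMap.smul_apply, Module.End.one_apply] at this ⊢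
      rw [← sub_eq_zero]
      exact this
    have e3 : T₁ u₁ = (T₁ - w • (1 : Module.End F V)) u₁ + w • u₁ := by
      simp
    have e4 : T₂ u₂ = (T₂ - w • (1 : Module.End F V)) u₂ + w • u₂ := by
      simp
    fin_cases i
    · show (e : V →ₗ[F] V) (T₁ (B 0)) = T₂ (e (B 0))
      rw [hB0, e1]
      show e (w • _) = _
      rw [map_smul, he1, e2]
    · show (e : V →ₗ[F] V) (T₁ (B 1)) = T₂ (e (B 1))
      rw [hB1, e3]
      show e (_ + w • u₁) = _
      rw [map_add, map_smul, he1, he2, e4]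
  intro v
  exact LinearMap.congr_fun h3 v

end Phi

end Cfsg.Agent.Lib.Geo
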