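import Mathlib
import Cfsg.Agent.Lib.Geo.ElusK2
import Cfsg.Agent.Lib.Geo.ElusSL

set_option autoImplicit false

/-! Involutions and degree two field structures. -/

namespace Cfsg.Agent.Lib.Geo

open Polynomial Module

section Abstract

variable {F : Type*} [Field F] {V : Type*} [AddCommGroup V] [Module F V] [FiniteDimensional F V]

theorem k2_natDegree (t m : F) : (X ^ 2 - C t * X + C m : F[X]).natDegree = 2 := by
  have : (X ^ 2 - C t * X + C m : F[X]) = C 1 * X ^ 2 + C (-t) * X + C m := by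
    simp only [C_neg, C_1]; ring
  rw [this]
  exact natDegree_quadratic one_ne_zero

theorem k2_no_root {t m : F} (hg : Irreducible (X ^ 2 - C t * X + C m : F[X])) (c : F) : c ^ 2 - t * c + m ≠ 0 := by
  intro h
  apply hg.not_isRoot_of_natDegree_ne_one (x := c) (by rw [k2_natDegree]; norm_num)
  simpa [IsRoot.def] using h

theorem k2_no_eig {t m : F} (hg : Irreducible (X ^ 2 - C t * X + C m : F[X])) (y : V →ₗ[F] V)
    (hyy : ∀ v, y (y v) = t • y v - m • v) (v : V) (c : F) (hv : v ≠ 0) : y v ≠ c • v := by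
  intro h
  have h1 := hyy v
  rw [h, map_smul, h, smul_smul, smul_smul, ← _root_.sub_smul, ← sub_eq_zero, ← _root_.sub_smul] at h1
  have h3 := (smul_eq_zero.1 h1).resolve_right hv
  apply k2_no_root hg c
  linear_combination h3

theorem k2_indep {t m : F} (hg : Irreducible (X ^ 2 - C t * X + C m : F[X])) (y : V →ₗ[F] V)
    (hyy : ∀ v, y (y v) = t • y v - m • v) {v : V} (hv : v ≠ 0) : LinearIndependent F ![v, y v] := by
  rw [LinearIndependent.pair_iff]
  intro a b hab
  by_cases hb : b = 0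
  · subst hb
    simp only [zero_smul, add_zero] at hab
    exact ⟨(smul_eq_zero.1 hab).resolve_right hv, rfl⟩
  · exfalso
    apply k2_no_eig hg y hyy v (-(a / b)) hv
    have h1 : y v = b⁻¹ • (b • y v) := by rw [smul_smul, inv_mul_cancel₀ hb, one_smul]
    rw [h1, eq_neg_of_add_eq_zero_right hab, smul_neg, smul_smul, neg_smul]
    congr 2
    field_simp

theorem k2_hyy {t m : F} (y : V →ₗ[F] V) (hy : aeval y (X ^ 2 - C t * X + C m : F[X]) = 0) (v : V) :
    y (y v) = t • y v - m • v := by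
  have h1 := LinearMap.congr_fun hy v
  simp only [map_add, map_sub, map_mul, map_pow, aeval_X, aeval_C, LinearMap.add_apply, LinearMap.sub_apply, pow_two,
      Module.End.mul_apply, Module.algebraMap_end_apply, LinearMap.zero_apply] at h1
  rw [← sub_eq_zero, ← h1]
  abel

theorem ker_sub_smul_mem (T : Module.End F V) (c : F) (v : V) :
    v ∈ LinearMap.ker (T - c • (1 : Module.End F V)) ↔ T v = c • v := by
  simp only [LinearMap.mem_ker, LinearMap.sub_apply, LinearMap.smul_apply, Module.End.one_apply, sub_eq_zero]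

/-- The linear case of the conjugacy. -/
theorem k2_case_even {g : F[X]} (y : V →ₗ[F] V) (hg : Irreducible g) (hd : g.natDegree = 2) (hy : aeval y g = 0)
    (T : Module.End F V) {w : F} (h2 : (2 : F) ≠ 0) (hw : w ≠ 0) (hT : T ^ 2 = (w ^ 2) • (1 : Module.End F V))
    (ha : Even (finrank F (LinearMap.ker (T - w • (1 : Module.End F V))))) (hne : LinearMap.ker (T - w • (1 : Module.End F V)) ≠ ⊥) :
    ∃ x' e : Module.End F V, (∀ v, x' (y v) = y (x' v)) ∧ LinearMap.det e = 1 ∧ ∀ v, e (x' v) = T (e v) := by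
  obtain ⟨s, hs⟩ := ha
  have hc := eigen_compl h2 hw T hT
  have hle : s * g.natDegree ≤ finrank F V := by
    have := Submodule.finrank_le (LinearMap.ker (T - w • (1 : Module.End F V)))
    rw [hd]; omega
  obtain ⟨U₁, hU₁, hU₁d⟩ := irr_exists_inv y hg hy s hle
  obtain ⟨U₂, hc₂, hU₂⟩ := irr_exists_compl y hg hy U₁ hU₁
  obtain ⟨x', hx1, hx2⟩ := exists_eigen_model hc₂ w
  have hdec : ∀ v : V, ∃ a ∈ U₁, ∃ b ∈ U₂, a + b = v := by
    intro v
    have h3 : v ∈ U₁ ⊔ U₂ := by rw [hc₂.sup_eq_top]; trivial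
    exact Submodule.mem_sup.1 h3
  have hcomm : ∀ v, x' (y v) = y (x' v) := by
    intro v
    obtain ⟨a, ha, b, hb, rfl⟩ := hdec v
    rw [map_add, map_add, hx1 _ (hU₁ a ha), hx2 _ (hU₂ b hb), map_add, hx1 a ha, hx2 b hb, map_add, map_smul, map_smul]
  have hsq : x' ^ 2 = (w ^ 2) • (1 : Module.End F V) := by
    apply LinearMap.ext
    intro v
    obtain ⟨a, ha, b, hb, rfl⟩ := hdec v
    rw [pow_two, Module.End.mul_apply, map_add, hx1 a ha, hx2 b hb, map_add, map_smul, map_smul, hx1 a ha, hx2 b hb]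
    simp only [LinearMap.smul_apply, Module.End.one_apply, smul_add, smul_smul]
    congr 2 <;> ring
  have hc' := eigen_compl h2 hw x' hsq
  have hle₁ : finrank F U₁ ≤ finrank F (LinearMap.ker (x' - w • (1 : Module.End F V))) := by
    apply Submodule.finrank_mono
    intro u hu
    simp [sub_eq_zero, hx1 u hu]
  have hle₂ : finrank F U₂ ≤ finrank F (LinearMap.ker (x' - (-w) • (1 : Module.End F V))) := by
    apply Submodule.finrank_mono
    intro u hu
    simp [sub_eq_zero, hx2 u hu]
  have h5 := Submodule.finrank_add_eq_of_isCompl hc₂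
  have h6 := Submodule.finrank_add_eq_of_isCompl hc'
  obtain ⟨e, he⟩ := conj_of_eigen h2 hw hsq hT (by rw [hs]; rw [hd] at hU₁d; omega)
  obtain ⟨T', hT'1, hT'2⟩ := exists_eigen_dil hc (y := T) (lam := w) (by
      intro v hv
      exact (ker_sub_smul_mem T w v).1 hv) (by
      intro v hv
      have h7 : T v = (-w) • v := (ker_sub_smul_mem T (-w) v).1 hv
      have h8 : T (T v) = (-w) • T v := by rw [h7, map_smul, h7]
      exact (ker_sub_smul_mem T (-w) (T v)).2 h8) hne (LinearMap.det (e : V →ₗ[F] V))⁻¹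
  refine ⟨x', T' ∘ₗ (e : V →ₗ[F] V), hcomm, ?_, ?_⟩
  · rw [LinearMap.det_comp, hT'2, inv_mul_cancel₀ (LinearEquiv.isUnit_det' e).ne_zero]
  · intro v
    simp only [LinearMap.comp_apply, LinearEquiv.coe_coe]
    rw [he, hT'1]

/-- The case of a nonsquare. -/
theorem k2_case_nonsq [Finite F] {t m : F} (y : V →ₗ[F] V) (hg : Irreducible (X ^ 2 - C t * X + C m : F[X]))
    (hy : aeval y (X ^ 2 - C t * X + C m : F[X]) = 0) (hV : 0 < finrank F V) (T : Module.End F V) {z : F} (h2 : (2 : F) ≠ 0)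
    (hno : ∀ d : F, d ^ 2 ≠ z) (hT : T ^ 2 = z • (1 : Module.End F V)) :
    ∃ x' e : Module.End F V, (∀ v, x' (y v) = y (x' v)) ∧ LinearMap.det e = 1 ∧ ∀ v, e (x' v) = T (e v) := by
  classical
  haveI : Fintype F := Fintype.ofFinite F
  have hyy := k2_hyy y hy
  obtain ⟨h, rfl⟩ : ∃ h, t = 2 * h := ⟨t / 2, by field_simp⟩
  obtain ⟨δ, hδd⟩ : ∃ δ, δ = h ^ 2 - m := ⟨_, rfl⟩
  have hδ : ∀ d : F, d ^ 2 ≠ δ := by
    intro d hd
    apply k2_no_root hg (h + d)
    rw [hδd] at hd
    linear_combination hd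
  have hδ0 : δ ≠ 0 := fun h => hδ 0 (by rw [h]; ring)
  have hz0 : z ≠ 0 := fun h => hno 0 (by rw [h]; ring)
  have hnsq : ∀ a : F, (∀ d : F, d ^ 2 ≠ a) → quadraticChar F a = -1 := by
    intro a ha
    rw [quadraticChar_neg_one_iff_not_isSquare]
    rintro ⟨d, hd⟩
    exact ha d (by rw [hd]; ring)
  have h3 : quadraticChar F (z * δ) = 1 := by
    rw [map_mul, hnsq z hno, hnsq δ hδ]
    norm_num
  obtain ⟨c, hc⟩ := (quadraticChar_one_iff_isSquare (mul_ne_zero hz0 hδ0)).1 h3
  obtain ⟨s, hsd⟩ : ∃ s, s = c / δ := ⟨_, rfl⟩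
  have hs : s ^ 2 * δ = z := by
    rw [hsd]
    field_simp
    linear_combination -hc
  obtain ⟨x', hx'⟩ : ∃ x' : Module.End F V, x' = s • (y - h • (1 : Module.End F V)) := ⟨_, rfl⟩
  have hxv : ∀ v, x' v = s • (y v - h • v) := fun v => by simp [hx']
  have hcomm : ∀ v, x' (y v) = y (x' v) := by
    intro v
    rw [hxv, hxv, map_smul, map_sub, map_smul]
  have hxx : ∀ v, x' (x' v) = z • v := by
    intro v
    simp only [hxv, map_smul, map_sub, hyy]
    rw [← hs, hδd]
    (module)
  have hirr₂ : Irreducible (X ^ 2 - C z : F[X]) := by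
    have hmon : (X ^ 2 - C z : F[X]).Monic := monic_X_pow_sub_C z (by norm_num)
    have hdeg : (X ^ 2 - C z : F[X]).natDegree = 2 := natDegree_X_pow_sub_C
    apply (Monic.irreducible_iff_roots_eq_zero_of_degree_le_three hmon (by omega) (by omega)).2
    rw [Multiset.eq_zero_iff_forall_notMem]
    intro d hd
    have h4 := (mem_roots'.1 hd).2
    simp only [IsRoot.def, eval_sub, eval_pow, eval_X, eval_C] at h4
    exact hno d (sub_eq_zero.1 h4)
  have hann₁ : aeval x' (X ^ 2 - C z : F[X]) = 0 := by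
    apply LinearMap.ext
    intro v
    rw [map_sub, map_pow, aeval_X, aeval_C]
    simp only [LinearMap.sub_apply, pow_two, Module.End.mul_apply, Module.algebraMap_end_apply, LinearMap.zero_apply, hxx, sub_self]
  have hann₂ : aeval T (X ^ 2 - C z : F[X]) = 0 := by
    rw [map_sub, map_pow, aeval_X, aeval_C, hT]
    rw [Module.algebraMap_end_eq_smul_id, sub_eq_zero]
    rfl
  obtain ⟨e, he⟩ := conj_of_irr x' T hirr₂ hann₁ hann₂
  obtain ⟨T', hT'1, hT'2⟩ := exists_norm_comm x' hirr₂ hann₁ hV (t := (LinearMap.det (e : V →ₗ[F] V))⁻¹)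
  refine ⟨x', (e : V →ₗ[F] V) ∘ₗ T', hcomm, ?_, ?_⟩
  · rw [LinearMap.det_comp, hT'2, mul_inv_cancel₀ (LinearEquiv.isUnit_det' e).ne_zero]
  · intro v
    simp only [LinearMap.comp_apply, LinearEquiv.coe_coe]
    rw [hT'1, he]

/-- The plane with two eigenvalues. -/
theorem k2_case_plane {t m : F} (hV : finrank F V = 2) (y : V →ₗ[F] V) (hg : Irreducible (X ^ 2 - C t * X + C m : F[X]))
    (hyy : ∀ v, y (y v) = t • y v - m • v) (T : Module.End F V) {w : F} (h2 : (2 : F) ≠ 0) (hw : w ≠ 0)
    (hT : T ^ 2 = (w ^ 2) • (1 : Module.End F V))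
    (hne₁ : LinearMap.ker (T - w • (1 : Module.End F V)) ≠ ⊥) (hne₂ : LinearMap.ker (T - (-w) • (1 : Module.End F V)) ≠ ⊥) :
    ∃ x' e : Module.End F V, (∀ v, x' (y v) = t • x' v - y (x' v)) ∧ LinearMap.det e = 1 ∧ ∀ v, e (x' v) = T (e v) := by
  haveI : Nontrivial V := Module.nontrivial_of_finrank_pos (R := F) (by omega)
  obtain ⟨v₀, hv₀⟩ := exists_ne (0 : V)
  have hli := k2_indep hg y hyy hv₀
  obtain ⟨φ, h0, h1, hφφ, hφy⟩ := k2_phi hV y hyy hli
  obtain ⟨x', hx'⟩ : ∃ x' : Module.End F V, x' = w • φ := ⟨_, rfl⟩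
  have hxv : ∀ v, x' v = w • φ v := fun v => by simp [hx']
  have hcomm : ∀ v, x' (y v) = t • x' v - y (x' v) := by
    intro v
    rw [hxv, hxv, map_smul, hφy, smul_sub, smul_comm]
  have hsq : x' ^ 2 = (w ^ 2) • (1 : Module.End F V) := by
    apply LinearMap.ext
    intro v
    rw [pow_two, Module.End.mul_apply, hxv (x' v), hxv v, map_smul, hφφ, smul_smul, pow_two]
    rfl
  have hc' := eigen_compl h2 hw x' hsq
  have hc := eigen_compl h2 hw T hT
  have hpos : ∀ S : Submodule F V, S ≠ ⊥ → 1 ≤ finrank F S := by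
    intro S hS
    have := Submodule.one_le_finrank_iff.2 hS
    exact this
  have hne₃ : LinearMap.ker (x' - w • (1 : Module.End F V)) ≠ ⊥ := by
    intro h
    have h3 : v₀ ∈ LinearMap.ker (x' - w • (1 : Module.End F V)) := by
      simp [sub_eq_zero, hxv, h0]
    rw [h] at h3
    exact hv₀ (by simpa using h3)
  have hne₄ : LinearMap.ker (x' - (-w) • (1 : Module.End F V)) ≠ ⊥ := by
    intro h
    have h3 : t • v₀ - (2 : F) • y v₀ ∈ LinearMap.ker (x' - (-w) • (1 : Module.End F V)) := by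
      simp only [LinearMap.mem_ker, LinearMap.sub_apply, LinearMap.smul_apply, Module.End.one_apply, sub_eq_zero, hxv]
      rw [map_sub, map_smul, map_smul, h0, h1]
      simp only [smul_sub, smul_smul, neg_smul, two_smul]
      have e1 : (w * t) • v₀ = w • t • v₀ := by rw [smul_smul]
      simp only [smul_add]
      (module)
    rw [h] at h3
    have h4 : t • v₀ - (2 : F) • y v₀ = 0 := by simpa using h3
    have h5 := (LinearIndependent.pair_iff.1 hli) t (-2) (by
      rw [neg_smul, ← sub_eq_add_neg]; exact h4)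
    exact h2 (by simpa using h5.2)
  have h5 := Submodule.finrank_add_eq_of_isCompl hc
  have h6 := Submodule.finrank_add_eq_of_isCompl hc'
  have h7 := hpos _ hne₁
  have h8 := hpos _ hne₂
  have h9 := hpos _ hne₃
  have h10 := hpos _ hne₄
  obtain ⟨e, he⟩ := conj_of_eigen h2 hw hsq hT (by omega)
  obtain ⟨T', hT'1, hT'2⟩ := exists_eigen_dil hc (y := T) (lam := w) (by
      intro v hv
      exact (ker_sub_smul_mem T w v).1 hv) (by
      intro v hv
      have h7 : T v = (-w) • v := (ker_sub_smul_mem T (-w) v).1 hv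
      have h8 : T (T v) = (-w) • T v := by rw [h7, map_smul, h7]
      exact (ker_sub_smul_mem T (-w) (T v)).2 h8) hne₁ (LinearMap.det (e : V →ₗ[F] V))⁻¹
  refine ⟨x', T' ∘ₗ (e : V →ₗ[F] V), hcomm, ?_, ?_⟩
  · rw [LinearMap.det_comp, hT'2, inv_mul_cancel₀ (LinearEquiv.isUnit_det' e).ne_zero]
  · intro v
    simp only [LinearMap.comp_apply, LinearEquiv.coe_coe]
    rw [he, hT'1]

/-- The plane in characteristic two. -/
theorem k2_case_char2 [Finite F] (h2 : (2 : F) = 0) {t m : F} (hV : finrank F V = 2) (y : V →ₗ[F] V)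
    (hg : Irreducible (X ^ 2 - C t * X + C m : F[X])) (hyy : ∀ v, y (y v) = t • y v - m • v) (T : Module.End F V) {w : F}
    (hw : w ≠ 0) (hT : T ^ 2 = (w ^ 2) • (1 : Module.End F V)) (hne : T ≠ w • (1 : Module.End F V)) :
    ∃ x' e : Module.End F V, (∀ v, x' (y v) = t • x' v - y (x' v)) ∧ LinearMap.det e = 1 ∧ ∀ v, e (x' v) = T (e v) := by
  classical
  haveI : Fintype F := Fintype.ofFinite F
  haveI : CharP F 2 := CharTwo.of_one_ne_zero_of_two_eq_zero one_ne_zero h2
  haveI : Nontrivial V := Module.nontrivial_of_finrank_pos (R := F) (by omega)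
  have hsqr : ∀ c : F, ∃ d : F, d * d = c := by
    intro c
    obtain ⟨d, hd⟩ := FiniteField.isSquare_of_char_two (ringChar.eq F 2) c
    exact ⟨d, hd.symm⟩
  have ht : t ≠ 0 := by
    rintro rfl
    obtain ⟨d, hd⟩ := hsqr m
    apply k2_no_root hg d
    rw [← hd]
    linear_combination (d * d) * h2
  obtain ⟨v₀, hv₀⟩ := exists_ne (0 : V)
  have hli := k2_indep hg y hyy hv₀
  obtain ⟨φ, h0, h1, hφφ, hφy⟩ := k2_phi hV y hyy hli
  obtain ⟨x', hx'⟩ : ∃ x' : Module.End F V, x' = w • φ := ⟨_, rfl⟩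
  have hxv : ∀ v, x' v = w • φ v := fun v => by simp [hx']
  have hcomm : ∀ v, x' (y v) = t • x' v - y (x' v) := by
    intro v
    rw [hxv, hxv, map_smul, hφy, smul_sub, smul_comm]
  have h2v : ∀ v : V, v + v = 0 := by
    intro v
    rw [← two_smul F v, h2, zero_smul]
  have e0 : ∀ a b : V, a - b - (b - a) = 0 := fun a b => by
    have e : a - b - (b - a) = (a + a) - (b + b) := by abel
    rw [e, h2v, h2v, sub_self]
  have h₁ : ∀ v, (x' - w • (1 : Module.End F V)) ((x' - w • (1 : Module.End F V)) v) = 0 := by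
    intro v
    simp only [LinearMap.sub_apply, LinearMap.smul_apply, Module.End.one_apply, hxv, map_sub, map_smul, hφφ, smul_sub, smul_smul]
    exact e0 _ _
  have h₂ : ∀ v, (T - w • (1 : Module.End F V)) ((T - w • (1 : Module.End F V)) v) = 0 := by
    intro v
    have e2 : T (T v) = (w * w) • v := by
      have := LinearMap.congr_fun hT v
      simpa [pow_two] using this
    simp only [LinearMap.sub_apply, LinearMap.smul_apply, Module.End.one_apply, map_sub, map_smul, e2, smul_sub, smul_smul]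
    exact e0 _ _
  have hne₁ : x' ≠ w • (1 : Module.End F V) := by
    intro h
    have h3 := LinearMap.congr_fun h (y v₀)
    simp only [LinearMap.smul_apply, Module.End.one_apply] at h3
    rw [hxv, h1] at h3
    have h4 := smul_right_injective V hw h3
    have h5 : t • v₀ = y v₀ + y v₀ := by
      rw [← sub_eq_iff_eq_add]
      exact h4
    rw [h2v] at h5
    exact (smul_ne_zero ht hv₀) h5
  obtain ⟨e, he⟩ := conj_of_sq_zero hV h₁ h₂ hne₁ hne
  obtain ⟨s, hs⟩ := hsqr (LinearMap.det (e : V →ₗ[F] V))⁻¹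
  refine ⟨x', s • (e : V →ₗ[F] V), hcomm, ?_, ?_⟩
  · rw [LinearMap.det_smul, hV, pow_two, hs, inv_mul_cancel₀ (LinearEquiv.isUnit_det' e).ne_zero]
  · intro v
    simp only [LinearMap.smul_apply, LinearEquiv.coe_coe, map_smul]
    rw [he]

end Abstract

section Conc

variable {F : Type*} [Field F] {n : ℕ}

theorem finrank_ker_coord (j : Fin n) : finrank F (LinearMap.ker (LinearMap.proj j : (Fin n → F) →ₗ[F] F)) = n - 1 := by
  have h1 := LinearMap.finrank_range_add_finrank_ker (LinearMap.proj j : (Fin n → F) →ₗ[F] F)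
  have h2 : LinearMap.range (LinearMap.proj j : (Fin n → F) →ₗ[F] F) = ⊤ := by
    apply LinearMap.range_eq_top.2
    exact LinearMap.proj_surjective j
  rw [h2, finrank_top, finrank_self, finrank_fin_fun] at h1
  omega

/-- A bad element: a map of small order with a hyperplane of eigenvectors. -/
theorem k2_exists_bad [Fintype F] {p : ℕ} [Fact p.Prime] [CharP F p] {q : ℕ} (hq : Fintype.card F = q) (hn : 2 ≤ n)
    (hnot : ¬ (Odd q ∧ padicValNat 2 (q - 1) ≤ padicValNat 2 n)) :
    ∃ (x : Matrix.SpecialLinearGroup (Fin n) F) (α : F), α ≠ 0 ∧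
      (∃ z : F, ((x ^ 2 : Matrix.SpecialLinearGroup (Fin n) F) : Matrix (Fin n) (Fin n) F) = z • (1 : Matrix (Fin n) (Fin n) F)) ∧
      (∀ z : F, (x : Matrix (Fin n) (Fin n) F) ≠ z • (1 : Matrix (Fin n) (Fin n) F)) ∧
      finrank F (LinearMap.ker (Matrix.toLin' (x : Matrix (Fin n) (Fin n) F) - α • (1 : Module.End F (Fin n → F)))) = n - 1 := by
  classical
  have hn0 : n ≠ 0 := by omega
  obtain ⟨i₀, hi₀⟩ : ∃ i₀ : Fin n, i₀ = ⟨0, by omega⟩ := ⟨_, rfl⟩
  obtain ⟨i₁, hi₁⟩ : ∃ i₁ : Fin n, i₁ = ⟨1, by omega⟩ := ⟨_, rfl⟩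
  have h01 : i₁ ≠ i₀ := by rw [hi₀, hi₁]; simp [Fin.ext_iff]
  by_cases hodd : Odd q
  · have hlt : padicValNat 2 n < padicValNat 2 (q - 1) := by
      by_contra hcon
      exact hnot ⟨hodd, by omega⟩
    obtain ⟨h2, w, hw0, hw⟩ := exists_pow_eq_neg_one (F := F) (p := p) hq hn0 hlt
    obtain ⟨dg, hdg⟩ : ∃ dg : Fin n → F, dg = fun i => if i = i₀ then -1 else 1 := ⟨_, rfl⟩
    have hdetM : (w • Matrix.diagonal dg).det = 1 := by
      rw [Matrix.det_smul, Matrix.det_diagonal, hdg, Fintype.card_fin, hw]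
      have : (∏ i : Fin n, (if i = i₀ then (-1 : F) else 1)) = -1 := by
        rw [Finset.prod_ite_eq' Finset.univ i₀ (fun _ => (-1 : F))]
        simp
      rw [this]
      ring
    obtain ⟨x, hx⟩ : ∃ x : Matrix.SpecialLinearGroup (Fin n) F, x = ⟨w • Matrix.diagonal dg, hdetM⟩ := ⟨_, rfl⟩
    have hxc : (x : Matrix (Fin n) (Fin n) F) = w • Matrix.diagonal dg := by rw [hx]
    have hsq : ((x ^ 2 : Matrix.SpecialLinearGroup (Fin n) F) : Matrix (Fin n) (Fin n) F) = (w ^ 2) • (1 : Matrix (Fin n) (Fin n) F) := by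
      rw [Matrix.SpecialLinearGroup.coe_pow, hxc, pow_two, pow_two, Matrix.smul_mul, Matrix.mul_smul,
        Matrix.diagonal_mul_diagonal, smul_smul]
      congr 1
      ext i j
      by_cases hij : i = j
      · subst hij
        simp only [Matrix.diagonal_apply_eq, Matrix.one_apply_eq, hdg]
        split_ifs <;> ring
      · rw [Matrix.diagonal_apply_ne _ hij, Matrix.one_apply_ne hij]
    have hns : ∀ z : F, (x : Matrix (Fin n) (Fin n) F) ≠ z • (1 : Matrix (Fin n) (Fin n) F) := by
      intro z hz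
      rw [hxc] at hz
      have h1 := congrFun (congrFun hz i₀) i₀
      have h3 := congrFun (congrFun hz i₁) i₁
      simp only [Matrix.smul_apply, Matrix.diagonal_apply_eq, Matrix.one_apply_eq, hdg, smul_eq_mul, mul_one, if_true, if_neg h01] at h1 h3
      have h4 : 2 * w = 0 := by linear_combination h3 - h1
      exact (mul_ne_zero h2 hw0) h4
    refine ⟨x, w, hw0, ⟨_, hsq⟩, hns, ?_⟩
    have hker : LinearMap.ker (Matrix.toLin' (x : Matrix (Fin n) (Fin n) F) - w • (1 : Module.End F (Fin n → F))) =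
        LinearMap.ker (LinearMap.proj i₀ : (Fin n → F) →ₗ[F] F) := by
      ext v
      simp only [LinearMap.mem_ker, LinearMap.sub_apply, LinearMap.smul_apply, Module.End.one_apply, sub_eq_zero, LinearMap.proj_apply]
      have hmv : (Matrix.diagonal dg).mulVec v = fun i => dg i * v i := by
        ext i; rw [Matrix.mulVec_diagonal]
      rw [hxc, Matrix.toLin'_apply, Matrix.smul_mulVec, hmv]
      constructor
      · intro h
        have h3 := congrFun h i₀
        simp only [Pi.smul_apply, hdg, if_true, smul_eq_mul] at h3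
        have h4 : (2 * w) * v i₀ = 0 := by linear_combination -h3
        exact (mul_eq_zero.1 h4).resolve_left (mul_ne_zero h2 hw0)
      · intro h
        ext i
        simp only [Pi.smul_apply, hdg, smul_eq_mul]
        by_cases hi : i = i₀
        · rw [hi, h]; simp
        · rw [if_neg hi]; simp
    rw [hker, finrank_ker_coord]
  · -- characteristic two
    have h2 : (2 : F) = 0 := by
      obtain ⟨f, hf1, hf2⟩ := FiniteField.card F p
      have hev : 2 ∣ q := by
        rw [Nat.not_odd_iff_even] at hodd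
        exact hodd.two_dvd
      rw [hq] at hf2
      rw [hf2] at hev
      have hp2 : p = 2 := ((Nat.prime_dvd_prime_iff_eq Nat.prime_two hf1).1 (Nat.Prime.dvd_of_dvd_pow Nat.prime_two hev)).symm
      subst hp2
      exact_mod_cast CharP.cast_eq_zero F 2
    have hdetM : (Matrix.transvection i₁ i₀ (1 : F)).det = 1 := Matrix.det_transvection_of_ne _ _ h01 _
    obtain ⟨x, hx⟩ : ∃ x : Matrix.SpecialLinearGroup (Fin n) F, x = ⟨Matrix.transvection i₁ i₀ (1 : F), hdetM⟩ := ⟨_, rfl⟩
    have hxc : (x : Matrix (Fin n) (Fin n) F) = Matrix.transvection i₁ i₀ (1 : F) := by rw [hx]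
    have hsq : ((x ^ 2 : Matrix.SpecialLinearGroup (Fin n) F) : Matrix (Fin n) (Fin n) F) = (1 : F) • (1 : Matrix (Fin n) (Fin n) F) := by
      rw [Matrix.SpecialLinearGroup.coe_pow, hxc, pow_two, Matrix.transvection_mul_transvection_same (h := h01)]
      have : (1 : F) + 1 = 0 := by rw [one_add_one_eq_two, h2]
      rw [this, Matrix.transvection_zero, one_smul]
    have hns : ∀ z : F, (x : Matrix (Fin n) (Fin n) F) ≠ z • (1 : Matrix (Fin n) (Fin n) F) := by
      intro z hz
      rw [hxc] at hz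
      have h1 := congrFun (congrFun hz i₁) i₀
      simp [Matrix.transvection, Matrix.one_apply_ne h01, Matrix.single_apply] at h1
    refine ⟨x, 1, one_ne_zero, ⟨_, hsq⟩, hns, ?_⟩
    have hker : LinearMap.ker (Matrix.toLin' (x : Matrix (Fin n) (Fin n) F) - (1 : F) • (1 : Module.End F (Fin n → F))) =
        LinearMap.ker (LinearMap.proj i₀ : (Fin n → F) →ₗ[F] F) := by
      ext v
      simp only [LinearMap.mem_ker, LinearMap.sub_apply, LinearMap.smul_apply, Module.End.one_apply, sub_eq_zero, LinearMap.proj_apply, one_smul]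
      rw [hxc, Matrix.toLin'_apply]
      have hmv : (Matrix.transvection i₁ i₀ (1 : F)).mulVec v = v + Function.update (0 : Fin n → F) i₁ (v i₀) := by
        ext i
        simp only [Matrix.transvection, one_smul, Matrix.add_mulVec, Matrix.one_mulVec, Pi.add_apply]
        congr 1
        simp only [Matrix.mulVec, dotProduct, Matrix.single_apply, Function.update_apply, Pi.zero_apply]
        by_cases hi : i₁ = i
        · subst hi
          simp
        · have : i ≠ i₁ := fun h => hi h.symm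
          simp [hi, this]
      rw [hmv]
      constructor
      · intro h
        have h3 := congrFun h i₁
        simpa using h3
      · intro h
        rw [h]
        ext i
        simp [Function.update_apply]
    rw [hker, finrank_ker_coord]

end Conc

end Cfsg.Agent.Lib.Geo
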