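import Mathlib
import Cfsg.Agent.Lib.Geo.ElusK2Main

set_option autoImplicit false

/-! Field structures of prime degree: generators, normalizers, Frobenius. -/

namespace Cfsg.Agent.Lib.Geo

open Polynomial Module

section Gen

variable {F : Type*} [Field F] {n r : ℕ} {K : Subalgebra F (Matrix (Fin n) (Fin n) F)}

theorem fk_cancel (hK : Cfsg.Geo.IsFieldSubalgebra r K) {a : Matrix (Fin n) (Fin n) F} (ha : a ∈ K) (ha0 : a ≠ 0) :
    ∃ w, w * a = 1 := by
  obtain ⟨w, hw, hw2⟩ := hK.inv a ha ha0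
  exact ⟨w, by rw [hK.comm w hw a ha, hw2]⟩

theorem fk_cancel_vec (hK : Cfsg.Geo.IsFieldSubalgebra r K) {a : Matrix (Fin n) (Fin n) F} (ha : a ∈ K) (ha0 : a ≠ 0)
    {v : Fin n → F} (hv : a.mulVec v = 0) : v = 0 := by
  obtain ⟨w, hw⟩ := fk_cancel hK ha ha0
  have h2 : (w * a).mulVec v = w.mulVec (a.mulVec v) := (Matrix.mulVec_mulVec _ _ _).symm
  rw [hw, Matrix.one_mulVec, hv, Matrix.mulVec_zero] at h2
  exact h2

/-- In a field of prime degree every element is a polynomial in a given non-scalar element. -/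
theorem fp_gen (hr : r.Prime) (hK : Cfsg.Geo.IsFieldSubalgebra r K) {a : Matrix (Fin n) (Fin n) F} (ha : a ∈ K)
    (hsc : ∀ c : F, a ≠ c • 1) {k : Matrix (Fin n) (Fin n) F} (hk : k ∈ K) : ∃ p : F[X], k = aeval a p := by
  classical
  have ha0 : a ≠ 0 := by
    intro h
    apply hsc 0
    rw [h, zero_smul]
  have hne : (0 : K) ≠ 1 := by
    intro h
    have h1 : (0 : Matrix (Fin n) (Fin n) F) = 1 := congrArg Subtype.val h
    apply ha0
    calc a = a * 1 := (mul_one a).symm
      _ = 0 := by rw [← h1, mul_zero]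
  have hfield : IsField K := by
    refine ⟨⟨0, 1, hne⟩, fun a b => Subtype.ext (hK.comm a a.2 b b.2), fun {a} ha => ?_⟩
    obtain ⟨y, hy, hay⟩ := hK.inv a a.2 (fun h => ha (Subtype.ext h))
    exact ⟨⟨y, hy⟩, Subtype.ext hay⟩
  letI instK : Field K := hfield.toField
  haveI : FiniteDimensional F K := inferInstance
  obtain ⟨α, hα⟩ : ∃ α : K, α = ⟨a, ha⟩ := ⟨_, rfl⟩
  have hint : IsIntegral F α := IsIntegral.of_finite F α
  have hmul := Module.finrank_mul_finrank F (IntermediateField.adjoin F {α}) K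
  have hrk : finrank F K = r := hK.finrank_eq
  rw [hrk] at hmul
  have hcases := (Nat.dvd_prime hr).1 (Dvd.intro _ hmul)
  rcases hcases with h1 | h1
  · exfalso
    rw [IntermediateField.finrank_eq_one_iff] at h1
    have h2 : α ∈ IntermediateField.adjoin F {α} := IntermediateField.mem_adjoin_simple_self F α
    rw [h1, IntermediateField.mem_bot] at h2
    obtain ⟨c, hc⟩ := h2
    apply hsc c
    have h3 : ((algebraMap F K c : K) : Matrix (Fin n) (Fin n) F) = a := by
      have h4 := congrArg Subtype.val hc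
      rw [hα] at h4
      exact h4
    rw [← h3, Algebra.algebraMap_eq_smul_one]
    rfl
  · have h2 : IntermediateField.adjoin F {α} = ⊤ := by
      apply IntermediateField.eq_of_le_of_finrank_eq le_top
      rw [h1, IntermediateField.finrank_top', hrk]
    have h3 : (⟨k, hk⟩ : K) ∈ (IntermediateField.adjoin F {α}).toSubalgebra := by
      rw [h2]
      trivial
    rw [IntermediateField.adjoin_simple_toSubalgebra_of_isAlgebraic hint.isAlgebraic, Algebra.adjoin_singleton_eq_range_aeval] at h3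
    obtain ⟨p, hp⟩ := h3
    refine ⟨p, ?_⟩
    have h4 := congrArg Subtype.val hp
    have h5 := Polynomial.aeval_algHom_apply K.val α p
    have h6 : K.val α = a := by rw [hα]; rfl
    rw [h6] at h5
    rw [h5]
    exact h4.symm

/-- Conjugation by `g` preserves polynomials. -/
theorem fk_conj_aeval (g θ θ' : Matrix (Fin n) (Fin n) F) (h : g * θ = θ' * g) (p : F[X]) :
    g * aeval θ p = aeval θ' p * g := by
  induction p using Polynomial.induction_on' with
  | add p q hp hq =>
    rw [map_add, map_add, mul_add, add_mul, hp, hq]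
  | monomial m c =>
    rw [aeval_monomial, aeval_monomial, Algebra.algebraMap_eq_smul_one]
    simp only [smul_mul_assoc, one_mul, mul_smul_comm]
    congr 1
    induction m with
    | zero => simp
    | succ m ih => rw [pow_succ, pow_succ, ← mul_assoc, ih, mul_assoc, h, mul_assoc]

/-- A map moving the generator into `K` normalizes `K`. -/
theorem fk_mem_norm [Finite F] {θ θ' : Matrix (Fin n) (Fin n) F} (hgen : ∀ k ∈ K, ∃ p : F[X], k = aeval θ p) (hθ' : θ' ∈ K)
    (g : GL (Fin n) F) (hg : (g : Matrix (Fin n) (Fin n) F) * θ = θ' * g) :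
    g ∈ Cfsg.Geo.subalgebraNormalizer K := by
  have hgg : ((g⁻¹ : GL (Fin n) F) : Matrix (Fin n) (Fin n) F) * g = 1 := by
    rw [← Units.val_mul, inv_mul_cancel, Units.val_one]
  have hgg2 : (g : Matrix (Fin n) (Fin n) F) * ((g⁻¹ : GL (Fin n) F) : Matrix (Fin n) (Fin n) F) = 1 := by
    rw [← Units.val_mul, mul_inv_cancel, Units.val_one]
  have hfwd : ∀ k ∈ K, (g : Matrix (Fin n) (Fin n) F) * k * ((g⁻¹ : GL (Fin n) F) : Matrix (Fin n) (Fin n) F) ∈ K := by
    intro k hk
    obtain ⟨p, rfl⟩ := hgen k hk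
    rw [fk_conj_aeval _ θ θ' hg, mul_assoc, hgg2, mul_one]
    have h5 := Polynomial.aeval_algHom_apply K.val (⟨θ', hθ'⟩ : K) p
    have h6 : K.val (⟨θ', hθ'⟩ : K) = θ' := rfl
    rw [h6] at h5
    rw [h5]
    exact Subtype.coe_prop _
  intro k
  refine ⟨hfwd k, fun hk => ?_⟩
  -- the conjugation on `K` is injective, hence surjective
  let c : K →ₗ[F] K :=
    { toFun := fun u => ⟨(g : Matrix (Fin n) (Fin n) F) * u * ((g⁻¹ : GL (Fin n) F) : Matrix (Fin n) (Fin n) F), hfwd u u.2⟩
      map_add' := fun u v => by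
        apply Subtype.ext
        simp [mul_add, add_mul]
      map_smul' := fun r u => by
        apply Subtype.ext
        simp }
  have hinj : Function.Injective c := by
    intro u v huv
    have h1 := congrArg Subtype.val huv
    simp only [c, LinearMap.coe_mk, AddHom.coe_mk] at h1
    apply Subtype.ext
    have h2 := congrArg (fun A => ((g⁻¹ : GL (Fin n) F) : Matrix (Fin n) (Fin n) F) * A * g) h1
    simp only [mul_assoc, hgg, mul_one] at h2
    simpa only [← mul_assoc, hgg, one_mul] using h2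
  haveI : Finite K := Finite.of_injective (fun u : K => (u : Matrix (Fin n) (Fin n) F)) Subtype.val_injective
  haveI : Module.Finite F K := Module.Finite.of_finite
  have hsurj := LinearMap.injective_iff_surjective.1 hinj
  obtain ⟨u, hu⟩ := hsurj ⟨_, hk⟩
  have h1 := congrArg Subtype.val hu
  simp only [c, LinearMap.coe_mk, AddHom.coe_mk] at h1
  have h2 := congrArg (fun A => ((g⁻¹ : GL (Fin n) F) : Matrix (Fin n) (Fin n) F) * A * g) h1
  simp only [mul_assoc, hgg, mul_one] at h2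
  have h3 : (u : Matrix (Fin n) (Fin n) F) = k := by
    simpa only [← mul_assoc, hgg, one_mul] using h2
  rw [← h3]
  exact u.2

/-- The field acts transitively on nonzero vectors when its degree is the dimension. -/
theorem fp_exists_mul (hK : Cfsg.Geo.IsFieldSubalgebra n K) {u : Fin n → F} (hu : u ≠ 0) (w : Fin n → F) :
    ∃ b ∈ K, b.mulVec u = w := by
  let ι : K →ₗ[F] (Fin n → F) :=
    { toFun := fun b => (b : Matrix (Fin n) (Fin n) F).mulVec u
      map_add' := fun a b => by simp [Matrix.add_mulVec]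
      map_smul' := fun c b => by simp [Matrix.smul_mulVec] }
  have hinj : Function.Injective ι := by
    rw [injective_iff_map_eq_zero]
    intro b hb
    by_contra hb0
    exact hu (fk_cancel_vec hK b.2 (fun h => hb0 (Subtype.ext h)) hb)
  have hsurj : Function.Surjective ι := by
    have h1 : finrank F K = finrank F (Fin n → F) := by
      rw [finrank_fin_fun]; exact hK.finrank_eq
    exact (LinearMap.injective_iff_surjective_of_finrank_eq_finrank h1).1 hinj
  obtain ⟨b, hb⟩ := hsurj w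
  exact ⟨b, b.2, hb⟩

/-- An element of the normalizer with two independent eigenvectors for one eigenvalue is scalar. -/
theorem fp_fix_bound (hn : n.Prime) (hK : Cfsg.Geo.IsFieldSubalgebra n K) (g : GL (Fin n) F)
    (hg : g ∈ Cfsg.Geo.subalgebraNormalizer K) {c : F} (hc : c ≠ 0) {u v : Fin n → F} (hu0 : u ≠ 0)
    (hu : (g : Matrix (Fin n) (Fin n) F).mulVec u = c • u) (hv : (g : Matrix (Fin n) (Fin n) F).mulVec v = c • v)
    (hind : ∀ d : F, v ≠ d • u) : (g : Matrix (Fin n) (Fin n) F) = c • 1 := by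
  have hgg : ((g⁻¹ : GL (Fin n) F) : Matrix (Fin n) (Fin n) F) * g = 1 := by
    rw [← Units.val_mul, inv_mul_cancel, Units.val_one]
  obtain ⟨a, ha, hav⟩ := fp_exists_mul hK hu0 v
  have hsc : ∀ d : F, a ≠ d • 1 := by
    rintro d rfl
    apply hind d
    rw [← hav, Matrix.smul_mulVec, Matrix.one_mulVec]
  have hginv : ((g⁻¹ : GL (Fin n) F) : Matrix (Fin n) (Fin n) F).mulVec u = c⁻¹ • u := by
    have h1 : ((g⁻¹ : GL (Fin n) F) : Matrix (Fin n) (Fin n) F).mulVec ((g : Matrix (Fin n) (Fin n) F).mulVec u) = u := by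
      rw [Matrix.mulVec_mulVec, hgg, Matrix.one_mulVec]
    rw [hu, Matrix.mulVec_smul] at h1
    calc ((g⁻¹ : GL (Fin n) F) : Matrix (Fin n) (Fin n) F).mulVec u
        = c⁻¹ • (c • ((g⁻¹ : GL (Fin n) F) : Matrix (Fin n) (Fin n) F).mulVec u) := by
          rw [smul_smul, inv_mul_cancel₀ hc, one_smul]
      _ = c⁻¹ • u := by rw [h1]
  obtain ⟨a', ha'⟩ : ∃ a', a' = (g : Matrix (Fin n) (Fin n) F) * a * ((g⁻¹ : GL (Fin n) F) : Matrix (Fin n) (Fin n) F) := ⟨_, rfl⟩
  have ha'K : a' ∈ K := by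
    rw [ha']
    exact (hg a).1 ha
  have h3 : (a' - a).mulVec u = 0 := by
    rw [Matrix.sub_mulVec, sub_eq_zero, ha', ← Matrix.mulVec_mulVec, ← Matrix.mulVec_mulVec, hginv, Matrix.mulVec_smul, hav, Matrix.mulVec_smul, hv,
      smul_smul, inv_mul_cancel₀ hc, one_smul]
  have h4 : a' = a := by
    by_contra hne
    exact hu0 (fk_cancel_vec hK (K.sub_mem ha'K ha) (sub_ne_zero.2 hne) h3)
  have hcomm : (g : Matrix (Fin n) (Fin n) F) * a = a * g := by
    calc (g : Matrix (Fin n) (Fin n) F) * a = ((g : Matrix (Fin n) (Fin n) F) * a * ((g⁻¹ : GL (Fin n) F) : Matrix (Fin n) (Fin n) F)) * g := by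
          rw [mul_assoc _ _ (g : Matrix (Fin n) (Fin n) F), hgg, mul_one]
      _ = a * g := by rw [← ha', h4]
  apply Matrix.toLin'.injective
  apply LinearMap.ext
  intro w
  obtain ⟨b, hb, hbw⟩ := fp_exists_mul hK hu0 w
  obtain ⟨p, rfl⟩ := fp_gen hn hK ha hsc hb
  have h5 := fk_conj_aeval _ a a hcomm p
  rw [Matrix.toLin'_apply, Matrix.toLin'_apply, Matrix.smul_mulVec, Matrix.one_mulVec, ← hbw, Matrix.mulVec_mulVec, h5, ← Matrix.mulVec_mulVec, hu,
    Matrix.mulVec_smul]

end Gen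

section Frob

variable {F : Type*} [Field F] [Fintype F] {V : Type*} [AddCommGroup V] [Module F V] [FiniteDimensional F V]

/-- In a finite extension the elements fixed by the Frobenius map are those of the base. -/
theorem frob_fixed {L : Type*} [Field L] [Algebra F L] {a : L} (ha : a ^ Fintype.card F = a) : ∃ c : F, algebraMap F L c = a := by
  classical
  have h1 : 1 < Fintype.card F := Fintype.one_lt_card
  have hP := FiniteField.X_pow_card_sub_X_ne_zero L h1
  have hdeg := FiniteField.X_pow_card_sub_X_natDegree_eq L h1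
  let S := (X ^ Fintype.card F - X : L[X]).roots.toFinset
  let T := (Finset.univ : Finset F).image (algebraMap F L)
  have hTS : T ⊆ S := by
    intro b hb
    obtain ⟨c, -, rfl⟩ := Finset.mem_image.1 hb
    rw [Multiset.mem_toFinset, mem_roots hP]
    simp only [IsRoot.def, eval_sub, eval_pow, eval_X]
    rw [← map_pow, FiniteField.pow_card, sub_self]
  have hTc : T.card = Fintype.card F := by
    rw [Finset.card_image_of_injective _ (algebraMap F L).injective, Finset.card_univ]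
  have hSc : S.card ≤ Fintype.card F := by
    calc S.card ≤ Multiset.card (X ^ Fintype.card F - X : L[X]).roots := Multiset.toFinset_card_le _
      _ ≤ (X ^ Fintype.card F - X : L[X]).natDegree := card_roots' _
      _ = _ := hdeg
  have hTS' : T = S := Finset.eq_of_subset_of_card_le hTS (by omega)
  have hmem : a ∈ S := by
    rw [Multiset.mem_toFinset, mem_roots hP]
    simp only [IsRoot.def, eval_sub, eval_pow, eval_X]
    rw [ha, sub_self]
  rw [← hTS'] at hmem
  obtain ⟨c, -, hc⟩ := Finset.mem_image.1 hmem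
  exact ⟨c, hc⟩

/-- The Frobenius map on a space with a map annihilated by an irreducible polynomial of full degree. -/
theorem frob_model (y : V →ₗ[F] V) {g : F[X]} (hg : Irreducible g) (hy : aeval y g = 0) (hd : finrank F V = g.natDegree) :
    ∃ φ : Module.End F V, (∀ v, φ (y v) = (y ^ Fintype.card F) (φ v)) ∧ (∀ v, (φ ^ g.natDegree) v = v) ∧
      ∃ v₀ : V, v₀ ≠ 0 ∧ φ v₀ = v₀ ∧ ∀ v, φ v = v → ∃ c : F, v = c • v₀ := by
  classical
  haveI : Fact (Irreducible g) := ⟨hg⟩
  have hdp := hg.natDegree_pos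
  obtain ⟨s, ψ, hs1, hs2⟩ := irr_model y hg hy
  have hs : s = 1 := by
    rw [hd] at hs1
    have : 1 * g.natDegree = s * g.natDegree := by omega
    exact (Nat.eq_of_mul_eq_mul_right hdp this).symm
  subst hs
  let ψ' : V ≃ₗ[F] AdjoinRoot g := ψ.trans (LinearEquiv.funUnique (Fin 1) F (AdjoinRoot g))
  have hψ' : ∀ v, ψ' (y v) = AdjoinRoot.root g * ψ' v := by
    intro v
    show (ψ (y v)) 0 = _
    rw [hs2]
    rfl
  haveI : Module.Finite F (AdjoinRoot g) := (AdjoinRoot.powerBasis hg.ne_zero).finite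
  haveI : Finite (AdjoinRoot g) := Module.finite_of_finite F
  haveI : Fintype (AdjoinRoot g) := Fintype.ofFinite _
  have hfr : finrank F (AdjoinRoot g) = g.natDegree := by
    rw [(AdjoinRoot.powerBasis hg.ne_zero).finrank, AdjoinRoot.powerBasis_dim]
  have hcard : Fintype.card (AdjoinRoot g) = Fintype.card F ^ g.natDegree := by
    rw [← hfr]
    exact Module.card_eq_pow_finrank (K := F) (V := AdjoinRoot g)
  let φ : Module.End F V := (ψ'.symm : AdjoinRoot g →ₗ[F] V) ∘ₗ (FiniteField.frobeniusAlgHom F (AdjoinRoot g)).toLinearMap ∘ₗ (ψ' : V →ₗ[F] AdjoinRoot g)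
  have hφ : ∀ v, ψ' (φ v) = (ψ' v) ^ Fintype.card F := by
    intro v
    simp [φ]
  have hyq : ∀ (j : ℕ) (v : V), ψ' ((y ^ j) v) = AdjoinRoot.root g ^ j * ψ' v := by
    intro j
    induction j with
    | zero => intro v; simp
    | succ j ih =>
      intro v
      rw [pow_succ, Module.End.mul_apply, ih, hψ', pow_succ, mul_assoc]
  have hφj : ∀ (j : ℕ) (v : V), ψ' ((φ ^ j) v) = (ψ' v) ^ (Fintype.card F ^ j) := by
    intro j
    induction j with
    | zero => intro v; simp
    | succ j ih =>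
      intro v
      rw [pow_succ, Module.End.mul_apply, ih, hφ, pow_succ, ← pow_mul, mul_comm]
  refine ⟨φ, ?_, ?_, ψ'.symm 1, ?_, ?_, ?_⟩
  · intro v
    apply ψ'.injective
    rw [hφ, hψ', hyq, hφ, mul_pow]
  · intro v
    apply ψ'.injective
    rw [hφj, ← hcard, FiniteField.pow_card]
  · intro h
    have := congrArg ψ' h
    rw [LinearEquiv.apply_symm_apply, map_zero] at this
    exact one_ne_zero this
  · apply ψ'.injective
    rw [hφ, LinearEquiv.apply_symm_apply, one_pow]
  · intro v hv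
    have h1 := congrArg ψ' hv
    rw [hφ] at h1
    obtain ⟨c, hc⟩ := frob_fixed (F := F) h1
    refine ⟨c, ?_⟩
    apply ψ'.injective
    rw [map_smul, LinearEquiv.apply_symm_apply, ← hc, Algebra.algebraMap_eq_smul_one]

end Frob

section Conj

variable {F : Type*} [Field F] {V : Type*} [AddCommGroup V] [Module F V]

/-- Gluing equivalences along complements. -/
theorem exists_equiv_of_compl {A₁ B₁ A₂ B₂ : Submodule F V} (h₁ : IsCompl A₁ B₁) (h₂ : IsCompl A₂ B₂) (α : A₁ ≃ₗ[F] A₂) (β : B₁ ≃ₗ[F] B₂) :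
    ∃ e : V ≃ₗ[F] V, (∀ a : A₁, e a = α a) ∧ ∀ b : B₁, e b = β b := by
  refine ⟨(Submodule.prodEquivOfIsCompl A₁ B₁ h₁).symm.trans ((α.prodCongr β).trans (Submodule.prodEquivOfIsCompl A₂ B₂ h₂)), ?_, ?_⟩
  · intro a
    simp only [LinearEquiv.trans_apply, Submodule.prodEquivOfIsCompl_symm_apply_left]
    simp
  · intro b
    simp only [LinearEquiv.trans_apply, Submodule.prodEquivOfIsCompl_symm_apply_right]
    simp

variable [FiniteDimensional F V]

/-- Conjugacy of maps which are the identity on one summand and annihilated by an irreducible polynomial on the other. -/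
theorem conj_of_split (y₁ y₂ : V →ₗ[F] V) {g : F[X]} (hg : Irreducible g) {A₁ B₁ A₂ B₂ : Submodule F V} (h₁ : IsCompl A₁ B₁) (h₂ : IsCompl A₂ B₂)
    (hA₁ : ∀ a ∈ A₁, y₁ a = a) (hA₂ : ∀ a ∈ A₂, y₂ a = a) (hB₁ : ∀ b ∈ B₁, y₁ b ∈ B₁) (hB₂ : ∀ b ∈ B₂, y₂ b ∈ B₂)
    (hg₁ : ∀ b ∈ B₁, aeval y₁ g b = 0) (hg₂ : ∀ b ∈ B₂, aeval y₂ g b = 0) (hd : finrank F A₁ = finrank F A₂) :
    ∃ e : V ≃ₗ[F] V, ∀ v, e (y₁ v) = y₂ (e v) := by
  have hg₁' : aeval (y₁.restrict hB₁) g = 0 := by
    ext u
    rw [aeval_restrict_coe]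
    exact hg₁ u u.2
  have hg₂' : aeval (y₂.restrict hB₂) g = 0 := by
    ext u
    rw [aeval_restrict_coe]
    exact hg₂ u u.2
  obtain ⟨s₁, ψ₁, h1, h2⟩ := irr_model (y₁.restrict hB₁) hg hg₁'
  obtain ⟨s₂, ψ₂, h3, h4⟩ := irr_model (y₂.restrict hB₂) hg hg₂'
  have hs : s₁ = s₂ := by
    have h5 := Submodule.finrank_add_eq_of_isCompl h₁
    have h6 := Submodule.finrank_add_eq_of_isCompl h₂
    have h7 : s₁ * g.natDegree = s₂ * g.natDegree := by omega
    exact Nat.eq_of_mul_eq_mul_right hg.natDegree_pos h7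
  subst hs
  obtain ⟨e, he1, he2⟩ := exists_equiv_of_compl h₁ h₂ (LinearEquiv.ofFinrankEq _ _ hd) (ψ₁.trans ψ₂.symm)
  refine ⟨e, ?_⟩
  intro v
  have h5 : v ∈ A₁ ⊔ B₁ := by rw [h₁.sup_eq_top]; trivial
  obtain ⟨a, ha, b, hb, rfl⟩ := Submodule.mem_sup.1 h5
  have e1 : e a = (LinearEquiv.ofFinrankEq _ _ hd) ⟨a, ha⟩ := he1 ⟨a, ha⟩
  have e2 : e b = (ψ₁.trans ψ₂.symm) ⟨b, hb⟩ := he2 ⟨b, hb⟩
  have e3 : e (y₁ b) = (ψ₁.trans ψ₂.symm) ((y₁.restrict hB₁) ⟨b, hb⟩) := he2 ⟨y₁ b, hB₁ b hb⟩
  have e4 : (ψ₁.trans ψ₂.symm) ((y₁.restrict hB₁) ⟨b, hb⟩) = (y₂.restrict hB₂) ((ψ₁.trans ψ₂.symm) ⟨b, hb⟩) := by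
    apply ψ₂.injective
    simp only [LinearEquiv.trans_apply, LinearEquiv.apply_symm_apply]
    rw [h2, h4, LinearEquiv.apply_symm_apply]
  rw [map_add, map_add, hA₁ a ha, map_add, e3, e4, e1, e2, map_add, hA₂ _ (Subtype.coe_prop _)]
  rfl

end Conj

section Final

variable {F : Type*} [Field F] {n r : ℕ} {K : Subalgebra F (Matrix (Fin n) (Fin n) F)}

/-- A non-scalar element of the field. -/
theorem fk_exists_nonscalar (hr : 2 ≤ r) (hn : 0 < n) (hK : Cfsg.Geo.IsFieldSubalgebra r K) : ∃ θ ∈ K, ∀ c : F, θ ≠ c • 1 := by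
  haveI : Nonempty (Fin n) := ⟨⟨0, hn⟩⟩
  have hone : (1 : Matrix (Fin n) (Fin n) F) ≠ 0 := one_ne_zero
  have hfK : finrank F (Subalgebra.toSubmodule K) = r := hK.finrank_eq
  by_contra hcon
  push Not at hcon
  have hle : Subalgebra.toSubmodule K ≤ Submodule.span F {(1 : Matrix (Fin n) (Fin n) F)} := by
    intro k hk
    obtain ⟨c, rfl⟩ := hcon k hk
    exact Submodule.smul_mem _ _ (Submodule.mem_span_singleton_self _)
  have h1 := Submodule.finrank_mono hle
  rw [hfK, finrank_span_singleton hone] at h1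
  omega

/-- The minimal polynomial of a non-scalar element of a field of prime degree. -/
theorem fp_min (hr : r.Prime) (hK : Cfsg.Geo.IsFieldSubalgebra r K) {a : Matrix (Fin n) (Fin n) F} (ha : a ∈ K)
    (hsc : ∀ c : F, a ≠ c • 1) : ∃ g : F[X], Irreducible g ∧ g.natDegree = r ∧ aeval a g = 0 := by
  classical
  have ha0 : a ≠ 0 := by
    intro h
    apply hsc 0
    rw [h, zero_smul]
  have hne : (0 : K) ≠ 1 := by
    intro h
    have h1 : (0 : Matrix (Fin n) (Fin n) F) = 1 := congrArg Subtype.val h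
    apply ha0
    calc a = a * 1 := (mul_one a).symm
      _ = 0 := by rw [← h1, mul_zero]
  have hfield : IsField K := by
    refine ⟨⟨0, 1, hne⟩, fun a b => Subtype.ext (hK.comm a a.2 b b.2), fun {a} ha => ?_⟩
    obtain ⟨y, hy, hay⟩ := hK.inv a a.2 (fun h => ha (Subtype.ext h))
    exact ⟨⟨y, hy⟩, Subtype.ext hay⟩
  letI instK : Field K := hfield.toField
  haveI : FiniteDimensional F K := inferInstance
  obtain ⟨α, hα⟩ : ∃ α : K, α = ⟨a, ha⟩ := ⟨_, rfl⟩
  have hint : IsIntegral F α := IsIntegral.of_finite F α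
  refine ⟨minpoly F α, minpoly.irreducible hint, ?_, ?_⟩
  · have h1 := minpoly.degree_dvd hint
    have hrk : finrank F K = r := hK.finrank_eq
    rw [hrk] at h1
    rcases (Nat.dvd_prime hr).1 h1 with h2 | h2
    · exfalso
      rw [minpoly.natDegree_eq_one_iff] at h2
      obtain ⟨c, hc⟩ := h2
      apply hsc c
      have h3 : ((algebraMap F K c : K) : Matrix (Fin n) (Fin n) F) = a := by
        have h4 := congrArg Subtype.val hc
        rw [hα] at h4
        exact h4
      rw [← h3, Algebra.algebraMap_eq_smul_one]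
      rfl
    · exact h2
  · have h5 := Polynomial.aeval_algHom_apply K.val α (minpoly F α)
    have h6 : K.val α = a := by rw [hα]; rfl
    rw [h6, minpoly.aeval, map_zero] at h5
    exact h5

theorem aeval_toLin' (a : Matrix (Fin n) (Fin n) F) (p : F[X]) : aeval (Matrix.toLin' a) p = Matrix.toLin' (aeval a p) := by
  have h := Polynomial.aeval_algHom_apply (Matrix.toLinAlgEquiv' : Matrix (Fin n) (Fin n) F ≃ₐ[F] _).toAlgHom a p
  exact h

/-- The final step: membership in the normalizer. -/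
theorem fp_final [Finite F] {θ θ' : Matrix (Fin n) (Fin n) F} (hgen : ∀ k ∈ K, ∃ p : F[X], k = aeval θ p) (hθ' : θ' ∈ K)
    (x : Matrix.SpecialLinearGroup (Fin n) F) (e : Module.End F (Fin n → F))
    (hdet : LinearMap.det e = 1) (x' : Module.End F (Fin n → F)) (h : ∀ v, e (x' v) = Matrix.toLin' (x : Matrix (Fin n) (Fin n) F) (e v))
    (hx' : ∀ v, x' (Matrix.toLin' θ v) = Matrix.toLin' θ' (x' v)) :
    ∃ P : Matrix.SpecialLinearGroup (Fin n) F, P⁻¹ * x * P ∈ ((Cfsg.Geo.subalgebraNormalizer K).comap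
      (Matrix.SpecialLinearGroup.toGL : Matrix.SpecialLinearGroup (Fin n) F →* GL (Fin n) F)) := by
  obtain ⟨P, hP⟩ := sl_conj_of_end x e hdet x' h
  refine ⟨P, ?_⟩
  rw [Subgroup.mem_comap]
  apply fk_mem_norm hgen hθ'
  show ((P⁻¹ * x * P : Matrix.SpecialLinearGroup (Fin n) F) : Matrix (Fin n) (Fin n) F) * θ = θ' * ((P⁻¹ * x * P : Matrix.SpecialLinearGroup (Fin n) F) : Matrix (Fin n) (Fin n) F)
  apply Matrix.toLin'.injective
  apply LinearMap.ext
  intro v
  have e1 := hx' v
  rw [← hP] at e1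
  simp only [Matrix.toLin'_apply] at e1
  simp only [Matrix.toLin'_apply]
  rw [← Matrix.mulVec_mulVec, e1, Matrix.mulVec_mulVec]

theorem exists_indep_of_two_le {V : Type*} [AddCommGroup V] [Module F V] [FiniteDimensional F V] (S : Submodule F V) (h : 2 ≤ finrank F S) :
    ∃ u ∈ S, ∃ v ∈ S, u ≠ 0 ∧ ∀ d : F, v ≠ d • u := by
  have hne : S ≠ ⊥ := by
    intro h0
    rw [h0, finrank_bot] at h
    omega
  obtain ⟨u, hu, hu0⟩ := Submodule.exists_mem_ne_zero_of_ne_bot hne
  refine ⟨u, hu, ?_⟩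
  by_contra hcon
  push Not at hcon
  have hle : S ≤ Submodule.span F {u} := by
    intro v hv
    obtain ⟨d, hd⟩ := hcon v hv hu0
    rw [hd]
    exact Submodule.smul_mem _ _ (Submodule.mem_span_singleton_self _)
  have h1 := Submodule.finrank_mono hle
  rw [finrank_span_singleton hu0] at h1
  omega

end Final

section Split

variable {F : Type*} [Field F] [Fintype F] {p : ℕ} [Fact p.Prime] [CharP F p] {q : ℕ}
  {V : Type*} [AddCommGroup V] [Module F V] [FiniteDimensional F V]

/-- A map of prime order with a small module splits as a fixed line and a block. -/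
theorem prime_split (hq : Fintype.card F = q) {n : ℕ} [hn : Fact n.Prime] (hnp : n ≠ p) (hn3 : 3 < n) (hc : orderOf (q : ZMod n) = n - 1)
    (hV : finrank F V = n) (y : V →ₗ[F] V) (hy : y ^ n = 1) (hy1 : y ≠ 1) :
    ∃ A B : Submodule F V, IsCompl A B ∧ finrank F A = 1 ∧ (∀ a ∈ A, y a = a) ∧ (∀ b ∈ B, y b ∈ B) ∧
      ∀ b ∈ B, aeval y (cyclotomic n F) b = 0 := by
  obtain ⟨h1, h2⟩ := inv_split y (coprime_cyc (F := F) (p := p) (r := n) hnp) (ann_of_pow hy) ⊤ (fun v _ => trivial)
  rw [top_inf_eq, top_inf_eq] at h1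
  have hcompl : IsCompl (LinearMap.ker (aeval y (X - C 1 : F[X]))) (LinearMap.ker (aeval y (cyclotomic n F))) := by
    constructor
    · rw [disjoint_iff]; exact h2
    · rw [codisjoint_iff]; exact h1
  have hBinv : ∀ b ∈ LinearMap.ker (aeval y (cyclotomic n F)), y b ∈ LinearMap.ker (aeval y (cyclotomic n F)) := by
    intro b hb
    rw [LinearMap.mem_ker] at hb ⊢
    have h3 : aeval y (cyclotomic n F) * y = y * aeval y (cyclotomic n F) := by
      have := congrArg (aeval y) (Polynomial.X_mul (p := cyclotomic n F))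
      simpa [map_mul, aeval_X] using this.symm
    rw [← Module.End.mul_apply, h3, Module.End.mul_apply, hb, map_zero]
  obtain ⟨e, he⟩ := order_dvd_of_inv (F := F) (p := p) (r := n) (y := y) hq hnp _ hBinv le_rfl
  have hsum := Submodule.finrank_add_eq_of_isCompl hcompl
  rw [hV, he, hc] at hsum
  have he0 : e ≠ 0 := by
    rintro rfl
    rw [mul_zero, add_zero] at hsum
    apply hy1
    have h3 : LinearMap.ker (aeval y (X - C 1 : F[X])) = ⊤ := Submodule.eq_top_of_finrank_eq (by rw [hsum, hV])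
    apply LinearMap.ext
    intro v
    have h4 : v ∈ LinearMap.ker (aeval y (X - C 1 : F[X])) := by rw [h3]; trivial
    exact (mem_ker_aeval_sub_one).1 h4
  have he1 : e = 1 := by
    by_contra hne
    have h3 : 2 * (n - 1) ≤ (n - 1) * e := by
      rw [mul_comm]
      exact Nat.mul_le_mul_left _ (by omega)
    omega
  subst he1
  refine ⟨_, _, hcompl, by omega, fun a ha => (mem_ker_aeval_sub_one).1 ha, hBinv, fun b hb => hb⟩

/-- An element with a two dimensional space of fixed vectors. -/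
theorem fp_bad {n : ℕ} [hn : Fact n.Prime] (hq : Fintype.card F = q) (hnp : n ≠ p) (hn3 : 3 < n) (hc : orderOf (q : ZMod n) ≠ n - 1) :
    ∃ x : Matrix.SpecialLinearGroup (Fin n) F, ((x ^ n : Matrix.SpecialLinearGroup (Fin n) F) : Matrix (Fin n) (Fin n) F) = (1 : F) • (1 : Matrix (Fin n) (Fin n) F) ∧
      (∀ z : F, (x : Matrix (Fin n) (Fin n) F) ≠ z • (1 : Matrix (Fin n) (Fin n) F)) ∧
      ∃ u v : Fin n → F, u ≠ 0 ∧ (x : Matrix (Fin n) (Fin n) F).mulVec u = u ∧ (x : Matrix (Fin n) (Fin n) F).mulVec v = v ∧ ∀ d : F, v ≠ d • u := by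
  classical
  have hnP : n.Prime := hn.out
  have hq1 : 1 ≤ q := by rw [← hq]; exact Fintype.card_pos
  have hdim : finrank F (Fin n → F) = n := by simp
  have hc1iff : orderOf (q : ZMod n) = 1 ↔ n ∣ q - 1 := order_one_iff hq1
  have hqr : (q : ZMod n) ≠ 0 := by
    intro h0
    rw [ZMod.natCast_eq_zero_iff] at h0
    obtain ⟨f, hpos, hf⟩ := FiniteField.card F p
    rw [← hq, hf] at h0
    have h5 := hnP.dvd_of_dvd_pow h0
    exact hnp ((Nat.prime_dvd_prime_iff_eq hnP Fact.out).1 h5)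
  have hcdvd : orderOf (q : ZMod n) ∣ n - 1 := ZMod.orderOf_dvd_card_sub_one hqr
  have hcpos : 0 < orderOf (q : ZMod n) := order_pos (F := F) (p := p) hq hnp
  by_cases hc1 : orderOf (q : ZMod n) = 1
  · -- a diagonal element
    have hdvd : n ∣ Nat.card Fˣ := by
      rw [Nat.card_eq_fintype_card, Fintype.card_units, hq]
      exact hc1iff.1 hc1
    obtain ⟨ζ, hζ⟩ := exists_prime_orderOf_dvd_card' n hdvd
    have hζ1 : (ζ : F) ≠ 1 := by
      intro h
      have : ζ = 1 := Units.ext h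
      rw [this, orderOf_one] at hζ
      exact hnP.one_lt.ne hζ
    have hζn : (ζ : F) ^ n = 1 := by
      have h1 : ζ ^ n = 1 := by rw [← hζ]; exact pow_orderOf_eq_one ζ
      have h2 := congrArg Units.val h1
      simpa using h2
    have hζ0 : (ζ : F) ≠ 0 := ζ.ne_zero
    obtain ⟨i₀, hi₀⟩ : ∃ i₀ : Fin n, i₀ = ⟨0, by omega⟩ := ⟨_, rfl⟩
    obtain ⟨i₁, hi₁⟩ : ∃ i₁ : Fin n, i₁ = ⟨1, by omega⟩ := ⟨_, rfl⟩
    obtain ⟨i₂, hi₂⟩ : ∃ i₂ : Fin n, i₂ = ⟨2, by omega⟩ := ⟨_, rfl⟩
    obtain ⟨i₃, hi₃⟩ : ∃ i₃ : Fin n, i₃ = ⟨3, by omega⟩ := ⟨_, rfl⟩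
    have h01 : i₀ ≠ i₁ := by rw [hi₀, hi₁]; simp [Fin.ext_iff]
    have h02 : i₀ ≠ i₂ := by rw [hi₀, hi₂]; simp [Fin.ext_iff]
    have h03 : i₀ ≠ i₃ := by rw [hi₀, hi₃]; simp [Fin.ext_iff]
    have h12 : i₁ ≠ i₂ := by rw [hi₁, hi₂]; simp [Fin.ext_iff]
    have h13 : i₁ ≠ i₃ := by rw [hi₁, hi₃]; simp [Fin.ext_iff]
    have h23 : i₂ ≠ i₃ := by rw [hi₂, hi₃]; simp [Fin.ext_iff]
    obtain ⟨dg, hdg⟩ : ∃ dg : Fin n → F, dg = fun i => (if i = i₀ then (ζ : F) else 1) * (if i = i₁ then (ζ : F)⁻¹ else 1) := ⟨_, rfl⟩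
    have hdetM : (Matrix.diagonal dg).det = 1 := by
      rw [Matrix.det_diagonal, hdg, Finset.prod_mul_distrib, Finset.prod_ite_eq' Finset.univ i₀ (fun _ => (ζ : F)),
        Finset.prod_ite_eq' Finset.univ i₁ (fun _ => (ζ : F)⁻¹)]
      simp [hζ0]
    obtain ⟨x, hx⟩ : ∃ x : Matrix.SpecialLinearGroup (Fin n) F, x = ⟨Matrix.diagonal dg, hdetM⟩ := ⟨_, rfl⟩
    have hxc : (x : Matrix (Fin n) (Fin n) F) = Matrix.diagonal dg := by rw [hx]
    have hdgi : ∀ i, i ≠ i₀ → i ≠ i₁ → dg i = 1 := by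
      intro i h1 h2
      simp [hdg, h1, h2]
    have hdg0 : dg i₀ = ζ := by
      simp [hdg, h01]
    have hfix : ∀ w : Fin n → F, w i₀ = 0 → w i₁ = 0 → (x : Matrix (Fin n) (Fin n) F).mulVec w = w := by
      intro w h1 h2
      ext i
      rw [hxc, Matrix.mulVec_diagonal]
      by_cases h3 : i = i₀
      · rw [h3, h1, mul_zero]
      · by_cases h4 : i = i₁
        · rw [h4, h2, mul_zero]
        · rw [hdgi i h3 h4, one_mul]
    refine ⟨x, ?_, ?_, Pi.single i₂ 1, Pi.single i₃ 1, ?_, hfix _ ?_ ?_, hfix _ ?_ ?_, ?_⟩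
    · rw [Matrix.SpecialLinearGroup.coe_pow, hxc, Matrix.diagonal_pow, one_smul]
      rw [← Matrix.diagonal_one]
      congr 1
      ext i
      simp only [Pi.pow_apply, hdg, mul_pow, ite_pow, hζn, inv_pow, one_pow, inv_one, ite_self, mul_one, Pi.one_apply]
    · intro z hz
      rw [hxc] at hz
      have h1 := congrFun (congrFun hz i₀) i₀
      have h3 := congrFun (congrFun hz i₂) i₂
      simp only [Matrix.smul_apply, Matrix.diagonal_apply_eq, Matrix.one_apply_eq, smul_eq_mul, mul_one] at h1 h3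
      rw [hdg0] at h1
      rw [hdgi i₂ h02.symm h12.symm] at h3
      exact hζ1 (by rw [h1, ← h3])
    · intro h
      have := congrFun h i₂
      simp at this
    · simp [h02]
    · simp [h12]
    · simp [h03]
    · simp [h13]
    · intro d hd
      have h1 := congrFun hd i₃
      have h2 := congrFun hd i₂
      simp [h23, h23.symm] at h1 h2
  · -- a block
    obtain ⟨d, hd⟩ := hcdvd
    have hd2 : 2 ≤ d := by
      by_contra hlt
      have : d = 0 ∨ d = 1 := by omega
      rcases this with rfl | rfl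
      · simp at hd; have := hnP.two_le; omega
      · rw [mul_one] at hd
        exact hc hd.symm
    have hle : 2 * orderOf (q : ZMod n) ≤ n - 1 := by
      rw [hd, mul_comm]
      exact Nat.mul_le_mul_left _ hd2
    obtain ⟨y, hy1, hy2⟩ := exists_model (F := F) (V := Fin n → F) (p := p) (r := n) hq hnp 1 (n - orderOf (q : ZMod n)) (by rw [hdim]; omega)
    have hrq : ¬ n ∣ q - 1 := fun h => hc1 (hc1iff.2 h)
    have hdet : LinearMap.det y = 1 := by
      apply eq_one_of_pow_coprime (F := F) hq hnP hrq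
      rw [← map_pow, hy1, map_one]
    obtain ⟨x, hx⟩ := sl_exists_of_det y hdet
    obtain ⟨u, hu, v, hv, hu0, hind⟩ := exists_indep_of_two_le _ (show 2 ≤ finrank F (LinearMap.ker (aeval y (X - C 1 : F[X]))) by omega)
    refine ⟨x, ?_, ?_, u, v, hu0, ?_, ?_, hind⟩
    · apply Matrix.toLin'.injective
      rw [sl_lin_pow, hx, hy1, lin_smul_one, one_smul]
    · intro c' hc'
      have h1 : y = c' • (1 : Module.End F (Fin n → F)) := by
        rw [← hx, hc', lin_smul_one]
      have h2 : c' ^ n = 1 := by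
        rw [h1, _root_.smul_pow, one_pow] at hy1
        have hs : 0 < n := by omega
        have h3 := congrArg (fun f : Module.End F (Fin n → F) => f (fun _ => 1) ⟨0, hs⟩) hy1
        simpa using h3
      have h3 : c' = 1 := eq_one_of_pow_coprime (F := F) hq hnP hrq h2
      rw [h3, one_smul] at h1
      rw [h1] at hy2
      have h4 : aeval (1 : Module.End F (Fin n → F)) (X - C 1 : Polynomial F) = 0 := by
        simp
      rw [h4, LinearMap.ker_zero, finrank_top, hdim] at hy2
      omega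
    · have := (mem_ker_aeval_sub_one).1 hu
      rw [← hx] at this
      exact this
    · have := (mem_ker_aeval_sub_one).1 hv
      rw [← hx] at this
      exact this

end Split

end Cfsg.Agent.Lib.Geo
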