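import Mathlib
import Cfsg.Agent.Lib.Geo.ElusFP
import Cfsg.Agent.Lib.Geo.ElusMono

set_option autoImplicit false

/-! Field structures of degree three and elements of order three. -/

namespace Cfsg.Agent.Lib.Geo

open Polynomial Module

section Frob

variable {F : Type*} [Field F] [Fintype F] {V : Type*} [AddCommGroup V] [Module F V] [FiniteDimensional F V]

/-- The Frobenius map, with eigenvalues closed under squaring. -/
theorem frob_model₂ (y : V →ₗ[F] V) {g : F[X]} (hg : Irreducible g) (hy : aeval y g = 0) (hd : finrank F V = g.natDegree) :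
    ∃ φ : Module.End F V, (∀ v, φ (y v) = (y ^ Fintype.card F) (φ v)) ∧ (∀ v, (φ ^ g.natDegree) v = v) ∧
      (∃ v₀ : V, v₀ ≠ 0 ∧ φ v₀ = v₀ ∧ ∀ v, φ v = v → ∃ c : F, v = c • v₀) ∧
      ∀ (c : F) (v : V), v ≠ 0 → φ v = c • v → ∃ v' : V, v' ≠ 0 ∧ φ v' = (c * c) • v' := by
  classical
  haveI : Fact (Irreducible g) := ⟨hg⟩
  have hdp := hg.natDegree_pos
  obtain ⟨s, ψ, hs1, hs2⟩ := irr_model y hg hy
  have hs : s = 1 := by
    rw [hd] at hs1
    have : 1 * g.natDegree = s * g.natDegree := by omega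
    exact (Nat.eq_of_mul_eq_mul_right hdp this).symm
  subst hs
  let ψ' : V ≃ₗ[F] AdjoinRoot g := ψ.trans (LinearEquiv.funUnique (Fin 1) F (AdjoinRoot g))
  have hψ' : ∀ v, ψ' (y v) = AdjoinRoot.root g * ψ' v := by
    intro v
    show (ψ (y v)) 0 = _
    rw [hs2]
    rfl
  haveI : Module.Finite F (AdjoinRoot g) := (AdjoinRoot.powerBasis hg.ne_zero).finite
  haveI : Finite (AdjoinRoot g) := Module.finite_of_finite F
  haveI : Fintype (AdjoinRoot g) := Fintype.ofFinite _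
  have hfr : finrank F (AdjoinRoot g) = g.natDegree := by
    rw [(AdjoinRoot.powerBasis hg.ne_zero).finrank, AdjoinRoot.powerBasis_dim]
  have hcard : Fintype.card (AdjoinRoot g) = Fintype.card F ^ g.natDegree := by
    rw [← hfr]
    exact Module.card_eq_pow_finrank (K := F) (V := AdjoinRoot g)
  let φ : Module.End F V := (ψ'.symm : AdjoinRoot g →ₗ[F] V) ∘ₗ (FiniteField.frobeniusAlgHom F (AdjoinRoot g)).toLinearMap ∘ₗ (ψ' : V →ₗ[F] AdjoinRoot g)
  have hφ : ∀ v, ψ' (φ v) = (ψ' v) ^ Fintype.card F := by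
    intro v
    simp [φ]
  have hyq : ∀ (j : ℕ) (v : V), ψ' ((y ^ j) v) = AdjoinRoot.root g ^ j * ψ' v := by
    intro j
    induction j with
    | zero => intro v; simp
    | succ j ih =>
      intro v
      rw [pow_succ, Module.End.mul_apply, ih, hψ', pow_succ, mul_assoc]
  have hφj : ∀ (j : ℕ) (v : V), ψ' ((φ ^ j) v) = (ψ' v) ^ (Fintype.card F ^ j) := by
    intro j
    induction j with
    | zero => intro v; simp
    | succ j ih =>
      intro v
      rw [pow_succ, Module.End.mul_apply, ih, hφ, pow_succ, ← pow_mul, mul_comm]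
  refine ⟨φ, ?_, ?_, ⟨ψ'.symm 1, ?_, ?_, ?_⟩, ?_⟩
  · intro v
    apply ψ'.injective
    rw [hφ, hψ', hyq, hφ, mul_pow]
  · intro v
    apply ψ'.injective
    rw [hφj, ← hcard, FiniteField.pow_card]
  · intro h
    have := congrArg ψ' h
    rw [LinearEquiv.apply_symm_apply, map_zero] at this
    exact one_ne_zero this
  · apply ψ'.injective
    rw [hφ, LinearEquiv.apply_symm_apply, one_pow]
  · intro v hv
    have h1 := congrArg ψ' hv
    rw [hφ] at h1
    obtain ⟨c, hc⟩ := frob_fixed (F := F) h1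
    refine ⟨c, ?_⟩
    apply ψ'.injective
    rw [map_smul, LinearEquiv.apply_symm_apply, ← hc, Algebra.algebraMap_eq_smul_one]
  · intro c v hv hc
    have h1 : ψ' v ≠ 0 := fun h => hv (by simpa using h)
    refine ⟨ψ'.symm (ψ' v * ψ' v), ?_, ?_⟩
    · intro h
      have h2 := congrArg ψ' h
      rw [LinearEquiv.apply_symm_apply, map_zero] at h2
      exact h1 (by simpa using h2)
    · apply ψ'.injective
      rw [hφ, LinearEquiv.apply_symm_apply, mul_pow, ← hφ, hc, map_smul, LinearEquiv.map_smul, LinearEquiv.apply_symm_apply,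
        Algebra.smul_def, Algebra.smul_def, map_mul]
      ring

end Frob

section Three

variable {F : Type*} [Field F] {V : Type*} [AddCommGroup V] [Module F V] [FiniteDimensional F V]

theorem ker_aeval_X_sub_C (y : Module.End F V) (c : F) (v : V) : v ∈ LinearMap.ker (aeval y (X - C c : F[X])) ↔ y v = c • v := by
  rw [LinearMap.mem_ker, map_sub, aeval_X, aeval_C]
  simp [sub_eq_zero, Module.algebraMap_end_apply]

/-- A map of order three of determinant one on a three dimensional space has a fixed vector. -/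
theorem three_fixed (hV : finrank F V = 3) (y : Module.End F V) (hy : y ^ 3 = 1) (hdet : LinearMap.det y = 1)
    (hns : ∀ c : F, y ≠ c • (1 : Module.End F V)) {ω : F} (hω1 : ω ≠ 1) (hω : ω * ω + ω + 1 = 0) : ∃ v, v ≠ 0 ∧ y v = v := by
  classical
  by_contra hcon
  push Not at hcon
  have hy3 : ∀ v, y (y (y v)) = v := fun v => by
    have := LinearMap.congr_fun hy v
    simpa [pow_succ] using this
  have hω0 : ω ≠ 0 := by
    rintro rfl
    simp at hω
  have hω3 : ω * (ω * ω) = 1 := by linear_combination (ω - 1) * hω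
  have hΦ : ∀ v, y (y v) + y v + v = 0 := by
    intro v
    by_contra h
    apply hcon _ h
    rw [map_add, map_add, hy3]
    abel
  have hne : ω - ω * ω ≠ 0 := by
    intro h
    have h1 : ω * (1 - ω) = 0 := by linear_combination h
    rcases mul_eq_zero.1 h1 with h2 | h2
    · exact hω0 h2
    · exact hω1 (sub_eq_zero.1 h2).symm
  have hco : IsCoprime (X - C ω : F[X]) (X - C (ω * ω)) := Polynomial.isCoprime_X_sub_C_of_isUnit_sub (isUnit_iff_ne_zero.2 hne)
  have hann : aeval y ((X - C ω) * (X - C (ω * ω)) : F[X]) = 0 := by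
    apply LinearMap.ext
    intro v
    rw [map_mul, map_sub, map_sub, aeval_X, aeval_C, aeval_C]
    simp only [Module.End.mul_apply, LinearMap.sub_apply, Module.algebraMap_end_apply, map_sub, map_smul, LinearMap.zero_apply]
    have h1 : y (y v) = - y v - v := by
      rw [← sub_eq_zero, ← hΦ v]
      abel
    rw [h1]
    have h3 : (ω * ω) = -ω - 1 := by linear_combination hω
    have hω3' : ω * ω * ω = 1 := by linear_combination hω3
    have e1 : (ω * ω) • (y v - ω • v) = (-ω - 1) • y v - v := by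
      rw [smul_sub, smul_smul, hω3', one_smul, h3]
    rw [e1]
    (module)
  obtain ⟨h1, h2⟩ := inv_split y hco hann ⊤ (fun v _ => trivial)
  rw [top_inf_eq, top_inf_eq] at h1
  have hc : IsCompl (LinearMap.ker (aeval y (X - C ω : F[X]))) (LinearMap.ker (aeval y (X - C (ω * ω) : F[X]))) := by
    constructor
    · rw [disjoint_iff]; exact h2
    · rw [codisjoint_iff]; exact h1
  have hE₁ : ∀ v ∈ LinearMap.ker (aeval y (X - C ω : F[X])), y v ∈ LinearMap.ker (aeval y (X - C ω : F[X])) := by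
    intro v hv
    rw [ker_aeval_X_sub_C] at hv ⊢
    rw [hv, map_smul, hv]
  have hE₂ : ∀ v ∈ LinearMap.ker (aeval y (X - C (ω * ω) : F[X])), y v ∈ LinearMap.ker (aeval y (X - C (ω * ω) : F[X])) := by
    intro v hv
    rw [ker_aeval_X_sub_C] at hv ⊢
    rw [hv, map_smul, hv]
  have hd := det_of_compl y hc hE₁ hE₂
  have hr₁ : y.restrict hE₁ = ω • (1 : Module.End F (LinearMap.ker (aeval y (X - C ω : F[X])))) := by
    apply LinearMap.ext
    intro v
    apply Subtype.ext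
    exact (ker_aeval_X_sub_C y ω v).1 v.2
  have hr₂ : y.restrict hE₂ = (ω * ω) • (1 : Module.End F (LinearMap.ker (aeval y (X - C (ω * ω) : F[X])))) := by
    apply LinearMap.ext
    intro v
    apply Subtype.ext
    exact (ker_aeval_X_sub_C y (ω * ω) v).1 v.2
  rw [hr₁, hr₂, LinearMap.det_smul, LinearMap.det_smul, map_one, mul_one, map_one, mul_one, hdet] at hd
  have hsum := Submodule.finrank_add_eq_of_isCompl hc
  rw [hV] at hsum
  obtain ⟨b, hb⟩ : ∃ b, b = finrank F (LinearMap.ker (aeval y (X - C ω : F[X]))) := ⟨_, rfl⟩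
  obtain ⟨c, hc'⟩ : ∃ c, c = finrank F (LinearMap.ker (aeval y (X - C (ω * ω) : F[X]))) := ⟨_, rfl⟩
  rw [← hb, ← hc'] at hd hsum
  have hcases : (b = 3 ∧ c = 0) ∨ (b = 2 ∧ c = 1) ∨ (b = 1 ∧ c = 2) ∨ (b = 0 ∧ c = 3) := by omega
  rcases hcases with ⟨rfl, rfl⟩ | ⟨rfl, rfl⟩ | ⟨rfl, rfl⟩ | ⟨rfl, rfl⟩
  · have h3 : LinearMap.ker (aeval y (X - C ω : F[X])) = ⊤ := Submodule.eq_top_of_finrank_eq (by rw [← hb, hV])
    apply hns ω
    apply LinearMap.ext
    intro v
    have h4 : v ∈ LinearMap.ker (aeval y (X - C ω : F[X])) := by rw [h3]; trivial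
    exact (ker_aeval_X_sub_C y ω v).1 h4
  · apply hω1
    have h3 : ω ^ 2 * (ω * ω) ^ 1 = ω * (ω * (ω * ω)) := by ring
    rw [h3, hω3, mul_one] at hd
    exact hd.symm
  · exfalso
    have h3 : ω ^ 1 * (ω * ω) ^ 2 = (ω * (ω * ω)) * (ω * ω) := by ring
    rw [h3, hω3, one_mul] at hd
    apply hω1
    rw [← hd, mul_one] at hω3
    exact hω3
  · have h3 : LinearMap.ker (aeval y (X - C (ω * ω) : F[X])) = ⊤ := Submodule.eq_top_of_finrank_eq (by rw [← hc', hV])
    apply hns (ω * ω)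
    apply LinearMap.ext
    intro v
    have h4 : v ∈ LinearMap.ker (aeval y (X - C (ω * ω) : F[X])) := by rw [h3]; trivial
    exact (ker_aeval_X_sub_C y (ω * ω) v).1 h4

/-- All the cube roots of unity are eigenvalues. -/
theorem three_eig (hV : finrank F V = 3) (y : Module.End F V) (hy : y ^ 3 = 1) (hdet : LinearMap.det y = 1)
    (hns : ∀ c : F, y ≠ c • (1 : Module.End F V)) {ω : F} (hω1 : ω ≠ 1) (hω : ω * ω + ω + 1 = 0) {c : F} (hc : c ^ 3 = 1) :
    ∃ v, v ≠ 0 ∧ y v = c • v := by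
  have hc0 : c ≠ 0 := by
    rintro rfl
    simp at hc
  have hci : c⁻¹ ^ 3 = 1 := by rw [inv_pow, hc, inv_one]
  obtain ⟨v, hv, hv2⟩ := three_fixed hV (c⁻¹ • y) (by rw [_root_.smul_pow, hy, hci, one_smul]) (by
    rw [LinearMap.det_smul, hV, hci, one_mul, hdet]) (by
    intro d hd
    apply hns (c * d)
    rw [← smul_smul, ← hd, smul_smul, mul_inv_cancel₀ hc0, one_smul]) hω1 hω
  refine ⟨v, hv, ?_⟩
  have h1 : c⁻¹ • y v = v := hv2
  calc y v = c • (c⁻¹ • y v) := by rw [smul_smul, mul_inv_cancel₀ hc0, one_smul]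
    _ = c • v := by rw [h1]

/-- Maps with the same three different eigenvalues are conjugate. -/
theorem conj_of_eigvecs (hV : finrank F V = 3) (y₁ y₂ : Module.End F V) (μ : Fin 3 → F) (hμ : Function.Injective μ) (v v' : Fin 3 → V)
    (hv : ∀ i, v i ≠ 0) (hv' : ∀ i, v' i ≠ 0) (h₁ : ∀ i, y₁ (v i) = μ i • v i) (h₂ : ∀ i, y₂ (v' i) = μ i • v' i) :
    ∃ e : V ≃ₗ[F] V, ∀ w, e (y₁ w) = y₂ (e w) := by
  have hli₁ : LinearIndependent F v := Module.End.eigenvectors_linearIndependent' y₁ μ hμ v (fun i =>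
    ⟨Module.End.mem_eigenspace_iff.2 (h₁ i), hv i⟩)
  have hli₂ : LinearIndependent F v' := Module.End.eigenvectors_linearIndependent' y₂ μ hμ v' (fun i =>
    ⟨Module.End.mem_eigenspace_iff.2 (h₂ i), hv' i⟩)
  let B := basisOfLinearIndependentOfCardEqFinrank hli₁ (by simp [hV])
  let B' := basisOfLinearIndependentOfCardEqFinrank hli₂ (by simp [hV])
  have hB : ∀ i, B i = v i := fun i => by simp [B]
  have hB' : ∀ i, B' i = v' i := fun i => by simp [B']
  have he : ∀ i, (B.equiv B' (Equiv.refl _)) (v i) = v' i := by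
    intro i
    rw [← hB, ← hB', B.equiv_apply]
    rfl
  refine ⟨B.equiv B' (Equiv.refl _), ?_⟩
  have h3 : ((B.equiv B' (Equiv.refl _)) : V →ₗ[F] V) ∘ₗ y₁ = y₂ ∘ₗ ((B.equiv B' (Equiv.refl _)) : V →ₗ[F] V) := by
    apply B.ext
    intro i
    simp only [LinearMap.comp_apply, LinearEquiv.coe_coe]
    rw [hB, h₁, map_smul, he, h₂]
  intro w
  exact LinearMap.congr_fun h3 w

/-- The Frobenius map has all cube roots of unity as eigenvalues. -/
theorem frob_eigs (φ : Module.End F V) (hφ : φ ^ 3 = 1) (hne : φ ≠ 1)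
    (hcl : ∀ (c : F) (v : V), v ≠ 0 → φ v = c • v → ∃ v' : V, v' ≠ 0 ∧ φ v' = (c * c) • v') {ω : F} (hω1 : ω ≠ 1) (hω : ω * ω + ω + 1 = 0) :
    (∃ v, v ≠ 0 ∧ φ v = ω • v) ∧ (∃ v, v ≠ 0 ∧ φ v = (ω * ω) • v) := by
  have hφ3 : ∀ v, φ (φ (φ v)) = v := fun v => by
    have := LinearMap.congr_fun hφ v
    simpa [pow_succ] using this
  have hω3 : ω * (ω * ω) = 1 := by linear_combination (ω - 1) * hω
  obtain ⟨v, hv⟩ : ∃ v, φ v ≠ v := by
    by_contra hcon
    push Not at hcon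
    exact hne (LinearMap.ext hcon)
  obtain ⟨w, hw⟩ : ∃ w, w = φ v - v := ⟨_, rfl⟩
  have hw0 : w ≠ 0 := by rw [hw]; exact sub_ne_zero.2 hv
  have hwΦ : φ (φ w) + φ w + w = 0 := by
    rw [hw]
    simp only [map_sub, hφ3]
    abel
  have h2 : ω + ω * ω = -1 := by linear_combination hω
  have hcase : (∃ v, v ≠ 0 ∧ φ v = ω • v) ∨ (∃ v, v ≠ 0 ∧ φ v = (ω * ω) • v) := by
    by_cases h : φ w - (ω * ω) • w = 0
    · right
      exact ⟨w, hw0, sub_eq_zero.1 h⟩
    · left
      refine ⟨_, h, ?_⟩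
      rw [map_sub, map_smul, ← sub_eq_zero, smul_sub, smul_smul, hω3]
      have h3 : φ (φ w) = - φ w - w := by
        rw [← sub_eq_zero, ← hwΦ]
        abel
      rw [h3, one_smul]
      have h4 : (ω * ω) • φ w = (-1 - ω) • φ w := by
        congr 1
        linear_combination hω
      rw [h4, sub_smul, neg_smul, one_smul]
      abel
  rcases hcase with ⟨u, hu0, hu⟩ | ⟨u, hu0, hu⟩
  · exact ⟨⟨u, hu0, hu⟩, hcl ω u hu0 hu⟩
  · refine ⟨?_, ⟨u, hu0, hu⟩⟩
    obtain ⟨u', hu'0, hu'⟩ := hcl _ u hu0 hu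
    refine ⟨u', hu'0, ?_⟩
    rw [hu']
    congr 1
    linear_combination ω * hω3 + 0 * hω

end Three

section NotConj

variable {F : Type*} [Field F] {n : ℕ} {K : Subalgebra F (Matrix (Fin n) (Fin n) F)}

/-- An element with two independent eigenvectors for an eigenvalue is not conjugate into the normalizer. -/
theorem fp_not_conj (hnP : n.Prime) (hKn : Cfsg.Geo.IsFieldSubalgebra n K) (x : Matrix.SpecialLinearGroup (Fin n) F) {c : F} (hc : c ≠ 0)
    {u v : Fin n → F} (hu0 : u ≠ 0) (hu : (x : Matrix (Fin n) (Fin n) F).mulVec u = c • u) (hv : (x : Matrix (Fin n) (Fin n) F).mulVec v = c • v)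
    (hind : ∀ d : F, v ≠ d • u) (P : Matrix.SpecialLinearGroup (Fin n) F)
    (hP : P⁻¹ * x * P ∈ ((Cfsg.Geo.subalgebraNormalizer K).comap (Matrix.SpecialLinearGroup.toGL : Matrix.SpecialLinearGroup (Fin n) F →* GL (Fin n) F))) :
    (x : Matrix (Fin n) (Fin n) F) = c • 1 := by
  have hPP : ((P⁻¹ * P : Matrix.SpecialLinearGroup (Fin n) F) : Matrix (Fin n) (Fin n) F) = 1 := by
    rw [inv_mul_cancel, Matrix.SpecialLinearGroup.coe_one]
  have hPP2 : ((P * P⁻¹ : Matrix.SpecialLinearGroup (Fin n) F) : Matrix (Fin n) (Fin n) F) = 1 := by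
    rw [mul_inv_cancel, Matrix.SpecialLinearGroup.coe_one]
  rw [Matrix.SpecialLinearGroup.coe_mul] at hPP hPP2
  have key : ∀ w : Fin n → F, (x : Matrix (Fin n) (Fin n) F).mulVec w = c • w →
      ((P⁻¹ * x * P : Matrix.SpecialLinearGroup (Fin n) F) : Matrix (Fin n) (Fin n) F).mulVec (((P⁻¹ : Matrix.SpecialLinearGroup (Fin n) F) : Matrix (Fin n) (Fin n) F).mulVec w) =
        c • (((P⁻¹ : Matrix.SpecialLinearGroup (Fin n) F) : Matrix (Fin n) (Fin n) F).mulVec w) := by
    intro w hw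
    simp only [Matrix.SpecialLinearGroup.coe_mul, Matrix.mulVec_mulVec]
    rw [mul_assoc, mul_assoc, hPP2, mul_one, ← Matrix.mulVec_mulVec, hw, Matrix.mulVec_smul]
  have hinjP : ∀ w : Fin n → F, ((P⁻¹ : Matrix.SpecialLinearGroup (Fin n) F) : Matrix (Fin n) (Fin n) F).mulVec w = 0 → w = 0 := by
    intro w hw
    have h1 := congrArg (Matrix.mulVec (P : Matrix (Fin n) (Fin n) F)) hw
    rw [Matrix.mulVec_mulVec, hPP2, Matrix.one_mulVec, Matrix.mulVec_zero] at h1
    exact h1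
  have hfin := fp_fix_bound hnP hKn (Matrix.SpecialLinearGroup.toGL (P⁻¹ * x * P)) hP (c := c) hc
    (u := ((P⁻¹ : Matrix.SpecialLinearGroup (Fin n) F) : Matrix (Fin n) (Fin n) F).mulVec u)
    (v := ((P⁻¹ : Matrix.SpecialLinearGroup (Fin n) F) : Matrix (Fin n) (Fin n) F).mulVec v)
    (fun h => hu0 (hinjP u h)) (key u hu) (key v hv) (fun d hd => by
      apply hind d
      have h1 : ((P⁻¹ : Matrix.SpecialLinearGroup (Fin n) F) : Matrix (Fin n) (Fin n) F).mulVec (v - d • u) = 0 := by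
        rw [Matrix.mulVec_sub, Matrix.mulVec_smul, hd, sub_self]
      exact sub_eq_zero.1 (hinjP _ h1))
  have h2 : ((P⁻¹ * x * P : Matrix.SpecialLinearGroup (Fin n) F) : Matrix (Fin n) (Fin n) F) = c • 1 := hfin
  have h3' : P * (P⁻¹ * x * P) * P⁻¹ = x := by group
  have h3 : (x : Matrix (Fin n) (Fin n) F) = (P : Matrix (Fin n) (Fin n) F) * ((P⁻¹ * x * P : Matrix.SpecialLinearGroup (Fin n) F) : Matrix (Fin n) (Fin n) F) * ((P⁻¹ : Matrix.SpecialLinearGroup (Fin n) F) : Matrix (Fin n) (Fin n) F) := by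
    rw [← Matrix.SpecialLinearGroup.coe_mul, ← Matrix.SpecialLinearGroup.coe_mul, h3']
  rw [h3, h2, Matrix.mul_smul, Matrix.smul_mul, mul_one, hPP2]

end NotConj

section Split

variable {F : Type*} [Field F] [Fintype F] {p : ℕ} [Fact p.Prime] [CharP F p] {q : ℕ}
  {V : Type*} [AddCommGroup V] [Module F V] [FiniteDimensional F V]

/-- A map of prime order with a small module splits as a fixed line and a block. -/
theorem prime_split₂ (hq : Fintype.card F = q) {n : ℕ} [hn : Fact n.Prime] (hnp : n ≠ p) (hn3 : 2 < n) (hc : orderOf (q : ZMod n) = n - 1)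
    (hV : finrank F V = n) (y : V →ₗ[F] V) (hy : y ^ n = 1) (hy1 : y ≠ 1) :
    ∃ A B : Submodule F V, IsCompl A B ∧ finrank F A = 1 ∧ (∀ a ∈ A, y a = a) ∧ (∀ b ∈ B, y b ∈ B) ∧
      ∀ b ∈ B, aeval y (cyclotomic n F) b = 0 := by
  obtain ⟨h1, h2⟩ := inv_split y (coprime_cyc (F := F) (p := p) (r := n) hnp) (ann_of_pow hy) ⊤ (fun v _ => trivial)
  rw [top_inf_eq, top_inf_eq] at h1
  have hcompl : IsCompl (LinearMap.ker (aeval y (X - C 1 : F[X]))) (LinearMap.ker (aeval y (cyclotomic n F))) := by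
    constructor
    · rw [disjoint_iff]; exact h2
    · rw [codisjoint_iff]; exact h1
  have hBinv : ∀ b ∈ LinearMap.ker (aeval y (cyclotomic n F)), y b ∈ LinearMap.ker (aeval y (cyclotomic n F)) := by
    intro b hb
    rw [LinearMap.mem_ker] at hb ⊢
    have h3 : aeval y (cyclotomic n F) * y = y * aeval y (cyclotomic n F) := by
      have := congrArg (aeval y) (Polynomial.X_mul (p := cyclotomic n F))
      simpa [map_mul, aeval_X] using this.symm
    rw [← Module.End.mul_apply, h3, Module.End.mul_apply, hb, map_zero]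
  obtain ⟨e, he⟩ := order_dvd_of_inv (F := F) (p := p) (r := n) (y := y) hq hnp _ hBinv le_rfl
  have hsum := Submodule.finrank_add_eq_of_isCompl hcompl
  rw [hV, he, hc] at hsum
  have he0 : e ≠ 0 := by
    rintro rfl
    rw [mul_zero, add_zero] at hsum
    apply hy1
    have h3 : LinearMap.ker (aeval y (X - C 1 : F[X])) = ⊤ := Submodule.eq_top_of_finrank_eq (by rw [hsum, hV])
    apply LinearMap.ext
    intro v
    have h4 : v ∈ LinearMap.ker (aeval y (X - C 1 : F[X])) := by rw [h3]; trivial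
    exact (mem_ker_aeval_sub_one).1 h4
  have he1 : e = 1 := by
    by_contra hne
    have h3 : 2 * (n - 1) ≤ (n - 1) * e := by
      rw [mul_comm]
      exact Nat.mul_le_mul_left _ (by omega)
    omega
  subst he1
  refine ⟨_, _, hcompl, by omega, fun a ha => (mem_ker_aeval_sub_one).1 ha, hBinv, fun b hb => hb⟩

end Split

section Main

variable {F : Type*} [Field F] [Fintype F] {p : ℕ} [Fact p.Prime] [CharP F p] {q : ℕ} {n : ℕ}
  {K : Subalgebra F (Matrix (Fin n) (Fin n) F)}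

/-- When `q` has order `n - 1` modulo the prime `n`, all elements of order `n` are conjugate into the normalizer. -/
theorem fp_all_conj (hq : Fintype.card F = q) (hnP : n.Prime) (hKn : Cfsg.Geo.IsFieldSubalgebra n K) (hnp : n ≠ p) (hn3 : 2 < n)
    (hc : orderOf (q : ZMod n) = n - 1) (x : Matrix.SpecialLinearGroup (Fin n) F)
    (hx : ((x ^ n : Matrix.SpecialLinearGroup (Fin n) F) : Matrix (Fin n) (Fin n) F) = 1) (hns : ∀ z : F, (x : Matrix (Fin n) (Fin n) F) ≠ z • (1 : Matrix (Fin n) (Fin n) F)) :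
    ∃ P : Matrix.SpecialLinearGroup (Fin n) F, P⁻¹ * x * P ∈ ((Cfsg.Geo.subalgebraNormalizer K).comap (Matrix.SpecialLinearGroup.toGL : Matrix.SpecialLinearGroup (Fin n) F →* GL (Fin n) F)) := by
  classical
  haveI : Fact n.Prime := ⟨hnP⟩
  have hn0 : 0 < n := by omega
  have hdim : finrank F (Fin n → F) = n := by simp
  obtain ⟨θ, hθK, hθ1⟩ := fk_exists_nonscalar hnP.two_le hn0 hKn
  obtain ⟨T, hTd⟩ : ∃ T : Module.End F (Fin n → F), T = Matrix.toLin' (x : Matrix (Fin n) (Fin n) F) := ⟨_, rfl⟩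
  have hT : T ^ n = 1 := by
    rw [hTd, ← sl_lin_pow, hx, Matrix.toLin'_one]
    rfl
  have hT1 : T ≠ 1 := by
    intro h
    apply hns 1
    apply Matrix.toLin'.injective
    rw [← hTd, h, lin_smul_one, one_smul]
  obtain ⟨g, hg, hgd, hg0⟩ := fp_min hnP hKn hθK hθ1
  obtain ⟨y, hyd⟩ : ∃ y : Module.End F (Fin n → F), y = Matrix.toLin' θ := ⟨_, rfl⟩
  have hy : aeval y g = 0 := by
    rw [hyd, aeval_toLin', hg0, map_zero]
  obtain ⟨φ, hφ1, hφ2, v₀, hv₀, hφ3, hφ4⟩ := frob_model y hg hy (by rw [hgd, hdim])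
  rw [hgd] at hφ2
  have hφn : φ ^ n = 1 := LinearMap.ext hφ2
  have hφne : φ ≠ 1 := by
    intro h
    haveI : Nontrivial (Fin n → F) := Module.nontrivial_of_finrank_pos (R := F) (by omega)
    obtain ⟨u, hu, v, hv, hu0, hind⟩ := exists_indep_of_two_le (⊤ : Submodule F (Fin n → F)) (by rw [finrank_top, hdim]; omega)
    have hall : ∀ w, ∃ c : F, w = c • v₀ := fun w => hφ4 w (by rw [h]; rfl)
    obtain ⟨c₁, hc₁⟩ := hall u
    obtain ⟨c₂, hc₂⟩ := hall v
    have hc₁0 : c₁ ≠ 0 := by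
      rintro rfl
      rw [zero_smul] at hc₁
      exact hu0 hc₁
    apply hind (c₂ / c₁)
    rw [hc₁, hc₂, smul_smul]
    congr 1
    field_simp
  obtain ⟨A₁, B₁, hc₁, hA₁, hA₁f, hB₁, hB₁g⟩ := prime_split₂ (p := p) hq hnp hn3 hc hdim φ hφn hφne
  obtain ⟨A₂, B₂, hc₂, hA₂, hA₂f, hB₂, hB₂g⟩ := prime_split₂ (p := p) hq hnp hn3 hc hdim T hT hT1
  obtain ⟨e, he⟩ := conj_of_split φ T (cyc_irreducible (F := F) (p := p) hq hnp hc) hc₁ hc₂ hA₁f hA₂f hB₁ hB₂ hB₁g hB₂g (by rw [hA₁, hA₂])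
  have hne : A₂ ≠ ⊥ := by
    intro h
    rw [h, finrank_bot] at hA₂
    omega
  obtain ⟨T', hT'1, hT'2⟩ := exists_eigen_dil hc₂ (y := T) (lam := 1) (fun v hv => by rw [one_smul]; exact hA₂f v hv) hB₂ hne (LinearMap.det (e : (Fin n → F) →ₗ[F] (Fin n → F)))⁻¹
  refine fp_final (θ := θ) (θ' := θ ^ Fintype.card F) (fun k hk => fp_gen hnP hKn hθK hθ1 hk) (K.pow_mem hθK _) x (T' ∘ₗ (e : (Fin n → F) →ₗ[F] (Fin n → F))) ?_ φ ?_ ?_
  · rw [LinearMap.det_comp, hT'2, inv_mul_cancel₀ (LinearEquiv.isUnit_det' e).ne_zero]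
  · intro v
    simp only [LinearMap.comp_apply, LinearEquiv.coe_coe]
    rw [he, ← hTd, hT'1]
  · intro v
    rw [← hyd, hφ1, hyd, ← Matrix.toLin'_pow]

/-- The case where `F` has a primitive cube root of unity that is not a cube. -/
theorem fp3_all_conj (hq : Fintype.card F = q) (hK : Cfsg.Geo.IsFieldSubalgebra 3 (K : Subalgebra F (Matrix (Fin n) (Fin n) F))) (hn : n = 3) (h3p : 3 ≠ p)
    (h3 : 3 ∣ q - 1) (h9 : ¬ 9 ∣ q - 1) (x : Matrix.SpecialLinearGroup (Fin n) F)
    {z : F} (hz : ((x ^ 3 : Matrix.SpecialLinearGroup (Fin n) F) : Matrix (Fin n) (Fin n) F) = z • (1 : Matrix (Fin n) (Fin n) F))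
    (hns : ∀ z : F, (x : Matrix (Fin n) (Fin n) F) ≠ z • (1 : Matrix (Fin n) (Fin n) F)) :
    ∃ P : Matrix.SpecialLinearGroup (Fin n) F, P⁻¹ * x * P ∈ ((Cfsg.Geo.subalgebraNormalizer K).comap (Matrix.SpecialLinearGroup.toGL : Matrix.SpecialLinearGroup (Fin n) F →* GL (Fin n) F)) := by
  classical
  subst hn
  haveI : Fact (Nat.Prime 3) := ⟨Nat.prime_three⟩
  have hq1 : 1 ≤ q := by rw [← hq]; exact Fintype.card_pos
  have hdim : finrank F (Fin 3 → F) = 3 := by simp
  obtain ⟨θ, hθK, hθ1⟩ := fk_exists_nonscalar (by norm_num) (by norm_num) hK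
  obtain ⟨T, hTd⟩ : ∃ T : Module.End F (Fin 3 → F), T = Matrix.toLin' (x : Matrix (Fin 3) (Fin 3) F) := ⟨_, rfl⟩
  have hT₀ : T ^ 3 = z • (1 : Module.End F (Fin 3 → F)) := by
    rw [hTd, ← sl_lin_pow, hz, lin_smul_one]
  have hdet : LinearMap.det T = 1 := by rw [hTd, sl_lin_det]
  -- a primitive cube root of unity
  have hdvd : 3 ∣ Nat.card Fˣ := by
    rw [Nat.card_eq_fintype_card, Fintype.card_units, hq]
    exact h3
  obtain ⟨ζ, hζ⟩ := exists_prime_orderOf_dvd_card' 3 hdvd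
  obtain ⟨ω, hωd⟩ : ∃ ω : F, ω = (ζ : F) := ⟨_, rfl⟩
  have hω1 : ω ≠ 1 := by
    intro h
    have : ζ = 1 := Units.ext (by rw [← hωd, h]; rfl)
    rw [this, orderOf_one] at hζ
    omega
  have hω3 : ω ^ 3 = 1 := by
    have h1 : ζ ^ 3 = 1 := by rw [← hζ]; exact pow_orderOf_eq_one ζ
    have h2 := congrArg Units.val h1
    rw [hωd]
    simpa using h2
  have hω : ω * ω + ω + 1 = 0 := by
    have h1 : (ω - 1) * (ω * ω + ω + 1) = 0 := by linear_combination hω3
    exact (mul_eq_zero.1 h1).resolve_left (sub_ne_zero.2 hω1)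
  -- the scalar is one
  have hz1 : z = 1 := by
    by_cases hno : ∀ d : F, d ^ 3 ≠ z
    · have h1 := binom_det Nat.prime_three hno T hT₀
      rw [hdet, hdim] at h1
      rw [h1]
      norm_num
    · push Not at hno
      obtain ⟨d, hd⟩ := hno
      have hd0 : d ≠ 0 := by
        rintro rfl
        have h1 := congrArg LinearMap.det hT₀
        rw [map_pow, hdet, one_pow, ← hd, LinearMap.det_smul, hdim] at h1
        simp at h1
      have hz3 : z ^ 3 = 1 := by
        have h1 := congrArg LinearMap.det hT₀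
        rw [map_pow, hdet, one_pow, LinearMap.det_smul, hdim, map_one, mul_one] at h1
        exact h1.symm
      have hd9 : d ^ 9 = 1 := by
        rw [← hd] at hz3
        rw [← hz3]
        ring
      have hdq : d ^ (q - 1) = 1 := by
        rw [← hq]
        exact FiniteField.pow_card_sub_one_eq_one d hd0
      have hg : Nat.gcd 9 (q - 1) = 3 := by
        obtain ⟨t, ht⟩ := h3
        have h4 : Nat.gcd 9 (q - 1) ∣ 9 := Nat.gcd_dvd_left _ _
        have h5 : (Nat.gcd 9 (q - 1)) ∈ Nat.divisors 9 := by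
          rw [Nat.mem_divisors]
          exact ⟨h4, by norm_num⟩
        have h6 : Nat.divisors 9 = {1, 3, 9} := by decide
        rw [h6] at h5
        simp only [Finset.mem_insert, Finset.mem_singleton] at h5
        have h7 : 3 ∣ Nat.gcd 9 (q - 1) := Nat.dvd_gcd (by norm_num) ⟨t, ht⟩
        rcases h5 with h8 | h8 | h8
        · rw [h8] at h7; omega
        · exact h8
        · exfalso
          apply h9
          rw [← h8]
          exact Nat.gcd_dvd_right _ _
      have hd3 : d ^ 3 = 1 := by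
        rw [← hg]
        exact pow_gcd_eq_one.2 ⟨hd9, hdq⟩
      rw [← hd, hd3]
  rw [hz1, one_smul] at hT₀
  have hnsT : ∀ c : F, T ≠ c • (1 : Module.End F (Fin 3 → F)) := by
    intro c hc
    apply hns c
    apply Matrix.toLin'.injective
    rw [← hTd, hc, lin_smul_one]
  have hω23 : (ω * ω) ^ 3 = 1 := by
    rw [mul_pow, hω3, one_mul]
  have hμ : Function.Injective ![1, ω, ω * ω] := by
    have h1 : (1 : F) ≠ ω := fun h => hω1 h.symm
    have h2 : (1 : F) ≠ ω * ω := by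
      intro h
      apply hω1
      have : ω * (ω * ω) = 1 := by linear_combination (ω - 1) * hω
      rw [← h, mul_one] at this
      exact this
    have h3 : ω ≠ ω * ω := by
      intro h
      apply hω1
      have h0 : ω ≠ 0 := by
        rintro rfl
        simp at hω
      exact (mul_left_cancel₀ h0 (by rw [mul_one]; exact h)).symm
    intro i j hij
    fin_cases i <;> fin_cases j <;> simp_all
  obtain ⟨t₁, ht₁, ht₁'⟩ := three_eig hdim T hT₀ hdet hnsT hω1 hω (c := 1) (one_pow 3)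
  obtain ⟨t₂, ht₂, ht₂'⟩ := three_eig hdim T hT₀ hdet hnsT hω1 hω hω3
  obtain ⟨t₃, ht₃, ht₃'⟩ := three_eig hdim T hT₀ hdet hnsT hω1 hω hω23
  obtain ⟨g, hg, hgd, hg0⟩ := fp_min Nat.prime_three hK hθK hθ1
  obtain ⟨y, hyd⟩ : ∃ y : Module.End F (Fin 3 → F), y = Matrix.toLin' θ := ⟨_, rfl⟩
  have hy : aeval y g = 0 := by
    rw [hyd, aeval_toLin', hg0, map_zero]
  obtain ⟨φ, hφ1, hφ2, ⟨v₀, hv₀, hφ3, hφ4⟩, hcl⟩ := frob_model₂ y hg hy (by rw [hgd, hdim])
  rw [hgd] at hφ2
  have hφn : φ ^ 3 = 1 := LinearMap.ext hφ2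
  have hφne : φ ≠ 1 := by
    intro h
    obtain ⟨u, hu, v, hv, hu0, hind⟩ := exists_indep_of_two_le (⊤ : Submodule F (Fin 3 → F)) (by rw [finrank_top, hdim]; omega)
    have hall : ∀ w, ∃ c : F, w = c • v₀ := fun w => hφ4 w (by rw [h]; rfl)
    obtain ⟨c₁, hc₁⟩ := hall u
    obtain ⟨c₂, hc₂⟩ := hall v
    have hc₁0 : c₁ ≠ 0 := by
      rintro rfl
      rw [zero_smul] at hc₁
      exact hu0 hc₁
    apply hind (c₂ / c₁)
    rw [hc₁, hc₂, smul_smul]
    congr 1
    field_simp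
  obtain ⟨⟨s₂, hs₂, hs₂'⟩, ⟨s₃, hs₃, hs₃'⟩⟩ := frob_eigs φ hφn hφne hcl hω1 hω
  obtain ⟨e, he⟩ := conj_of_eigvecs hdim φ T ![1, ω, ω * ω] hμ ![v₀, s₂, s₃] ![t₁, t₂, t₃]
    (by intro i; fin_cases i <;> simpa) (by intro i; fin_cases i <;> simpa)
    (by
      intro i
      fin_cases i
      · simpa using hφ3
      · simpa using hs₂'
      · simpa using hs₃')
    (by
      intro i
      fin_cases i
      · simpa using ht₁'
      · simpa using ht₂'
      · simpa using ht₃')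
  obtain ⟨h1, h2⟩ := inv_split T (coprime_cyc (F := F) (p := p) (r := 3) h3p) (ann_of_pow hT₀) ⊤ (fun v _ => trivial)
  rw [top_inf_eq, top_inf_eq] at h1
  have hcompl : IsCompl (LinearMap.ker (aeval T (X - C 1 : F[X]))) (LinearMap.ker (aeval T (cyclotomic 3 F))) := by
    constructor
    · rw [disjoint_iff]; exact h2
    · rw [codisjoint_iff]; exact h1
  have hBinv : ∀ b ∈ LinearMap.ker (aeval T (cyclotomic 3 F)), T b ∈ LinearMap.ker (aeval T (cyclotomic 3 F)) := by
    intro b hb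
    rw [LinearMap.mem_ker] at hb ⊢
    have h3 : aeval T (cyclotomic 3 F) * T = T * aeval T (cyclotomic 3 F) := by
      have := congrArg (aeval T) (Polynomial.X_mul (p := cyclotomic 3 F))
      simpa [map_mul, aeval_X] using this.symm
    rw [← Module.End.mul_apply, h3, Module.End.mul_apply, hb, map_zero]
  have hne : LinearMap.ker (aeval T (X - C 1 : F[X])) ≠ ⊥ := by
    intro h
    have h4 : t₁ ∈ LinearMap.ker (aeval T (X - C 1 : F[X])) := by
      rw [ker_aeval_X_sub_C]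
      exact ht₁'
    rw [h] at h4
    exact ht₁ (by simpa using h4)
  obtain ⟨T', hT'1, hT'2⟩ := exists_eigen_dil hcompl (y := T) (lam := 1) (fun v hv => (ker_aeval_X_sub_C T 1 v).1 hv) hBinv hne (LinearMap.det (e : (Fin 3 → F) →ₗ[F] (Fin 3 → F)))⁻¹
  refine fp_final (θ := θ) (θ' := θ ^ Fintype.card F) (fun k hk => fp_gen Nat.prime_three hK hθK hθ1 hk) (K.pow_mem hθK _) x (T' ∘ₗ (e : (Fin 3 → F) →ₗ[F] (Fin 3 → F))) ?_ φ ?_ ?_
  · rw [LinearMap.det_comp, hT'2, inv_mul_cancel₀ (LinearEquiv.isUnit_det' e).ne_zero]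
  · intro v
    simp only [LinearMap.comp_apply, LinearEquiv.coe_coe]
    rw [he, ← hTd, hT'1]
  · intro v
    rw [← hyd, hφ1, hyd, ← Matrix.toLin'_pow]

end Main

section Bad

variable {F : Type*} [Field F]

/-- A transvection in characteristic three. -/
theorem fp3_bad_char (h3 : (3 : F) = 0) : ∃ x : Matrix.SpecialLinearGroup (Fin 3) F,
    ((x ^ 3 : Matrix.SpecialLinearGroup (Fin 3) F) : Matrix (Fin 3) (Fin 3) F) = (1 : F) • (1 : Matrix (Fin 3) (Fin 3) F) ∧
    (∀ z : F, (x : Matrix (Fin 3) (Fin 3) F) ≠ z • (1 : Matrix (Fin 3) (Fin 3) F)) ∧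
    ∃ u v : Fin 3 → F, u ≠ 0 ∧ (x : Matrix (Fin 3) (Fin 3) F).mulVec u = (1 : F) • u ∧ (x : Matrix (Fin 3) (Fin 3) F).mulVec v = (1 : F) • v ∧ ∀ d : F, v ≠ d • u := by
  classical
  have h01 : (1 : Fin 3) ≠ 0 := by decide
  have hdetM : (Matrix.transvection (1 : Fin 3) 0 (1 : F)).det = 1 := Matrix.det_transvection_of_ne _ _ h01 _
  obtain ⟨x, hx⟩ : ∃ x : Matrix.SpecialLinearGroup (Fin 3) F, x = ⟨Matrix.transvection (1 : Fin 3) 0 (1 : F), hdetM⟩ := ⟨_, rfl⟩
  have hxc : (x : Matrix (Fin 3) (Fin 3) F) = Matrix.transvection (1 : Fin 3) 0 (1 : F) := by rw [hx]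
  have hmv : ∀ w : Fin 3 → F, w 0 = 0 → (x : Matrix (Fin 3) (Fin 3) F).mulVec w = (1 : F) • w := by
    intro w hw
    rw [hxc, one_smul]
    ext i
    simp only [Matrix.transvection, one_smul, Matrix.add_mulVec, Matrix.one_mulVec, Pi.add_apply]
    have : (Matrix.single (1 : Fin 3) 0 (1 : F)).mulVec w i = 0 := by
      simp only [Matrix.mulVec, dotProduct, Matrix.single_apply]
      rw [Fin.sum_univ_three]
      fin_cases i <;> simp [hw]
    rw [this, add_zero]
  refine ⟨x, ?_, ?_, Pi.single 1 1, Pi.single 2 1, ?_, hmv _ ?_, hmv _ ?_, ?_⟩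
  · rw [Matrix.SpecialLinearGroup.coe_pow, hxc, one_smul, pow_succ, pow_two, Matrix.transvection_mul_transvection_same (h := h01),
      Matrix.transvection_mul_transvection_same (h := h01)]
    have : (1 : F) + 1 + 1 = 0 := by
      rw [← h3]
      norm_num
    rw [this, Matrix.transvection_zero]
  · intro z hz
    rw [hxc] at hz
    have h1 := congrFun (congrFun hz 1) 0
    simp [Matrix.transvection, Matrix.one_apply_ne h01, Matrix.single_apply] at h1
  · intro h
    have := congrFun h 1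
    simp at this
  · simp
  · simp
  · intro d hd
    have h1 := congrFun hd 2
    simp at h1

/-- An element with a two dimensional eigenspace when `9` divides `q - 1`. -/
theorem fp3_bad_nine [Fintype F] {q : ℕ} (hq : Fintype.card F = q) (h9 : 9 ∣ q - 1) : ∃ (x : Matrix.SpecialLinearGroup (Fin 3) F) (c : F), c ≠ 0 ∧
    (∃ z : F, ((x ^ 3 : Matrix.SpecialLinearGroup (Fin 3) F) : Matrix (Fin 3) (Fin 3) F) = z • (1 : Matrix (Fin 3) (Fin 3) F)) ∧
    (∀ z : F, (x : Matrix (Fin 3) (Fin 3) F) ≠ z • (1 : Matrix (Fin 3) (Fin 3) F)) ∧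
    ∃ u v : Fin 3 → F, u ≠ 0 ∧ (x : Matrix (Fin 3) (Fin 3) F).mulVec u = c • u ∧ (x : Matrix (Fin 3) (Fin 3) F).mulVec v = c • v ∧ ∀ d : F, v ≠ d • u := by
  classical
  have hdvd : 9 ∣ Nat.card Fˣ := by
    rw [Nat.card_eq_fintype_card, Fintype.card_units, hq]
    exact h9
  obtain ⟨g, hg⟩ := IsCyclic.exists_generator (α := Fˣ)
  have hord : orderOf g = Nat.card Fˣ := orderOf_eq_card_of_forall_mem_zpowers hg
  have hord9 : orderOf (g ^ (orderOf g / 9)) = 9 := by
    apply orderOf_pow_orderOf_div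
    · rw [hord]; exact Nat.card_pos.ne'
    · rw [hord]; exact hdvd
  obtain ⟨l, hl⟩ : ∃ l : Fˣ, l = g ^ (orderOf g / 9) := ⟨_, rfl⟩
  rw [← hl] at hord9
  obtain ⟨b, hb⟩ : ∃ b : F, b = (l : F) := ⟨_, rfl⟩
  have hb0 : b ≠ 0 := by rw [hb]; exact l.ne_zero
  have hb9 : b ^ 9 = 1 := by
    have h1 : l ^ 9 = 1 := by rw [← hord9]; exact pow_orderOf_eq_one l
    have h2 := congrArg Units.val h1
    rw [hb]
    simpa using h2
  have hb3 : b ^ 3 ≠ 1 := by
    intro h
    have h1 : l ^ 3 = 1 := by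
      apply Units.ext
      rw [Units.val_pow_eq_pow_val, ← hb, h, Units.val_one]
    exact pow_ne_one_of_lt_orderOf (by norm_num) (by rw [hord9]; norm_num) h1
  have hdetM : (Matrix.diagonal ![b, b, (b * b)⁻¹]).det = 1 := by
    rw [Matrix.det_diagonal, Fin.prod_univ_three]
    simp only [Matrix.cons_val_zero, Matrix.cons_val_one, Matrix.cons_val]
    field_simp
  obtain ⟨x, hx⟩ : ∃ x : Matrix.SpecialLinearGroup (Fin 3) F, x = ⟨Matrix.diagonal ![b, b, (b * b)⁻¹], hdetM⟩ := ⟨_, rfl⟩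
  have hxc : (x : Matrix (Fin 3) (Fin 3) F) = Matrix.diagonal ![b, b, (b * b)⁻¹] := by rw [hx]
  refine ⟨x, b, hb0, ⟨b ^ 3, ?_⟩, ?_, Pi.single 0 1, Pi.single 1 1, ?_, ?_, ?_, ?_⟩
  · rw [Matrix.SpecialLinearGroup.coe_pow, hxc, Matrix.diagonal_pow, ← Matrix.diagonal_one, ← Matrix.diagonal_smul]
    congr 1
    ext i
    fin_cases i
    · simp
    · simp
    · simp
      have : b ^ 3 ≠ 0 := pow_ne_zero 3 hb0
      field_simp
      linear_combination -hb9
  · intro z hz
    rw [hxc] at hz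
    have h1 := congrFun (congrFun hz 0) 0
    have h2 := congrFun (congrFun hz 2) 2
    simp at h1 h2
    apply hb3
    rw [← h1] at h2
    field_simp at h2
    linear_combination -h2
  · intro h
    have := congrFun h 0
    simp at this
  · ext i
    rw [hxc, Matrix.mulVec_diagonal]
    fin_cases i <;> simp
  · ext i
    rw [hxc, Matrix.mulVec_diagonal]
    fin_cases i <;> simp
  · intro d hd
    have h1 := congrFun hd 1
    simp at h1

end Bad

section Index

variable {F : Type*} [Field F] [Fintype F] {p : ℕ} [Fact p.Prime] [CharP F p] {q : ℕ}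

theorem order_three_of_mod (h : q % 3 = 2) : orderOf (q : ZMod 3) = 3 - 1 := by
  have h1 : (q : ZMod 3) = 2 := by
    rw [← ZMod.natCast_mod, h]
    rfl
  rw [h1]
  haveI : Fact (Nat.Prime 2) := ⟨Nat.prime_two⟩
  exact orderOf_eq_prime (by decide) (by decide)

/-- The index is prime to three. -/
theorem fp3_index (hq : Fintype.card F = q) (h3p : 3 ≠ p) (hm : q % 9 = 2 ∨ q % 9 = 5) (H : Subgroup (Matrix.SpecialLinearGroup (Fin 3) F))
    (hall : ∀ x : Matrix.SpecialLinearGroup (Fin 3) F,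
      (∃ z : F, ((x ^ 3 : Matrix.SpecialLinearGroup (Fin 3) F) : Matrix (Fin 3) (Fin 3) F) = z • (1 : Matrix (Fin 3) (Fin 3) F)) →
      (∀ z : F, (x : Matrix (Fin 3) (Fin 3) F) ≠ z • (1 : Matrix (Fin 3) (Fin 3) F)) →
      ∃ P : Matrix.SpecialLinearGroup (Fin 3) F, P⁻¹ * x * P ∈ H) : ¬ 3 ∣ H.index := by
  classical
  intro hdvd
  haveI : Fact (Nat.Prime 3) := ⟨Nat.prime_three⟩
  have hq1 : 1 ≤ q := by rw [← hq]; exact Fintype.card_pos
  have hm3 : q % 3 = 2 := by omega
  have hnd : ¬ 3 ∣ q - 1 := by omega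
  have hord := order_three_of_mod hm3
  have hdim : finrank F (Fin 3 → F) = 3 := by simp
  obtain ⟨y, hy1, hy2⟩ := exists_model (F := F) (V := Fin 3 → F) (p := p) (r := 3) hq h3p 1 1 (by rw [hdim, hord])
  have hdet : LinearMap.det y = 1 := by
    apply eq_one_of_pow_coprime (F := F) hq Nat.prime_three hnd
    rw [← map_pow, hy1, map_one]
  obtain ⟨x, hx⟩ := sl_exists_of_det y hdet
  have hx3 : x ^ 3 = 1 := by
    apply Subtype.ext
    apply Matrix.toLin'.injective
    rw [sl_lin_pow, hx, hy1, Matrix.SpecialLinearGroup.coe_one, Matrix.toLin'_one]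
    rfl
  have hns : ∀ z : F, (x : Matrix (Fin 3) (Fin 3) F) ≠ z • (1 : Matrix (Fin 3) (Fin 3) F) := by
    intro c' hc'
    have h1 : y = c' • (1 : Module.End F (Fin 3 → F)) := by
      rw [← hx, hc', lin_smul_one]
    have h2 : c' ^ 3 = 1 := by
      rw [h1, _root_.smul_pow, one_pow] at hy1
      have h3 := congrArg (fun f : Module.End F (Fin 3 → F) => f (fun _ => 1) 0) hy1
      simpa using h3
    have h3 : c' = 1 := eq_one_of_pow_coprime (F := F) hq Nat.prime_three hnd h2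
    rw [h3, one_smul] at h1
    rw [h1] at hy2
    have h4 : aeval (1 : Module.End F (Fin 3 → F)) (X - C 1 : Polynomial F) = 0 := by
      simp
    rw [h4, LinearMap.ker_zero, finrank_top, hdim] at hy2
    omega
  obtain ⟨P, hP⟩ := hall x ⟨1, by rw [hx3, one_smul]; rfl⟩ hns
  let h : H := ⟨P⁻¹ * x * P, hP⟩
  have hh3 : h ^ 3 = 1 := by
    apply Subtype.ext
    show (P⁻¹ * x * P) ^ 3 = 1
    have : (P⁻¹ * x * P) ^ 3 = P⁻¹ * x ^ 3 * P := by
      calc (P⁻¹ * x * P) ^ 3 = (P⁻¹ * x * P) * (P⁻¹ * x * P) * (P⁻¹ * x * P) := by rw [pow_succ, pow_two]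
        _ = P⁻¹ * (x * x * x) * P := by group
        _ = P⁻¹ * x ^ 3 * P := by rw [pow_succ x, pow_two]
    rw [this, hx3]
    group
  have hh1 : h ≠ 1 := by
    intro h0
    have h1 : P⁻¹ * x * P = 1 := congrArg Subtype.val h0
    have h2 : x = 1 := by
      calc x = P * (P⁻¹ * x * P) * P⁻¹ := by group
        _ = 1 := by rw [h1]; group
    apply hns 1
    rw [h2, one_smul]
    rfl
  have hordh : orderOf h = 3 := orderOf_eq_prime hh3 hh1
  have h3H : 3 ∣ Nat.card H := by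
    have h4 := orderOf_dvd_natCard h
    rwa [hordh] at h4
  have hmul := Subgroup.index_mul_card H
  have h9SL : 9 ∣ Nat.card (Matrix.SpecialLinearGroup (Fin 3) F) := by
    rw [← hmul]
    exact Nat.mul_dvd_mul hdvd h3H
  have hSLGL : Nat.card (Matrix.SpecialLinearGroup (Fin 3) F) ∣ Nat.card (GL (Fin 3) F) :=
    Subgroup.card_dvd_of_injective _ Matrix.SpecialLinearGroup.toGL_injective
  rw [Matrix.card_GL_field, Fin.prod_univ_three, hq] at hSLGL
  have h9 := h9SL.trans hSLGL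
  simp only [Fin.val_zero, Fin.val_one, Fin.val_two, pow_zero, pow_one] at h9
  have hcast := (ZMod.natCast_eq_zero_iff _ 9).2 h9
  have hq2 : q ≤ q ^ 3 := by nlinarith [pow_pos (show 0 < q by omega) 2]
  have hq3 : q ^ 2 ≤ q ^ 3 := Nat.pow_le_pow_right hq1 (by norm_num)
  have hq4 : 1 ≤ q ^ 3 := Nat.one_le_pow _ _ (by omega)
  rw [Nat.cast_mul, Nat.cast_mul, Nat.cast_sub hq4, Nat.cast_sub hq2, Nat.cast_sub hq3] at hcast
  push_cast at hcast
  rcases hm with h2 | h2
  · have h1 : (q : ZMod 9) = 2 := by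
      rw [← ZMod.natCast_mod, h2]
      rfl
    rw [h1] at hcast
    revert hcast
    decide
  · have h1 : (q : ZMod 9) = 5 := by
      rw [← ZMod.natCast_mod, h2]
      rfl
    rw [h1] at hcast
    revert hcast
    decide

end Index

end Cfsg.Agent.Lib.Geo
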