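import Mathlib

set_option autoImplicit false

/-! Two by two matrices: Cayley-Hamilton in coordinates, conjugacy of non-scalar matrices with
the same trace and determinant one, centralizers. -/

namespace Cfsg.Agent.Lib.Geo

open Matrix

variable {F : Type*} [Field F]

local notation "M2" => Matrix (Fin 2) (Fin 2) F

theorem m2_ch (A : M2) : A * A = A.trace • A - A.det • (1 : M2) := by
  rw [Matrix.det_fin_two, Matrix.trace_fin_two]
  ext i j
  fin_cases i <;> fin_cases j <;>
    simp [Matrix.mul_apply, Fin.sum_univ_two, Matrix.smul_apply, Matrix.sub_apply, Matrix.one_apply] <;> ring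

theorem m2_exists_cyc (A : M2) (hA : ∀ c : F, A ≠ c • (1 : M2)) (hd : A.det = 1) :
    ∃ P : M2, P.det ≠ 0 ∧ A * P = P * !![0, -1; 1, A.trace] := by
  rw [Matrix.det_fin_two] at hd
  have htr : A.trace = A 0 0 + A 1 1 := Matrix.trace_fin_two A
  by_cases hc : A 1 0 ≠ 0
  · refine ⟨!![1, A 0 0; 0, A 1 0], by simpa [Matrix.det_fin_two] using hc, ?_⟩
    rw [htr]
    ext i j
    fin_cases i <;> fin_cases j <;>
      simp [Matrix.mul_apply, Fin.sum_univ_two] <;> first | linear_combination hd | linear_combination -hd | ring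
  by_cases hb : A 0 1 ≠ 0
  · refine ⟨!![0, A 0 1; 1, A 1 1], by simpa [Matrix.det_fin_two] using hb, ?_⟩
    rw [htr]
    ext i j
    fin_cases i <;> fin_cases j <;>
      simp [Matrix.mul_apply, Fin.sum_univ_two] <;> first | linear_combination hd | linear_combination -hd | ring
  push Not at hc hb
  have had : A 0 0 ≠ A 1 1 := by
    intro he
    apply hA (A 0 0)
    ext i j
    fin_cases i <;> fin_cases j <;> simp [hc, hb, he]
  refine ⟨!![1, A 0 0; 1, A 1 1], by
    simp only [Matrix.det_fin_two_of]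
    intro hc'
    apply had
    linear_combination -hc', ?_⟩
  rw [htr]
  simp only [hb, hc, mul_zero, sub_zero] at hd
  ext i j
  fin_cases i <;> fin_cases j <;>
    simp [Matrix.mul_apply, Fin.sum_univ_two, hb, hc] <;> first | linear_combination hd | linear_combination -hd | ring

theorem m2_det_add (B : M2) (a b : F) : (a • (1 : M2) + b • B).det = a ^ 2 + B.trace * a * b + b ^ 2 * B.det := by
  rw [Matrix.det_fin_two, Matrix.det_fin_two, Matrix.trace_fin_two]
  simp [Matrix.add_apply, Matrix.smul_apply, Matrix.one_apply]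
  ring

/-- Conjugacy under the determinant-one matrices. -/
theorem m2_conj (A B : M2) (hA : ∀ c : F, A ≠ c • (1 : M2)) (hB : ∀ c : F, B ≠ c • (1 : M2))
    (hdA : A.det = 1) (hdB : B.det = 1) (ht : A.trace = B.trace)
    (hnorm : ∀ c : F, c ≠ 0 → ∃ a b : F, a ^ 2 + B.trace * a * b + b ^ 2 = c) :
    ∃ G : M2, G.det = 1 ∧ A * G = G * B := by
  obtain ⟨P, hP, hAP⟩ := m2_exists_cyc A hA hdA
  obtain ⟨Q, hQ, hBQ⟩ := m2_exists_cyc B hB hdB
  rw [ht] at hAP
  have hQu : IsUnit Q.det := isUnit_iff_ne_zero.2 hQ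
  have hQi : Q * Q⁻¹ = 1 := Matrix.mul_nonsing_inv Q hQu
  have hQi' : Q⁻¹ * Q = 1 := Matrix.nonsing_inv_mul Q hQu
  obtain ⟨R, hR⟩ : ∃ R : M2, R = P * Q⁻¹ := ⟨_, rfl⟩
  have hARB : A * R = R * B := by
    have h1 : Q⁻¹ * B = !![0, -1; 1, B.trace] * Q⁻¹ := by
      calc Q⁻¹ * B = Q⁻¹ * (B * (Q * Q⁻¹)) := by rw [hQi, mul_one]
        _ = Q⁻¹ * ((B * Q) * Q⁻¹) := by rw [Matrix.mul_assoc B]
        _ = Q⁻¹ * ((Q * !![0, -1; 1, B.trace]) * Q⁻¹) := by rw [hBQ]
        _ = (Q⁻¹ * Q) * (!![0, -1; 1, B.trace] * Q⁻¹) := by simp only [Matrix.mul_assoc]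
        _ = _ := by rw [hQi', one_mul]
    rw [hR, ← Matrix.mul_assoc, hAP, Matrix.mul_assoc, Matrix.mul_assoc, h1]
  have hRdet : R.det ≠ 0 := by
    rw [hR, Matrix.det_mul]
    refine mul_ne_zero hP ?_
    intro h0
    have := congrArg Matrix.det hQi'
    rw [Matrix.det_mul, h0, zero_mul, Matrix.det_one] at this
    exact zero_ne_one this
  obtain ⟨a, b, hab⟩ := hnorm (R.det)⁻¹ (inv_ne_zero hRdet)
  refine ⟨R * (a • 1 + b • B), ?_, ?_⟩
  · rw [Matrix.det_mul, m2_det_add, hdB, mul_one, hab, mul_inv_cancel₀ hRdet]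
  · rw [← Matrix.mul_assoc, hARB, Matrix.mul_assoc, Matrix.mul_assoc]
    congr 1
    simp only [Matrix.add_mul, Matrix.mul_add, Matrix.smul_mul, Matrix.mul_smul, Matrix.one_mul, Matrix.mul_one]

theorem m2_ext {X Y : M2} (h00 : X 0 0 = Y 0 0) (h01 : X 0 1 = Y 0 1) (h10 : X 1 0 = Y 1 0)
    (h11 : X 1 1 = Y 1 1) : X = Y := by
  ext i j
  fin_cases i <;> fin_cases j <;> assumption

theorem m2_lin00 (a b : F) (A : M2) : (a • (1 : M2) + b • A) 0 0 = a + b * A 0 0 := by simp
theorem m2_lin01 (a b : F) (A : M2) : (a • (1 : M2) + b • A) 0 1 = b * A 0 1 := by simp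
theorem m2_lin10 (a b : F) (A : M2) : (a • (1 : M2) + b • A) 1 0 = b * A 1 0 := by simp
theorem m2_lin11 (a b : F) (A : M2) : (a • (1 : M2) + b • A) 1 1 = a + b * A 1 1 := by simp

/-- The centralizer of a non-scalar matrix. -/
theorem m2_centralizer (A y : M2) (hA : ∀ c : F, A ≠ c • (1 : M2)) (hy : y * A = A * y) :
    ∃ a b : F, y = a • (1 : M2) + b • A := by
  have h00 := congrFun (congrFun hy 0) 0
  have h01 := congrFun (congrFun hy 0) 1
  have h10 := congrFun (congrFun hy 1) 0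
  simp only [Matrix.mul_apply, Fin.sum_univ_two] at h00 h01 h10
  by_cases hb : A 0 1 ≠ 0
  · obtain ⟨β, hβ⟩ : ∃ β, y 0 1 = β * A 0 1 := ⟨y 0 1 / A 0 1, by field_simp⟩
    refine ⟨y 0 0 - β * A 0 0, β, m2_ext ?_ ?_ ?_ ?_⟩
    · rw [m2_lin00]; ring
    · rw [m2_lin01]; exact hβ
    · rw [m2_lin10]
      apply mul_left_cancel₀ hb
      rw [hβ] at h00
      linear_combination -h00
    · rw [m2_lin11]
      apply mul_left_cancel₀ hb
      rw [hβ] at h01
      linear_combination -h01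
  by_cases hc : A 1 0 ≠ 0
  · obtain ⟨β, hβ⟩ : ∃ β, y 1 0 = β * A 1 0 := ⟨y 1 0 / A 1 0, by field_simp⟩
    refine ⟨y 0 0 - β * A 0 0, β, m2_ext ?_ ?_ ?_ ?_⟩
    · rw [m2_lin00]; ring
    · rw [m2_lin01]
      apply mul_left_cancel₀ hc
      rw [hβ] at h00
      linear_combination h00
    · rw [m2_lin10]; exact hβ
    · rw [m2_lin11]
      apply mul_left_cancel₀ hc
      rw [hβ] at h10
      linear_combination h10
  push Not at hb hc
  have had : A 0 0 ≠ A 1 1 := by
    intro he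
    apply hA (A 0 0)
    ext i j
    fin_cases i <;> fin_cases j <;> simp [hc, hb, he]
  have hsub : A 0 0 - A 1 1 ≠ 0 := sub_ne_zero.2 had
  simp only [hb, hc, mul_zero, zero_mul, add_zero, zero_add] at h01 h10
  have hf : y 0 1 = 0 := by
    have : (A 0 0 - A 1 1) * y 0 1 = 0 := by linear_combination -h01
    exact (mul_eq_zero.1 this).resolve_left hsub
  have hg : y 1 0 = 0 := by
    have : (A 0 0 - A 1 1) * y 1 0 = 0 := by linear_combination h10
    exact (mul_eq_zero.1 this).resolve_left hsub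
  obtain ⟨β, hβ⟩ : ∃ β, y 0 0 - y 1 1 = β * (A 0 0 - A 1 1) := ⟨(y 0 0 - y 1 1) / (A 0 0 - A 1 1), by field_simp⟩
  refine ⟨y 0 0 - β * A 0 0, β, m2_ext ?_ ?_ ?_ ?_⟩
  · rw [m2_lin00]; ring
  · rw [m2_lin01, hf, hb, mul_zero]
  · rw [m2_lin10, hg, hc, mul_zero]
  · rw [m2_lin11]
    linear_combination -hβ

/-- Norm form surjectivity. -/
theorem m2_norm_surj [Fintype F] (h2 : (2 : F) ≠ 0) (t : F) (ht : t ^ 2 ≠ 4) (c : F) :
    ∃ a b : F, a ^ 2 + t * a * b + b ^ 2 = c := by
  open Polynomial in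
  have hu : (1 - t ^ 2 / 4 : F) ≠ 0 := by
    intro hc
    apply ht
    have h4 : (4 : F) ≠ 0 := by
      have : (4 : F) = 2 * 2 := by norm_num
      rw [this]; exact mul_ne_zero h2 h2
    field_simp at hc
    linear_combination -hc
  have hcard : Fintype.card F % 2 = 1 := by
    apply FiniteField.odd_card_of_char_ne_two
    intro hc
    apply h2
    have := ringChar.Nat.cast_ringChar (R := F)
    rw [hc] at this
    exact_mod_cast this
  obtain ⟨A, B, hAB⟩ : ∃ A B, (Polynomial.X ^ 2 : Polynomial F).eval A + (Polynomial.C (1 - t ^ 2 / 4) * Polynomial.X ^ 2 - Polynomial.C c : Polynomial F).eval B = 0 := by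
    apply FiniteField.exists_root_sum_quadratic
    · exact Polynomial.degree_X_pow 2
    · rw [Polynomial.degree_sub_C]
      · exact Polynomial.degree_C_mul_X_pow 2 hu
      · rw [Polynomial.degree_C_mul_X_pow 2 hu]
        norm_num
    · exact hcard
  simp only [Polynomial.eval_add, Polynomial.eval_sub, Polynomial.eval_pow, Polynomial.eval_X, Polynomial.eval_mul, Polynomial.eval_C] at hAB
  refine ⟨A - t / 2 * B, B, ?_⟩
  have h4 : t ^ 2 / 4 = (t / 2) ^ 2 := by rw [div_pow]; norm_num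
  rw [h4] at hAB
  have ht2 : t = 2 * (t / 2) := by field_simp
  generalize t / 2 = τ at hAB ht2 ⊢
  subst ht2
  linear_combination hAB

/-- A non-scalar matrix with determinant one and scalar square has trace zero and square `-1`. -/
theorem m2_sq_scalar {A : M2} {z : F} (hA : ∀ c : F, A ≠ c • (1 : M2)) (hd : A.det = 1)
    (hz : A * A = z • (1 : M2)) : A.trace = 0 ∧ z = -1 := by
  have h1 := m2_ch A
  rw [hz, hd, one_smul] at h1
  have h2 : A.trace • A = (z + 1) • (1 : M2) := by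
    rw [add_smul, one_smul, h1]; abel
  have ht : A.trace = 0 := by
    by_contra hne
    apply hA ((A.trace)⁻¹ * (z + 1))
    rw [mul_smul, ← h2, smul_smul, inv_mul_cancel₀ hne, one_smul]
  refine ⟨ht, ?_⟩
  rw [ht, zero_smul] at h2
  have h3 := congrFun (congrFun h2 0) 0
  simp at h3
  linear_combination -h3

/-- A non-scalar matrix with determinant one and cube `1` has trace `-1`. -/
theorem m2_cube_one {A : M2} (hA : ∀ c : F, A ≠ c • (1 : M2)) (hd : A.det = 1)
    (hz : A * A * A = 1) : A.trace = -1 := by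
  have h1 := m2_ch A
  rw [hd, one_smul] at h1
  have h2 : A * A * A = (A.trace ^ 2 - 1) • A - A.trace • (1 : M2) := by
    rw [h1, Matrix.sub_mul, Matrix.smul_mul, h1, one_mul, smul_sub, smul_smul, sub_smul, one_smul, pow_two]
    abel
  rw [hz] at h2
  have h3 : (A.trace ^ 2 - 1) • A = (1 + A.trace) • (1 : M2) := by
    rw [add_smul, one_smul]
    nth_rw 1 [h2]
    abel
  by_cases h4 : A.trace ^ 2 - 1 = 0
  · rw [h4, zero_smul] at h3
    have h5 := congrFun (congrFun h3 0) 0
    simp at h5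
    linear_combination -h5
  · exfalso
    apply hA ((A.trace ^ 2 - 1)⁻¹ * (1 + A.trace))
    rw [mul_smul, ← h3, smul_smul, inv_mul_cancel₀ h4, one_smul]

/-- A non-scalar matrix with square `-1`. -/
theorem m2_tr_det_of_sq {A : M2} (hA : ∀ c : F, A ≠ c • (1 : M2)) (hs : A * A = -1) :
    A.trace = 0 ∧ A.det = 1 := by
  have h1 := m2_ch A
  rw [hs] at h1
  have h3 : A.trace • A = (A.det - 1) • (1 : M2) := by
    rw [sub_smul, one_smul]
    rw [eq_sub_iff_add_eq] at h1 ⊢
    rw [eq_comm, ← sub_eq_iff_eq_add]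
    rw [← h1]
    abel
  have ht : A.trace = 0 := by
    by_contra hne
    apply hA ((A.trace)⁻¹ * (A.det - 1))
    rw [mul_smul, ← h3, smul_smul, inv_mul_cancel₀ hne, one_smul]
  refine ⟨ht, ?_⟩
  rw [ht, zero_smul] at h3
  have h4 := congrFun (congrFun h3 0) 0
  simp at h4
  linear_combination -h4

end Cfsg.Agent.Lib.Geo
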