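import Mathlib
import Cfsg.Agent.Lib.Geo.ElusPrime
import Cfsg.Agent.Lib.Geo.ElusCount
import Cfsg.Agent.Lib.Known3.OmegaLevi
import Cfsg.Agent.Lib.Known3.Witt
import Cfsg.Agent.Lib.Classical.OrthSO
import Cfsg.Prelude.Def_GeometricClasses

set_option autoImplicit false

/-! Elements of orthogonal groups for the elusive statements: bridge between `omegaGL` and the
abstract orthogonal group, elements of odd order lie in `Ω`, the Dickson criterion, counting
nonsingular lines, gluing, and models without fixed vectors. -/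

namespace Cfsg.Agent.Lib.Geo

open Module Polynomial Matrix
open Cfsg.Agent.Lib.Classical.Witt Cfsg.Agent.Lib.Classical.Abs Cfsg.Agent.Lib.Classical
open Cfsg.Agent.Lib.Classical.Orth Cfsg.Agent.Lib.Known3.Spinor Cfsg.Agent.Lib.Known3.OmegaCalc
open Cfsg.Agent.Lib.Known3.OmegaLevi

local notation "P" => QuadraticMap.polarBilin

section Bridge

variable {ι : Type} [Fintype ι] [DecidableEq ι] {F : Type*} [Field F]

/-- An element of the commutator subgroup gives an element of `omegaGL`. -/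
theorem om_elt_of_OG (Q : QuadraticForm F (ι → F)) (g : OG Q) (hg : g ∈ commutator (OG Q)) :
    ∃ x : GL ι F, x ∈ Cfsg.Geo.omegaGL (⇑Q) ∧ ∀ v, (x : Matrix ι ι F) *ᵥ v = g.1 v := by
  refine ⟨((toOG Q).symm g).1, ⟨(toOG Q).symm g, ?_, rfl⟩, fun v => toOG_symm_apply Q g v⟩
  show (toOG Q).symm g ∈ Cfsg.Omega F (⇑Q)
  rw [mem_Omega_iff]
  simpa using hg

/-- An element of `omegaGL` comes from the commutator subgroup. -/
theorem OG_of_om_elt (Q : QuadraticForm F (ι → F)) (x : GL ι F) (hx : x ∈ Cfsg.Geo.omegaGL (⇑Q)) :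
    ∃ g : OG Q, g ∈ commutator (OG Q) ∧ ∀ v, g.1 v = (x : Matrix ι ι F) *ᵥ v := by
  obtain ⟨y, hy, rfl⟩ := hx
  refine ⟨toOG Q y, (mem_Omega_iff Q y).1 hy, fun v => toOG_apply Q y v⟩

/-- An element of `omegaGL` is an isometry. -/
theorem om_elt_pres (Q : QuadraticForm F (ι → F)) (x : GL ι F) (hx : x ∈ Cfsg.Geo.omegaGL (⇑Q))
    (v : ι → F) : Q ((x : Matrix ι ι F) *ᵥ v) = Q v := by
  obtain ⟨g, -, hg⟩ := OG_of_om_elt Q x hx
  rw [← hg, OG_pres]

end Bridge

section Pow

variable {G : Type*} [Group G]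

/-- An element of order prime to the index of a normal subgroup lies in the subgroup. -/
theorem mem_of_pow_coprime_index (N : Subgroup G) [N.Normal] [N.FiniteIndex] (g : G) {r : ℕ}
    (hr : g ^ r = 1) (hc : Nat.Coprime r N.index) : g ∈ N := by
  have h1 : (g : G ⧸ N) ^ r = 1 := by
    rw [← QuotientGroup.mk_pow, hr, QuotientGroup.mk_one]
  have h2 : (g : G ⧸ N) ^ N.index = 1 := by
    rw [← QuotientGroup.mk_pow, QuotientGroup.eq_one_iff]
    exact Subgroup.pow_index_mem N g
  have h3 := pow_gcd_eq_one.2 ⟨h1, h2⟩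
  rw [hc.gcd_eq_one, pow_one] at h3
  exact (QuotientGroup.eq_one_iff g).1 h3

end Pow

section Forms

variable {F V : Type*} [Field F] [Fintype F] [AddCommGroup V] [Module F V] [FiniteDimensional F V]
  {Q : QuadraticForm F V}

/-- Isometries of odd order lie in `Ω`. -/
theorem OG_odd_mem_commutator [Finite V] (hQ : (P Q).Nondegenerate) (hn : 2 ≤ finrank F V)
    (hc : Fintype.card F ≠ 2 ∨ finrank F V ≠ 4) (g : OG Q) {r : ℕ} (hr : Odd r) (hg : g ^ r = 1) :
    g ∈ commutator (OG Q) := by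
  by_cases h2 : (2 : F) = 0
  · have hi := index_commutator_even h2 hQ hn hc
    haveI : (commutator (OG Q)).FiniteIndex := ⟨by rw [hi]; norm_num⟩
    exact mem_of_pow_coprime_index _ g hg (by rw [hi]; exact Nat.coprime_two_right.2 hr)
  · have hi := index_commutator h2 hQ hn
    haveI : (commutator (OG Q)).FiniteIndex := ⟨by rw [hi]; norm_num⟩
    refine mem_of_pow_coprime_index _ g hg ?_
    rw [hi]
    exact Nat.Coprime.pow_right 2 (Nat.coprime_two_right.2 hr) |>.symm.symm

/-- The Dickson criterion in characteristic two. -/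
theorem OG_even_rk_mem_commutator (h2 : (2 : F) = 0) (hQ : (P Q).Nondegenerate)
    (hc : Fintype.card F ≠ 2 ∨ finrank F V ≠ 4) (g : OG Q) (hg : Even (rk g)) :
    g ∈ commutator (OG Q) := by
  have htop := Rf_eq_top (Q := Q) hQ hc
  obtain ⟨L, rfl⟩ := exists_list (show g ∈ Rf Q by rw [htop]; trivial)
  rw [mem_comm_even h2 hQ hc]
  exact (rk_prodL h2 hQ L).1 hg

end Forms

section Lines

variable {F V : Type*} [Field F] [Fintype F] [AddCommGroup V] [Module F V] [Finite V]

/-- Counting nonsingular lines. -/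
theorem lines_count (Q : V → F) (hs : ∀ (c : F) v, Q (c • v) = c ^ 2 * Q v) :
    Nat.card {W : Submodule F V // finrank F W = 1 ∧ ∃ v ∈ W, Q v ≠ 0} * (Fintype.card F - 1) =
      Nat.card {v : V // Q v ≠ 0} := by
  classical
  haveI : Fintype V := Fintype.ofFinite V
  have hQ0 : Q 0 = 0 := by
    have := hs 0 0
    simpa using this
  have hv0 : ∀ v : V, Q v ≠ 0 → v ≠ 0 := by
    rintro v hv rfl
    exact hv hQ0
  let S := {W : Submodule F V // finrank F W = 1 ∧ ∃ v ∈ W, Q v ≠ 0}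
  let f : {v : V // Q v ≠ 0} → S := fun v =>
    ⟨Submodule.span F {v.1}, finrank_span_singleton (hv0 _ v.2), v.1,
      Submodule.mem_span_singleton_self _, v.2⟩
  haveI : Finite (Submodule F V) := Finite.of_injective (fun W => (W : Set V)) SetLike.coe_injective
  haveI : Fintype S := Fintype.ofFinite _
  have hfib : ∀ W : S, Nat.card {v : {v : V // Q v ≠ 0} // f v = W} = Fintype.card F - 1 := by
    rintro ⟨W, hW1, w, hw, hQw⟩
    have hw0 := hv0 w hQw
    have hspan : Submodule.span F {w} = W := by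
      apply Submodule.eq_of_le_of_finrank_eq
      · rwa [Submodule.span_singleton_le_iff_mem]
      · rw [finrank_span_singleton hw0, hW1]
    have hcard : Nat.card Fˣ = Fintype.card F - 1 := by
      rw [Nat.card_eq_fintype_card, Fintype.card_units]
    rw [← hcard]
    apply Nat.card_congr
    refine
      { toFun := fun s => ?_
        invFun := fun c => ?_
        left_inv := ?_
        right_inv := ?_ }
    · have h2 : Submodule.span F {s.1.1} = W := congrArg Subtype.val s.2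
      have h1' : s.1.1 ∈ Submodule.span F {w} :=
        hspan.symm.le (h2.le (Submodule.mem_span_singleton_self _))
      have h1 := Submodule.mem_span_singleton.1 h1'
      have hc := Classical.choose_spec h1
      refine Units.mk0 (Classical.choose h1) ?_
      rintro h0
      rw [h0, zero_smul] at hc
      exact hv0 _ s.1.2 hc.symm
    · refine ⟨⟨(c : F) • w, ?_⟩, ?_⟩
      · rw [hs]
        exact mul_ne_zero (pow_ne_zero _ c.ne_zero) hQw
      · apply Subtype.ext
        show Submodule.span F {(c : F) • w} = W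
        rw [← hspan]
        exact Submodule.span_singleton_smul_eq c.isUnit w
    · intro s
      apply Subtype.ext
      apply Subtype.ext
      have h2 : Submodule.span F {s.1.1} = W := congrArg Subtype.val s.2
      have h1' : s.1.1 ∈ Submodule.span F {w} :=
        hspan.symm.le (h2.le (Submodule.mem_span_singleton_self _))
      exact Classical.choose_spec (Submodule.mem_span_singleton.1 h1')
    · intro c
      apply Units.ext
      have h1' : (c : F) • w ∈ Submodule.span F {w} :=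
        Submodule.smul_mem _ _ (Submodule.mem_span_singleton_self _)
      have h1 := Submodule.mem_span_singleton.1 h1'
      have hc := Classical.choose_spec h1
      have : (Classical.choose h1 - (c : F)) • w = 0 := by
        rw [sub_smul, hc, sub_self]
      rcases smul_eq_zero.1 this with h | h
      · exact sub_eq_zero.1 h
      · exact absurd h hw0
  have h1 : Nat.card {v : V // Q v ≠ 0} = Nat.card (Σ W : S, {v : {v : V // Q v ≠ 0} // f v = W}) :=
    Nat.card_congr (Equiv.sigmaFiberEquiv f).symm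
  rw [h1, Nat.card_sigma]
  simp only [hfib]
  rw [Finset.sum_const, smul_eq_mul, Finset.card_univ, Nat.card_eq_fintype_card]

/-- Nonsingular vectors plus singular vectors. -/
theorem card_sing_add (Q : V → F) :
    Nat.card {v : V // Q v ≠ 0} + Nat.card {v : V // Q v = 0} = Nat.card V := by
  classical
  haveI : Fintype V := Fintype.ofFinite V
  simp only [Nat.card_eq_fintype_card]
  have := Fintype.card_subtype_compl (fun v : V => Q v = 0)
  have h2 := Fintype.card_subtype_le (fun v : V => Q v = 0)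
  have h3 : Fintype.card {v : V // Q v ≠ 0} = Fintype.card {v : V // ¬ Q v = 0} := rfl
  omega

end Lines

section Glue

variable {F V V₁ V₂ : Type*} [Field F] [AddCommGroup V] [Module F V]
  [AddCommGroup V₁] [Module F V₁] [AddCommGroup V₂] [Module F V₂]
  {Q : QuadraticForm F V} {Q₁ : QuadraticForm F V₁} {Q₂ : QuadraticForm F V₂}

/-- Gluing isometries of the two members of an orthogonal sum. -/
theorem og_exists_glue (e : V ≃ₗ[F] V₁ × V₂) (he : ∀ v, Q v = Q₁ (e v).1 + Q₂ (e v).2)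
    (g₁ : OG Q₁) (g₂ : OG Q₂) :
    ∃ g : OG Q, ∀ v, e (g.1 v) = (g₁.1 (e v).1, g₂.1 (e v).2) := by
  let E : V ≃ₗ[F] V := (e.trans (g₁.1.prodCongr g₂.1)).trans e.symm
  have hE : ∀ v, e (E v) = (g₁.1 (e v).1, g₂.1 (e v).2) := by
    intro v
    simp [E]
  refine ⟨⟨E, ?_⟩, hE⟩
  intro u _
  change Q (E u) = Q u
  rw [he, he u, hE, OG_pres, OG_pres]

/-- Powers of a glued isometry. -/
theorem og_glue_pow {e : V ≃ₗ[F] V₁ × V₂} {g : OG Q} {g₁ : OG Q₁} {g₂ : OG Q₂}
    (h : ∀ v, e (g.1 v) = (g₁.1 (e v).1, g₂.1 (e v).2)) (n : ℕ) (v : V) :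
    e ((g ^ n).1 v) = ((g₁ ^ n).1 (e v).1, (g₂ ^ n).1 (e v).2) := by
  induction n generalizing v with
  | zero => simp
  | succ n ih =>
    rw [pow_succ, Orth.mul_apply', ih, h, pow_succ, pow_succ, Orth.mul_apply', Orth.mul_apply']

/-- A glued element of trivial powers. -/
theorem og_glue_pow_one {e : V ≃ₗ[F] V₁ × V₂} {g : OG Q} {g₁ : OG Q₁} {g₂ : OG Q₂}
    (h : ∀ v, e (g.1 v) = (g₁.1 (e v).1, g₂.1 (e v).2)) {n : ℕ} (h₁ : g₁ ^ n = 1) (h₂ : g₂ ^ n = 1) :
    g ^ n = 1 := by
  apply OG_ext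
  intro v
  apply e.injective
  rw [og_glue_pow h, h₁, h₂, one_apply', one_apply', one_apply']

/-- A glued element has no fixed vector when neither of its parts has. -/
theorem og_glue_free {e : V ≃ₗ[F] V₁ × V₂} {g : OG Q} {g₁ : OG Q₁} {g₂ : OG Q₂}
    (h : ∀ v, e (g.1 v) = (g₁.1 (e v).1, g₂.1 (e v).2))
    (h₁ : ∀ v, g₁.1 v = v → v = 0) (h₂ : ∀ v, g₂.1 v = v → v = 0) {v : V} (hv : g.1 v = v) : v = 0 := by
  have h3 := h v
  rw [hv] at h3
  have h4 : (e v).1 = 0 := h₁ _ (congrArg Prod.fst h3).symm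
  have h5 : (e v).2 = 0 := h₂ _ (congrArg Prod.snd h3).symm
  have h6 : e v = 0 := Prod.ext h4 h5
  simpa using h6

end Glue

section Split

variable {F : Type*} [Field F]

/-- The index bijection for the minus form. -/
def minusIdx (a k : ℕ) : ((Fin a ⊕ Fin a) ⊕ Fin 2) ⊕ (Fin k ⊕ Fin k) ≃ (Fin (a + k) ⊕ Fin (a + k)) ⊕ Fin 2 where
  toFun := Sum.elim (Sum.elim (Sum.elim (fun i => .inl (.inl (Fin.castAdd k i))) (fun i => .inl (.inr (Fin.castAdd k i))))
      .inr) (Sum.elim (fun i => .inl (.inl (Fin.natAdd a i))) (fun i => .inl (.inr (Fin.natAdd a i))))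
  invFun := Sum.elim (Sum.elim (fun i => Fin.addCases (fun j => .inl (.inl (.inl j))) (fun j => .inr (.inl j)) i)
      (fun i => Fin.addCases (fun j => .inl (.inl (.inr j))) (fun j => .inr (.inr j)) i)) (fun j => .inl (.inr j))
  left_inv := by
    rintro (((i | i) | i) | (i | i)) <;> simp
  right_inv := by
    rintro ((i | i) | i)
    · induction i using Fin.addCases <;> simp
    · induction i using Fin.addCases <;> simp
    · simp

/-- Splitting the minus form. -/
noncomputable def minusSplit (a k : ℕ) :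
    ((Fin (a + k) ⊕ Fin (a + k)) ⊕ Fin 2 → F) ≃ₗ[F] ((Fin a ⊕ Fin a) ⊕ Fin 2 → F) × (Fin k ⊕ Fin k → F) :=
  (LinearEquiv.funCongrLeft F F (minusIdx a k)).trans (LinearEquiv.sumArrowLequivProdArrow _ _ F F)

theorem minusSplit_Q (a k : ℕ) (x y : F) (v : (Fin (a + k) ⊕ Fin (a + k)) ⊕ Fin 2 → F) :
    Qminus (a + k) F x y v = Qminus a F x y (minusSplit a k v).1 + Qplus k F (minusSplit a k v).2 := by
  rw [Qminus_apply, Qminus_apply, Qplus_apply]
  simp only [Cfsg.quadFormMinus, Cfsg.quadFormPlus, Fin.sum_univ_add, minusSplit]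
  simp [minusIdx, LinearEquiv.funCongrLeft_apply, LinearMap.funLeft]
  ring

end Split

section Models

/-- Arithmetic of `r ∣ q^d + 1`. -/
theorem half_order_of_dvd {r : ℕ} [hr : Fact r.Prime] {q d : ℕ} (hr2 : r ≠ 2) (hd : r ∣ q ^ d + 1) :
    ∃ h s, orderOf (q : ZMod r) = 2 * h ∧ 1 ≤ h ∧ r ∣ q ^ h + 1 ∧ d = h * (2 * s + 1) := by
  set x : ZMod r := (q : ZMod r) with hxd
  have hx : x ^ d = -1 := by
    have h1 : ((q ^ d + 1 : ℕ) : ZMod r) = 0 := (ZMod.natCast_eq_zero_iff _ r).2 hd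
    push_cast at h1
    exact eq_neg_of_add_eq_zero_left h1
  have hne : (-1 : ZMod r) ≠ 1 := by
    intro h
    have h1 : ((2 : ℕ) : ZMod r) = 0 := by
      push_cast
      linear_combination -h
    have h2 : r ∣ 2 := (ZMod.natCast_eq_zero_iff _ r).1 h1
    exact hr2 ((Nat.prime_dvd_prime_iff_eq hr.out Nat.prime_two).1 h2)
  have h2d : x ^ (2 * d) = 1 := by
    rw [mul_comm, pow_mul, hx]
    simp
  have hd0 : d ≠ 0 := by
    rintro rfl
    rw [pow_zero] at hx
    exact hne hx.symm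
  have hnd : ¬ orderOf x ∣ d := by
    intro h
    rw [orderOf_dvd_iff_pow_eq_one, hx] at h
    exact hne h
  have hi : orderOf x ∣ 2 * d := orderOf_dvd_of_pow_eq_one h2d
  have hpos : 0 < orderOf x := orderOf_pos_iff.2 (isOfFinOrder_iff_pow_eq_one.2 ⟨2 * d, by omega, h2d⟩)
  have heven : Even (orderOf x) := by
    by_contra hc
    have hodd : Odd (orderOf x) := Nat.not_even_iff_odd.1 hc
    exact hnd ((Nat.coprime_two_right.2 hodd).dvd_of_dvd_mul_left hi)
  obtain ⟨h, hh⟩ := heven.two_dvd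
  have hh0 : 1 ≤ h := by omega
  have hne1 : x ^ h ≠ 1 := pow_ne_one_of_lt_orderOf (by omega) (by omega)
  have hsq : x ^ h * x ^ h = 1 := by
    rw [← pow_add, ← two_mul, ← hh, pow_orderOf_eq_one]
  have hm1 : x ^ h = -1 := (mul_self_eq_one_iff.1 hsq).resolve_left hne1
  have hdvd : r ∣ q ^ h + 1 := by
    rw [← ZMod.natCast_eq_zero_iff]
    push_cast
    rw [← hxd, hm1]
    ring
  have h2h : 2 * h ∣ 2 * d := by rw [← hh]; exact hi
  obtain ⟨t, ht⟩ := (Nat.mul_dvd_mul_iff_left (by norm_num)).1 h2h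
  rcases Nat.even_or_odd' t with ⟨s, rfl | rfl⟩
  · exfalso
    apply hnd
    rw [hh, ht]
    exact ⟨s, by ring⟩
  · exact ⟨h, s, hh, hh0, hdvd, ht⟩

variable {F : Type*} [Field F] [Fintype F] {p : ℕ} [Fact p.Prime] [CharP F p] {q : ℕ}
  (hq : Fintype.card F = q) {r : ℕ} [hr : Fact r.Prime] (hrp : r ≠ p)

omit [Fact p.Prime] [CharP F p] [Fintype F] [hr : Fact r.Prime] in
theorem OG_iter {V : Type*} [AddCommGroup V] [Module F V] {Q : QuadraticForm F V} (g : OG Q) (n : ℕ) (v : V) :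
    ((g.1 : V →ₗ[F] V) ^ n) v = (g ^ n).1 v := by
  induction n generalizing v with
  | zero => simp
  | succ n ih =>
    rw [pow_succ, Module.End.mul_apply, ih, pow_succ, Orth.mul_apply']
    rfl

include hq hrp in
/-- A block of the minus form without fixed vector, by Cauchy's theorem. -/
theorem minus_block (a : ℕ) (x y : F)
    (hab : ∀ z₁ z₂ : F, z₁ ^ 2 + x * z₁ * z₂ + y * z₂ ^ 2 = 0 → z₁ = 0 ∧ z₂ = 0)
    (hord : orderOf (q : ZMod r) = 2 * (a + 1)) (hdvd : r ∣ q ^ (a + 1) + 1) :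
    ∃ g : OG (Qminus a F x y), g ^ r = 1 ∧ ∀ v, g.1 v = v → v = 0 := by
  classical
  have hc := Qminus_order hab a
  have hd : r ∣ Nat.card (OG (Qminus a F x y)) := by
    rw [show OG (Qminus a F x y) = isoG (fun u _ : (Fin a ⊕ Fin a) ⊕ Fin 2 → F => Qminus a F x y u) from rfl, hc, hq]
    exact Dvd.dvd.mul_right (Dvd.dvd.mul_left hdvd _) _
  haveI : Finite ((Fin a ⊕ Fin a) ⊕ Fin 2 → F) := inferInstance
  haveI : Finite (((Fin a ⊕ Fin a) ⊕ Fin 2 → F) ≃ₗ[F] ((Fin a ⊕ Fin a) ⊕ Fin 2 → F)) :=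
    Finite.of_injective (fun e => (e : ((Fin a ⊕ Fin a) ⊕ Fin 2 → F) → ((Fin a ⊕ Fin a) ⊕ Fin 2 → F)))
      (fun e e' h => LinearEquiv.ext (congrFun h))
  obtain ⟨g, hg⟩ := exists_prime_orderOf_dvd_card' r hd
  have hgr : g ^ r = 1 := by rw [← hg]; exact pow_orderOf_eq_one g
  refine ⟨g, hgr, ?_⟩
  have hy : (g.1 : ((Fin a ⊕ Fin a) ⊕ Fin 2 → F) →ₗ[F] ((Fin a ⊕ Fin a) ⊕ Fin 2 → F)) ^ r = 1 := by
    apply LinearMap.ext
    intro v
    rw [OG_iter, hgr]
    rfl
  obtain ⟨e, he⟩ := finrank_inv_eq (p := p) hq hrp hy ⊤ (fun _ _ => trivial)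
  rw [top_inf_eq, finrank_top, hord] at he
  have hdim : finrank F ((Fin a ⊕ Fin a) ⊕ Fin 2 → F) = 2 * (a + 1) := by
    rw [finrank_fintype_fun_eq_card]
    simp
    ring
  rw [hdim] at he
  intro v hv
  have hker : v ∈ LinearMap.ker (aeval (g.1 : ((Fin a ⊕ Fin a) ⊕ Fin 2 → F) →ₗ[F] ((Fin a ⊕ Fin a) ⊕ Fin 2 → F)) (X - C 1 : F[X])) :=
    mem_ker_aeval_sub_one.2 hv
  rcases Nat.eq_zero_or_pos e with rfl | hepos
  · exfalso
    rw [zero_mul, add_zero] at he
    have htop : LinearMap.ker (aeval (g.1 : ((Fin a ⊕ Fin a) ⊕ Fin 2 → F) →ₗ[F] ((Fin a ⊕ Fin a) ⊕ Fin 2 → F)) (X - C 1 : F[X])) = ⊤ :=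
      Submodule.eq_top_of_finrank_eq (by rw [hdim]; exact he.symm)
    have hg1 : g = 1 := by
      apply OG_ext
      intro w
      have : w ∈ LinearMap.ker (aeval (g.1 : ((Fin a ⊕ Fin a) ⊕ Fin 2 → F) →ₗ[F] ((Fin a ⊕ Fin a) ⊕ Fin 2 → F)) (X - C 1 : F[X])) := by
        rw [htop]; trivial
      exact mem_ker_aeval_sub_one.1 this
    rw [hg1, orderOf_one] at hg
    exact (Fact.out : r.Prime).one_lt.ne hg
  · have h0 : finrank F (LinearMap.ker (aeval (g.1 : ((Fin a ⊕ Fin a) ⊕ Fin 2 → F) →ₗ[F] ((Fin a ⊕ Fin a) ⊕ Fin 2 → F)) (X - C 1 : F[X]))) = 0 := by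
      have h1 : 2 * (a + 1) ≤ e * (2 * (a + 1)) := Nat.le_mul_of_pos_left _ hepos
      omega
    have h1 := Submodule.finrank_eq_zero.1 h0
    rw [h1] at hker
    simpa using hker

include hq hrp in
/-- A Levi element of the plus form without fixed vector. -/
theorem levi_free (k : ℕ) (hk : orderOf (q : ZMod r) ∣ k) :
    ∃ g : OG (Qplus k F), g ^ r = 1 ∧ ∀ v, g.1 v = v → v = 0 := by
  classical
  obtain ⟨s, hs⟩ := hk
  obtain ⟨y, hy, hker⟩ := exists_model (p := p) (V := Fin k → F) hq hrp s 0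
    (by rw [finrank_fin_fun, hs]; ring)
  have hr1 : 1 ≤ r := (Fact.out : r.Prime).one_lt.le
  have hyy : y ^ (r - 1) * y = 1 := by rw [← pow_succ, Nat.sub_add_cancel hr1, hy]
  have hyy' : y * y ^ (r - 1) = 1 := by rw [← pow_succ', Nat.sub_add_cancel hr1, hy]
  let E : (Fin k → F) ≃ₗ[F] (Fin k → F) := LinearEquiv.ofLinear y (y ^ (r - 1)) hyy' hyy
  have hE : ∀ v, E v = y v := fun v => rfl
  have hEr : E ^ r = 1 := by
    apply LinearEquiv.ext
    intro v
    have : ∀ n : ℕ, ∀ v, (E ^ n) v = (y ^ n) v := by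
      intro n
      induction n with
      | zero => intro v; rfl
      | succ n ih =>
        intro v
        rw [pow_succ, LinearEquiv.mul_apply, ih, pow_succ, Module.End.mul_apply, hE]
    rw [this, hy]
    rfl
  let A : GL (Fin k) F := glLin.symm E
  have hA : ∀ v, (A : Matrix (Fin k) (Fin k) F) *ᵥ v = y v := by
    intro v
    rw [← glLin_apply, MulEquiv.apply_symm_apply, hE]
  have hAr : A ^ r = 1 := by
    rw [← map_pow, hEr, map_one]
  refine ⟨toOG (Qplus k F) (Φ A), ?_, ?_⟩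
  · rw [← map_pow, ← map_pow, hAr, map_one, map_one]
  · intro v hv
    have hb : ∀ j, (blk (A : Matrix (Fin k) (Fin k) F) *ᵥ v) j = v j := by
      intro j
      have h1 := toOG_apply (Qplus k F) (Φ A) v
      rw [hv] at h1
      exact (congrFun h1 j).symm
    have hinj : ∀ u, y u = u → u = 0 := by
      intro u hu
      have h1 : u ∈ LinearMap.ker (aeval y (X - C 1 : F[X])) := mem_ker_aeval_sub_one.2 hu
      rw [Submodule.finrank_eq_zero.1 hker] at h1
      simpa using h1
    have hl : v ∘ Sum.inl = 0 := by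
      apply hinj
      rw [← hA]
      funext j
      have := hb (Sum.inl j)
      rw [blk_apply] at this
      exact this
    have hsurj : Function.Surjective (y - 1 : (Fin k → F) →ₗ[F] (Fin k → F)) := by
      apply LinearMap.injective_iff_surjective.1
      rw [injective_iff_map_eq_zero]
      intro u hu
      apply hinj
      have : y u - u = 0 := by simpa using hu
      exact sub_eq_zero.1 this
    have hBA : (A : Matrix (Fin k) (Fin k) F)⁻¹ * (A : Matrix (Fin k) (Fin k) F) = 1 :=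
      Matrix.nonsing_inv_mul _ ((Matrix.isUnit_iff_isUnit_det _).1 A.isUnit)
    have hw : ∀ z : Fin k → F, z ⬝ᵥ (v ∘ Sum.inr) = 0 := by
      intro z
      obtain ⟨u, rfl⟩ := hsurj z
      have h1 : ((A : Matrix (Fin k) (Fin k) F)⁻¹).transpose *ᵥ (v ∘ Sum.inr) = v ∘ Sum.inr := by
        funext j
        have := hb (Sum.inr j)
        rw [blk_apply] at this
        exact this
      have h2 : (y u) ⬝ᵥ (v ∘ Sum.inr) = u ⬝ᵥ (v ∘ Sum.inr) := by
        conv_lhs => rw [← h1]
        rw [Matrix.dotProduct_mulVec, Matrix.vecMul_transpose, ← hA, Matrix.mulVec_mulVec, hBA, Matrix.one_mulVec]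
      simp only [LinearMap.sub_apply, Module.End.one_apply, sub_dotProduct, h2, sub_self]
    have hr' : v ∘ Sum.inr = 0 := by
      funext j
      have := hw (Pi.single j 1)
      simpa using this
    funext j
    rcases j with j | j
    · exact congrFun hl j
    · exact congrFun hr' j

include hq hrp in
/-- The minus form has an element of order dividing `r` without fixed vector. -/
theorem minus_model (hr2 : r ≠ 2) (m : ℕ) (x y : F)
    (hab : ∀ z₁ z₂ : F, z₁ ^ 2 + x * z₁ * z₂ + y * z₂ ^ 2 = 0 → z₁ = 0 ∧ z₂ = 0)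
    (hdvd : r ∣ q ^ (m + 1) + 1) :
    ∃ g : OG (Qminus m F x y), g ^ r = 1 ∧ ∀ v, g.1 v = v → v = 0 := by
  obtain ⟨h, s, hord, hh, hd, hm⟩ := half_order_of_dvd hr2 hdvd
  obtain ⟨a, rfl⟩ : ∃ a, h = a + 1 := ⟨h - 1, by omega⟩
  have e1 : (a + 1) * (2 * s + 1) = 2 * (a + 1) * s + (a + 1) := by ring
  obtain rfl : m = a + 2 * (a + 1) * s := by omega
  obtain ⟨g₁, h₁, h₁'⟩ := minus_block (p := p) hq hrp a x y hab hord hd
  obtain ⟨g₂, h₂, h₂'⟩ := levi_free (p := p) (F := F) hq hrp (2 * (a + 1) * s) (by rw [hord]; exact ⟨s, rfl⟩)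
  obtain ⟨g, hg⟩ := og_exists_glue (minusSplit a (2 * (a + 1) * s)) (minusSplit_Q a _ x y) g₁ g₂
  exact ⟨g, og_glue_pow_one hg h₁ h₂, fun v hv => og_glue_free hg h₁' h₂' hv⟩

include hq hrp in
/-- The plus form has an element of order dividing `r` without fixed vector. -/
theorem plus_model (k : ℕ) (hk : 1 ≤ k) (hdvd : r ∣ q ^ k - 1) :
    ∃ g : OG (Qplus k F), g ^ r = 1 ∧ ∀ v, g.1 v = v → v = 0 := by
  apply levi_free (p := p) hq hrp
  rw [orderOf_dvd_iff_pow_eq_one]
  have hq1 : 1 ≤ q ^ k := by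
    have : 0 < q := by rw [← hq]; exact Fintype.card_pos
    exact Nat.one_le_pow _ _ this
  have h1 : ((q ^ k - 1 : ℕ) : ZMod r) = 0 := (ZMod.natCast_eq_zero_iff _ r).2 hdvd
  rw [Nat.cast_sub hq1] at h1
  push_cast at h1
  exact sub_eq_zero.1 h1

end Models

end Cfsg.Agent.Lib.Geo
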