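import Mathlib
import Cfsg.Agent.Lib.Geo.ElusSubfield

set_option autoImplicit false

/-! Elements of odd prime order of the isometry group of an alternating form: nondegenerate invariant
blocks and models. -/

namespace Cfsg.Agent.Lib.Geo

open Polynomial Module

universe u v

section NDTools

variable {F : Type v} [Field F] {V : Type u} [AddCommGroup V] [Module F V] {f : V → V → F}

/-- Restriction of a form to a subspace on which it is nondegenerate. -/
theorem aform_on (hf : AForm f) {W : Submodule F V} (hW : NDOn f W) : AForm (fun a b : W => f a b) where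
  add_left := fun a b d => hf.add_left _ _ _
  smul_left := fun c a b => hf.smul_left _ _ _
  add_right := fun a b d => hf.add_right _ _ _
  smul_right := fun c a b => hf.smul_right _ _ _
  alt := fun a => hf.alt _
  nd := by
    rintro ⟨a, ha⟩ ha0
    obtain ⟨b, hb, hb2⟩ := hW a ha (fun h0 => ha0 (by subst h0; rfl))
    exact ⟨⟨b, hb⟩, hb2⟩

theorem even_of_nd [FiniteDimensional F V] (hf : AForm f) {W : Submodule F V} (hW : NDOn f W) : Even (finrank F W) :=
  aform_even (aform_on hf hW)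

theorem finrank_aperp [FiniteDimensional F V] (hf : AForm f) (W : Submodule F V) :
    finrank F (aperp hf W) = finrank F V - finrank F W := by
  have h1 := LinearMap.BilinForm.finrank_orthogonal hf.toBilin_nondeg (W := W)
  have h2 : aperp hf W = hf.toBilin.orthogonal W := by
    ext u
    rw [LinearMap.BilinForm.mem_orthogonal_iff, mem_aperp]
    constructor
    · intro h n hn
      show f n u = 0
      rw [hf.skew, h n hn, neg_zero]
    · intro h p hp
      have : f p u = 0 := h p hp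
      rw [hf.skew, this, neg_zero]
  rw [h2]
  exact h1

theorem compl_aperp [FiniteDimensional F V] (hf : AForm f) {U : Submodule F V} (hU : NDOn f U) : IsCompl U (aperp hf U) := by
  have hd : U ⊓ aperp hf U = ⊥ := by
    rw [eq_bot_iff]
    rintro u ⟨h1, h2⟩
    by_contra h0
    obtain ⟨v, hv, hv2⟩ := hU u h1 h0
    exact hv2 (h2 v hv)
  refine ⟨disjoint_iff.2 hd, codisjoint_iff.2 ?_⟩
  apply Submodule.eq_top_of_finrank_eq
  have h1 := Submodule.finrank_sup_add_finrank_inf_eq U (aperp hf U)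
  rw [hd, finrank_bot, finrank_aperp] at h1
  have h2 := Submodule.finrank_le U
  omega

/-- The relative orthogonal complement. -/
theorem rel_perp [FiniteDimensional F V] (hf : AForm f) {U W : Submodule F V} (hU : NDOn f U) (hUW : U ≤ W) (hW : NDOn f W) :
    NDOn f (W ⊓ aperp hf U) ∧ U ⊔ (W ⊓ aperp hf U) = W ∧ U ⊓ (W ⊓ aperp hf U) = ⊥ := by
  have hc := compl_aperp hf hU
  have hdec : ∀ u ∈ W, ∃ u₁ ∈ U, ∃ u₂ ∈ W ⊓ aperp hf U, u = u₁ + u₂ := by
    intro u hu
    have htop : u ∈ U ⊔ aperp hf U := by rw [hc.sup_eq_top]; trivial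
    obtain ⟨u₁, h1, u₂, h2, rfl⟩ := Submodule.mem_sup.1 htop
    refine ⟨u₁, h1, u₂, Submodule.mem_inf.2 ⟨?_, h2⟩, rfl⟩
    have : u₂ = (u₁ + u₂) - u₁ := by abel
    rw [this]
    exact W.sub_mem hu (hUW h1)
  refine ⟨?_, ?_, ?_⟩
  · rintro u ⟨hu1, hu2⟩ hne
    obtain ⟨v, hv, hv2⟩ := hW u hu1 hne
    obtain ⟨v₁, h1, v₂, h2, rfl⟩ := hdec v hv
    refine ⟨v₂, h2, fun h0 => hv2 ?_⟩
    rw [hf.add_right, hu2 v₁ h1, h0, add_zero]
  · apply le_antisymm (sup_le hUW inf_le_left)
    intro u hu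
    obtain ⟨u₁, h1, u₂, h2, rfl⟩ := hdec u hu
    exact Submodule.add_mem_sup h1 h2
  · rw [eq_bot_iff]
    rintro u ⟨h1, _, h2⟩
    by_contra h0
    obtain ⟨v, hv, hv2⟩ := hU u h1 h0
    exact hv2 (h2 v hv)

/-- Orthogonal sum of nondegenerate subspaces. -/
theorem ndOn_sup (hf : AForm f) {A B : Submodule F V} (hA : NDOn f A) (hB : NDOn f B) (hAB : ∀ u ∈ A, ∀ v ∈ B, f u v = 0) :
    NDOn f (A ⊔ B) ∧ A ⊓ B = ⊥ := by
  constructor
  · intro u hu hne
    obtain ⟨a, ha, b, hb, rfl⟩ := Submodule.mem_sup.1 hu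
    by_cases ha0 : a = 0
    · subst ha0
      have hb0 : b ≠ 0 := by simpa using hne
      obtain ⟨v, hv, hv2⟩ := hB b hb hb0
      refine ⟨v, Submodule.mem_sup_right hv, ?_⟩
      rw [hf.add_left, hf.zero_left, zero_add]
      exact hv2
    · obtain ⟨v, hv, hv2⟩ := hA a ha ha0
      refine ⟨v, Submodule.mem_sup_left hv, ?_⟩
      rw [hf.add_left, hf.skew b v, hAB v hv b hb, neg_zero, add_zero]
      exact hv2
  · rw [eq_bot_iff]
    rintro u ⟨h1, h2⟩
    by_contra h0
    obtain ⟨v, hv, hv2⟩ := hB u h2 h0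
    exact hv2 (hAB u h1 v hv)

theorem exists_hyp_pair (hf : AForm f) {W : Submodule F V} (hW : NDOn f W) (hne : W ≠ ⊥) :
    ∃ a ∈ W, ∃ b ∈ W, f a b = 1 := by
  obtain ⟨a, ha, ha0⟩ := Submodule.exists_mem_ne_zero_of_ne_bot hne
  obtain ⟨b, hb, hb0⟩ := hW a ha ha0
  refine ⟨a, ha, (f a b)⁻¹ • b, W.smul_mem _ hb, ?_⟩
  rw [hf.smul_right, inv_mul_cancel₀ hb0]

/-- Nondegenerate subspaces of every even dimension. -/
theorem exists_nd_sub [FiniteDimensional F V] (hf : AForm f) :
    ∀ (e : ℕ) (W : Submodule F V), NDOn f W → 2 * e ≤ finrank F W → ∃ U : Submodule F V, U ≤ W ∧ NDOn f U ∧ finrank F U = 2 * e := by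
  intro e
  induction e with
  | zero =>
    intro W _ _
    refine ⟨⊥, bot_le, fun u hu hne => absurd ((Submodule.mem_bot F).1 hu) hne, finrank_bot F V⟩
  | succ e ih =>
    intro W hW hd
    have hne : W ≠ ⊥ := by
      rintro rfl
      rw [finrank_bot] at hd
      omega
    obtain ⟨a, ha, b, hb, hab⟩ := exists_hyp_pair hf hW hne
    have hba : f b a = -1 := by rw [hf.skew, hab]
    have hPfin := finrank_plane_of hf hab
    have hPW : plane F a b ≤ W := plane_le ha hb
    have hPnd : NDOn f (plane F a b) := by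
      intro u hu hne
      obtain ⟨c, d, rfl⟩ := Submodule.mem_span_pair.1 hu
      by_cases hc : c = 0
      · subst hc
        have hd0 : d ≠ 0 := by
          rintro rfl
          simp at hne
        refine ⟨a, left_mem_plane a b, ?_⟩
        simp only [hf.add_left, hf.smul_left, hf.alt, hba]
        simpa using hd0
      · refine ⟨b, right_mem_plane a b, ?_⟩
        simp only [hf.add_left, hf.smul_left, hf.alt, hab]
        simpa using hc
    obtain ⟨h1, h2, h3⟩ := rel_perp hf hPnd hPW hW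
    have h4 := Submodule.finrank_sup_add_finrank_inf_eq (plane F a b) (W ⊓ aperp hf (plane F a b))
    rw [h2, h3, finrank_bot, hPfin] at h4
    obtain ⟨U', hU'1, hU'2, hU'3⟩ := ih _ h1 (by omega)
    have h5 : ∀ u ∈ plane F a b, ∀ v ∈ U', f u v = 0 := by
      intro u hu v hv
      rw [hf.skew, (hU'1 hv).2 u hu, neg_zero]
    obtain ⟨h6, h7⟩ := ndOn_sup hf hPnd hU'2 h5
    refine ⟨plane F a b ⊔ U', sup_le hPW (hU'1.trans inf_le_left), h6, ?_⟩
    have h8 := Submodule.finrank_sup_add_finrank_inf_eq (plane F a b) U'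
    rw [h7, finrank_bot, hPfin, hU'3] at h8
    omega

/-- Maps of the form are injective. -/
theorem iso_inj (hf : AForm f) (y : Module.End F V) (hiso : ∀ u v, f (y u) (y v) = f u v) : Function.Injective y := by
  rw [injective_iff_map_eq_zero]
  intro u hu
  by_contra h0
  obtain ⟨b, hb⟩ := hf.nd u h0
  apply hb
  rw [← hiso, hu, hf.zero_left]

theorem aperp_inv [FiniteDimensional F V] (hf : AForm f) (y : Module.End F V) (hiso : ∀ u v, f (y u) (y v) = f u v)
    {W : Submodule F V} (hW : ∀ v ∈ W, y v ∈ W) : ∀ v ∈ aperp hf W, y v ∈ aperp hf W := by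
  intro u hu p hp
  have hinj : Function.Injective (y.restrict hW) := by
    rw [injective_iff_map_eq_zero]
    rintro ⟨v, hv⟩ h0
    have h1 : y v = 0 := congrArg Subtype.val h0
    have h2 : v = 0 := iso_inj hf y hiso (by rw [h1, map_zero])
    subst h2
    rfl
  obtain ⟨⟨p', hp'⟩, hp2⟩ := LinearMap.surjective_of_injective hinj ⟨p, hp⟩
  have h3 : y p' = p := congrArg Subtype.val hp2
  rw [← h3, hiso]
  exact hu p' hp'

theorem nd_of_sub (W : Submodule F V) (B' : Submodule F W) (h : NDOn (fun a b : W => f a b) B') :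
    NDOn f (B'.map W.subtype) := by
  rintro _ ⟨u, hu, rfl⟩ hne
  obtain ⟨v, hv, hv2⟩ := h u hu (fun h0 => hne (by rw [h0]; rfl))
  exact ⟨v, ⟨v, hv, rfl⟩, hv2⟩

theorem inv_of_sub (y : Module.End F V) (W : Submodule F V) (hW : ∀ v ∈ W, y v ∈ W) (B' : Submodule F W)
    (h : ∀ v ∈ B', (y.restrict hW) v ∈ B') : ∀ v ∈ B'.map W.subtype, y v ∈ B'.map W.subtype := by
  rintro _ ⟨u, hu, rfl⟩
  exact ⟨_, h u hu, rfl⟩

/-- Vectors fixed by an isometry are orthogonal to an invariant complement of the fixed space. -/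
theorem compl_fixed [FiniteDimensional F V] (hf : AForm f) (y : Module.End F V)
    (h : ∀ u v, f (y u) (y v) = f u v) {W : Submodule F V} (hW : ∀ v ∈ W, y v ∈ W)
    (hc : IsCompl (LinearMap.ker (y - 1)) W) :
    (∀ u ∈ LinearMap.ker (y - 1), ∀ v ∈ W, f u v = 0) ∧ NDOn f W ∧ NDOn f (LinearMap.ker (y - 1)) := by
  have hmem : ∀ v, v ∈ LinearMap.ker (y - 1) ↔ y v = v := by
    intro v
    simp only [LinearMap.mem_ker, LinearMap.sub_apply, Module.End.one_apply, sub_eq_zero]
  have hinv : ∀ v ∈ W, (y - 1) v ∈ W := by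
    intro v hv
    simp only [LinearMap.sub_apply, Module.End.one_apply]
    exact W.sub_mem (hW v hv) hv
  have hinj : Function.Injective ((y - 1).restrict hinv) := by
    rw [← LinearMap.ker_eq_bot, LinearMap.ker_eq_bot']
    rintro ⟨v, hv⟩ h0
    have h1 : (y - 1) v = 0 := congrArg Subtype.val h0
    have h2 : v ∈ LinearMap.ker (y - 1) := h1
    have h3 : v = 0 := (Submodule.disjoint_def.1 hc.disjoint) v h2 hv
    subst h3
    rfl
  have hsurj : Function.Surjective ((y - 1).restrict hinv) := LinearMap.surjective_of_injective hinj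
  have hperp : ∀ u ∈ LinearMap.ker (y - 1), ∀ v ∈ W, f u v = 0 := by
    intro u hu v hv
    obtain ⟨⟨w, hw⟩, hw2⟩ := hsurj ⟨v, hv⟩
    have h1 : (y - 1) w = v := congrArg Subtype.val hw2
    rw [← h1]
    simp only [LinearMap.sub_apply, Module.End.one_apply]
    rw [hf.sub_right, ← h u w, (hmem u).1 hu, sub_self]
  refine ⟨hperp, ?_, ?_⟩
  · intro a ha ha0
    obtain ⟨b, hb⟩ := hf.nd a ha0
    have htop : b ∈ LinearMap.ker (y - 1) ⊔ W := by rw [hc.sup_eq_top]; trivial
    obtain ⟨b₁, hb₁, b₂, hb₂, rfl⟩ := Submodule.mem_sup.1 htop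
    refine ⟨b₂, hb₂, fun h0 => hb ?_⟩
    rw [hf.add_right, h0, add_zero, hf.skew, hperp b₁ hb₁ a ha, neg_zero]
  · intro a ha ha0
    obtain ⟨b, hb⟩ := hf.nd a ha0
    have htop : b ∈ LinearMap.ker (y - 1) ⊔ W := by rw [hc.sup_eq_top]; trivial
    obtain ⟨b₁, hb₁, b₂, hb₂, rfl⟩ := Submodule.mem_sup.1 htop
    refine ⟨b₁, hb₁, fun h0 => hb ?_⟩
    rw [hf.add_right, h0, zero_add, hperp a ha b₂ hb₂]

end NDTools

/-- The block dimension attached to the order of `q`. -/
def cOf (i : ℕ) : ℕ := if Even i then i else 2 * i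

theorem cOf_even (i : ℕ) : Even (cOf i) := by
  unfold cOf
  split_ifs with h
  · exact h
  · exact even_two_mul i

theorem cOf_pos {i : ℕ} (hi : 0 < i) : 0 < cOf i := by
  unfold cOf
  split_ifs <;> omega

theorem cOf_dvd {i m : ℕ} (h1 : i ∣ m) (h2 : Even m) : cOf i ∣ m := by
  unfold cOf
  split_ifs with h
  · exact h1
  · rw [Nat.not_even_iff_odd] at h
    have hco : Nat.Coprime 2 i := (Nat.coprime_two_left).2 h
    exact hco.mul_dvd_of_dvd_of_dvd (even_iff_two_dvd.1 h2) h1

theorem dvd_cOf (i : ℕ) : i ∣ cOf i := by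
  unfold cOf
  split_ifs
  · exact dvd_rfl
  · exact dvd_mul_left i 2

end Cfsg.Agent.Lib.Geo
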