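import Mathlib
import Cfsg.Agent.Lib.Geo.ElusOm
import Cfsg.Agent.Lib.Geo.ElusForm
import Cfsg.Agent.Lib.Geo.ElusSp
import Cfsg.Agent.Lib.Classical.OrthTS

set_option autoImplicit false

/-! Involutions of orthogonal groups in characteristic two and nonsingular fixed vectors. -/

namespace Cfsg.Agent.Lib.Geo

open Module Polynomial Matrix
open Cfsg.Agent.Lib.Classical.Witt Cfsg.Agent.Lib.Classical.Abs Cfsg.Agent.Lib.Classical
open Cfsg.Agent.Lib.Classical.Orth Cfsg.Agent.Lib.Known3.Spinor Cfsg.Agent.Lib.Known3.OmegaCalc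
open Cfsg.Agent.Lib.Known3.OmegaLevi

local notation "P" => QuadraticMap.polarBilin

section Abstract

variable {F V : Type*} [Field F] [AddCommGroup V] [Module F V] {Q : QuadraticForm F V}

/-- A scalar preserving a nonsingular value in characteristic two is one. -/
theorem scalar_one_char2 (h2 : (2 : F) = 0) {c a : F} (ha : a ≠ 0) (h : c * c * a = a) : c = 1 := by
  have h1 : (c - 1) * (c - 1) * a = 0 := by
    linear_combination h + (a - c * a) * h2
  have h3 : (c - 1) * (c - 1) = 0 := (mul_eq_zero.1 h1).resolve_right ha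
  exact sub_eq_zero.1 (mul_self_eq_zero.1 h3)

/-- A nondegenerate form in characteristic two on a nonzero space has a nonsingular vector. -/
theorem exists_nonsing (hQ : (P Q).Nondegenerate) {w : V} (hw : w ≠ 0) : ∃ v, Q v ≠ 0 := by
  by_contra hcon
  push Not at hcon
  apply hw
  apply hQ.1
  intro y
  have := hcon (w + y)
  rw [Q_add, hcon w, hcon y] at this
  simpa using this

variable [FiniteDimensional F V]

/-- The alternating polar form. -/
theorem polar_aform (h2 : (2 : F) = 0) (hQ : (P Q).Nondegenerate) :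
    AForm (fun u v : V => P Q u v) where
  add_left := by intro a b c; simp
  smul_left := by intro r a b; simp
  add_right := by intro a b c; simp
  smul_right := by intro r a b; simp
  alt := fun a => pol_self_two h2 a
  nd := by
    intro a ha
    by_contra hcon
    push Not at hcon
    exact ha (hQ.1 a hcon)

/-- In characteristic two the image of `g - 1` lies in the fixed space of an involution. -/
theorem OG_inv_range (h2 : (2 : F) = 0) (g : OG Q) (hg2 : ∀ v, g.1 (g.1 v) = v) : Rg g ≤ Kg g := by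
  rintro _ ⟨v, rfl⟩
  have hchar : ∀ w : V, w + w = 0 := fun w => by rw [← two_smul F w, h2, zero_smul]
  rw [mem_Kg]
  have h1 : g.1 (g.1 v - v) = v - g.1 v := by rw [map_sub, hg2]
  show g.1 (g.1 v - v) = g.1 v - v
  rw [h1]
  calc v - g.1 v = -(v - g.1 v) := eq_neg_of_add_eq_zero_left (hchar _)
    _ = g.1 v - v := by abel

/-- An involution all of whose fixed vectors are singular: half dimension and parity. -/
theorem OG_inv_ts_parity (h2 : (2 : F) = 0) (hQ : (P Q).Nondegenerate) (g : OG Q)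
    (hg2 : ∀ v, g.1 (g.1 v) = v) (hts : ∀ v ∈ Kg g, Q v = 0) :
    finrank F V = 2 * finrank F (Kg g) ∧ Even (finrank F (Kg g)) := by
  classical
  have hf := polar_aform h2 hQ
  have hpol : ∀ u ∈ Kg g, ∀ v ∈ Kg g, P Q u v = 0 := fun u hu v hv => ts_polar hts hu hv
  -- bounds
  have hRK : Rg g ≤ Kg g := OG_inv_range h2 g hg2
  have h1 : finrank F (Rg g) ≤ finrank F (Kg g) := Submodule.finrank_mono hRK
  have h3 : rk g + finrank F (Kg g) = finrank F V := rk_add g
  have h4 : finrank F (Kg g) ≤ finrank F (aperp hf (Kg g)) :=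
    Submodule.finrank_mono (fun u hu => mem_aperp.2 (fun v hv => hpol u hu v hv))
  have h5 := finrank_aperp hf (Kg g)
  have hdim : finrank F V = 2 * finrank F (Kg g) := by
    have h6 : rk g = finrank F (Rg g) := rfl
    omega
  refine ⟨hdim, ?_⟩
  obtain ⟨C, hC⟩ := Submodule.exists_isCompl (Kg g)
  have hCd : finrank F C = finrank F (Kg g) := by
    have := Submodule.finrank_add_eq_of_isCompl hC
    omega
  rw [← hCd]
  let N : V →ₗ[F] V := g.1.toLinearMap - LinearMap.id
  have hN : ∀ v, N v = g.1 v - v := fun v => rfl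
  have hNK : ∀ v, N v ∈ Kg g := fun v => hRK ⟨v, rfl⟩
  have hNN : ∀ u, P Q u (N u) = 0 := by
    intro u
    have h6 : Q (N u) = 0 := hts _ (hNK u)
    have h7 : Q (g.1 u - u) = Q (g.1 u) + Q u - P Q (g.1 u) u := Q_sub _ _
    rw [← hN, h6, OG_pres, ← two_mul, h2, zero_mul, zero_sub] at h7
    have h8 : P Q (g.1 u) u = 0 := neg_eq_zero.1 h7.symm
    rw [hN, map_sub, pol_comm, h8, pol_self_two h2, sub_zero]
  have hND : ∀ a ∈ C, a ≠ 0 → ∃ b ∈ C, P Q a (N b) ≠ 0 := by
    intro a ha ha0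
    by_contra hcon
    push Not at hcon
    apply ha0
    have hall : ∀ v, P Q a (N v) = 0 := by
      intro v
      have hmem : v ∈ C ⊔ Kg g := by rw [hC.symm.sup_eq_top]; trivial
      obtain ⟨c, hc, k, hk, rfl⟩ := Submodule.mem_sup.1 hmem
      have hk' : N k = 0 := by
        rw [hN, mem_Kg.1 hk, sub_self]
      rw [map_add, hk', add_zero]
      exact hcon c hc
    have hfix : g.1 a - a = 0 := by
      apply hQ.1
      intro v
      have h6 := hall v
      rw [hN, map_sub] at h6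
      have h7 : P Q a (g.1 v) = P Q (g.1 a) v := by
        rw [← OG_polar g (g.1 a) v, hg2]
      rw [h7] at h6
      rw [map_sub, LinearMap.sub_apply]
      exact h6
    have hak : a ∈ Kg g := mem_Kg.2 (sub_eq_zero.1 hfix)
    have : a ∈ C ⊓ Kg g := ⟨ha, hak⟩
    rw [hC.symm.inf_eq_bot] at this
    simpa using this
  let f : C → C → F := fun u v => P Q (u : V) (N v)
  have hfC : AForm f :=
    { add_left := by intro a b c; simp [f]
      smul_left := by intro r a b; simp [f]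
      add_right := by intro a b c; simp [f]
      smul_right := by intro r a b; simp [f]
      alt := fun a => hNN _
      nd := by
        rintro ⟨a, ha⟩ ha0
        have ha0' : a ≠ 0 := fun h => ha0 (Subtype.ext h)
        obtain ⟨b, hb, hab⟩ := hND a ha ha0'
        exact ⟨⟨b, hb⟩, hab⟩ }
  exact aform_even hfC

/-- An involution has a large fixed space. -/
theorem OG_inv_ker (h2 : (2 : F) = 0) (g : OG Q) (hg2 : ∀ v, g.1 (g.1 v) = v) :
    finrank F V ≤ 2 * finrank F (Kg g) := by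
  have hRK : Rg g ≤ Kg g := OG_inv_range h2 g hg2
  have h1 : finrank F (Rg g) ≤ finrank F (Kg g) := Submodule.finrank_mono hRK
  have h3 : rk g + finrank F (Kg g) = finrank F V := rk_add g
  have h6 : rk g = finrank F (Rg g) := rfl
  omega

end Abstract

section Mat

variable {ι : Type} [Fintype ι] [DecidableEq ι] {F : Type*} [Field F] [Fintype F]

omit [Fintype F] in
/-- A fixed nonsingular line gives a fixed vector in characteristic two. -/
theorem fix_of_line (h2 : (2 : F) = 0) (Q : QuadraticForm F (ι → F)) (x : GL ι F)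
    (hx : ∀ v, Q ((x : Matrix ι ι F) *ᵥ v) = Q v) {W : Submodule F (ι → F)} (hW : finrank F W = 1)
    {v : ι → F} (hv : v ∈ W) (hQv : Q v ≠ 0) (hinv : W.map (Matrix.toLin' (x : Matrix ι ι F)) ≤ W) :
    (x : Matrix ι ι F) *ᵥ v = v := by
  have hv0 : v ≠ 0 := by
    rintro rfl
    exact hQv (map_zero Q)
  have h1 : (x : Matrix ι ι F) *ᵥ v ∈ W := by
    apply hinv
    exact ⟨v, hv, by simp⟩
  have hne : (⟨v, hv⟩ : W) ≠ 0 := fun h => hv0 (congrArg Subtype.val h)
  obtain ⟨c, hc⟩ := (finrank_eq_one_iff_of_nonzero' (⟨v, hv⟩ : W) hne).1 hW ⟨_, h1⟩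
  have hc' : c • v = (x : Matrix ι ι F) *ᵥ v := congrArg Subtype.val hc
  have h3 := hx v
  rw [← hc', Q_smul] at h3
  have hc1 := scalar_one_char2 h2 hQv h3
  rw [← hc', hc1, one_smul]

omit [Fintype F] in
/-- Powers in the bridge. -/
theorem pow_mulVec_of_OG {Q : QuadraticForm F (ι → F)} {x : GL ι F} {g : OG Q}
    (h : ∀ v, g.1 v = (x : Matrix ι ι F) *ᵥ v) (n : ℕ) (v : ι → F) :
    (g ^ n).1 v = ((x ^ n : GL ι F) : Matrix ι ι F) *ᵥ v := by
  induction n generalizing v with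
  | zero => simp
  | succ n ih =>
    rw [pow_succ, Orth.mul_apply', ih, h, pow_succ, Units.val_mul, Matrix.mulVec_mulVec]

omit [Fintype F] in
/-- Scalars in the isometry group are trivial in characteristic two. -/
theorem scalar_eq_one (h2 : (2 : F) = 0) {Q : QuadraticForm F (ι → F)} {g : OG Q} {z : F} {M : Matrix ι ι F}
    (hg : ∀ v, g.1 v = M *ᵥ v) (hz : M = z • (1 : Matrix ι ι F)) {v : ι → F} (hv : Q v ≠ 0) : z = 1 := by
  have h1 := OG_pres g v
  rw [hg, hz, Matrix.smul_mulVec, Matrix.one_mulVec, Q_smul] at h1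
  exact scalar_one_char2 h2 hv h1

/-- An element of `Ω` of order dividing `r` whose fixed vectors are singular contradicts the
property that every element fixes a nonsingular line. -/
theorem no_fix_contradiction (h2 : (2 : F) = 0) (Q : QuadraticForm F (ι → F)) {v₀ : ι → F} (hv₀ : Q v₀ ≠ 0)
    {r : ℕ} (g : OG Q) (hgc : g ∈ commutator (OG Q)) (hgr : g ^ r = 1) (hfix : ∀ v, g.1 v = v → Q v = 0) :
    ¬ (∀ x : GL ι F, x ∈ Cfsg.Geo.omegaGL (⇑Q) →
      (∃ z : F, ((x ^ r : GL ι F) : Matrix ι ι F) = z • (1 : Matrix ι ι F)) →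
      (∀ z : F, (x : Matrix ι ι F) ≠ z • (1 : Matrix ι ι F)) →
      ∃ W : Submodule F (ι → F), (finrank F W = 1 ∧ ∃ v ∈ W, Q v ≠ 0) ∧
        W.map (Matrix.toLin' (x : Matrix ι ι F)) ≤ W) := by
  intro hall
  obtain ⟨x, hx, hxg⟩ := om_elt_of_OG Q g hgc
  have hxg' : ∀ v, g.1 v = (x : Matrix ι ι F) *ᵥ v := fun v => (hxg v).symm
  have hxr : ((x ^ r : GL ι F) : Matrix ι ι F) = (1 : F) • (1 : Matrix ι ι F) := by
    rw [one_smul]
    apply Matrix.toLin'.injective
    apply LinearMap.ext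
    intro v
    rw [Matrix.toLin'_apply, Matrix.toLin'_one, LinearMap.id_apply, ← pow_mulVec_of_OG hxg', hgr]
    rfl
  have hns : ∀ z : F, (x : Matrix ι ι F) ≠ z • (1 : Matrix ι ι F) := by
    intro z hz
    have hz1 := scalar_eq_one h2 hxg' hz hv₀
    apply hv₀
    apply hfix
    rw [hxg', hz, hz1, one_smul, Matrix.one_mulVec]
  obtain ⟨W, ⟨hW, v, hv, hQv⟩, hinv⟩ := hall x hx ⟨1, hxr⟩ hns
  have h1 := fix_of_line h2 Q x (om_elt_pres Q x hx) hW hv hQv hinv
  exact hQv (hfix v (by rw [hxg', h1]))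

/-- When every involution has a nonsingular fixed vector, all elements of order two fix a line. -/
theorem all_fix_of_inv (h2 : (2 : F) = 0) (Q : QuadraticForm F (ι → F)) {v₀ : ι → F} (hv₀ : Q v₀ ≠ 0)
    (hno : ∀ g : OG Q, (∀ v, g.1 (g.1 v) = v) → ∃ v ∈ Kg g, Q v ≠ 0) :
    ∀ x : GL ι F, x ∈ Cfsg.Geo.omegaGL (⇑Q) →
      (∃ z : F, ((x ^ 2 : GL ι F) : Matrix ι ι F) = z • (1 : Matrix ι ι F)) →
      (∀ z : F, (x : Matrix ι ι F) ≠ z • (1 : Matrix ι ι F)) →
      ∃ W : Submodule F (ι → F), (finrank F W = 1 ∧ ∃ v ∈ W, Q v ≠ 0) ∧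
        W.map (Matrix.toLin' (x : Matrix ι ι F)) ≤ W := by
  intro x hx ⟨z, hz⟩ _
  obtain ⟨g, -, hg⟩ := OG_of_om_elt Q x hx
  have h1 := scalar_eq_one h2 (M := ((x ^ 2 : GL ι F) : Matrix ι ι F)) (g := g ^ 2) (pow_mulVec_of_OG hg 2) hz hv₀
  have hg2 : ∀ v, g.1 (g.1 v) = v := by
    intro v
    have h3 := pow_mulVec_of_OG hg 2 v
    rw [hz, h1, one_smul, Matrix.one_mulVec, pow_two, Orth.mul_apply'] at h3
    exact h3
  obtain ⟨v, hv, hQv⟩ := hno g hg2
  have hv0 : v ≠ 0 := by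
    rintro rfl
    exact hQv (map_zero Q)
  refine ⟨Submodule.span F {v}, ⟨finrank_span_singleton hv0, v, Submodule.mem_span_singleton_self _, hQv⟩, ?_⟩
  rw [Submodule.map_span_le]
  intro u hu
  rw [Set.mem_singleton_iff] at hu
  have h3 : g.1 v = v := mem_Kg.1 hv
  rw [hu, Matrix.toLin'_apply, ← hg, h3]
  exact Submodule.mem_span_singleton_self _

end Mat

section Counts

variable {F : Type*} [Field F] [Fintype F] {p : ℕ} [Fact p.Prime] [CharP F p] {q : ℕ}
  (hq : Fintype.card F = q)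

include hq in
/-- The number of nonsingular lines of the minus form. -/
theorem minus_lines (m : ℕ) (a b : F)
    (hab : ∀ z₁ z₂ : F, z₁ ^ 2 + a * z₁ * z₂ + b * z₂ ^ 2 = 0 → z₁ = 0 ∧ z₂ = 0) :
    Nat.card {W : Submodule F ((Fin m ⊕ Fin m) ⊕ Fin 2 → F) // finrank F W = 1 ∧ ∃ v ∈ W, Qminus m F a b v ≠ 0} =
      q ^ m * (q ^ (m + 1) + 1) := by
  have h1 := lines_count (F := F) (⇑(Qminus m F a b)) (fun c v => by rw [Q_smul]; ring)
  have h2 := card_sing_add (F := F) (⇑(Qminus m F a b))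
  have h3 := Qminus_zeros hab m
  rw [card_Vminus', ← h1] at h2
  rw [hq] at h1 h2 h3
  set N := Nat.card {W : Submodule F ((Fin m ⊕ Fin m) ⊕ Fin 2 → F) // finrank F W = 1 ∧ ∃ v ∈ W, Qminus m F a b v ≠ 0}
  set Z := Nat.card {v : (Fin m ⊕ Fin m) ⊕ Fin 2 → F // Qminus m F a b v = 0}
  have hq2 : 2 ≤ q := by rw [← hq]; exact Fintype.one_lt_card
  obtain ⟨k, rfl⟩ : ∃ k, q = k + 1 := ⟨q - 1, by omega⟩
  simp only [Nat.add_sub_cancel] at h1 h2
  have hk : 0 < k := by omega
  apply Nat.eq_of_mul_eq_mul_right hk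
  have e1 : (k + 1) ^ (2 * m + 2) = (k + 1) * (k + 1) ^ (2 * m + 1) := by ring
  have e2 : (k + 1) ^ (m + 1) = (k + 1) * (k + 1) ^ m := by ring
  have e3 : (k + 1) ^ (2 * m + 1) = (k + 1) * (k + 1) ^ m * (k + 1) ^ m := by ring
  rw [e1] at h2
  rw [e2] at h3 ⊢
  nlinarith [h2, h3, e3]

include hq in
/-- The number of nonsingular lines of the plus form. -/
theorem plus_lines (m : ℕ) :
    Nat.card {W : Submodule F (Fin (m + 1) ⊕ Fin (m + 1) → F) // finrank F W = 1 ∧ ∃ v ∈ W, Qplus (m + 1) F v ≠ 0} =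
      q ^ m * (q ^ (m + 1) - 1) := by
  have h1 := lines_count (F := F) (⇑(Qplus (m + 1) F)) (fun c v => by rw [Q_smul]; ring)
  have h2 := card_sing_add (F := F) (⇑(Qplus (m + 1) F))
  have h3 := Qplus_zeros (F := F) m
  have hcard : Nat.card (Fin (m + 1) ⊕ Fin (m + 1) → F) = Fintype.card F ^ (2 * m + 2) := by
    rw [Nat.card_eq_fintype_card, Fintype.card_fun]
    simp
    ring_nf
  rw [hcard, ← h1] at h2
  rw [hq] at h1 h2 h3
  set N := Nat.card {W : Submodule F (Fin (m + 1) ⊕ Fin (m + 1) → F) // finrank F W = 1 ∧ ∃ v ∈ W, Qplus (m + 1) F v ≠ 0}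
  set Z := Nat.card {v : Fin (m + 1) ⊕ Fin (m + 1) → F // Qplus (m + 1) F v = 0}
  have hq2 : 2 ≤ q := by rw [← hq]; exact Fintype.one_lt_card
  obtain ⟨k, rfl⟩ : ∃ k, q = k + 1 := ⟨q - 1, by omega⟩
  simp only [Nat.add_sub_cancel] at h1 h2
  have hk : 0 < k := by omega
  have hp1 : 1 ≤ (k + 1) ^ (m + 1) := Nat.one_le_pow _ _ (by omega)
  obtain ⟨A, hA⟩ : ∃ A, (k + 1) ^ (m + 1) = A + 1 := ⟨(k + 1) ^ (m + 1) - 1, by omega⟩
  rw [hA, Nat.add_sub_cancel]
  apply Nat.eq_of_mul_eq_mul_right hk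
  have e1 : (k + 1) ^ (2 * m + 2) = (k + 1) * (k + 1) ^ (2 * m + 1) := by ring
  have e3 : (k + 1) ^ (2 * m + 1) = (A + 1) * (k + 1) ^ m := by
    rw [← hA]; ring
  have hAT : A + 1 = (k + 1) * (k + 1) ^ m := by
    rw [← hA]; ring
  rw [e1] at h2
  rw [hA] at h3
  rw [e3] at h2 h3
  generalize (k + 1) ^ m = T at *
  have hZ : N * k + Z + (Z + T) = (k + 1) * ((A + 1) * T) + ((A + 1) * T + (A + 1)) + T - T + 0 := by omega
  nlinarith [h2, h3, hAT]

end Counts

section PlusInv

variable {F : Type*} [Field F]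

/-- The involution of the plus form with singular fixed space, in even rank. -/
theorem plus_inv_model (h2 : (2 : F) = 0) (k : ℕ) (hk : Even k) :
    ∃ g : OG (Qplus k F), (∀ v, g.1 (g.1 v) = v) ∧ finrank F (Kg g) = k ∧
      ∀ v, g.1 v = v → Qplus k F v = 0 := by
  classical
  obtain ⟨e, rfl⟩ := hk
  have hchar : ∀ a : F, a + a = 0 := fun a => by rw [← two_mul, h2, zero_mul]
  let τ : Fin e ⊕ Fin e ≃ Fin (e + e) := finSumFinEquiv
  let σ : Fin (e + e) ≃ Fin (e + e) := τ.symm.trans ((Equiv.sumComm _ _).trans τ)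
  have hσ : ∀ j, σ (σ j) = j := by
    intro j
    simp [σ]
  let L : (Fin (e + e) ⊕ Fin (e + e) → F) →ₗ[F] (Fin (e + e) ⊕ Fin (e + e) → F) :=
    { toFun := fun w => Sum.elim (fun j => w (Sum.inl j) + w (Sum.inr (σ j))) (fun j => w (Sum.inr j))
      map_add' := by
        intro a b
        funext j
        rcases j with j | j
        · simp only [Sum.elim_inl, Pi.add_apply]; ring
        · simp
      map_smul' := by
        intro c a
        funext j
        rcases j with j | j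
        · simp only [Sum.elim_inl, Pi.smul_apply, smul_eq_mul, RingHom.id_apply]; ring
        · simp }
  have hL : ∀ w j, L w (Sum.inl j) = w (Sum.inl j) + w (Sum.inr (σ j)) := fun w j => rfl
  have hL' : ∀ w j, L w (Sum.inr j) = w (Sum.inr j) := fun w j => rfl
  have hinv : ∀ w, L (L w) = w := by
    intro w
    funext j
    rcases j with j | j
    · rw [hL, hL, hL', add_assoc, hchar, add_zero]
    · rw [hL', hL']
  let E : (Fin (e + e) ⊕ Fin (e + e) → F) ≃ₗ[F] (Fin (e + e) ⊕ Fin (e + e) → F) := LinearEquiv.ofInvolutive L hinv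
  have hE : ∀ w, E w = L w := fun w => rfl
  have hsum : ∀ w : Fin (e + e) ⊕ Fin (e + e) → F, ∑ j, w (Sum.inr (σ j)) * w (Sum.inr j) = 0 := by
    intro w
    have h1 : ∑ j, w (Sum.inr (σ j)) * w (Sum.inr j) =
        ∑ i, w (Sum.inr (σ (τ i))) * w (Sum.inr (τ i)) := (Equiv.sum_comp τ _).symm
    rw [h1, Fintype.sum_sum_type]
    have h3 : ∀ i, σ (τ (Sum.inl i)) = τ (Sum.inr i) := fun i => by simp [σ]
    have h4 : ∀ i, σ (τ (Sum.inr i)) = τ (Sum.inl i) := fun i => by simp [σ]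
    simp only [h3, h4]
    rw [← Finset.sum_add_distrib]
    apply Finset.sum_eq_zero
    intro i _
    rw [mul_comm (w (Sum.inr (τ (Sum.inl i))))]
    exact hchar _
  have hpres : ∀ w, Qplus (e + e) F (L w) = Qplus (e + e) F w := by
    intro w
    rw [Qplus_apply, Qplus_apply]
    simp only [Cfsg.quadFormPlus, hL, hL', add_mul]
    rw [Finset.sum_add_distrib, hsum, add_zero]
  refine ⟨⟨E, fun u _ => hpres u⟩, fun v => hinv v, ?_, ?_⟩
  · -- the fixed space
    let ι' : (Fin (e + e) → F) →ₗ[F] (Fin (e + e) ⊕ Fin (e + e) → F) :=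
      { toFun := fun t => Sum.elim t 0
        map_add' := by intro a b; funext i; rcases i with i | i <;> simp
        map_smul' := by intro c a; funext i; rcases i with i | i <;> simp }
    have hι : Function.Injective ι' := by
      intro a b hab
      funext i
      exact congrFun hab (Sum.inl i)
    have hK : Kg (⟨E, fun u _ => hpres u⟩ : OG (Qplus (e + e) F)) = LinearMap.range ι' := by
      ext w
      rw [mem_Kg]
      constructor
      · intro h
        have h1 : ∀ j, w (Sum.inr (σ j)) = 0 := by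
          intro j
          have h3 := congrFun h (Sum.inl j)
          change L w (Sum.inl j) = w (Sum.inl j) at h3
          rw [hL] at h3
          exact left_eq_add.1 h3.symm
        refine ⟨w ∘ Sum.inl, ?_⟩
        funext j
        rcases j with j | j
        · rfl
        · have := h1 (σ j)
          rw [hσ] at this
          exact this.symm
      · rintro ⟨t, rfl⟩
        funext j
        rcases j with j | j
        · change L _ (Sum.inl j) = _
          rw [hL]
          simp [ι']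
        · rfl
    rw [hK, LinearMap.finrank_range_of_inj hι, finrank_fin_fun]
  · intro v hv
    have h1 : ∀ j, v (Sum.inr (σ j)) = 0 := by
      intro j
      have h3 := congrFun hv (Sum.inl j)
      change L v (Sum.inl j) = v (Sum.inl j) at h3
      rw [hL] at h3
      exact left_eq_add.1 h3.symm
    rw [Qplus_apply]
    apply Finset.sum_eq_zero
    intro j _
    have := h1 (σ j)
    rw [hσ] at this
    rw [this, mul_zero]

end PlusInv

section Final

variable {F : Type*} [Field F] [Fintype F] {p : ℕ} [Fact p.Prime] [CharP F p] {q : ℕ}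
  (hq : Fintype.card F = q)

include hq in
/-- A prime other than the characteristic does not divide a power of `q`. -/
theorem not_dvd_pow_q {r : ℕ} [hr : Fact r.Prime] (hrp : r ≠ p) (m : ℕ) : ¬ r ∣ q ^ m := by
  intro h
  obtain ⟨n, hpos, hn⟩ := FiniteField.card F p
  rw [← hq, hn] at h
  have h1 := hr.out.dvd_of_dvd_pow (hr.out.dvd_of_dvd_pow h)
  exact hrp ((Nat.prime_dvd_prime_iff_eq hr.out Fact.out).1 h1)

include hq in
/-- Elements of `Ω⁻` and nonsingular lines in characteristic two. -/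
theorem om_minus_final (hp : p = 2) (m : ℕ) (hm : 3 ≤ m) (a b : F)
    (hab : ∀ x y : F, x ^ 2 + a * x * y + b * y ^ 2 = 0 → x = 0 ∧ y = 0) (r : ℕ) [hr : Fact r.Prime]
    (hrΩ : r ∣ Nat.card {W : Submodule F ((Fin m ⊕ Fin m) ⊕ Fin 2 → F) // finrank F W = 1 ∧ ∃ v ∈ W, Cfsg.quadFormMinus m F a b v ≠ 0}) :
    (∀ x : GL ((Fin m ⊕ Fin m) ⊕ Fin 2) F, x ∈ Cfsg.Geo.omegaGL (Cfsg.quadFormMinus m F a b) →
      (∃ z : F, ((x ^ r : GL ((Fin m ⊕ Fin m) ⊕ Fin 2) F) : Matrix ((Fin m ⊕ Fin m) ⊕ Fin 2) ((Fin m ⊕ Fin m) ⊕ Fin 2) F) = z • (1 : Matrix ((Fin m ⊕ Fin m) ⊕ Fin 2) ((Fin m ⊕ Fin m) ⊕ Fin 2) F)) →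
      (∀ z : F, (x : Matrix ((Fin m ⊕ Fin m) ⊕ Fin 2) ((Fin m ⊕ Fin m) ⊕ Fin 2) F) ≠ z • (1 : Matrix ((Fin m ⊕ Fin m) ⊕ Fin 2) ((Fin m ⊕ Fin m) ⊕ Fin 2) F)) →
      ∃ W : Submodule F ((Fin m ⊕ Fin m) ⊕ Fin 2 → F), (finrank F W = 1 ∧ ∃ v ∈ W, Cfsg.quadFormMinus m F a b v ≠ 0) ∧
        W.map (Matrix.toLin' (x : Matrix ((Fin m ⊕ Fin m) ⊕ Fin 2) ((Fin m ⊕ Fin m) ⊕ Fin 2) F)) ≤ W) ↔ r = 2 := by
  classical
  have h2 : (2 : F) = 0 := by
    have := CharP.cast_eq_zero F p
    rw [hp] at this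
    exact_mod_cast this
  rw [← coe_Qminus m a b]
  rw [← coe_Qminus m a b] at hrΩ
  have hQ := Qminus_nondeg hab m
  have hdim : finrank F ((Fin m ⊕ Fin m) ⊕ Fin 2 → F) = 2 * m + 2 := by
    rw [finrank_fintype_fun_eq_card]
    simp
    ring
  obtain ⟨v₀, hv₀⟩ := exists_nonsing hQ (w := Pi.single (Sum.inr 0) 1) (by
    intro h
    have := congrFun h (Sum.inr 0)
    simp at this)
  constructor
  · intro hall
    by_contra hr2
    have hrp : r ≠ p := by rw [hp]; exact hr2
    rw [minus_lines hq m a b hab] at hrΩ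
    have hd : r ∣ q ^ (m + 1) + 1 := (hr.out.dvd_mul.1 hrΩ).resolve_left (not_dvd_pow_q hq hrp m)
    obtain ⟨g, hgr, hfree⟩ := minus_model (p := p) hq hrp hr2 m a b hab hd
    have hodd : Odd r := hr.out.odd_of_ne_two hr2
    have hgc := OG_odd_mem_commutator hQ (by omega) (Or.inr (by omega)) g hodd hgr
    exact no_fix_contradiction h2 _ hv₀ g hgc hgr (fun v hv => by rw [hfree v hv, map_zero]) hall
  · rintro rfl
    apply all_fix_of_inv h2 _ hv₀
    intro g hg2
    by_contra hcon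
    push Not at hcon
    have h1 := OG_inv_ker h2 g hg2
    have h3 := Cfsg.Agent.Lib.Known3.Witt.finrank_le_of_singular_minus m a b hab (Kg g)
      (fun u hu => by rw [← Qminus_apply]; exact hcon u hu)
    omega

include hq in
/-- Elements of `Ω⁺` and nonsingular lines in characteristic two. -/
theorem om_plus_final (hp : p = 2) (d : ℕ) (hd : 4 ≤ d) (r : ℕ) [hr : Fact r.Prime]
    (hrΩ : r ∣ Nat.card {W : Submodule F (Fin d ⊕ Fin d → F) // finrank F W = 1 ∧ ∃ v ∈ W, Cfsg.quadFormPlus d F v ≠ 0}) :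
    (∀ x : GL (Fin d ⊕ Fin d) F, x ∈ Cfsg.Geo.omegaGL (Cfsg.quadFormPlus d F) →
      (∃ z : F, ((x ^ r : GL (Fin d ⊕ Fin d) F) : Matrix (Fin d ⊕ Fin d) (Fin d ⊕ Fin d) F) = z • (1 : Matrix (Fin d ⊕ Fin d) (Fin d ⊕ Fin d) F)) →
      (∀ z : F, (x : Matrix (Fin d ⊕ Fin d) (Fin d ⊕ Fin d) F) ≠ z • (1 : Matrix (Fin d ⊕ Fin d) (Fin d ⊕ Fin d) F)) →
      ∃ W : Submodule F (Fin d ⊕ Fin d → F), (finrank F W = 1 ∧ ∃ v ∈ W, Cfsg.quadFormPlus d F v ≠ 0) ∧
        W.map (Matrix.toLin' (x : Matrix (Fin d ⊕ Fin d) (Fin d ⊕ Fin d) F)) ≤ W) ↔ (r = 2 ∧ Odd d) := by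
  classical
  have h2 : (2 : F) = 0 := by
    have := CharP.cast_eq_zero F p
    rw [hp] at this
    exact_mod_cast this
  obtain ⟨m, rfl⟩ : ∃ m, d = m + 1 := ⟨d - 1, by omega⟩
  rw [← coe_Qplus (m + 1)]
  rw [← coe_Qplus (m + 1)] at hrΩ
  have hQ := Qplus_nondeg (F := F) (m + 1)
  have hdim : finrank F (Fin (m + 1) ⊕ Fin (m + 1) → F) = 2 * (m + 1) := by
    rw [finrank_fintype_fun_eq_card]
    simp
    ring
  obtain ⟨v₀, hv₀⟩ := exists_nonsing hQ (w := Pi.single (Sum.inl 0) 1) (by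
    intro h
    have := congrFun h (Sum.inl 0)
    simp at this)
  constructor
  · intro hall
    by_cases hr2 : r = 2
    · subst hr2
      refine ⟨rfl, ?_⟩
      by_contra hodd
      have heven : Even (m + 1) := Nat.not_odd_iff_even.1 hodd
      obtain ⟨g, hg2, hK, hfix⟩ := plus_inv_model (F := F) h2 (m + 1) heven
      have hrk := rk_add g
      have hgc := OG_even_rk_mem_commutator h2 hQ (Or.inr (by omega)) g (by
        have : rk g = m + 1 := by omega
        rw [this]
        exact heven)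
      have hgr : g ^ 2 = 1 := by
        apply OG_ext
        intro v
        rw [pow_two, Orth.mul_apply', hg2, one_apply']
      exact no_fix_contradiction h2 _ hv₀ g hgc hgr hfix hall
    · exfalso
      have hrp : r ≠ p := by rw [hp]; exact hr2
      rw [plus_lines hq m] at hrΩ
      have hd' : r ∣ q ^ (m + 1) - 1 := (hr.out.dvd_mul.1 hrΩ).resolve_left (not_dvd_pow_q hq hrp m)
      obtain ⟨g, hgr, hfree⟩ := plus_model (p := p) hq hrp (m + 1) (by omega) hd'
      have hodd : Odd r := hr.out.odd_of_ne_two hr2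
      have hgc := OG_odd_mem_commutator hQ (by omega) (Or.inr (by omega)) g hodd hgr
      exact no_fix_contradiction h2 _ hv₀ g hgc hgr (fun v hv => by rw [hfree v hv, map_zero]) hall
  · rintro ⟨rfl, hodd⟩
    apply all_fix_of_inv h2 _ hv₀
    intro g hg2
    by_contra hcon
    push Not at hcon
    obtain ⟨h1, h3⟩ := OG_inv_ts_parity h2 hQ g hg2 hcon
    have h4 : finrank F (Kg g) = m + 1 := by omega
    rw [h4] at h3
    exact (Nat.not_even_iff_odd.2 hodd) h3

end Final

end Cfsg.Agent.Lib.Geo
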