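import Mathlib
import Cfsg.Agent.Lib.Geo.ElusPermFam

set_option autoImplicit false

/-! Fixed vectors of a map of prime order permuting the summands of a decomposition of `F^ι`. -/

namespace Cfsg.Agent.Lib.Geo

open Polynomial Module

universe v

section Main

variable {F : Type v} [Field F] {ι : Type} [Fintype ι] [DecidableEq ι] {t : ℕ}

/-- Equivariance of the projections. -/
theorem proj_equiv_g {D : Fin t → Submodule F (ι → F)} {π : Fin t → ((ι → F) →ₗ[F] (ι → F))}
    (h1 : ∀ l x, π l x ∈ D l) (h2 : ∀ l, ∀ x ∈ D l, π l x = x) (h3 : ∀ l m, l ≠ m → ∀ x ∈ D m, π l x = 0)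
    (h4 : ∀ x, ∑ l, π l x = x) (y : Module.End F (ι → F)) (σ : Equiv.Perm (Fin t))
    (hσ : ∀ j, (D j).map y = D (σ j)) (k : Fin t) (v : ι → F) : π (σ k) (y v) = y (π k v) := by
  classical
  have hmem : ∀ l x, x ∈ D l → y x ∈ D (σ l) := by
    intro l x hx
    rw [← hσ]
    exact Submodule.mem_map_of_mem hx
  conv_lhs => rw [← h4 v, map_sum, map_sum]
  rw [Finset.sum_eq_single k]
  · exact h2 _ _ (hmem k _ (h1 k v))
  · intro l _ hl
    exact h3 _ _ (fun h => hl (σ.injective h).symm) _ (hmem l _ (h1 l v))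
  · simp

/-- The number of fixed vectors is at least the sum of the dimensions of a set of orbit representatives. -/
theorem fixed_ge_g {D : Fin t → Submodule F (ι → F)} (hind : iSupIndep D) (htop : iSup D = ⊤)
    (y : Module.End F (ι → F)) (σ : Equiv.Perm (Fin t)) (hσ : ∀ j, (D j).map y = D (σ j))
    {r : ℕ} (hr : r.Prime) (hr0 : (r : F) ≠ 0) (hy : y ^ r = 1) (hσr : ∀ j, (σ ^ r) j = j)
    (R : Finset (Fin t)) (hR1 : ∀ l ∈ R, ∀ m ∈ R, ∀ i : ℕ, (σ ^ i) l = m → l = m)
    (hR2 : ∀ l ∈ R, σ l ≠ l ∨ ∀ v ∈ D l, y v = v) :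
    ∑ l ∈ R, finrank F (D l) ≤ finrank F (LinearMap.ker (aeval y (X - C 1 : F[X]))) := by
  classical
  obtain ⟨π, h1, h2, h3, h4⟩ := exists_proj hind htop
  obtain ⟨T, hT⟩ : ∃ T : Module.End F (ι → F), T = ∑ i ∈ Finset.range r, y ^ i := ⟨_, rfl⟩
  have hTfix : ∀ v, y (T v) = T v := by
    intro v
    have h5 : (y - 1) * T = 0 := by
      rw [hT, mul_geom_sum, hy, sub_self]
    have h6 := LinearMap.congr_fun h5 v
    have h7 : y (T v) - T v = 0 := h6
    exact sub_eq_zero.1 h7
  let X₀ := (l : {l // l ∈ R}) → D l.1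
  let Θ₀ : X₀ →ₗ[F] (ι → F) := ∑ l : {l // l ∈ R}, T ∘ₗ (D l.1).subtype ∘ₗ LinearMap.proj l
  have hΘ : ∀ u : X₀, Θ₀ u = ∑ l : {l // l ∈ R}, T (u l : ι → F) := by
    intro u
    simp only [Θ₀, LinearMap.sum_apply]
    rfl
  have hΘmem : ∀ u, Θ₀ u ∈ LinearMap.ker (aeval y (X - C 1 : F[X])) := by
    intro u
    rw [mem_ker_sub_one, hΘ, map_sum]
    exact Finset.sum_congr rfl (fun l _ => hTfix _)
  let Θ : X₀ →ₗ[F] LinearMap.ker (aeval y (X - C 1 : F[X])) := Θ₀.codRestrict _ hΘmem
  have hinj : Function.Injective Θ := by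
    rw [injective_iff_map_eq_zero]
    intro u hu
    have hu' : Θ₀ u = 0 := congrArg Subtype.val hu
    rw [hΘ] at hu'
    funext m
    apply Subtype.ext
    show (u m : ι → F) = 0
    have h5 := congrArg (π m.1) hu'
    rw [map_sum, map_zero, Finset.sum_eq_single m] at h5
    · rw [hT, LinearMap.sum_apply, map_sum] at h5
      rcases hR2 m.1 m.2 with hmv | hfix
      · rw [Finset.sum_eq_single 0] at h5
        · simpa [h2 m.1 _ (u m).2] using h5
        · intro i hi hi0
          have hi' := Finset.mem_range.1 hi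
          have h6 := perm_pow_ne σ hr m.1 (hσr m.1) hmv i (by omega) hi'
          exact h3 _ _ (Ne.symm h6) _ (perm_pow_mem y D σ hσ i m.1 (u m).2)
        · intro h0
          exact absurd (Finset.mem_range.2 hr.pos) h0
      · have h7 : ∀ i : ℕ, (y ^ i) (u m : ι → F) = (u m : ι → F) := by
          intro i
          induction i with
          | zero => simp
          | succ i ih => rw [pow_succ, Module.End.mul_apply, hfix _ (u m).2, ih]
        have h6 : ∀ i ∈ Finset.range r, π m.1 ((y ^ i) (u m : ι → F)) = (u m : ι → F) := by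
          intro i _
          rw [h7]
          exact h2 m.1 _ (u m).2
        rw [Finset.sum_congr rfl h6, Finset.sum_const, Finset.card_range, ← Nat.cast_smul_eq_nsmul F] at h5
        exact (smul_eq_zero.1 h5).resolve_left hr0
    · intro l _ hl
      rw [hT, LinearMap.sum_apply, map_sum]
      apply Finset.sum_eq_zero
      intro i _
      apply h3
      · intro h6
        exact hl (Subtype.ext (hR1 l.1 l.2 m.1 m.2 i h6.symm))
      · exact perm_pow_mem y D σ hσ i l.1 (u l).2
    · simp
  have h8 := LinearMap.finrank_le_finrank_of_injective hinj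
  have h9 : finrank F X₀ = ∑ l ∈ R, finrank F (D l) := by
    rw [Module.finrank_pi_fintype]
    exact Finset.sum_coe_sort R (fun l => finrank F (D l))
  omega

/-- A moved summand forces a small fixed space. -/
theorem moved_bound_g {D : Fin t → Submodule F (ι → F)} (hind : iSupIndep D) (htop : iSup D = ⊤)
    (y : Module.End F (ι → F)) (σ : Equiv.Perm (Fin t)) (hσ : ∀ j, (D j).map y = D (σ j))
    {r : ℕ} (hr : r.Prime) (hy : y ^ r = 1) (hσr : ∀ j, (σ ^ r) j = j) {a : ℕ} (ha : ∀ j, finrank F (D j) = a)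
    (j : Fin t) (hj : σ j ≠ j) :
    finrank F (LinearMap.ker (aeval y (X - C 1 : F[X]))) + (r - 1) * a ≤ Fintype.card ι := by
  classical
  obtain ⟨π, h1, h2, h3, h4⟩ := exists_proj hind htop
  have hinjy : Function.Injective y := inj_of_pow_scalar y hr.ne_zero (c := 1) one_ne_zero (by rw [hy, one_smul])
  let orb : Fin (r - 1) → Fin t := fun i => (σ ^ (i : ℕ)) j
  have horb : Function.Injective orb := by
    intro i i' hii
    by_contra hne
    have hne' : (i : ℕ) ≠ i' := fun h => hne (Fin.ext h)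
    rcases lt_or_gt_of_ne hne' with hlt | hlt
    · exact perm_pow_sub_ne σ hr j (hσr j) hj hlt (by have := i'.2; omega) hii
    · exact perm_pow_sub_ne σ hr j (hσr j) hj hlt (by have := i.2; omega) hii.symm
  have hind' : iSupIndep (D ∘ orb) := hind.comp horb
  have hfin : finrank F (⨆ i, (D ∘ orb) i : Submodule F (ι → F)) = (r - 1) * a := by
    rw [finrank_iSup_indep _ hind']
    simp [ha]
  obtain ⟨S, hS⟩ : ∃ S, S = ⨆ i, (D ∘ orb) i := ⟨_, rfl⟩
  rw [← hS] at hfin
  obtain ⟨Cc, hC⟩ : ∃ Cc, Cc = LinearMap.ker (aeval y (X - C 1 : F[X])) := ⟨_, rfl⟩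
  rw [← hC]
  have hinf : S ⊓ Cc = ⊥ := by
    rw [eq_bot_iff]
    rintro w ⟨hw1, hw2⟩
    rw [SetLike.mem_coe, hC] at hw2
    have hwfix : y w = w := (mem_ker_sub_one y).1 hw2
    have hcomp : ∀ i : ℕ, π ((σ ^ i) j) w = (y ^ i) (π j w) := by
      intro i
      induction i with
      | zero => simp
      | succ i ih =>
        rw [pow_succ', Equiv.Perm.mul_apply, pow_succ', Module.End.mul_apply, ← ih]
        have := proj_equiv_g h1 h2 h3 h4 y σ hσ ((σ ^ i) j) w
        rw [hwfix] at this
        exact this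
    have hzero : ∀ k, (∀ i, k ≠ orb i) → π k w = 0 := by
      intro k hk
      have h5 : S ≤ LinearMap.ker (π k) := by
        rw [hS]
        apply iSup_le
        intro i v hv
        exact h3 k (orb i) (hk i) v hv
      exact h5 hw1
    have h6 : π ((σ ^ (r - 1)) j) w = 0 := by
      apply hzero
      intro i h7
      have h8 : (σ ^ (i : ℕ)) j = (σ ^ (r - 1)) j := h7.symm
      have hr1 := hr.pos
      exact perm_pow_sub_ne σ hr j (hσr j) hj (a := i) (b := r - 1) i.2 (by omega) h8
    rw [hcomp] at h6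
    have h7 : π j w = 0 := pow_inj_of_inj y hinjy (r - 1) (by rw [h6, map_zero])
    have h8 : ∀ k, π k w = 0 := by
      intro k
      by_cases hk : ∃ i, k = orb i
      · obtain ⟨i, rfl⟩ := hk
        show π ((σ ^ (i : ℕ)) j) w = 0
        rw [hcomp, h7, map_zero]
      · push Not at hk
        exact hzero k hk
    have h9 := h4 w
    rw [Finset.sum_eq_zero (fun k _ => h8 k)] at h9
    exact h9.symm
  have h10 := Submodule.finrank_sup_add_finrank_inf_eq S Cc
  rw [hinf, finrank_bot, hfin] at h10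
  have h11 : finrank F (S ⊔ Cc : Submodule F (ι → F)) ≤ Fintype.card ι := by
    have := Submodule.finrank_le (S ⊔ Cc)
    simpa using this
  have h12 : (r - 1) * a + finrank F Cc = finrank F Cc + (r - 1) * a := by ring
  omega

end Main

end Cfsg.Agent.Lib.Geo
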