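import Mathlib
import Cfsg.Agent.Lib.Geo.ElusM2

set_option autoImplicit false

/-! Quaternion subgroups of `GL_2`. -/

namespace Cfsg.Agent.Lib.Geo

open Matrix

variable {F : Type*} [Field F]

local notation "M2" => Matrix (Fin 2) (Fin 2) F

/-- Quaternion relations. -/
structure QRel (I J : M2) : Prop where
  ii : I * I = -1
  jj : J * J = -1
  ji : J * I = -(I * J)

namespace QRel

theorem ik {I J : M2} (h : QRel I J) : I * (I * J) = -J := by
  rw [← Matrix.mul_assoc, h.ii]; simp

theorem jk {I J : M2} (h : QRel I J) : J * (I * J) = I := by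
  rw [← Matrix.mul_assoc, h.ji, Matrix.neg_mul, Matrix.mul_assoc, h.jj]; simp

theorem ki {I J : M2} (h : QRel I J) : (I * J) * I = J := by
  rw [Matrix.mul_assoc, h.ji, Matrix.mul_neg, h.ik]; simp

theorem kj {I J : M2} (h : QRel I J) : (I * J) * J = -I := by
  rw [Matrix.mul_assoc, h.jj]; simp

theorem kk {I J : M2} (h : QRel I J) : (I * J) * (I * J) = -1 := by
  rw [Matrix.mul_assoc, h.jk, h.ii]

theorem unit_det_I {I J : M2} (h : QRel I J) : I.det ≠ 0 := by
  intro h0
  have := congrArg (fun X : M2 => X.det) h.ii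
  simp only [Matrix.det_mul, h0, zero_mul] at this
  have h2 : (-1 : M2).det = 1 := by simp [Matrix.det_fin_two]
  rw [h2] at this
  exact zero_ne_one this

theorem unit_det_J {I J : M2} (h : QRel I J) : J.det ≠ 0 := by
  intro h0
  have := congrArg (fun X : M2 => X.det) h.jj
  simp only [Matrix.det_mul, h0, zero_mul] at this
  have h2 : (-1 : M2).det = 1 := by simp [Matrix.det_fin_two]
  rw [h2] at this
  exact zero_ne_one this

theorem I_nonscalar {I J : M2} (h : QRel I J) (h2 : (2 : F) ≠ 0) (c : F) : I ≠ c • (1 : M2) := by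
  intro hc
  have h3 := h.ji
  rw [hc] at h3
  simp only [Matrix.mul_smul, Matrix.smul_mul, Matrix.mul_one, Matrix.one_mul] at h3
  have h4 : (2 * c) • J = 0 := by
    rw [mul_smul, two_smul]
    nth_rw 1 [h3]
    simp
  have h5 : c ≠ 0 := by
    rintro rfl
    have := h.unit_det_I
    rw [hc] at this
    simp at this
  have hJ0 : J ≠ 0 := by
    rintro rfl
    have := h.unit_det_J
    simp at this
  exact (smul_ne_zero (mul_ne_zero h2 h5) hJ0) h4

theorem J_nonscalar {I J : M2} (h : QRel I J) (h2 : (2 : F) ≠ 0) (c : F) : J ≠ c • (1 : M2) := by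
  intro hc
  have h3 := h.ji
  rw [hc] at h3
  simp only [Matrix.mul_smul, Matrix.smul_mul, Matrix.mul_one, Matrix.one_mul] at h3
  have h4 : (2 * c) • I = 0 := by
    rw [mul_smul, two_smul]
    nth_rw 1 [h3]
    simp
  have h5 : c ≠ 0 := by
    rintro rfl
    have := h.unit_det_J
    rw [hc] at this
    simp at this
  have hI0 : I ≠ 0 := by
    rintro rfl
    have := h.unit_det_I
    simp at this
  exact (smul_ne_zero (mul_ne_zero h2 h5) hI0) h4

/-- A matrix commuting with `I` and `J` is scalar. -/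
theorem scalar_of_comm {I J : M2} (h : QRel I J) (h2 : (2 : F) ≠ 0) {y : M2} (h1 : y * I = I * y) (h3 : y * J = J * y) :
    ∃ c : F, y = c • (1 : M2) := by
  obtain ⟨a, b, rfl⟩ := m2_centralizer I y (h.I_nonscalar h2) h1
  refine ⟨a, ?_⟩
  simp only [Matrix.add_mul, Matrix.mul_add, Matrix.smul_mul, Matrix.mul_smul, Matrix.one_mul, Matrix.mul_one] at h3
  rw [h.ji] at h3
  have h4 : (2 * b) • (I * J) = 0 := by
    rw [mul_smul, two_smul]
    have h5 := add_left_cancel h3
    nth_rw 1 [h5]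
    simp
  have hIJ : I * J ≠ 0 := by
    intro h0
    have := congrArg (fun X : M2 => X.det) h0
    simp only [Matrix.det_mul, Matrix.det_zero] at this
    exact (mul_ne_zero h.unit_det_I h.unit_det_J) this
  have hb : b = 0 := by
    by_contra hb
    exact (smul_ne_zero (mul_ne_zero h2 hb) hIJ) h4
  rw [hb, zero_smul, add_zero]

/-- The element of order three (up to sign). -/
noncomputable def qQ (I J : M2) : M2 := (2 : F)⁻¹ • (1 + I + J + I * J)

theorem qQ_mul_I {I J : M2} (h : QRel I J) : qQ I J * I = J * qQ I J := by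
  simp only [qQ, Matrix.smul_mul, Matrix.mul_smul, Matrix.add_mul, Matrix.mul_add, Matrix.one_mul, Matrix.mul_one,
    h.ii, h.ji, h.ki, h.jj, h.jk]
  congr 1
  abel

theorem qQ_mul_J {I J : M2} (h : QRel I J) : qQ I J * J = (I * J) * qQ I J := by
  simp only [qQ, Matrix.smul_mul, Matrix.mul_smul, Matrix.add_mul, Matrix.mul_add, Matrix.one_mul, Matrix.mul_one,
    h.jj, h.kj, h.ki, h.kk]
  congr 1
  abel

theorem qQ_sq {I J : M2} (h : QRel I J) (h2 : (2 : F) ≠ 0) : qQ I J * qQ I J = qQ I J - 1 := by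
  have hP : (1 + I + J + I * J) * (1 + I + J + I * J) = (2 : F) • (1 + I + J + I * J) - (4 : F) • (1 : M2) := by
    simp only [Matrix.add_mul, Matrix.mul_add, Matrix.one_mul, Matrix.mul_one, h.ii, h.ji, h.jj, h.ki, h.kj, h.ik, h.jk, h.kk]
    have h4 : (4 : F) = 2 + 2 := by norm_num
    rw [h4, add_smul, two_smul, two_smul]
    abel
  simp only [qQ, Matrix.smul_mul, Matrix.mul_smul, smul_smul]
  rw [hP, smul_sub, smul_smul, smul_smul]
  have h5 : (2 : F)⁻¹ * (2 : F)⁻¹ * 2 = (2 : F)⁻¹ := by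
    field_simp
  have h6 : (2 : F)⁻¹ * (2 : F)⁻¹ * 4 = 1 := by
    have h4 : (4 : F) = 2 * 2 := by norm_num
    rw [h4]; field_simp
  rw [h5, h6, one_smul]

theorem qQ_nonscalar {I J : M2} (h : QRel I J) (h2 : (2 : F) ≠ 0) (c : F) : qQ I J ≠ c • (1 : M2) := by
  intro hc
  have h3 := h.qQ_mul_I
  rw [hc] at h3
  simp only [Matrix.smul_mul, Matrix.mul_smul, Matrix.one_mul, Matrix.mul_one] at h3
  have hc0 : c ≠ 0 := by
    rintro rfl
    have h4 := h.qQ_sq h2
    rw [hc] at h4
    simp only [zero_smul, zero_mul, zero_sub] at h4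
    have h5 := congrFun (congrFun h4 0) 0
    simp at h5
  have hIJ : I = J := by
    have := smul_right_injective (Matrix (Fin 2) (Fin 2) F) hc0 h3
    exact this
  subst hIJ
  have h4 := h.ji
  rw [h.ii, neg_neg] at h4
  have h5 := congrFun (congrFun h4 0) 0
  simp at h5
  apply h2
  linear_combination -h5

theorem qQ_trace_det {I J : M2} (h : QRel I J) (h2 : (2 : F) ≠ 0) :
    (qQ I J).trace = 1 ∧ (qQ I J).det = 1 := by
  have h1 := m2_ch (qQ I J)
  rw [h.qQ_sq h2] at h1
  have h3 : (1 - (qQ I J).trace) • (qQ I J) = (1 - (qQ I J).det) • (1 : M2) := by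
    rw [sub_smul, sub_smul, one_smul, one_smul]
    rw [sub_eq_sub_iff_add_eq_add] at h1 ⊢
    rw [h1]
    abel
  have ht : (qQ I J).trace = 1 := by
    by_contra hne
    have hne' : 1 - (qQ I J).trace ≠ 0 := fun hc => hne (sub_eq_zero.1 hc).symm
    apply h.qQ_nonscalar h2 ((1 - (qQ I J).trace)⁻¹ * (1 - (qQ I J).det))
    rw [mul_smul, ← h3, smul_smul, inv_mul_cancel₀ hne', one_smul]
  refine ⟨ht, ?_⟩
  rw [ht, sub_self, zero_smul] at h3
  have h5 := congrFun (congrFun h3 0) 0
  simp at h5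
  linear_combination h5

end QRel

section Group

open QuaternionGroup

variable [Fintype F] {R : Subgroup (GL (Fin 2) F)} (e : ↥R ≃* QuaternionGroup 2)

/-- The relations for the images of the generators. -/
theorem qrel_of_equiv (h2 : (2 : F) ≠ 0) :
    QRel (((e.symm (a 1)).1 : GL (Fin 2) F) : M2) (((e.symm (xa 0)).1 : GL (Fin 2) F) : M2) := by
  have hA : (a 1 : QuaternionGroup 2) * a 1 = a 2 := by decide
  have hB : (xa 0 : QuaternionGroup 2) * xa 0 = a 2 := by decide
  have hC : (a 2 : QuaternionGroup 2) * a 2 = 1 := by decide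
  have hC1 : (a 2 : QuaternionGroup 2) ≠ 1 := by decide
  have hAB : (a 1 : QuaternionGroup 2) * xa 0 = a 2 * (xa 0 * a 1) := by decide
  obtain ⟨I, hI⟩ : ∃ I : GL (Fin 2) F, I = (e.symm (a 1)).1 := ⟨_, rfl⟩
  obtain ⟨J, hJ⟩ : ∃ J : GL (Fin 2) F, J = (e.symm (xa 0)).1 := ⟨_, rfl⟩
  obtain ⟨C, hCd⟩ : ∃ C : GL (Fin 2) F, C = (e.symm (a 2)).1 := ⟨_, rfl⟩
  have h1 : I * I = C := by
    rw [hI, hCd, ← hA, map_mul]; rfl
  have h3 : J * J = C := by
    rw [hJ, hCd, ← hB, map_mul]; rfl
  have h4 : C * C = 1 := by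
    rw [hCd, ← Subgroup.coe_mul, ← map_mul, hC, map_one]; rfl
  have h5 : C ≠ 1 := by
    intro hc
    rw [hCd] at hc
    apply hC1
    have : e.symm (a 2) = 1 := Subtype.ext hc
    have h6 := congrArg e this
    simpa using h6
  have h6 : I * J = C * (J * I) := by
    rw [hI, hJ, hCd, ← Subgroup.coe_mul, ← map_mul, hAB, map_mul, map_mul]; rfl
  rw [← hI, ← hJ]
  -- matrices
  have hmI : (I : M2) * (I : M2) = (C : M2) := by rw [← h1]; rfl
  have hmJ : (J : M2) * (J : M2) = (C : M2) := by rw [← h3]; rfl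
  have hmC : (C : M2) * (C : M2) = 1 := by
    have : ((C * C : GL (Fin 2) F) : M2) = 1 := by rw [h4]; rfl
    exact this
  have hmIJ : (I : M2) * (J : M2) = (C : M2) * ((J : M2) * (I : M2)) := by
    have : ((I * J : GL (Fin 2) F) : M2) = ((C * (J * I) : GL (Fin 2) F) : M2) := by rw [h6]
    exact this
  have hdI : (I : M2).det ≠ 0 := by
    have := (Matrix.isUnit_iff_isUnit_det _).1 I.isUnit
    exact this.ne_zero
  have hdJ : (J : M2).det ≠ 0 := by
    have := (Matrix.isUnit_iff_isUnit_det _).1 J.isUnit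
    exact this.ne_zero
  have hdC : (C : M2).det = 1 := by
    have h7 := congrArg (fun X : M2 => X.det) hmIJ
    simp only [Matrix.det_mul] at h7
    have h8 : (I : M2).det * (J : M2).det ≠ 0 := mul_ne_zero hdI hdJ
    apply mul_right_cancel₀ h8
    rw [one_mul]
    linear_combination -h7
  have hch := m2_ch (C : M2)
  rw [hmC, hdC, one_smul] at hch
  have hscal : (C : M2).trace • (C : M2) = (2 : F) • (1 : M2) := by
    rw [two_smul]
    nth_rw 2 [hch]
    abel
  have ht : (C : M2).trace ≠ 0 := by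
    intro ht
    rw [ht, zero_smul] at hscal
    have h7 := congrFun (congrFun hscal 0) 0
    simp at h7
    exact h2 h7.symm
  have hCs : (C : M2) = ((C : M2).trace⁻¹ * 2) • (1 : M2) := by
    rw [mul_smul, ← hscal, smul_smul, inv_mul_cancel₀ ht, one_smul]
  obtain ⟨s, hs⟩ : ∃ s, s = (C : M2).trace⁻¹ * 2 := ⟨_, rfl⟩
  rw [← hs] at hCs
  have hss : s * s = 1 := by
    rw [hCs] at hmC
    simp only [Matrix.smul_mul, Matrix.mul_smul, Matrix.one_mul, smul_smul] at hmC
    have h7 := congrFun (congrFun hmC 0) 0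
    simpa using h7
  have hs1 : s = -1 := by
    have h7 : (s - 1) * (s + 1) = 0 := by linear_combination hss
    rcases mul_eq_zero.1 h7 with h8 | h8
    · exfalso
      apply h5
      apply Units.ext
      show (C : M2) = 1
      rw [hCs, sub_eq_zero.1 h8, one_smul]
    · linear_combination h8
  have hCm : (C : M2) = -1 := by
    rw [hCs, hs1]; simp
  refine ⟨by rw [hmI, hCm], by rw [hmJ, hCm], ?_⟩
  rw [hmIJ, hCm]
  simp

theorem q8_mem_normalizer {w : GL (Fin 2) F}
    (h1 : w * (e.symm (a 1)).1 = (e.symm (xa 0)).1 * w)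
    (h3 : w * (e.symm (xa 0)).1 = ((e.symm (a 1)).1 * (e.symm (xa 0)).1) * w) :
    w ∈ Subgroup.normalizer (R : Set (GL (Fin 2) F)) := by
  apply Subgroup.mem_normalizer_fintype
  rintro n hn
  obtain ⟨I, hI⟩ : ∃ I : GL (Fin 2) F, I = (e.symm (a 1)).1 := ⟨_, rfl⟩
  obtain ⟨J, hJ⟩ : ∃ J : GL (Fin 2) F, J = (e.symm (xa 0)).1 := ⟨_, rfl⟩
  rw [← hI, ← hJ] at h1 h3
  have hIR : I ∈ R := hI ▸ (e.symm (a 1)).2
  have hJR : J ∈ R := hJ ▸ (e.symm (xa 0)).2
  have hwI : w * I * w⁻¹ = J := by rw [h1]; group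
  have hwJ : w * J * w⁻¹ = I * J := by rw [h3]; group
  have hn' : n = (e.symm (e ⟨n, hn⟩)).1 := by rw [MulEquiv.symm_apply_apply]
  have hpow : ∀ k : ZMod (2 * 2), (e.symm (a k)).1 = I ^ k.val := by
    intro k
    have : (a k : QuaternionGroup 2) = a 1 ^ k.val := by
      rw [a_one_pow]
      congr 1
      exact (ZMod.natCast_zmod_val k).symm
    rw [this, map_pow, hI]
    rfl
  have hconj : ∀ m : ℕ, w * I ^ m * w⁻¹ = J ^ m := by
    intro m
    rw [← hwI, conj_pow]
  rcases hq : e ⟨n, hn⟩ with k | k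
  · rw [hq, hpow k] at hn'
    rw [hn', hconj]
    exact Subgroup.pow_mem _ hJR _
  · have h4 : (xa k : QuaternionGroup 2) = xa 0 * a k := by
      rw [xa_mul_a, zero_add]
    rw [hq, h4, map_mul, Subgroup.coe_mul, hpow k, ← hJ] at hn'
    rw [hn']
    have h5 : w * (J * I ^ k.val) * w⁻¹ = (w * J * w⁻¹) * (w * I ^ k.val * w⁻¹) := by group
    rw [h5, hwJ, hconj]
    exact R.mul_mem (R.mul_mem hIR hJR) (Subgroup.pow_mem _ hJR _)

include e in
/-- Elements of prime order at least five in the normalizer centralize the quaternion group. -/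
theorem q8_comm (h2 : (2 : F) ≠ 0) {y : GL (Fin 2) F} (hy : y ∈ Subgroup.normalizer (R : Set (GL (Fin 2) F)))
    {r : ℕ} [hr : Fact r.Prime] (hr2 : r ≠ 2) (hr3 : r ≠ 3) (hyr : y ^ r = 1) : ∀ h ∈ R, y * h = h * y := by
  classical
  have hnorm := Subgroup.mem_normalizer_iff.1 hy
  let f : Function.End ↥R := fun h => ⟨y * h * y⁻¹, (hnorm h).1 h.2⟩
  have hfn : ∀ (n : ℕ) (h : ↥R), ((f ^ n) h : GL (Fin 2) F) = y ^ n * h * (y ^ n)⁻¹ := by
    intro n
    induction n with
    | zero => intro h; show (h : GL (Fin 2) F) = _; simp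
    | succ n ih =>
      intro h
      rw [pow_succ']
      show y * ((f ^ n) h : GL (Fin 2) F) * y⁻¹ = _
      rw [ih, pow_succ']
      group
  have hf : f ^ r ^ 1 = 1 := by
    funext h
    apply Subtype.ext
    rw [pow_one, hfn, hyr]
    show _ = (h : GL (Fin 2) F)
    simp
  have h1 := Equiv.Perm.card_fixedPoints_modEq hf
  have hcard : Nat.card ↥R = 8 := by
    rw [Nat.card_congr e.toEquiv, Nat.card_eq_fintype_card, QuaternionGroup.card]
  rw [Nat.card_eq_fintype_card] at hcard
  rw [hcard] at h1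
  let C : Subgroup ↥R :=
    { carrier := {h | f h = h}
      mul_mem' := by
        intro a b ha hb
        have ha' : y * (a : GL (Fin 2) F) * y⁻¹ = a := congrArg Subtype.val ha
        have hb' : y * (b : GL (Fin 2) F) * y⁻¹ = b := congrArg Subtype.val hb
        apply Subtype.ext
        show y * ((a : GL (Fin 2) F) * b) * y⁻¹ = a * b
        nth_rw 2 [← ha']
        nth_rw 2 [← hb']
        group
      one_mem' := by
        apply Subtype.ext
        show y * 1 * y⁻¹ = 1
        group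
      inv_mem' := by
        intro a ha
        have ha' : y * (a : GL (Fin 2) F) * y⁻¹ = a := congrArg Subtype.val ha
        apply Subtype.ext
        show y * ((a : GL (Fin 2) F))⁻¹ * y⁻¹ = (a : GL (Fin 2) F)⁻¹
        nth_rw 2 [← ha']
        group }
  have hC : Fintype.card f.fixedPoints = Nat.card C := by
    rw [Nat.card_eq_fintype_card]
    apply Fintype.card_congr
    exact Equiv.refl _
  rw [hC] at h1
  have hdvd : Nat.card C ∣ 8 := by
    rw [← hcard, ← Nat.card_eq_fintype_card]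
    exact Subgroup.card_subgroup_dvd_card C
  have hqr := qrel_of_equiv e h2
  -- the central element
  have hC2 : 2 ≤ Nat.card C := by
    by_contra hlt
    have hle : Nat.card C ≤ 1 := by omega
    have hsub : Subsingleton C := Finite.card_le_one_iff_subsingleton.1 hle
    have hmem : (e.symm (a 2)) ∈ C := by
      apply Subtype.ext
      show y * ((e.symm (a 2)).1 : GL (Fin 2) F) * y⁻¹ = (e.symm (a 2)).1
      have hA : (a 2 : QuaternionGroup 2) = a 1 * a 1 := by decide
      have h3 : ((e.symm (a 2)).1 : GL (Fin 2) F) = (e.symm (a 1)).1 * (e.symm (a 1)).1 := by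
        rw [hA, map_mul]; rfl
      have h4 : (((e.symm (a 2)).1 : GL (Fin 2) F) : M2) = -1 := by
        rw [h3]; exact hqr.ii
      apply Units.ext
      rw [Units.val_mul, Units.val_mul, h4]
      have : ((y⁻¹ : GL (Fin 2) F) : M2) * (y : M2) = 1 := by
        exact congrArg Units.val (inv_mul_cancel y)
      have h5 : (y : M2) * ((y⁻¹ : GL (Fin 2) F) : M2) = 1 := by
        exact congrArg Units.val (mul_inv_cancel y)
      simp [h5]
    have hne : (⟨_, hmem⟩ : C) = ⟨1, C.one_mem⟩ := Subsingleton.elim _ _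
    have h3 := congrArg Subtype.val hne
    have h4 : (a 2 : QuaternionGroup 2) = 1 := by
      have := congrArg e h3
      simpa using this
    revert h4
    decide
  have hC8 : Nat.card C = 8 := by
    have hle : Nat.card C ≤ 8 := Nat.le_of_dvd (by norm_num) hdvd
    have hp := hr.out
    interval_cases hc : Nat.card C
    · -- 2
      exfalso
      have := (Nat.modEq_iff_dvd' (by norm_num)).1 h1.symm
      have h6 : r ∣ 2 * 3 := by simpa using this
      rcases (Nat.Prime.dvd_mul hp).1 h6 with h7 | h7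
      · exact hr2 ((Nat.prime_dvd_prime_iff_eq hp Nat.prime_two).1 h7)
      · exact hr3 ((Nat.prime_dvd_prime_iff_eq hp Nat.prime_three).1 h7)
    · exact absurd hdvd (by norm_num)
    · exfalso
      have := (Nat.modEq_iff_dvd' (by norm_num)).1 h1.symm
      have h6 : r ∣ 2 ^ 2 := by simpa using this
      exact hr2 ((Nat.prime_dvd_prime_iff_eq hp Nat.prime_two).1 (hp.dvd_of_dvd_pow h6))
    · exact absurd hdvd (by norm_num)
    · exact absurd hdvd (by norm_num)
    · exact absurd hdvd (by norm_num)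
    · rfl
  have htop : C = ⊤ := by
    apply Subgroup.eq_top_of_card_eq
    rw [hC8, Nat.card_eq_fintype_card, hcard]
  intro h hh
  have hmem : (⟨h, hh⟩ : ↥R) ∈ C := by rw [htop]; trivial
  have h3 : y * h * y⁻¹ = h := congrArg Subtype.val hmem
  calc y * h = y * h * y⁻¹ * y := by group
    _ = h * y := by rw [h3]

end Group

end Cfsg.Agent.Lib.Geo
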