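import Mathlib
import Cfsg.Agent.Lib.Geo.ElusSp

set_option autoImplicit false

/-! Elements of odd prime order of the isometry group of an alternating form: the blocks. -/

namespace Cfsg.Agent.Lib.Geo

open Polynomial Module

universe u

section Cyc

variable {F : Type*} [Field F] {V : Type u} [AddCommGroup V] [Module F V] [FiniteDimensional F V]

/-- The cyclic subspace generated by a vector killed by an irreducible polynomial. -/
theorem cyc_block (y : V →ₗ[F] V) {g : F[X]} (hg : Irreducible g) (hm : g.Monic) {u : V} (hu : u ≠ 0)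
    (hgu : aeval y g u = 0) :
    ∃ Y : Submodule F V, (∀ v ∈ Y, y v ∈ Y) ∧ finrank F Y = g.natDegree ∧ u ∈ Y := by
  have hind := irr_cyc_indep y hg hu hgu
  have hdpos : 0 < g.natDegree := hg.natDegree_pos
  obtain ⟨Y, hY⟩ : ∃ Y, Y = Submodule.span F (Set.range (fun i : Fin g.natDegree => (y ^ (i : ℕ)) u)) := ⟨_, rfl⟩
  have hfin : finrank F Y = g.natDegree := by
    rw [hY, finrank_span_eq_card hind, Fintype.card_fin]
  have hmem : ∀ j (_ : j < g.natDegree), (y ^ j) u ∈ Y := by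
    intro j hj
    rw [hY]
    exact Submodule.subset_span ⟨⟨j, hj⟩, rfl⟩
  have htop : (y ^ g.natDegree) u ∈ Y := by
    have h1 := modByMonic_add_div ((X : F[X]) ^ g.natDegree) g
    have h2 := congrArg (fun A => aeval y A u) h1
    simp only [map_add, map_mul, map_pow, aeval_X, LinearMap.add_apply] at h2
    have h3 : (aeval y g * aeval y ((X : F[X]) ^ g.natDegree /ₘ g)) u = 0 := by
      have h4 : aeval y g * aeval y ((X : F[X]) ^ g.natDegree /ₘ g) = aeval y ((X : F[X]) ^ g.natDegree /ₘ g) * aeval y g := by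
        rw [← map_mul, ← map_mul, mul_comm]
      rw [h4, Module.End.mul_apply, hgu, map_zero]
    rw [h3, add_zero] at h2
    rw [← h2]
    have h5 : ((X : F[X]) ^ g.natDegree %ₘ g).natDegree < g.natDegree := natDegree_modByMonic_lt _ hm (by
      intro h
      rw [h] at hg
      exact hg.not_isUnit isUnit_one)
    rw [aeval_eq_sum_range' h5, LinearMap.sum_apply]
    refine Y.sum_mem (fun j hj => ?_)
    rw [LinearMap.smul_apply]
    exact Y.smul_mem _ (hmem j (Finset.mem_range.1 hj))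
  refine ⟨Y, ?_, hfin, ?_⟩
  · intro v hv
    rw [hY] at hv
    induction hv using Submodule.span_induction with
    | mem w hw =>
      obtain ⟨j, rfl⟩ := hw
      show y ((y ^ (j : ℕ)) u) ∈ Y
      rw [← Module.End.mul_apply, ← pow_succ']
      by_cases hj : (j : ℕ) + 1 < g.natDegree
      · exact hmem _ hj
      · have : (j : ℕ) + 1 = g.natDegree := by have := j.2; omega
        rw [this]
        exact htop
    | zero => rw [map_zero]; exact Y.zero_mem
    | add a b _ _ ha hb => rw [map_add]; exact Y.add_mem ha hb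
    | smul c a _ ha => rw [map_smul]; exact Y.smul_mem _ ha
  · have := hmem 0 hdpos
    simpa using this

/-- Expansion by a power of the size of the field. -/
theorem expand_pow_card [Fintype F] {q : ℕ} (hq : Fintype.card F = q) (g : F[X]) (h : ℕ) :
    expand F (q ^ h) g = g ^ (q ^ h) := by
  induction h with
  | zero => simp
  | succ h ih =>
    rw [pow_succ', expand_mul, ih, map_pow]
    subst hq
    rw [FiniteField.expand_card, ← pow_mul]

end Cyc

section Blocks

variable {F : Type*} [Field F] [Fintype F] {p : ℕ} [Fact p.Prime] [CharP F p] {q : ℕ}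
  (hq : Fintype.card F = q) {r : ℕ} [hr : Fact r.Prime] (hrp : r ≠ p) (hr2 : r ≠ 2)
  {V : Type u} [AddCommGroup V] [Module F V] [FiniteDimensional F V]
  {f : V → V → F} (hf : AForm f) {y : V →ₗ[F] V} (hy : y ^ r = 1) (hiso : ∀ u v, f (y u) (y v) = f u v)

omit [Fintype F] [FiniteDimensional F V] in
include hrp in
theorem r_ne_zero_F : (r : F) ≠ 0 := by
  intro h0
  have := (CharP.cast_eq_zero_iff F p r).1 h0
  exact hrp ((Nat.prime_dvd_prime_iff_eq Fact.out hr.out).1 this).symm

omit [Fintype F] [Fact p.Prime] [CharP F p] [Fact r.Prime] [FiniteDimensional F V] in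
theorem aeval_X_sub_one : aeval y (X - C 1 : F[X]) = y - 1 := by
  simp

omit [Fintype F] [Fact p.Prime] [CharP F p] [Fact r.Prime] [FiniteDimensional F V] in
theorem iso_pow (hiso : ∀ u v, f (y u) (y v) = f u v) (k : ℕ) (u v : V) : f ((y ^ k) u) ((y ^ k) v) = f u v := by
  induction k with
  | zero => simp
  | succ k ih =>
    rw [pow_succ', Module.End.mul_apply, Module.End.mul_apply, hiso, ih]

include hrp hy hiso hf in
/-- The fixed space of an isometry of prime order is nondegenerate, with invariant orthogonal complement. -/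
theorem fixed_decomp : ∃ W : Submodule F V, IsCompl (LinearMap.ker (aeval y (X - C 1 : F[X]))) W ∧ (∀ v ∈ W, y v ∈ W) ∧
    (∀ u ∈ LinearMap.ker (aeval y (X - C 1 : F[X])), ∀ v ∈ W, f u v = 0) ∧ NDOn f W ∧
    NDOn f (LinearMap.ker (aeval y (X - C 1 : F[X]))) := by
  have hy' : y ^ r = (1 : F) • (1 : Module.End F V) := by rw [one_smul]; exact hy
  rw [aeval_X_sub_one]
  have hinv : ∀ v ∈ LinearMap.ker (y - 1), y v ∈ LinearMap.ker (y - 1) := by
    intro v hv
    have h1 : y v = v := by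
      have : (y - 1) v = 0 := hv
      simpa [sub_eq_zero] using this
    rw [h1]
    exact hv
  obtain ⟨W, hW1, hW2⟩ := inv_compl y (r_ne_zero_F (p := p) hrp) one_ne_zero hy' _ hinv
  obtain ⟨h1, h2, h3⟩ := compl_fixed hf y hiso hW2 hW1
  exact ⟨W, hW1, hW2, h1, h2, h3⟩

include hrp hy hiso hf in
theorem fixed_nd : NDOn f (LinearMap.ker (aeval y (X - C 1 : F[X]))) := by
  obtain ⟨W, _, _, _, _, h⟩ := fixed_decomp (p := p) hrp hf hy hiso
  exact h

include hq hrp hy hiso hf in
/-- The dimension of the non-fixed part is a multiple of the block dimension. -/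
theorem c_dvd_top : ∃ e, finrank F V = finrank F (LinearMap.ker (aeval y (X - C 1 : F[X]))) + e * cOf (orderOf (q : ZMod r)) := by
  obtain ⟨e, he⟩ := finrank_inv_eq (F := F) (p := p) hq hrp hy ⊤ (fun _ _ => trivial)
  rw [top_inf_eq, finrank_top] at he
  have h1 : Even (finrank F V) := aform_even hf
  have h2 : Even (finrank F (LinearMap.ker (aeval y (X - C 1 : F[X])))) := even_of_nd hf (fixed_nd (p := p) hrp hf hy hiso)
  have h3 : Even (e * orderOf (q : ZMod r)) := by
    rw [he] at h1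
    exact (Nat.even_add.1 h1).1 h2
  obtain ⟨e', he'⟩ := cOf_dvd (dvd_mul_left (orderOf (q : ZMod r)) e) h3
  exact ⟨e', by rw [he, he']; ring⟩

omit [Fintype F] [Fact p.Prime] [CharP F p] [Fact r.Prime] [FiniteDimensional F V] in
theorem finrank_fix_restrict [FiniteDimensional F V] (W : Submodule F V) (hW : ∀ v ∈ W, y v ∈ W) :
    finrank F (LinearMap.ker (aeval (y.restrict hW) (X - C 1 : F[X]))) = finrank F (W ⊓ LinearMap.ker (aeval y (X - C 1 : F[X])) : Submodule F V) := by
  have h1 : (LinearMap.ker (aeval (y.restrict hW) (X - C 1 : F[X]))) = (LinearMap.ker (aeval y (X - C 1 : F[X]))).comap W.subtype := by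
    ext v
    rw [LinearMap.mem_ker, Submodule.mem_comap, LinearMap.mem_ker, aeval_X_sub_one, aeval_X_sub_one]
    constructor
    · intro h
      have := congrArg Subtype.val h
      simpa using this
    · intro h
      apply Subtype.ext
      simpa using h
  have h2 := Submodule.finrank_map_subtype_eq W ((LinearMap.ker (aeval y (X - C 1 : F[X]))).comap W.subtype)
  rw [Submodule.map_comap_subtype] at h2
  rw [h1, h2]

omit [Fintype F] [Fact p.Prime] [CharP F p] [Fact r.Prime] [FiniteDimensional F V] in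
theorem restrict_pow_eq_one (W : Submodule F V) (hW : ∀ v ∈ W, y v ∈ W) (hy : y ^ r = 1) : (y.restrict hW) ^ r = 1 := by
  apply LinearMap.ext
  rintro ⟨v, hv⟩
  apply Subtype.ext
  rw [Module.End.pow_restrict]
  simp [hy]

omit [Fintype F] [Fact p.Prime] [CharP F p] [Fact r.Prime] [FiniteDimensional F V] in
theorem restrict_iso (W : Submodule F V) (hW : ∀ v ∈ W, y v ∈ W) (hiso : ∀ u v, f (y u) (y v) = f u v) :
    ∀ u v : W, f ((y.restrict hW u : W) : V) ((y.restrict hW v : W) : V) = f u v := fun u v => hiso u v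

include hq hrp hy hiso hf in
/-- The congruence for nondegenerate invariant subspaces. -/
theorem c_dvd_of_nd {W : Submodule F V} (hW : ∀ v ∈ W, y v ∈ W) (hnd : NDOn f W) :
    ∃ e, finrank F W = finrank F (W ⊓ LinearMap.ker (aeval y (X - C 1 : F[X])) : Submodule F V) + e * cOf (orderOf (q : ZMod r)) := by
  have h := c_dvd_top (p := p) hq hrp (aform_on hf hnd) (restrict_pow_eq_one W hW hy) (restrict_iso W hW hiso)
  rwa [finrank_fix_restrict] at h

include hrp hy hiso hf in
theorem fix_nd_of_nd {W : Submodule F V} (hW : ∀ v ∈ W, y v ∈ W) (hnd : NDOn f W) :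
    NDOn f (W ⊓ LinearMap.ker (aeval y (X - C 1 : F[X])) : Submodule F V) := by
  have h := fixed_nd (p := p) hrp (aform_on hf hnd) (restrict_pow_eq_one W hW hy) (restrict_iso W hW hiso)
  have h2 := nd_of_sub W _ h
  have h3 : (LinearMap.ker (aeval (y.restrict hW) (X - C 1 : F[X]))).map W.subtype = W ⊓ LinearMap.ker (aeval y (X - C 1 : F[X])) := by
    ext v
    constructor
    · rintro ⟨u, hu, rfl⟩
      refine ⟨u.2, ?_⟩
      rw [SetLike.mem_coe, LinearMap.mem_ker, aeval_X_sub_one] at hu ⊢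
      have := congrArg Subtype.val hu
      simpa using this
    · rintro ⟨h1, h2⟩
      refine ⟨⟨v, h1⟩, ?_, rfl⟩
      rw [SetLike.mem_coe, LinearMap.mem_ker, aeval_X_sub_one]
      rw [SetLike.mem_coe, LinearMap.mem_ker, aeval_X_sub_one] at h2
      apply Subtype.ext
      simpa using h2
  rwa [h3] at h2

omit [Fintype F] [Fact p.Prime] [CharP F p] [FiniteDimensional F V] in
include hy in
/-- Without fixed vectors, the cyclotomic polynomial annihilates. -/
theorem cyc_ann (hker : LinearMap.ker (y - 1) = ⊥) : aeval y (cyclotomic r F) = 0 := by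
  apply LinearMap.ext
  intro v
  have h1 := ann_of_pow (F := F) hy
  have h2 : (y - 1) (aeval y (cyclotomic r F) v) = 0 := by
    have := congrArg (fun A => A v) h1
    simpa [map_mul, aeval_X_sub_one] using this
  have h3 : aeval y (cyclotomic r F) v ∈ LinearMap.ker (y - 1) := h2
  rw [hker] at h3
  simpa using h3

omit [FiniteDimensional F V] in
include hq hrp hy in
/-- Invariant subspaces in the absence of fixed vectors. -/
theorem i_dvd_nofix [FiniteDimensional F V] (hker : LinearMap.ker (y - 1) = ⊥) (W : Submodule F V) (hW : ∀ v ∈ W, y v ∈ W) :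
    orderOf (q : ZMod r) ∣ finrank F W := by
  apply order_dvd_of_inv (p := p) hq hrp W hW
  rw [cyc_ann hy hker]
  simp

include hq hrp hr2 hf hy hiso in
/-- Blocks of dimension the (even) order of `q`. -/
theorem exists_block_even [Nontrivial V] (hker : LinearMap.ker (y - 1) = ⊥) (hev : Even (orderOf (q : ZMod r))) :
    ∃ B : Submodule F V, (∀ v ∈ B, y v ∈ B) ∧ NDOn f B ∧ finrank F B = orderOf (q : ZMod r) := by
  have hipos := order_pos (p := p) hq hrp
  obtain ⟨i, hi⟩ : ∃ i, i = orderOf (q : ZMod r) := ⟨_, rfl⟩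
  rw [← hi] at hipos hev ⊢
  obtain ⟨h, hh⟩ := hev
  have hq1 : 1 ≤ q := by
    rw [← hq]; exact Fintype.card_pos
  -- the adjoint is a power
  obtain ⟨Q, hQ⟩ : ∃ Q, Q = q ^ h := ⟨_, rfl⟩
  have hQ1 : 1 ≤ Q := by rw [hQ]; exact Nat.one_le_pow _ _ (by omega)
  have hdvd : r ∣ Q + 1 := by
    have h1 : ((Q : ZMod r)) ^ 2 = 1 := by
      rw [hQ, Nat.cast_pow, ← pow_mul]
      have : h * 2 = orderOf (q : ZMod r) := by rw [← hi]; omega
      rw [this, pow_orderOf_eq_one]
    have h2 : (Q : ZMod r) ≠ 1 := by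
      rw [hQ, Nat.cast_pow]
      apply pow_ne_one_of_lt_orderOf (by omega)
      rw [← hi]; omega
    have h3 : (Q : ZMod r) = -1 := (sq_eq_one_iff.1 h1).resolve_left h2
    rw [← ZMod.natCast_eq_zero_iff]
    push_cast
    rw [h3]
    ring
  have hyQ : y ^ (Q + 1) = 1 := by
    obtain ⟨k, hk⟩ := hdvd
    rw [hk, pow_mul, hy, one_pow]
  have hadj0 : ∀ u v, f ((y ^ Q) u) v = f u (y v) := by
    intro u v
    rw [← hiso, ← Module.End.mul_apply, ← pow_succ', hyQ, Module.End.one_apply]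
  have hadj1 : ∀ (n : ℕ) u v, f (((y ^ Q) ^ n) u) v = f u ((y ^ n) v) := by
    intro n
    induction n with
    | zero => simp
    | succ n ih =>
      intro u v
      rw [pow_succ, Module.End.mul_apply, ih, hadj0, pow_succ', Module.End.mul_apply]
  have hadj : ∀ (A : F[X]) u v, f (aeval (y ^ Q) A u) v = f u (aeval y A v) := by
    intro A u v
    induction A using Polynomial.induction_on' with
    | add A B hA hB =>
      simp only [map_add, LinearMap.add_apply]
      rw [hf.add_left, hf.add_right, hA, hB]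
    | monomial n c =>
      simp only [aeval_monomial]
      simp only [Module.algebraMap_end_eq_smul_id, Module.End.mul_apply, LinearMap.smul_apply, LinearMap.id_coe, id_eq]
      rw [hf.smul_left, hf.smul_right, hadj1]
  have hcyc := cyc_ann hy hker
  -- an irreducible factor
  have hint : IsIntegral F y := Algebra.IsIntegral.isIntegral y
  have hm0 : minpoly F y ≠ 0 := minpoly.ne_zero hint
  have hmu : ¬ IsUnit (minpoly F y) := minpoly.not_isUnit F y
  obtain ⟨g₀, hg₀, hg₀d⟩ := WfDvdMonoid.exists_irreducible_factor hmu hm0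
  have hg₀0 : g₀ ≠ 0 := hg₀.ne_zero
  obtain ⟨g, hg⟩ : ∃ g, g = g₀ * C g₀.leadingCoeff⁻¹ := ⟨_, rfl⟩
  have hgirr : Irreducible g := by rw [hg]; exact irreducible_mul_leadingCoeff_inv.2 hg₀
  have hgmon : g.Monic := by rw [hg]; exact monic_mul_leadingCoeff_inv hg₀0
  have hgd0 : g ∣ g₀ := by
    rw [hg]
    refine ⟨C g₀.leadingCoeff, ?_⟩
    rw [mul_assoc, ← C_mul, inv_mul_cancel₀ (leadingCoeff_ne_zero.2 hg₀0), C_1, mul_one]
  have hgdm : g ∣ minpoly F y := hgd0.trans hg₀d
  have hgdc : g ∣ cyclotomic r F := hgdm.trans (minpoly.dvd F y hcyc)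
  have hgdeg : g.natDegree = i := by rw [hi]; exact irr_deg_cyc (p := p) hq hrp hgirr hgdc
  -- the kernel
  obtain ⟨T, hT⟩ : ∃ T, T = aeval y g := ⟨_, rfl⟩
  obtain ⟨M, hM⟩ : ∃ M, M = LinearMap.ker T := ⟨_, rfl⟩
  have hMmem : ∀ v, v ∈ M ↔ T v = 0 := by
    intro v; rw [hM, LinearMap.mem_ker]
  have hMne : M ≠ ⊥ := by
    intro h0
    rw [hM, LinearMap.ker_eq_bot] at h0
    obtain ⟨k, hk⟩ := hgdm
    have h1 : aeval y (minpoly F y) = 0 := minpoly.aeval F y
    rw [hk, map_mul, ← hT] at h1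
    have h2 : aeval y k = 0 := by
      apply LinearMap.ext
      intro v
      have h3 := congrArg (fun A => A v) h1
      simp only [Module.End.mul_apply, LinearMap.zero_apply] at h3
      show aeval y k v = 0
      exact h0 (by rw [h3, map_zero])
    have h3 := minpoly.dvd F y h2
    have hk0 : k ≠ 0 := by
      rintro rfl
      exact hm0 (by rw [hk, mul_zero])
    have h4 := natDegree_le_of_dvd h3 hk0
    rw [hk, natDegree_mul hgirr.ne_zero hk0] at h4
    have := hgirr.natDegree_pos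
    omega
  have hMinv : ∀ v ∈ M, y v ∈ M := by
    intro v hv
    rw [hMmem] at hv ⊢
    have h3 : T * y = y * T := by
      rw [hT]
      have := congrArg (aeval y) (Polynomial.X_mul (p := g))
      simpa [map_mul, aeval_X] using this.symm
    rw [← Module.End.mul_apply, h3, Module.End.mul_apply, hv, map_zero]
  -- the adjoint of `T` is a power of `T`
  have hTadj : ∀ u v, u ∈ M → f u (T v) = 0 := by
    intro u v hu
    have h1 := hadj g u v
    rw [← hT] at h1
    rw [← h1]
    have h2 : aeval (y ^ Q) g = T ^ Q := by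
      rw [← expand_aeval, hQ, expand_pow_card hq, map_pow, hT]
    rw [h2]
    obtain ⟨Q', hQ'⟩ : ∃ Q', Q = Q' + 1 := ⟨Q - 1, by omega⟩
    rw [hQ', pow_succ, Module.End.mul_apply, (hMmem u).1 hu, map_zero, hf.zero_left]
  -- the splitting
  have hsplit : ∀ v, ∃ v₁ ∈ M, ∃ w, v = v₁ + T w := by
    obtain ⟨h₁, hh₁⟩ : g ∣ (X ^ r - C 1 : F[X]) := by
      rw [map_one, ← cyclotomic_prime_mul_X_sub_one]
      exact hgdc.mul_right _
    have hsep : (g * h₁).Separable := by
      rw [← hh₁]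
      exact separable_X_pow_sub_C 1 (r_ne_zero_F (p := p) hrp) one_ne_zero
    obtain ⟨a, b, hab⟩ := hsep.isCoprime
    intro v
    have h2 : aeval y (g * h₁) = 0 := by
      rw [← hh₁]
      simp [hy]
    refine ⟨aeval y (b * h₁) v, ?_, aeval y a v, ?_⟩
    · rw [hMmem, hT, ← Module.End.mul_apply, ← map_mul]
      have : g * (b * h₁) = b * (g * h₁) := by ring
      rw [this, map_mul, h2, mul_zero, LinearMap.zero_apply]
    · have h3 := congrArg (fun A => aeval y A v) hab
      simp only [map_add, map_mul, map_one, LinearMap.add_apply, Module.End.one_apply] at h3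
      have h4 : T (aeval y a v) = (aeval y a * aeval y g) v := by
        rw [hT, ← Module.End.mul_apply, ← map_mul, mul_comm, map_mul]
      rw [h4, map_mul, add_comm]
      exact h3.symm
  have hMnd : NDOn f M := by
    intro u hu hne
    obtain ⟨v, hv⟩ := hf.nd u hne
    obtain ⟨v₁, hv₁, w, rfl⟩ := hsplit v
    refine ⟨v₁, hv₁, fun h0 => hv ?_⟩
    rw [hf.add_right, h0, zero_add, hTadj u w hu]
  -- polarization
  have hnoniso : ∃ u ∈ M, f (y u) u ≠ 0 := by
    by_contra hcon
    push Not at hcon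
    obtain ⟨u, hu, hu0⟩ := Submodule.exists_mem_ne_zero_of_ne_bot hMne
    have hyk : ∀ k v, v ∈ M → (y ^ k) v ∈ M := by
      intro k
      induction k with
      | zero => simp
      | succ k ih =>
        intro v hv
        rw [pow_succ, Module.End.mul_apply]
        exact ih _ (hMinv v hv)
    obtain ⟨r', hr'⟩ : ∃ r', r = r' + 1 := ⟨r - 1, by have := hr.out.two_le; omega⟩
    have h1 : ∀ w ∈ M, f (y u - (y ^ r') u) w = 0 := by
      intro w hw
      have h2 := hcon (u + w) (M.add_mem hu hw)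
      rw [map_add, hf.add_left, hf.add_right, hf.add_right, hcon u hu, hcon w hw, zero_add, add_zero] at h2
      have h3 : f (y w) u = f w ((y ^ r') u) := by
        have h4 := iso_pow hiso r' (y w) u
        rw [← Module.End.mul_apply (y ^ r') y, ← pow_succ, ← hr', hy, Module.End.one_apply] at h4
        exact h4.symm
      rw [h3, hf.skew w] at h2
      rw [hf.sub_left]
      linear_combination h2
    have h5 : y u - (y ^ r') u = 0 := by
      by_contra h0
      obtain ⟨w, hw, hw2⟩ := hMnd _ (M.sub_mem (hMinv u hu) (hyk r' u hu)) h0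
      exact hw2 (h1 w hw)
    have h6 : (y ^ 2) u = u := by
      have h7 : y ((y ^ r') u) = u := by
        rw [← Module.End.mul_apply, ← pow_succ', ← hr', hy, Module.End.one_apply]
      rw [pow_two, Module.End.mul_apply, sub_eq_zero.1 h5, h7]
    have h8 : Odd r := hr.out.odd_of_ne_two hr2
    obtain ⟨k, hk⟩ := h8
    have h9 : ∀ j, (y ^ (2 * j)) u = u := by
      intro j
      rw [pow_mul]
      induction j with
      | zero => simp
      | succ j ih => rw [pow_succ, Module.End.mul_apply, h6, ih]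
    have h10 : y u = u := by
      have h11 : (y ^ r) u = u := by rw [hy, Module.End.one_apply]
      rw [hk, pow_succ, Module.End.mul_apply] at h11
      have h12 : (y ^ (2 * k)) (y u) = y ((y ^ (2 * k)) u) := by
        rw [← Module.End.mul_apply, ← Module.End.mul_apply, ← pow_succ, ← pow_succ']
      rw [h12, h9] at h11
      exact h11
    have h13 : u ∈ LinearMap.ker (y - 1) := by
      simp [h10, sub_eq_zero]
    rw [hker] at h13
    exact hu0 (by simpa using h13)
  obtain ⟨u, hu, huf⟩ := hnoniso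
  have hu0 : u ≠ 0 := by
    rintro rfl
    apply huf
    rw [map_zero, hf.zero_left]
  obtain ⟨Y, hY1, hY2, hY3⟩ := cyc_block y hgirr hgmon hu0 (by rw [← hT]; exact (hMmem u).1 hu)
  rw [hgdeg] at hY2
  have hRinv : ∀ v ∈ Y ⊓ aperp hf Y, y v ∈ Y ⊓ aperp hf Y := fun v hv =>
    ⟨hY1 v hv.1, aperp_inv hf y hiso hY1 v hv.2⟩
  have hRd := i_dvd_nofix (p := p) hq hrp hy hker (Y ⊓ aperp hf Y) hRinv
  rw [← hi] at hRd
  have hRle : finrank F (Y ⊓ aperp hf Y : Submodule F V) ≤ i := by
    rw [← hY2]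
    exact Submodule.finrank_mono inf_le_left
  have hR0 : finrank F (Y ⊓ aperp hf Y : Submodule F V) = 0 := by
    by_contra hne
    have h1 := Nat.le_of_dvd (Nat.pos_of_ne_zero hne) hRd
    have h2 : Y ⊓ aperp hf Y = Y := Submodule.eq_of_le_of_finrank_eq inf_le_left (by omega)
    have h3 : Y ≤ aperp hf Y := inf_eq_left.1 h2
    exact huf (h3 (hY1 u hY3) u hY3)
  have hRbot : Y ⊓ aperp hf Y = ⊥ := Submodule.finrank_eq_zero.1 hR0
  refine ⟨Y, hY1, ?_, hY2⟩
  intro v hv hne
  by_contra hcon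
  push Not at hcon
  have h1 : v ∈ Y ⊓ aperp hf Y := ⟨hv, hcon⟩
  rw [hRbot] at h1
  exact hne (by simpa using h1)

include hq hrp hr2 hf hy hiso in
/-- Blocks of twice the (odd) order of `q`. -/
theorem exists_block_odd [Nontrivial V] (hker : LinearMap.ker (y - 1) = ⊥) (hodd : ¬ Even (orderOf (q : ZMod r))) :
    ∃ B : Submodule F V, (∀ v ∈ B, y v ∈ B) ∧ NDOn f B ∧ finrank F B = 2 * orderOf (q : ZMod r) := by
  have hipos := order_pos (p := p) hq hrp
  obtain ⟨i, hi⟩ : ∃ i, i = orderOf (q : ZMod r) := ⟨_, rfl⟩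
  rw [← hi] at hipos hodd ⊢
  have htop := i_dvd_nofix (p := p) hq hrp hy hker ⊤ (fun _ _ => trivial)
  rw [finrank_top, ← hi] at htop
  have hVpos : 0 < finrank F V := finrank_pos
  have hile := Nat.le_of_dvd hVpos htop
  have hKbot : LinearMap.ker (aeval y (X - C 1 : F[X])) = ⊥ := by rw [aeval_X_sub_one]; exact hker
  obtain ⟨Y, hY1, hY2⟩ := exists_inv_of_mod (F := F) (p := p) hq hrp hy i hile (by
    rw [← hi, Nat.mod_self]; exact Nat.zero_le _)
  have hRinv : ∀ v ∈ Y ⊓ aperp hf Y, y v ∈ Y ⊓ aperp hf Y := fun v hv =>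
    ⟨hY1 v hv.1, aperp_inv hf y hiso hY1 v hv.2⟩
  have hRd := i_dvd_nofix (p := p) hq hrp hy hker (Y ⊓ aperp hf Y) hRinv
  rw [← hi] at hRd
  have hRle : finrank F (Y ⊓ aperp hf Y : Submodule F V) ≤ i := by
    rw [← hY2]
    exact Submodule.finrank_mono inf_le_left
  have hYle : Y ≤ aperp hf Y := by
    by_contra hcon
    have hR0 : finrank F (Y ⊓ aperp hf Y : Submodule F V) = 0 := by
      by_contra hne
      have h1 := Nat.le_of_dvd (Nat.pos_of_ne_zero hne) hRd
      have h2 : Y ⊓ aperp hf Y = Y := Submodule.eq_of_le_of_finrank_eq inf_le_left (by omega)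
      exact hcon (inf_eq_left.1 h2)
    have hRbot : Y ⊓ aperp hf Y = ⊥ := Submodule.finrank_eq_zero.1 hR0
    have hnd : NDOn f Y := by
      intro v hv hne
      by_contra hcon
      push Not at hcon
      have h1 : v ∈ Y ⊓ aperp hf Y := ⟨hv, hcon⟩
      rw [hRbot] at h1
      exact hne (by simpa using h1)
    have := even_of_nd hf hnd
    rw [hY2] at this
    exact hodd this
  have hy' : y ^ r = (1 : F) • (1 : Module.End F V) := by rw [one_smul]; exact hy
  obtain ⟨Y', hY'1, hY'2⟩ := inv_compl y (r_ne_zero_F (p := p) hrp) one_ne_zero hy' (aperp hf Y) (aperp_inv hf y hiso hY1)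
  have hfin1 : finrank F Y' = i := by
    have h1 := Submodule.finrank_add_eq_of_isCompl hY'1
    rw [finrank_aperp] at h1
    have h2 := Submodule.finrank_le Y
    omega
  have hdisj : Y ⊓ Y' = ⊥ := by
    rw [eq_bot_iff]
    rintro v ⟨h1, h2⟩
    exact (Submodule.disjoint_def.1 hY'1.disjoint) v (hYle h1) h2
  refine ⟨Y ⊔ Y', ?_, ?_, ?_⟩
  · intro v hv
    obtain ⟨a, ha, b, hb, rfl⟩ := Submodule.mem_sup.1 hv
    rw [map_add]
    exact Submodule.add_mem_sup (hY1 a ha) (hY'2 b hb)
  · intro v hv hne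
    obtain ⟨a, ha, b, hb, rfl⟩ := Submodule.mem_sup.1 hv
    by_cases hb0 : b = 0
    · subst hb0
      rw [add_zero] at hne ⊢
      obtain ⟨w, hw⟩ := hf.nd a hne
      have htop : w ∈ aperp hf Y ⊔ Y' := by rw [hY'1.sup_eq_top]; trivial
      obtain ⟨w₁, hw₁, w₂, hw₂, rfl⟩ := Submodule.mem_sup.1 htop
      refine ⟨w₂, Submodule.mem_sup_right hw₂, fun h0 => hw ?_⟩
      rw [hf.add_right, h0, add_zero, hf.skew, hw₁ a ha, neg_zero]
    · have h1 : b ∉ aperp hf Y := fun h0 => hb0 ((Submodule.disjoint_def.1 hY'1.disjoint) b h0 hb)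
      rw [mem_aperp] at h1
      push Not at h1
      obtain ⟨a', ha', h2⟩ := h1
      refine ⟨a', Submodule.mem_sup_left ha', ?_⟩
      rw [hf.add_left, hYle ha a' ha', zero_add]
      exact h2
  · have h1 := Submodule.finrank_sup_add_finrank_inf_eq Y Y'
    rw [hdisj, finrank_bot, hY2, hfin1] at h1
    omega

include hq hrp hr2 hf hy hiso in
/-- Blocks in the absence of fixed vectors. -/
theorem exists_block_nofix [Nontrivial V] (hker : LinearMap.ker (y - 1) = ⊥) :
    ∃ B : Submodule F V, (∀ v ∈ B, y v ∈ B) ∧ NDOn f B ∧ finrank F B = cOf (orderOf (q : ZMod r)) := by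
  by_cases h : Even (orderOf (q : ZMod r))
  · have h1 : cOf (orderOf (q : ZMod r)) = orderOf (q : ZMod r) := by
      unfold cOf; rw [if_pos h]
    rw [h1]
    exact exists_block_even (p := p) hq hrp hr2 hf hy hiso hker h
  · have h1 : cOf (orderOf (q : ZMod r)) = 2 * orderOf (q : ZMod r) := by
      unfold cOf; rw [if_neg h]
    rw [h1]
    exact exists_block_odd (p := p) hq hrp hr2 hf hy hiso hker h

include hq hrp hr2 hf hy hiso in
/-- Blocks. -/
theorem exists_block (hc : cOf (orderOf (q : ZMod r)) ≤ finrank F V) :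
    ∃ B : Submodule F V, (∀ v ∈ B, y v ∈ B) ∧ NDOn f B ∧ finrank F B = cOf (orderOf (q : ZMod r)) := by
  obtain ⟨W, hW1, hW2, hW3, hW4, hW5⟩ := fixed_decomp (p := p) hrp hf hy hiso
  by_cases hWb : W = ⊥
  · have htop : LinearMap.ker (aeval y (X - C 1 : F[X])) = ⊤ := by
      have := hW1.sup_eq_top
      rwa [hWb, sup_bot_eq] at this
    have hy1 : ∀ v, y v = v := by
      intro v
      have h1 : v ∈ LinearMap.ker (aeval y (X - C 1 : F[X])) := by rw [htop]; trivial
      exact mem_ker_aeval_sub_one.1 h1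
    obtain ⟨e, he⟩ := cOf_even (orderOf (q : ZMod r))
    have hndtop : NDOn f (⊤ : Submodule F V) := fun u _ hne =>
      let ⟨b, hb⟩ := hf.nd u hne
      ⟨b, trivial, hb⟩
    obtain ⟨U, _, hU2, hU3⟩ := exists_nd_sub hf e ⊤ hndtop (by rw [finrank_top]; omega)
    exact ⟨U, fun v hv => by rw [hy1]; exact hv, hU2, by omega⟩
  · haveI : Nontrivial W := Submodule.nontrivial_iff_ne_bot.2 hWb
    have hkerW : LinearMap.ker ((y.restrict hW2) - 1) = ⊥ := by
      rw [LinearMap.ker_eq_bot']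
      rintro ⟨v, hv⟩ h0
      have h1 : y v - v = 0 := by
        have := congrArg Subtype.val h0
        simpa using this
      have h2 : v ∈ LinearMap.ker (aeval y (X - C 1 : F[X])) := by
        rw [mem_ker_aeval_sub_one]
        exact sub_eq_zero.1 h1
      have h3 := (Submodule.disjoint_def.1 hW1.disjoint) v h2 hv
      subst h3
      rfl
    obtain ⟨B', h1, h2, h3⟩ := exists_block_nofix (p := p) hq hrp hr2 (aform_on hf hW4) (restrict_pow_eq_one W hW2 hy) (restrict_iso W hW2 hiso) hkerW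
    exact ⟨B'.map W.subtype, inv_of_sub y W hW2 B' h1, nd_of_sub W B' h2, by rw [Submodule.finrank_map_subtype_eq, h3]⟩

include hq hrp hr2 hf hy hiso in
/-- Blocks inside an invariant nondegenerate subspace. -/
theorem exists_block_in {W₀ : Submodule F V} (h₀ : ∀ v ∈ W₀, y v ∈ W₀) (hnd : NDOn f W₀)
    (hc : cOf (orderOf (q : ZMod r)) ≤ finrank F W₀) :
    ∃ B : Submodule F V, B ≤ W₀ ∧ (∀ v ∈ B, y v ∈ B) ∧ NDOn f B ∧ finrank F B = cOf (orderOf (q : ZMod r)) := by
  obtain ⟨B', h1, h2, h3⟩ := exists_block (p := p) hq hrp hr2 (aform_on hf hnd) (restrict_pow_eq_one W₀ h₀ hy) (restrict_iso W₀ h₀ hiso) hc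
  refine ⟨B'.map W₀.subtype, ?_, inv_of_sub y W₀ h₀ B' h1, nd_of_sub W₀ B' h2, by rw [Submodule.finrank_map_subtype_eq, h3]⟩
  rintro _ ⟨u, _, rfl⟩
  exact u.2

omit [Fintype F] [Fact p.Prime] [CharP F p] [Fact r.Prime] in
/-- The orthogonal complement inside an invariant nondegenerate subspace. -/
theorem rel_perp_inv (hf : AForm f) (hiso : ∀ u v, f (y u) (y v) = f u v) {U W₀ : Submodule F V} (hU : ∀ v ∈ U, y v ∈ U) (h₀ : ∀ v ∈ W₀, y v ∈ W₀) :
    ∀ v ∈ W₀ ⊓ aperp hf U, y v ∈ W₀ ⊓ aperp hf U := fun v hv =>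
  ⟨h₀ v hv.1, aperp_inv hf y hiso hU v hv.2⟩

omit [Fintype F] [Fact p.Prime] [CharP F p] [Fact r.Prime] in
theorem finrank_rel_perp (hf : AForm f) {U W₀ : Submodule F V} (hUnd : NDOn f U) (hle : U ≤ W₀) (hnd : NDOn f W₀) :
    finrank F (W₀ ⊓ aperp hf U : Submodule F V) = finrank F W₀ - finrank F U := by
  obtain ⟨h1, h2, h3⟩ := rel_perp hf hUnd hle hnd
  have h4 := Submodule.finrank_sup_add_finrank_inf_eq U (W₀ ⊓ aperp hf U)
  rw [h2, h3, finrank_bot] at h4
  omega

omit [Fintype F] [Fact p.Prime] [CharP F p] [Fact r.Prime] in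
/-- Adding an orthogonal invariant piece. -/
theorem orth_sup (hf : AForm f) {A B W₀ : Submodule F V} (hA : NDOn f A) (hAle : A ≤ W₀) (hAinv : ∀ v ∈ A, y v ∈ A)
    (hB : NDOn f B) (hBle : B ≤ W₀ ⊓ aperp hf A) (hBinv : ∀ v ∈ B, y v ∈ B) :
    A ⊔ B ≤ W₀ ∧ (∀ v ∈ A ⊔ B, y v ∈ A ⊔ B) ∧ NDOn f (A ⊔ B) ∧ finrank F (A ⊔ B : Submodule F V) = finrank F A + finrank F B := by
  have h5 : ∀ u ∈ A, ∀ v ∈ B, f u v = 0 := by
    intro u hu v hv
    rw [hf.skew, (hBle hv).2 u hu, neg_zero]
  obtain ⟨h6, h7⟩ := ndOn_sup hf hA hB h5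
  refine ⟨sup_le hAle (hBle.trans inf_le_left), ?_, h6, ?_⟩
  · intro v hv
    obtain ⟨a, ha, b, hb, rfl⟩ := Submodule.mem_sup.1 hv
    rw [map_add]
    exact Submodule.add_mem_sup (hAinv a ha) (hBinv b hb)
  · have h8 := Submodule.finrank_sup_add_finrank_inf_eq A B
    rw [h7, finrank_bot] at h8
    omega

include hq hrp hr2 hf hy hiso in
/-- Nondegenerate invariant subspaces of dimension a multiple of the block dimension. -/
theorem exists_multi_block : ∀ (e : ℕ) (W₀ : Submodule F V), (∀ v ∈ W₀, y v ∈ W₀) → NDOn f W₀ →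
    e * cOf (orderOf (q : ZMod r)) ≤ finrank F W₀ →
    ∃ B : Submodule F V, B ≤ W₀ ∧ (∀ v ∈ B, y v ∈ B) ∧ NDOn f B ∧ finrank F B = e * cOf (orderOf (q : ZMod r)) := by
  intro e
  induction e with
  | zero =>
    intro W₀ _ _ _
    refine ⟨⊥, bot_le, fun v hv => ?_, fun u hu hne => absurd ((Submodule.mem_bot F).1 hu) hne, ?_⟩
    · rw [(Submodule.mem_bot F).1 hv, map_zero]; exact Submodule.zero_mem _
    · rw [finrank_bot, zero_mul]
  | succ e ih =>
    intro W₀ h₀ hnd hc
    have hc1 : cOf (orderOf (q : ZMod r)) ≤ finrank F W₀ := by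
      have : e * cOf (orderOf (q : ZMod r)) + cOf (orderOf (q : ZMod r)) = (e + 1) * cOf (orderOf (q : ZMod r)) := by ring
      omega
    obtain ⟨A, hA1, hA2, hA3, hA4⟩ := exists_block_in (p := p) hq hrp hr2 hf hy hiso h₀ hnd hc1
    obtain ⟨h1, _, _⟩ := rel_perp hf hA3 hA1 hnd
    have h2 := finrank_rel_perp hf hA3 hA1 hnd
    obtain ⟨B, hB1, hB2, hB3, hB4⟩ := ih _ (rel_perp_inv hf hiso hA2 h₀) h1 (by
      rw [h2, hA4]
      have : (e + 1) * cOf (orderOf (q : ZMod r)) = e * cOf (orderOf (q : ZMod r)) + cOf (orderOf (q : ZMod r)) := by ring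
      omega)
    obtain ⟨h5, h6, h7, h8⟩ := orth_sup hf hA3 hA1 hA2 hB3 hB1 hB2
    refine ⟨A ⊔ B, h5, h6, h7, ?_⟩
    rw [h8, hA4, hB4]
    ring

include hq hrp hr2 hf hy hiso in
/-- Existence of nondegenerate invariant subspaces. -/
theorem exists_inv_nd {W₀ : Submodule F V} (h₀ : ∀ v ∈ W₀, y v ∈ W₀) (hnd : NDOn f W₀) (m : ℕ) (hm : m ≤ finrank F W₀) (hev : Even m)
    (hmod : m % cOf (orderOf (q : ZMod r)) ≤ finrank F (W₀ ⊓ LinearMap.ker (aeval y (X - C 1 : F[X])) : Submodule F V)) :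
    ∃ B : Submodule F V, B ≤ W₀ ∧ (∀ v ∈ B, y v ∈ B) ∧ NDOn f B ∧ finrank F B = m := by
  obtain ⟨c, hc⟩ : ∃ c, c = cOf (orderOf (q : ZMod r)) := ⟨_, rfl⟩
  rw [← hc] at hmod
  have hcev : Even c := by rw [hc]; exact cOf_even _
  have hlev : Even (m % c) := by
    have h1 := Nat.div_add_mod m c
    rw [← h1] at hev
    have h2 : Even (c * (m / c)) := hcev.mul_right _
    exact (Nat.even_add.1 hev).1 h2
  obtain ⟨e₀, he₀⟩ := hlev
  obtain ⟨A, hA1, hA2, hA3⟩ := exists_nd_sub hf e₀ _ (fix_nd_of_nd (p := p) hrp hf hy hiso h₀ hnd) (by omega)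
  have hAinv : ∀ v ∈ A, y v ∈ A := by
    intro v hv
    have h1 : y v = v := mem_ker_aeval_sub_one.1 (hA1 hv).2
    rw [h1]; exact hv
  have hAle : A ≤ W₀ := hA1.trans inf_le_left
  obtain ⟨h1, _, _⟩ := rel_perp hf hA2 hAle hnd
  have h2 := finrank_rel_perp hf hA2 hAle hnd
  have hdm := Nat.div_add_mod m c
  have hcomm : c * (m / c) = m / c * c := mul_comm _ _
  obtain ⟨B, hB1, hB2, hB3, hB4⟩ := exists_multi_block (p := p) hq hrp hr2 hf hy hiso (m / c) _ (rel_perp_inv hf hiso hAinv h₀) h1 (by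
    rw [h2, hA3, ← hc]
    omega)
  obtain ⟨h5, h6, h7, h8⟩ := orth_sup hf hA2 hAle hAinv hB3 hB1 hB2
  refine ⟨A ⊔ B, h5, h6, h7, ?_⟩
  rw [h8, hA3, hB4, ← hc]
  omega

include hq hrp hy hiso hf in
/-- Nondegenerate invariant subspaces have enough fixed vectors. -/
theorem mod_le_fix {W₀ : Submodule F V} (h₀ : ∀ v ∈ W₀, y v ∈ W₀) (hnd : NDOn f W₀) :
    finrank F W₀ % cOf (orderOf (q : ZMod r)) ≤ finrank F (W₀ ⊓ LinearMap.ker (aeval y (X - C 1 : F[X])) : Submodule F V) := by
  obtain ⟨e, he⟩ := c_dvd_of_nd (p := p) hq hrp hf hy hiso h₀ hnd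
  rw [he, Nat.add_mul_mod_self_right]
  exact Nat.mod_le _ _

end Blocks

section Glue

variable {F : Type*} [Field F] {V : Type u} [AddCommGroup V] [Module F V] {f : V → V → F}

/-- Gluing isometries along an orthogonal decomposition. -/
theorem glue_iso (hf : AForm f) {U U' : Submodule F V} (hc : IsCompl U U') (hperp : ∀ u ∈ U, ∀ v ∈ U', f u v = 0)
    (y₁ : Module.End F U) (y₂ : Module.End F U') (h₁ : ∀ a b : U, f (y₁ a) (y₁ b) = f a b)
    (h₂ : ∀ a b : U', f (y₂ a) (y₂ b) = f a b) :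
    ∃ y : Module.End F V, (∀ a : U, y a = y₁ a) ∧ (∀ b : U', y b = y₂ b) ∧ ∀ u v, f (y u) (y v) = f u v := by
  obtain ⟨y, hy⟩ : ∃ y, y = LinearMap.ofIsCompl hc (U.subtype ∘ₗ y₁) (U'.subtype ∘ₗ y₂) := ⟨_, rfl⟩
  have h1 : ∀ a : U, y a = y₁ a := by
    intro a
    rw [hy, LinearMap.ofIsCompl_left_apply]
    rfl
  have h2 : ∀ b : U', y b = y₂ b := by
    intro b
    rw [hy, LinearMap.ofIsCompl_right_apply]
    rfl
  refine ⟨y, h1, h2, ?_⟩
  intro u v
  have htop : ∀ w : V, ∃ a : U, ∃ b : U', w = a + b := by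
    intro w
    have h3 : w ∈ U ⊔ U' := by rw [hc.sup_eq_top]; trivial
    obtain ⟨a, ha, b, hb, rfl⟩ := Submodule.mem_sup.1 h3
    exact ⟨⟨a, ha⟩, ⟨b, hb⟩, rfl⟩
  obtain ⟨a, b, rfl⟩ := htop u
  obtain ⟨a', b', rfl⟩ := htop v
  have hp1 : ∀ (s : U) (t : U'), f s t = 0 := fun s t => hperp s s.2 t t.2
  have hp2 : ∀ (s : U) (t : U'), f t s = 0 := fun s t => by rw [hf.skew, hp1, neg_zero]
  simp only [map_add, hf.add_left, hf.add_right, h1, h2, h₁, h₂, hp1, hp2, zero_add, add_zero]

theorem glue_pow {U U' : Submodule F V} (hc : IsCompl U U') {y : Module.End F V} {y₁ : Module.End F U} {y₂ : Module.End F U'}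
    (h1 : ∀ a : U, y a = y₁ a) (h2 : ∀ b : U', y b = y₂ b) {r : ℕ} (hy₁ : y₁ ^ r = 1) (hy₂ : y₂ ^ r = 1) : y ^ r = 1 := by
  have hk1 : ∀ (k : ℕ) (a : U), (y ^ k) a = (y₁ ^ k) a := by
    intro k
    induction k with
    | zero => simp
    | succ k ih =>
      intro a
      rw [pow_succ, Module.End.mul_apply, h1, ih, pow_succ, Module.End.mul_apply]
  have hk2 : ∀ (k : ℕ) (a : U'), (y ^ k) a = (y₂ ^ k) a := by
    intro k
    induction k with
    | zero => simp
    | succ k ih =>
      intro a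
      rw [pow_succ, Module.End.mul_apply, h2, ih, pow_succ, Module.End.mul_apply]
  apply LinearMap.ext
  intro w
  have h3 : w ∈ U ⊔ U' := by rw [hc.sup_eq_top]; trivial
  obtain ⟨a, ha, b, hb, rfl⟩ := Submodule.mem_sup.1 h3
  rw [map_add, hk1 r ⟨a, ha⟩, hk2 r ⟨b, hb⟩, hy₁, hy₂]
  rfl

theorem glue_fix [FiniteDimensional F V] {U U' : Submodule F V} (hc : IsCompl U U') {y : Module.End F V} {y₁ : Module.End F U} {y₂ : Module.End F U'}
    (h1 : ∀ a : U, y a = y₁ a) (h2 : ∀ b : U', y b = y₂ b) :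
    finrank F (LinearMap.ker (aeval y (X - C 1 : F[X]))) = finrank F (LinearMap.ker (aeval y₁ (X - C 1 : F[X]))) + finrank F (LinearMap.ker (aeval y₂ (X - C 1 : F[X]))) := by
  obtain ⟨A, hA⟩ : ∃ A, A = (LinearMap.ker (aeval y₁ (X - C 1 : F[X]))).map U.subtype := ⟨_, rfl⟩
  obtain ⟨B, hB⟩ : ∃ B, B = (LinearMap.ker (aeval y₂ (X - C 1 : F[X]))).map U'.subtype := ⟨_, rfl⟩
  have hker : ∀ {W : Submodule F V} {z : Module.End F W} (_ : ∀ a : W, y a = z a) (a : W), a ∈ LinearMap.ker (aeval z (X - C 1 : F[X])) ↔ y a = a := by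
    intro W z h a
    rw [LinearMap.mem_ker, h]
    simp only [map_sub, aeval_X, map_one, LinearMap.sub_apply, Module.End.one_apply, aeval_C, sub_eq_zero]
    exact Subtype.ext_iff
  have h3 : LinearMap.ker (aeval y (X - C 1 : F[X])) = A ⊔ B := by
    apply le_antisymm
    · intro w hw
      have hw' : y w = w := by
        simpa [sub_eq_zero] using hw
      have h3 : w ∈ U ⊔ U' := by rw [hc.sup_eq_top]; trivial
      obtain ⟨a, ha, b, hb, rfl⟩ := Submodule.mem_sup.1 h3
      have h4 := h1 ⟨a, ha⟩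
      have h5 := h2 ⟨b, hb⟩
      simp only at h4 h5
      rw [map_add, h4, h5] at hw'
      have h6 : ((y₁ ⟨a, ha⟩ : U) : V) - a = b - (y₂ ⟨b, hb⟩ : U') := by
        rw [sub_eq_sub_iff_add_eq_add, hw', add_comm]
      have h7 : ((y₁ ⟨a, ha⟩ : U) : V) - a = 0 := by
        apply (Submodule.disjoint_def.1 hc.disjoint)
        · exact U.sub_mem (y₁ ⟨a, ha⟩).2 ha
        · rw [h6]
          exact U'.sub_mem hb (y₂ ⟨b, hb⟩).2
      have h8 : b - ((y₂ ⟨b, hb⟩ : U') : V) = 0 := by rw [← h6]; exact h7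
      apply Submodule.add_mem_sup
      · rw [hA]
        refine ⟨⟨a, ha⟩, ?_, rfl⟩
        rw [SetLike.mem_coe, hker h1, h4]
        exact sub_eq_zero.1 h7
      · rw [hB]
        refine ⟨⟨b, hb⟩, ?_, rfl⟩
        rw [SetLike.mem_coe, hker h2, h5]
        exact (sub_eq_zero.1 h8).symm
    · apply sup_le
      · rw [hA]
        rintro _ ⟨a, ha, rfl⟩
        rw [SetLike.mem_coe, hker h1] at ha
        simpa [sub_eq_zero] using ha
      · rw [hB]
        rintro _ ⟨a, ha, rfl⟩
        rw [SetLike.mem_coe, hker h2] at ha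
        simpa [sub_eq_zero] using ha
  have h4 : A ⊓ B = ⊥ := by
    rw [eq_bot_iff]
    rintro w ⟨h5, h6⟩
    have h7 : w ∈ U := by
      rw [hA] at h5
      obtain ⟨a, _, rfl⟩ := h5
      exact a.2
    have h8 : w ∈ U' := by
      rw [hB] at h6
      obtain ⟨a, _, rfl⟩ := h6
      exact a.2
    exact (Submodule.disjoint_def.1 hc.disjoint) w h7 h8
  have h5 := Submodule.finrank_sup_add_finrank_inf_eq A B
  rw [h4, finrank_bot, add_zero, ← h3] at h5
  rw [h5, hA, hB, Submodule.finrank_map_subtype_eq, Submodule.finrank_map_subtype_eq]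

end Glue

end Cfsg.Agent.Lib.Geo
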