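import Mathlib
import Cfsg.Agent.Lib.Geo.ElusOm2
import Cfsg.Agent.Lib.Known3.QuadIso

set_option autoImplicit false

/-! Quadratic forms with a given alternating polar form in characteristic two: shifting a form by the
square of a linear functional, forms invariant under an involution. -/

namespace Cfsg.Agent.Lib.Geo

open Module Polynomial Matrix
open Cfsg.Agent.Lib.Classical.Witt Cfsg.Agent.Lib.Classical.Abs Cfsg.Agent.Lib.Classical
open Cfsg.Agent.Lib.Classical.Orth Cfsg.Agent.Lib.Known3.Spinor

local notation "P" => QuadraticMap.polarBilin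

section AS

variable {F : Type*} [Field F]

theorem char2_add_self (h2 : (2 : F) = 0) (a : F) : a + a = 0 := by
  rw [← two_mul, h2, zero_mul]

theorem char2_neg (h2 : (2 : F) = 0) (a : F) : -a = a := by
  have := char2_add_self h2 a
  exact neg_eq_of_add_eq_zero_left this

theorem char2_sub (h2 : (2 : F) = 0) (a b : F) : a - b = a + b := by
  rw [sub_eq_add_neg, char2_neg h2]

theorem char2_sq_add (h2 : (2 : F) = 0) (a b : F) : (a + b) * (a + b) = a * a + b * b := by
  linear_combination (a * b) * h2

theorem char2_sq_inj (h2 : (2 : F) = 0) {a b : F} (h : a * a = b * b) : a = b := by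
  have h1 : (a + b) * (a + b) = 0 := by
    rw [char2_sq_add h2, h, char2_add_self h2]
  have h3 : a + b = 0 := mul_self_eq_zero.1 h1
  rw [← char2_neg h2 b]
  exact eq_neg_of_add_eq_zero_left h3

/-- The Artin-Schreier map. -/
def asHom (h2 : (2 : F) = 0) : F →+ F where
  toFun e := e * e + e
  map_zero' := by simp
  map_add' a b := by
    rw [char2_sq_add h2]
    ring

theorem asHom_apply (h2 : (2 : F) = 0) (e : F) : asHom h2 e = e * e + e := rfl

variable [Fintype F]

theorem as_index (h2 : (2 : F) = 0) : (asHom h2).range.index = 2 := by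
  classical
  have hker : Nat.card (asHom h2).ker = 2 := by
    have e1 : ∀ e : F, e ∈ (asHom h2).ker ↔ e = 0 ∨ e = 1 := by
      intro e
      rw [AddMonoidHom.mem_ker, asHom_apply]
      constructor
      · intro h
        have h1 : e * (e + 1) = 0 := by linear_combination h
        rcases mul_eq_zero.1 h1 with h3 | h3
        · exact Or.inl h3
        · right
          rw [← char2_neg h2 1]
          exact eq_neg_of_add_eq_zero_left h3
      · rintro (rfl | rfl)
        · simp
        · simp only [mul_one]
          exact char2_add_self h2 1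
    have e2 : Nat.card (asHom h2).ker = Nat.card ({0, 1} : Finset F) := by
      apply Nat.card_congr
      refine Equiv.subtypeEquivRight (fun e => ?_)
      rw [e1]
      simp
    rw [e2, Nat.card_eq_fintype_card, Fintype.card_coe, Finset.card_pair zero_ne_one]
  have h1 := AddSubgroup.card_mul_index (asHom h2).range
  have h3 := AddSubgroup.card_mul_index (asHom h2).ker
  have h4 := AddSubgroup.index_ker (asHom h2)
  rw [h4, hker] at h3
  have hcpos : 0 < Nat.card (asHom h2).range := Nat.card_pos
  rw [← h3] at h1
  exact Nat.eq_of_mul_eq_mul_left hcpos (by rw [h1]; ring)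

theorem as_add (h2 : (2 : F) = 0) {a b : F} (ha : a ∉ (asHom h2).range) (hb : b ∉ (asHom h2).range) :
    a + b ∈ (asHom h2).range := by
  rw [AddSubgroup.add_mem_iff_of_index_two (as_index h2)]
  exact iff_of_false ha hb

theorem as_exists_not (h2 : (2 : F) = 0) : ∃ a, a ∉ (asHom h2).range := by
  by_contra hcon
  push Not at hcon
  have htop : (asHom h2).range = ⊤ := by
    rw [eq_top_iff]
    intro a _
    exact hcon a
  have := as_index h2
  rw [htop, AddSubgroup.index_top] at this
  omega

/-- Square roots in characteristic two. -/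
theorem rt_exists (h2 : (2 : F) = 0) : ∃ rt : F → F, (∀ a, rt a * rt a = a) ∧
    (∀ a b, rt (a + b) = rt a + rt b) ∧ (∀ c a, rt (c * c * a) = c * rt a) := by
  classical
  choose rt hrt using exists_sq_of_two_eq_zero (F := F) h2
  refine ⟨rt, hrt, ?_, ?_⟩
  · intro a b
    apply char2_sq_inj h2
    rw [hrt, char2_sq_add h2, hrt, hrt]
  · intro c a
    apply char2_sq_inj h2
    rw [hrt]
    calc c * c * a = c * c * (rt a * rt a) := by rw [hrt]
      _ = _ := by ring

end AS

section Forms

variable {F V : Type*} [Field F] [AddCommGroup V] [Module F V] [FiniteDimensional F V] {Q : QuadraticForm F V}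

/-- The form shifted by the square of a linear functional. -/
noncomputable def Qshift (Q : QuadraticForm F V) (u : V) : QuadraticForm F V :=
  Q + QuadraticMap.linMulLin ((P Q).flip u) ((P Q).flip u)

theorem Qshift_apply (u v : V) : Qshift Q u v = Q v + P Q v u * P Q v u := by
  simp [Qshift]

theorem Qshift_polar (h2 : (2 : F) = 0) (u a b : V) : P (Qshift Q u) a b = P Q a b := by
  have h1 := Q_add (Qshift Q u) a b
  have h3 := Q_add Q a b
  rw [Qshift_apply, Qshift_apply, Qshift_apply] at h1
  simp only [map_add, LinearMap.add_apply] at h1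
  rw [char2_sq_add h2, h3] at h1
  linear_combination -h1

theorem Qshift_nondeg (h2 : (2 : F) = 0) (hQ : (P Q).Nondegenerate) (u : V) : (P (Qshift Q u)).Nondegenerate := by
  have : P (Qshift Q u) = P Q := by
    ext a b
    exact Qshift_polar h2 u a b
  rw [this]
  exact hQ

/-- A symplectic transvection shifting the form. -/
theorem exists_transv_form (h2 : (2 : F) = 0) (u : V) {c : F} (hc : c * c * Q u + c = 1) :
    ∃ g : V ≃ₗ[F] V, ∀ v, Q (g v) = Qshift Q u v := by
  have huu : P Q u u = 0 := pol_self_two h2 u
  let L : V →ₗ[F] V := LinearMap.id + ((c • (P Q).flip u).smulRight u)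
  have hL : ∀ v, L v = v + (c * P Q v u) • u := by
    intro v
    simp [L]
  have hinv : ∀ v, L (L v) = v := by
    intro v
    rw [hL, hL]
    simp only [map_add, map_smul, LinearMap.add_apply, LinearMap.smul_apply, huu, smul_eq_mul, mul_zero, add_zero]
    rw [add_assoc, ← add_smul, char2_add_self h2, zero_smul, add_zero]
  refine ⟨LinearEquiv.ofInvolutive L hinv, fun v => ?_⟩
  show Q (L v) = _
  rw [hL, Q_add, Q_smul, Qshift_apply]
  simp only [map_smul, smul_eq_mul]
  linear_combination (P Q v u * P Q v u) * hc

variable [Fintype F]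

/-- Forms invariant under an involution preserving the polar form. -/
theorem inv_form_exists (h2 : (2 : F) = 0) (hQ : (P Q).Nondegenerate) (x : V →ₗ[F] V)
    (hx : ∀ a b, P Q (x a) (x b) = P Q a b) (hx2 : ∀ v, x (x v) = v) :
    ∃ t, ∀ v, Q (x v - v) + P Q v (x v - v) = P Q (x v - v) t * P Q (x v - v) t := by
  classical
  obtain ⟨rt, hrt, hadd, hmul⟩ := rt_exists (F := F) h2
  have hf := polar_aform h2 hQ
  let N : V →ₗ[F] V := x - LinearMap.id
  have hN : ∀ v, N v = x v - v := fun v => rfl
  have hself : ∀ a b, P Q (N a) b = P Q a (N b) := by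
    intro a b
    have h1 : P Q (x a) b = P Q a (x b) := by
      rw [← hx (x a) b, hx2]
    rw [hN, hN]
    simp only [map_sub, LinearMap.sub_apply, h1]
  have hNN2 : ∀ b, N (N b) = 0 := by
    intro b
    rw [hN, hN, map_sub, hx2]
    have h3 : b - x b = -(x b - b) := by abel
    rw [h3, ← neg_add', ← two_smul F (x b - b), h2, zero_smul, neg_zero]
  have hNN : ∀ a b, P Q (N a) (N b) = 0 := by
    intro a b
    rw [hself, hNN2, map_zero]
  have hrt0 : rt 0 = 0 := by
    have := hrt 0
    exact mul_self_eq_zero.1 this
  let ψ : V →ₗ[F] F :=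
    { toFun := fun v => rt (Q (N v) + P Q v (N v))
      map_add' := by
        intro a b
        rw [← hadd, map_add, Q_add, hNN, add_zero]
        congr 1
        have h3 : P Q b (N a) = P Q a (N b) := by
          rw [pol_comm, hself]
        simp only [map_add, LinearMap.add_apply, h3]
        linear_combination (P Q a (N b)) * h2
      map_smul' := by
        intro c a
        simp only [map_smul, smul_eq_mul, LinearMap.smul_apply, RingHom.id_apply]
        rw [Q_smul, ← hmul]
        congr 1
        ring }
  have hψ : ∀ v, ψ v = rt (Q (N v) + P Q v (N v)) := fun v => rfl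
  let z : V := (hf.toBilin.toDual hf.toBilin_nondeg).symm ψ
  have hz : ∀ v, P Q z v = ψ v := fun v =>
    LinearMap.BilinForm.apply_toDual_symm_apply (hB := hf.toBilin_nondeg) ψ v
  have hrange : aperp hf (LinearMap.ker N) = LinearMap.range N := by
    symm
    apply Submodule.eq_of_le_of_finrank_eq
    · rintro _ ⟨a, rfl⟩
      refine mem_aperp.2 (fun k hk => ?_)
      show P Q (N a) k = 0
      rw [hself, LinearMap.mem_ker.1 hk, map_zero]
    · rw [finrank_aperp hf]
      have := LinearMap.finrank_range_add_finrank_ker N
      omega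
  have hzm : z ∈ LinearMap.range N := by
    rw [← hrange]
    refine mem_aperp.2 (fun k hk => ?_)
    show P Q z k = 0
    rw [hz, hψ, LinearMap.mem_ker.1 hk]
    simp [hrt0]
  obtain ⟨t, ht⟩ := hzm
  refine ⟨t, fun v => ?_⟩
  have h5 : P Q (x v - v) t = ψ v := by
    rw [← hN, hself, ht, pol_comm, hz]
  rw [h5, hψ, hrt, hN]

/-- Invariance of shifted forms. -/
theorem shift_inv (h2 : (2 : F) = 0) (x : V →ₗ[F] V)
    (hx : ∀ a b, P Q (x a) (x b) = P Q a b) (hx2 : ∀ v, x (x v) = v) {t s : V}
    (ht : ∀ v, Q (x v - v) + P Q v (x v - v) = P Q (x v - v) t * P Q (x v - v) t) (hs : x s = s) (v : V) :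
    Qshift Q (t + s) (x v) = Qshift Q (t + s) v := by
  have hself : ∀ a b, P Q (x a - a) b = P Q a (x b - b) := by
    intro a b
    have h1 : P Q (x a) b = P Q a (x b) := by
      rw [← hx (x a) b, hx2]
    simp only [map_sub, LinearMap.sub_apply, h1]
  have h1 : x v = v + (x v - v) := by abel
  have h3 : P Q (x v - v) (t + s) = P Q (x v - v) t := by
    rw [map_add, hself v s, hs, sub_self, map_zero, add_zero]
  have h4 : Qshift Q (t + s) (x v - v) = P Q v (x v - v) := by
    rw [Qshift_apply, h3, ← ht]
    linear_combination (Q (x v - v)) * h2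
  conv_lhs => rw [h1]
  rw [Q_add, h4, Qshift_polar h2]
  linear_combination (P Q v (x v - v)) * h2

/-- The main construction: an involution preserving the polar form preserves a form of the type of `Q`,
when `Q` has a totally singular subspace of half dimension or the half dimension is odd. -/
theorem exists_conj_form (h2 : (2 : F) = 0) (hQ : (P Q).Nondegenerate) {d : ℕ} (hV : finrank F V = 2 * d)
    (hcase : (∃ U : Submodule F V, finrank F U = d ∧ ∀ u ∈ U, Q u = 0) ∨ Odd d) (x : V →ₗ[F] V)
    (hx : ∀ a b, P Q (x a) (x b) = P Q a b) (hx2 : ∀ v, x (x v) = v) :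
    ∃ g : V ≃ₗ[F] V, (∀ a b, P Q (g a) (g b) = P Q a b) ∧ ∀ v, Q (g (x (g.symm v))) = Q v := by
  classical
  obtain ⟨rt, hrt, hadd, hmul⟩ := rt_exists (F := F) h2
  obtain ⟨t, ht⟩ := inv_form_exists h2 hQ x hx hx2
  have key : ∃ u, (∀ v, Qshift Q u (x v) = Qshift Q u v) ∧ ∃ g : V ≃ₗ[F] V, ∀ v, Q (g v) = Qshift Q u v := by
    by_cases hex : ∃ s, x s = s ∧ Q (t + s) ∈ (asHom h2).range
    · obtain ⟨s, hs, e, he⟩ := hex
      refine ⟨t + s, fun v => shift_inv h2 x hx hx2 ht hs v, ?_⟩
      rw [asHom_apply] at he
      by_cases hu : Q (t + s) = 0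
      · exact exists_transv_form h2 (t + s) (c := 1) (by rw [hu]; ring)
      · have he0 : e ≠ 0 := by
          rintro rfl
          apply hu
          rw [← he]
          ring
        refine exists_transv_form h2 (t + s) (c := e / Q (t + s)) ?_
        field_simp
        rw [← he]
        ring
    · push Not at hex
      have hQt : Q t ∉ (asHom h2).range := by
        have := hex 0 (map_zero x)
        rwa [add_zero] at this
      have hvan : ∀ s, x s = s → Qshift Q t s = 0 := by
        intro s hs
        obtain ⟨a₀, ha₀⟩ := as_exists_not (F := F) h2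
        have hstep : ∀ c : F, c * c * Q s + c * P Q t s ∈ (asHom h2).range := by
          intro c
          have h3 : x (c • s) = c • s := by rw [map_smul, hs]
          have h4 := hex _ h3
          have h5 := as_add h2 hQt h4
          have h6 : Q t + Q (t + c • s) = c * c * Q s + c * P Q t s := by
            rw [Q_add, Q_smul, map_smul, smul_eq_mul]
            linear_combination (Q t) * h2
          rwa [h6] at h5
        have hb : rt (Q s) + P Q t s = 0 := by
          by_contra hne
          apply ha₀
          have h3 := hstep (a₀ / (rt (Q s) + P Q t s))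
          set c := a₀ / (rt (Q s) + P Q t s) with hc
          have h4 : c * c * Q s + c * P Q t s = asHom h2 (c * rt (Q s)) + a₀ := by
            rw [asHom_apply]
            have h5 : c * (rt (Q s) + P Q t s) = a₀ := by
              rw [hc]
              field_simp
            have h6 : (c * rt (Q s)) * (c * rt (Q s)) = c * c * Q s := by
              calc _ = c * c * (rt (Q s) * rt (Q s)) := by ring
                _ = _ := by rw [hrt]
            rw [h6, ← h5]
            linear_combination - (c * rt (Q s)) * h2
          rw [h4] at h3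
          have h5 : asHom h2 (c * rt (Q s)) ∈ (asHom h2).range := ⟨_, rfl⟩
          exact (AddSubgroup.add_mem_cancel_left _ h5).1 h3
        have hb' : rt (Q s) = P Q t s := by
          rw [← char2_neg h2 (P Q t s)]
          exact eq_neg_of_add_eq_zero_left hb
        rw [Qshift_apply, pol_comm Q s t, ← hb', hrt]
        exact char2_add_self h2 _
      have hQt' := Qshift_nondeg h2 hQ t
      have hinv : ∀ v, Qshift Q t (x v) = Qshift Q t v := by
        intro v
        have := shift_inv h2 x hx hx2 ht (s := 0) (map_zero x) v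
        rwa [add_zero] at this
      let gx : OG (Qshift Q t) := ⟨LinearEquiv.ofInvolutive x hx2, fun u _ => hinv u⟩
      have hgx : ∀ v, gx.1 v = x v := fun v => rfl
      obtain ⟨hd1, hev⟩ := OG_inv_ts_parity h2 hQt' gx (fun v => hx2 v)
        (fun v hv => hvan v (mem_Kg.1 hv))
      have hKd : finrank F (Kg gx) = d := by omega
      refine ⟨t, hinv, ?_⟩
      rcases hcase with ⟨U, hU, hUs⟩ | hodd
      · obtain ⟨θ, hθ⟩ := Cfsg.Agent.Lib.Known3.QuadIso.isometry_plus_of_ts hV Q hQ U hU hUs
        obtain ⟨θ', hθ'⟩ := Cfsg.Agent.Lib.Known3.QuadIso.isometry_plus_of_ts hV (Qshift Q t) hQt' (Kg gx) hKd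
          (fun v hv => hvan v (mem_Kg.1 hv))
        refine ⟨θ'.trans θ.symm, fun v => ?_⟩
        rw [← hθ, ← hθ']
        simp
      · rw [hKd] at hev
        exact absurd hev (Nat.not_even_iff_odd.2 hodd)
  obtain ⟨u, hu, g, hg⟩ := key
  refine ⟨g, ?_, fun v => ?_⟩
  · intro a b
    have h1 := Q_add Q (g a) (g b)
    rw [← map_add, hg, hg, hg] at h1
    have h3 := Q_add (Qshift Q u) a b
    rw [Qshift_polar h2] at h3
    linear_combination h3 - h1
  · rw [hg, hu, ← hg, g.apply_symm_apply]

end Forms

end Cfsg.Agent.Lib.Geo
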