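import Mathlib
import Cfsg.Agent.Lib.Geo.ElusSpBlock
import Cfsg.Agent.Lib.Geo.ElusPermGen
import Cfsg.Agent.Lib.Classical.OrderAlt
import Cfsg.Agent.Lib.Classical.Symplectic

set_option autoImplicit false

/-! Elements of odd prime order of symplectic groups: models and the passage to matrices. -/

namespace Cfsg.Agent.Lib.Geo

open Polynomial Module
open Cfsg.Agent.Lib.Classical.Abs (isoG mem_isoG)

universe u

section Models

variable {F : Type*} [Field F] [Fintype F] {p : ℕ} [Fact p.Prime] [CharP F p] {q : ℕ}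
  (hq : Fintype.card F = q) {r : ℕ} [hr : Fact r.Prime] (hrp : r ≠ p)

include hq in
theorem card_isoG_aform {V : Type u} [AddCommGroup V] [Module F V] [FiniteDimensional F V] {f : V → V → F} (hf : AForm f)
    (m : ℕ) (hV : finrank F V = 2 * m) :
    Nat.card (isoG f) = q ^ (m ^ 2) * ∏ j ∈ Finset.range m, (q ^ (2 * (j + 1)) - 1) :=
  Cfsg.Agent.Lib.Classical.Abs.card_isoG_alt q hq m V hf.toBilin hf.toBilin_nondeg hf.toBilin_alt hV

include hq hrp in
/-- Primes dividing the order of the isometry group. -/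
theorem cOf_le_of_dvd_card {V : Type u} [AddCommGroup V] [Module F V] [FiniteDimensional F V] {f : V → V → F} (hf : AForm f)
    (h : r ∣ Nat.card (isoG f)) (d : ℕ) (hV : finrank F V = 2 * d) : cOf (orderOf (q : ZMod r)) ≤ 2 * d := by
  have hq1 : 1 ≤ q := by rw [← hq]; exact Fintype.card_pos
  rw [card_isoG_aform hq hf d hV] at h
  rcases (Nat.Prime.dvd_mul hr.out).1 h with h3 | h3
  · exfalso
    have h4 := hr.out.dvd_of_dvd_pow h3
    obtain ⟨f, hpos, hf⟩ := FiniteField.card F p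
    rw [← hq, hf] at h4
    have h5 := hr.out.dvd_of_dvd_pow h4
    exact hrp ((Nat.prime_dvd_prime_iff_eq hr.out Fact.out).1 h5)
  · obtain ⟨j, hj, hj2⟩ := (hr.out.prime.dvd_finset_prod_iff _).1 h3
    have h4 := (order_dvd_iff hq1).1 hj2
    have h5 := cOf_dvd h4 (even_two_mul _)
    have h6 := Nat.le_of_dvd (by omega) h5
    have := Finset.mem_range.1 hj
    omega

include hq hrp in
/-- A model of an element without fixed vectors on a space of the block dimension. -/
theorem exists_block_model {V : Type u} [AddCommGroup V] [Module F V] [FiniteDimensional F V] {f : V → V → F} (hf : AForm f)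
    (hV : finrank F V = cOf (orderOf (q : ZMod r))) :
    ∃ y : V →ₗ[F] V, y ^ r = 1 ∧ (∀ u v, f (y u) (y v) = f u v) ∧ LinearMap.ker (aeval y (X - C 1 : F[X])) = ⊥ := by
  have hq1 : 1 ≤ q := by rw [← hq]; exact Fintype.card_pos
  have hipos := order_pos (p := p) hq hrp
  have hcpos := cOf_pos hipos
  obtain ⟨m, hm⟩ := cOf_even (orderOf (q : ZMod r))
  have hcard := card_isoG_aform hq hf m (by omega)
  have hdvd : r ∣ Nat.card (isoG f) := by
    rw [hcard]
    apply Dvd.dvd.mul_left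
    refine Dvd.dvd.trans ?_ (Finset.dvd_prod_of_mem _ (Finset.mem_range.2 (show m - 1 < m by omega)))
    have h1 : 2 * (m - 1 + 1) = cOf (orderOf (q : ZMod r)) := by omega
    rw [h1]
    exact (order_dvd_iff hq1).2 (dvd_cOf _)
  haveI : Finite V := Module.finite_of_finite F
  haveI : Finite (V ≃ₗ[F] V) := Finite.of_injective (fun e => (e : V → V)) DFunLike.coe_injective
  obtain ⟨x, hx⟩ := exists_prime_orderOf_dvd_card' r hdvd
  obtain ⟨y, hy⟩ : ∃ y : V →ₗ[F] V, y = ((x.1 : V ≃ₗ[F] V) : V →ₗ[F] V) := ⟨_, rfl⟩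
  have hyv : ∀ v, y v = x.1 v := fun v => by rw [hy]; rfl
  have hpow : ∀ (k : ℕ) v, (y ^ k) v = (x ^ k).1 v := by
    intro k
    induction k with
    | zero => simp
    | succ k ih =>
      intro v
      rw [pow_succ, Module.End.mul_apply, ih, pow_succ, hyv]
      rfl
  have hy1 : y ^ r = 1 := by
    apply LinearMap.ext
    intro v
    rw [hpow, ← hx, pow_orderOf_eq_one]
    rfl
  have hiso : ∀ u v, f (y u) (y v) = f u v := by
    intro u v
    rw [hyv, hyv]
    exact x.2 u v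
  refine ⟨y, hy1, hiso, ?_⟩
  obtain ⟨e, he⟩ := c_dvd_top (p := p) hq hrp hf hy1 hiso
  rw [hV] at he
  obtain ⟨c, hc⟩ : ∃ c, c = cOf (orderOf (q : ZMod r)) := ⟨_, rfl⟩
  rw [← hc] at he hcpos
  by_cases he0 : e = 0
  · exfalso
    rw [he0, zero_mul, add_zero] at he
    have htop : LinearMap.ker (aeval y (X - C 1 : F[X])) = ⊤ := by
      apply Submodule.eq_top_of_finrank_eq
      rw [hV, ← hc, he]
    have hxone : x = 1 := by
      apply Subtype.ext
      apply LinearEquiv.ext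
      intro v
      have h1 : v ∈ LinearMap.ker (aeval y (X - C 1 : F[X])) := by rw [htop]; trivial
      rw [← hyv]
      exact mem_ker_aeval_sub_one.1 h1
    rw [hxone, orderOf_one] at hx
    exact hr.out.one_lt.ne hx
  · apply Submodule.finrank_eq_zero.1
    have h2 : c ≤ e * c := Nat.le_mul_of_pos_left _ (Nat.pos_of_ne_zero he0)
    omega

include hq hrp in
/-- A model with prescribed fixed space. -/
theorem exists_sp_model : ∀ (s : ℕ) (V : Type u) [AddCommGroup V] [Module F V] [FiniteDimensional F V] {f : V → V → F} (_ : AForm f),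
    s * cOf (orderOf (q : ZMod r)) ≤ finrank F V →
    ∃ y : V →ₗ[F] V, y ^ r = 1 ∧ (∀ u v, f (y u) (y v) = f u v) ∧
      finrank F (LinearMap.ker (aeval y (X - C 1 : F[X]))) = finrank F V - s * cOf (orderOf (q : ZMod r)) := by
  intro s
  induction s with
  | zero =>
    intro V _ _ _ f hf _
    refine ⟨1, one_pow _, fun u v => rfl, ?_⟩
    have h1 : aeval (1 : V →ₗ[F] V) (X - C 1 : F[X]) = 0 := by simp
    rw [h1, LinearMap.ker_zero, finrank_top]
    simp
  | succ s ih =>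
    intro V _ _ _ f hf hs
    obtain ⟨c, hc⟩ : ∃ c, c = cOf (orderOf (q : ZMod r)) := ⟨_, rfl⟩
    rw [← hc] at hs ih ⊢
    have hs' : (s + 1) * c = s * c + c := by ring
    obtain ⟨e, he⟩ : ∃ e, c = e + e := by
      rw [hc]; exact cOf_even _
    have hndtop : NDOn f (⊤ : Submodule F V) := fun u _ hne =>
      let ⟨b, hb⟩ := hf.nd u hne
      ⟨b, trivial, hb⟩
    obtain ⟨U, _, hU2, hU3⟩ := exists_nd_sub hf e ⊤ hndtop (by rw [finrank_top]; omega)
    obtain ⟨h1, h2, h3⟩ := rel_perp hf hU2 le_top hndtop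
    rw [top_inf_eq] at h1 h2 h3
    have hcompl := compl_aperp hf hU2
    have hfin := finrank_aperp hf U
    obtain ⟨y₁, hy₁, hi₁, hk₁⟩ := exists_block_model (V := U) hq hrp (aform_on hf hU2) (by rw [hU3, ← hc]; omega)
    obtain ⟨y₂, hy₂, hi₂, hk₂⟩ := ih (aperp hf U) (aform_on hf h1) (by rw [hfin, hU3]; omega)
    have hperp : ∀ u ∈ U, ∀ v ∈ aperp hf U, f u v = 0 := by
      intro u hu v hv
      rw [hf.skew, hv u hu, neg_zero]
    obtain ⟨y, h4, h5, h6⟩ := glue_iso hf hcompl hperp y₁ y₂ hi₁ hi₂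
    refine ⟨y, glue_pow hcompl h4 h5 hy₁ hy₂, h6, ?_⟩
    rw [glue_fix hcompl h4 h5, hk₁, finrank_bot, hk₂, hfin, hU3]
    omega

end Models

section Bridge

variable {F : Type*} [Field F] {d : ℕ}

theorem sp_lin_pow (x : Matrix.symplecticGroup (Fin d) F) (k : ℕ) :
    Matrix.toLin' ((x ^ k : Matrix.symplecticGroup (Fin d) F) : Matrix (Fin d ⊕ Fin d) (Fin d ⊕ Fin d) F) =
      (Matrix.toLin' (x : Matrix (Fin d ⊕ Fin d) (Fin d ⊕ Fin d) F)) ^ k := by
  rw [SubmonoidClass.coe_pow, Matrix.toLin'_pow]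

theorem sp_iso (x : Matrix.symplecticGroup (Fin d) F) (u v : Fin d ⊕ Fin d → F) :
    Cfsg.sympForm d F (Matrix.toLin' (x : Matrix (Fin d ⊕ Fin d) (Fin d ⊕ Fin d) F) u) (Matrix.toLin' (x : Matrix (Fin d ⊕ Fin d) (Fin d ⊕ Fin d) F) v) =
      Cfsg.sympForm d F u v :=
  (Cfsg.Agent.Lib.Classical.mem_symplecticGroup_iff_preserves.1 x.2) u v

theorem sp_of_iso (y : Module.End F (Fin d ⊕ Fin d → F)) (h : ∀ u v, Cfsg.sympForm d F (y u) (y v) = Cfsg.sympForm d F u v) :
    ∃ x : Matrix.symplecticGroup (Fin d) F, Matrix.toLin' (x : Matrix (Fin d ⊕ Fin d) (Fin d ⊕ Fin d) F) = y := by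
  refine ⟨⟨LinearMap.toMatrix' y, ?_⟩, Matrix.toLin'_toMatrix' y⟩
  apply Cfsg.Agent.Lib.Classical.mem_symplecticGroup_iff_preserves.2
  intro u v
  rw [LinearMap.toMatrix'_mulVec, LinearMap.toMatrix'_mulVec]
  exact h u v

theorem toLin_smul_one {ι : Type*} [Fintype ι] [DecidableEq ι] (c : F) :
    Matrix.toLin' (c • (1 : Matrix ι ι F)) = c • (1 : Module.End F (ι → F)) := by
  apply LinearMap.ext
  intro v
  simp [Matrix.smul_mulVec]

/-- The scalar of a symplectic element of the centre. -/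
theorem sp_scalar_sq (hd : 1 ≤ d) {z : F} (h : ∀ u v, Cfsg.sympForm d F (z • u) (z • v) = Cfsg.sympForm d F u v) : z ^ 2 = 1 := by
  have hf := aform_sympForm d F
  haveI : Nonempty (Fin d) := ⟨⟨0, by omega⟩⟩
  have hne : ∃ u : Fin d ⊕ Fin d → F, u ≠ 0 := by
    refine ⟨fun _ => 1, ?_⟩
    intro h0
    have := congrFun h0 (Sum.inl ⟨0, by omega⟩)
    simp at this
  obtain ⟨u, hu⟩ := hne
  obtain ⟨v, hv⟩ := hf.nd u hu
  have h1 := h u v
  rw [hf.smul_left, hf.smul_right] at h1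
  have h2 : (z ^ 2 - 1) * Cfsg.sympForm d F u v = 0 := by linear_combination h1
  exact sub_eq_zero.1 ((mul_eq_zero.1 h2).resolve_right hv)

/-- Elements with scalar `r`-th power and `r` odd are, up to sign, of order dividing `r`. -/
theorem sp_reduce (hd : 1 ≤ d) (x : Matrix.symplecticGroup (Fin d) F) {r : ℕ} (hr : Odd r) {z : F}
    (hz : ((x ^ r : Matrix.symplecticGroup (Fin d) F) : Matrix (Fin d ⊕ Fin d) (Fin d ⊕ Fin d) F) = z • (1 : Matrix (Fin d ⊕ Fin d) (Fin d ⊕ Fin d) F)) :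
    ∃ y : Module.End F (Fin d ⊕ Fin d → F), y ^ r = 1 ∧ (∀ u v, Cfsg.sympForm d F (y u) (y v) = Cfsg.sympForm d F u v) ∧
      ∀ S : Submodule F (Fin d ⊕ Fin d → F), S.map (Matrix.toLin' (x : Matrix (Fin d ⊕ Fin d) (Fin d ⊕ Fin d) F)) = S.map y := by
  have hf := aform_sympForm d F
  obtain ⟨T, hT⟩ : ∃ T : Module.End F (Fin d ⊕ Fin d → F), T = Matrix.toLin' (x : Matrix (Fin d ⊕ Fin d) (Fin d ⊕ Fin d) F) := ⟨_, rfl⟩
  have hpow : T ^ r = z • (1 : Module.End F (Fin d ⊕ Fin d → F)) := by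
    rw [hT, ← sp_lin_pow, hz, toLin_smul_one]
  have hiso : ∀ u v, Cfsg.sympForm d F (T u) (T v) = Cfsg.sympForm d F u v := by
    intro u v
    rw [hT]
    exact sp_iso x u v
  have hz2 : z ^ 2 = 1 := by
    apply sp_scalar_sq hd
    intro u v
    have h1 := sp_iso (x ^ r) u v
    rw [sp_lin_pow, ← hT, hpow] at h1
    simpa using h1
  rw [← hT]
  rcases sq_eq_one_iff.1 hz2 with h1 | h1
  · refine ⟨T, ?_, hiso, fun S => rfl⟩
    rw [hpow, h1, one_smul]
  · refine ⟨-T, ?_, ?_, fun S => (Submodule.map_neg S T).symm⟩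
    · have h3 : (-T) ^ r = -(T ^ r) := hr.neg_pow T
      rw [h3, hpow, h1]
      apply LinearMap.ext
      intro v
      simp
    · intro u v
      simp only [LinearMap.neg_apply]
      have h2 : ∀ a : Fin d ⊕ Fin d → F, -a = (-1 : F) • a := fun a => by simp
      rw [h2 (T u), h2 (T v), hf.smul_left, hf.smul_right, hiso]
      ring

/-- Elements of odd order different from `1` are not scalar. -/
theorem sp_nonscalar (hd : 1 ≤ d) {r : ℕ} (hr : Odd r) {y : Module.End F (Fin d ⊕ Fin d → F)} (hy : y ^ r = 1) (hy1 : y ≠ 1)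
    (x : Matrix.symplecticGroup (Fin d) F) (hx : Matrix.toLin' (x : Matrix (Fin d ⊕ Fin d) (Fin d ⊕ Fin d) F) = y)
    (z : F) : (x : Matrix (Fin d ⊕ Fin d) (Fin d ⊕ Fin d) F) ≠ z • (1 : Matrix (Fin d ⊕ Fin d) (Fin d ⊕ Fin d) F) := by
  intro hxz
  have h1 : y = z • (1 : Module.End F (Fin d ⊕ Fin d → F)) := by
    rw [← hx, hxz, toLin_smul_one]
  have hz2 : z ^ 2 = 1 := by
    apply sp_scalar_sq hd
    intro u v
    have h2 := sp_iso x u v
    rw [hx, h1] at h2
    simpa using h2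
  have hz1 : z ^ r = 1 := by
    rw [h1, _root_.smul_pow, one_pow] at hy
    haveI : Nonempty (Fin d) := ⟨⟨0, by omega⟩⟩
    have h3 := congrArg (fun g : Module.End F (Fin d ⊕ Fin d → F) => g (fun _ => 1) (Sum.inl ⟨0, by omega⟩)) hy
    simpa using h3
  have hz3 : z = 1 := by
    obtain ⟨k, hk⟩ := hr
    rw [hk, pow_succ, pow_mul, hz2, one_pow, one_mul] at hz1
    exact hz1
  rw [hz3, one_smul] at h1
  exact hy1 h1

end Bridge

end Cfsg.Agent.Lib.Geo
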