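import Mathlib
import Cfsg.Agent.Lib.Geo.ElusSpO
import Cfsg.Agent.Lib.Geo.ElusSpTop
import Cfsg.Agent.Lib.Geo.SympMax
import Cfsg.Agent.Lib.Geo.QuadFn

set_option autoImplicit false

/-! Elements of prime order of `Sp_{2d}(q)`, `q` even, and the orthogonal subgroups. -/

namespace Cfsg.Agent.Lib.Geo

open Module Polynomial Matrix
open Cfsg.Agent.Lib.Classical.Witt Cfsg.Agent.Lib.Classical.Abs Cfsg.Agent.Lib.Classical
open Cfsg.Agent.Lib.Classical.Orth Cfsg.Agent.Lib.Known3.Spinor Cfsg.Agent.Lib.Known3.QuadIso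

local notation "P" => QuadraticMap.polarBilin

section Basic

variable {F : Type*} [Field F] {d : ℕ} {Q : (Fin d ⊕ Fin d → F) → F}

/-- The polar form of the plus form is the symplectic form in characteristic two. -/
theorem sympForm_eq_polar_plus (h2 : (2 : F) = 0) (u v : Fin d ⊕ Fin d → F) :
    Cfsg.sympForm d F u v = P (Qplus d F) u v := by
  rw [Cfsg.Agent.Lib.Known3.QuadIso.polar_Qplus]
  simp only [Cfsg.sympForm, dotProduct, Fintype.sum_sum_type, Matrix.J, Matrix.fromBlocks_mulVec]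
  simp only [Matrix.zero_mulVec, zero_add, add_zero, Matrix.neg_mulVec, Matrix.one_mulVec, Sum.elim_inl, Sum.elim_inr,
    Pi.neg_apply, Function.comp, mul_neg, Finset.sum_neg_distrib]
  rw [Finset.sum_add_distrib, char2_neg h2]

variable (hQ : Cfsg.Geo.IsNondegenerateQuadraticForm Q)
  (hQf : ∀ u v, QuadraticMap.polar Q u v = Cfsg.sympForm d F u v)

include hQf in
/-- Similarities in the symplectic group are isometries. -/
theorem Q_of_sim_sp (hd : 1 ≤ d) {g : GL (Fin d ⊕ Fin d) F} (hs : g ∈ Cfsg.spGL d F) (hg : g ∈ Cfsg.Geo.quadSimilarityGroup Q)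
    (v : Fin d ⊕ Fin d → F) : Q (act g v) = Q v := by
  obtain ⟨c, hc⟩ := hg
  have hc' : ∀ w, Q (act g w) = c * Q w := fun w => by rw [act_apply]; exact hc w
  have hf : ∀ a b, Cfsg.sympForm d F a b = c * Cfsg.sympForm d F a b := by
    intro a b
    have h1 := mem_spGL_iff.1 hs a b
    have h3 : QuadraticMap.polar Q (act g a) (act g b) = c * QuadraticMap.polar Q a b := by
      simp only [QuadraticMap.polar]
      rw [← map_add, hc', hc', hc']
      ring
    rw [hQf, hQf, h1] at h3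
    exact h3
  have hne : ∃ a b, Cfsg.sympForm d F a b ≠ 0 := by
    have hf' := aform_sympForm d F
    haveI : Nonempty (Fin d) := ⟨⟨0, by omega⟩⟩
    have h0 : (Pi.single (Sum.inl ⟨0, by omega⟩) 1 : Fin d ⊕ Fin d → F) ≠ 0 := by
      intro h
      have := congrFun h (Sum.inl ⟨0, by omega⟩)
      simp at this
    obtain ⟨b, hb⟩ := hf'.nd _ h0
    exact ⟨_, b, hb⟩
  obtain ⟨a, b, hab⟩ := hne
  have h1 : (c : F) = 1 := by
    have h3 := hf a b
    have h4 : ((c : F) - 1) * Cfsg.sympForm d F a b = 0 := by linear_combination -h3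
    exact sub_eq_zero.1 ((mul_eq_zero.1 h4).resolve_right hab)
  rw [hc', h1, one_mul]

include hQf in
/-- Isometries lie in the symplectic group. -/
theorem sp_of_Q_pres {g : GL (Fin d ⊕ Fin d) F} (h : ∀ v, Q (act g v) = Q v) : g ∈ Cfsg.spGL d F := by
  rw [mem_spGL_iff]
  intro a b
  rw [← hQf, ← hQf]
  simp only [QuadraticMap.polar]
  rw [← map_add, h, h, h]

/-- Element of `OG` from the conjugate. -/
theorem conj_to_OG (hd : 1 ≤ d) (hQf : ∀ u v, QuadraticMap.polar Q u v = Cfsg.sympForm d F u v)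
    {y : GL (Fin d ⊕ Fin d) F} (hs : y ∈ Cfsg.spGL d F) (hy : y ∈ Cfsg.Geo.quadSimilarityGroup Q) :
    ∃ g : OG (bundleQ hQ), g.1 = act y :=
  ⟨⟨act y, fun u _ => Q_of_sim_sp hQf hd hs hy u⟩, rfl⟩

end Basic

section Main

variable {F : Type*} [Field F] [Fintype F] {p : ℕ} [Fact p.Prime] [CharP F p] {q : ℕ}
  {d : ℕ} {Q : (Fin d ⊕ Fin d → F) → F}

/-- Conjugating an involution of the symplectic group into the orthogonal group. -/
theorem sp_inv_conj (h2 : (2 : F) = 0) (hd : 1 ≤ d) (hQ : Cfsg.Geo.IsNondegenerateQuadraticForm Q)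
    (hQf : ∀ u v, QuadraticMap.polar Q u v = Cfsg.sympForm d F u v)
    (hcase : Cfsg.Geo.IsPlusTypeOn Q ⊤ ∨ Odd d) (x : GL (Fin d ⊕ Fin d) F) (hx : x ∈ Cfsg.spGL d F)
    (hz : ∃ z : F, ((x ^ 2 : GL (Fin d ⊕ Fin d) F) : Matrix (Fin d ⊕ Fin d) (Fin d ⊕ Fin d) F) = z • (1 : Matrix (Fin d ⊕ Fin d) (Fin d ⊕ Fin d) F)) :
    ∃ g ∈ Cfsg.spGL d F, g⁻¹ * x * g ∈ Cfsg.Geo.quadSimilarityGroup Q := by
  classical
  obtain ⟨z, hz⟩ := hz
  have hact2 : ∀ v, act (x ^ 2) v = z • v := by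
    intro v
    rw [act_apply, hz, Matrix.smul_mulVec, Matrix.one_mulVec]
  have hz1 : z = 1 := by
    have h1 : z ^ 2 = 1 := sp_scalar_sq hd (fun u v => by
      have := mem_spGL_iff.1 (Subgroup.pow_mem _ hx 2) u v
      rwa [hact2, hact2] at this)
    have h3 : z * z = 1 * 1 := by rw [← pow_two, h1, mul_one]
    exact char2_sq_inj h2 h3
  have hV : finrank F (Fin d ⊕ Fin d → F) = 2 * d := by
    rw [finrank_fintype_fun_eq_card]
    simp
    ring
  have hB : ∀ u v, P (bundleQ hQ) u v = Cfsg.sympForm d F u v := by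
    intro u v
    rw [bundleQ_polar, hQf]
  let L : (Fin d ⊕ Fin d → F) →ₗ[F] (Fin d ⊕ Fin d → F) := (act x : (Fin d ⊕ Fin d → F) ≃ₗ[F] (Fin d ⊕ Fin d → F)).toLinearMap
  have hL : ∀ v, L v = act x v := fun v => rfl
  have hL2 : ∀ v, L (L v) = v := by
    intro v
    rw [hL, hL, ← LinearEquiv.mul_apply, ← map_mul, ← pow_two, hact2, hz1, one_smul]
  have hLf : ∀ a b, P (bundleQ hQ) (L a) (L b) = P (bundleQ hQ) a b := by
    intro a b
    rw [hB, hB, hL, hL]
    exact mem_spGL_iff.1 hx a b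
  have hc : (∃ U : Submodule F (Fin d ⊕ Fin d → F), finrank F U = d ∧ ∀ u ∈ U, bundleQ hQ u = 0) ∨ Odd d := by
    rcases hcase with ⟨U, -, hU, hU2⟩ | h
    · left
      refine ⟨U, ?_, fun u hu => hU u hu⟩
      rw [finrank_top, hV] at hU2
      omega
    · exact Or.inr h
  obtain ⟨g₀, h1, h3⟩ := exists_conj_form h2 (bundleQ_nondeg hQ) hV hc L hLf hL2
  refine ⟨(act.symm g₀)⁻¹, ?_, ?_⟩
  · apply Subgroup.inv_mem
    rw [mem_spGL_iff]
    intro a b
    have := h1 a b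
    rw [hB, hB] at this
    rw [MulEquiv.apply_symm_apply]
    exact this
  · refine ⟨1, fun v => ?_⟩
    rw [inv_inv, Units.val_one, one_mul, ← act_apply, map_mul, map_mul, map_inv, MulEquiv.apply_symm_apply]
    have h4 := h3 v
    exact h4

/-- The involution of type `a` gives a totally singular subspace. -/
theorem sp_a_type (h2 : (2 : F) = 0) (hd : 1 ≤ d) (heven : Even d) (hQ : Cfsg.Geo.IsNondegenerateQuadraticForm Q)
    (hQf : ∀ u v, QuadraticMap.polar Q u v = Cfsg.sympForm d F u v)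
    (hall : ∀ x ∈ Cfsg.spGL d F, (∃ z : F, ((x ^ 2 : GL (Fin d ⊕ Fin d) F) : Matrix (Fin d ⊕ Fin d) (Fin d ⊕ Fin d) F) = z • (1 : Matrix (Fin d ⊕ Fin d) (Fin d ⊕ Fin d) F)) →
      (∀ z : F, (x : Matrix (Fin d ⊕ Fin d) (Fin d ⊕ Fin d) F) ≠ z • (1 : Matrix (Fin d ⊕ Fin d) (Fin d ⊕ Fin d) F)) →
      ∃ g ∈ Cfsg.spGL d F, g⁻¹ * x * g ∈ Cfsg.Geo.quadSimilarityGroup Q) :
    Cfsg.Geo.IsPlusTypeOn Q ⊤ := by
  classical
  have hV : finrank F (Fin d ⊕ Fin d → F) = 2 * d := by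
    rw [finrank_fintype_fun_eq_card]
    simp
    ring
  obtain ⟨g₀, hg2, hK, hfix⟩ := plus_inv_model (F := F) h2 d heven
  let x : GL (Fin d ⊕ Fin d) F := act.symm g₀.1
  have hxa : ∀ v, act x v = g₀.1 v := fun v => by simp [x]
  have hxs : x ∈ Cfsg.spGL d F := by
    rw [mem_spGL_iff]
    intro a b
    rw [hxa, hxa, sympForm_eq_polar_plus h2, sympForm_eq_polar_plus h2]
    exact OG_polar g₀ a b
  have hx2 : x ^ 2 = 1 := by
    apply act.injective
    apply LinearEquiv.ext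
    intro v
    rw [map_pow, pow_two, LinearEquiv.mul_apply, hxa, hxa, hg2, map_one]
    rfl
  -- a nonzero vector moved
  have hns : ∀ z : F, (x : Matrix (Fin d ⊕ Fin d) (Fin d ⊕ Fin d) F) ≠ z • (1 : Matrix (Fin d ⊕ Fin d) (Fin d ⊕ Fin d) F) := by
    intro z hz
    have hz2 : ∀ v, g₀.1 v = z • v := by
      intro v
      rw [← hxa, act_apply, hz, Matrix.smul_mulVec, Matrix.one_mulVec]
    have hne : ∃ a b : Fin d ⊕ Fin d → F, Qplus d F (a + b) ≠ 0 := by
      refine ⟨Pi.single (Sum.inl ⟨0, by omega⟩) 1, Pi.single (Sum.inr ⟨0, by omega⟩) 1, ?_⟩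
      rw [Qplus_apply]
      simp only [Cfsg.quadFormPlus, Pi.add_apply]
      rw [Finset.sum_eq_single (⟨0, by omega⟩ : Fin d)]
      · simp
      · intro j _ hj
        simp [Pi.single_apply, hj]
      · simp
    obtain ⟨a, b, hab⟩ := hne
    have h1 : z = 1 := by
      have h3 := OG_pres g₀ (a + b)
      rw [hz2, Q_smul] at h3
      exact scalar_one_char2 h2 hab h3
    apply hab
    apply hfix
    rw [hz2, h1, one_smul]
  obtain ⟨g, hg, hy⟩ := hall x hxs ⟨1, by rw [hx2, one_smul, Units.val_one]⟩ hns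
  have hys : g⁻¹ * x * g ∈ Cfsg.spGL d F := Subgroup.mul_mem _ (Subgroup.mul_mem _ (Subgroup.inv_mem _ hg) hxs) hg
  obtain ⟨ŷ, hŷ⟩ := conj_to_OG hQ hd hQf hys hy
  have hŷa : ∀ v, ŷ.1 v = act g⁻¹ (g₀.1 (act g v)) := by
    intro v
    rw [hŷ, map_mul, map_mul, LinearEquiv.mul_apply, LinearEquiv.mul_apply, hxa]
  have hgg : ∀ v, act g⁻¹ (act g v) = v := by
    intro v
    rw [← LinearEquiv.mul_apply, ← map_mul, inv_mul_cancel, map_one]
    rfl
  have hgg' : ∀ v, act g (act g⁻¹ v) = v := by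
    intro v
    rw [← LinearEquiv.mul_apply, ← map_mul, mul_inv_cancel, map_one]
    rfl
  have hŷ2 : ∀ v, ŷ.1 (ŷ.1 v) = v := by
    intro v
    rw [hŷa, hŷa, hgg', hg2, hgg]
  -- the fixed space has dimension `d`
  have hmap : (Kg ŷ).map ((act g : (Fin d ⊕ Fin d → F) ≃ₗ[F] (Fin d ⊕ Fin d → F)) : (Fin d ⊕ Fin d → F) →ₗ[F] (Fin d ⊕ Fin d → F)) = Kg g₀ := by
    ext w
    constructor
    · rintro ⟨v, hv, rfl⟩
      rw [SetLike.mem_coe, mem_Kg] at hv
      rw [mem_Kg]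
      have h1 : act g⁻¹ (g₀.1 (act g v)) = v := by rw [← hŷa, hv]
      have h3 := congrArg (act g) h1
      rw [hgg'] at h3
      exact h3
    · intro hw
      refine ⟨act g⁻¹ w, ?_, hgg' w⟩
      rw [SetLike.mem_coe, mem_Kg, hŷa, hgg', mem_Kg.1 hw]
  have hKd : finrank F (Kg ŷ) = d := by
    have h1 : finrank F (Kg g₀) = finrank F (Kg ŷ) := by
      rw [← hmap, LinearEquiv.finrank_map_eq]
    rw [← h1, hK]
  have hR : Rg ŷ = Kg ŷ := by
    apply Submodule.eq_of_le_of_finrank_eq (OG_inv_range h2 ŷ hŷ2)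
    have := rk_add ŷ
    have h1 : rk ŷ = finrank F (Rg ŷ) := rfl
    omega
  refine ⟨Kg ŷ, le_top, ?_, by rw [finrank_top, hV, hKd]⟩
  intro w hw
  rw [← hR] at hw
  obtain ⟨a, rfl⟩ := hw
  show Q (ŷ.1 a - a) = 0
  have h1 : bundleQ hQ (ŷ.1 a - a) = bundleQ hQ (ŷ.1 a) + bundleQ hQ a - P (bundleQ hQ) (ŷ.1 a) a := Q_sub _ _
  have h3 : bundleQ hQ (ŷ.1 a) = bundleQ hQ a := OG_pres ŷ a
  rw [h3, ← two_mul, h2, zero_mul, zero_sub, char2_neg h2] at h1
  have h4 : P (bundleQ hQ) (ŷ.1 a) a = 0 := by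
    rw [bundleQ_polar, hQf, hŷa]
    have h5 := mem_spGL_iff.1 (Subgroup.inv_mem _ hg) (g₀.1 (act g a)) (act g a)
    rw [hgg] at h5
    rw [h5, sympForm_eq_polar_plus h2]
    -- the plus form on the image of `g₀ - 1`
    have h6 : Qplus d F (g₀.1 (act g a) - act g a) = 0 := by
      apply hfix
      have h7 := OG_inv_range h2 g₀ hg2 ⟨act g a, rfl⟩
      exact mem_Kg.1 h7
    have h7 : Qplus d F (g₀.1 (act g a) - act g a) = Qplus d F (g₀.1 (act g a)) + Qplus d F (act g a) - P (Qplus d F) (g₀.1 (act g a)) (act g a) := Q_sub _ _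
    have h8 : Qplus d F (g₀.1 (act g a)) = Qplus d F (act g a) := OG_pres g₀ _
    rw [h6, h8, ← two_mul, h2, zero_mul, zero_sub] at h7
    exact neg_eq_zero.1 h7.symm
  rw [h4] at h1
  exact h1

end Main

end Cfsg.Agent.Lib.Geo
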