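import Mathlib
import Cfsg.Agent.Lib.Geo.ElusSpO2

set_option autoImplicit false

/-! Elements of odd prime order of `Sp_{2d}(q)`, `q` even, and the orthogonal subgroups. -/

namespace Cfsg.Agent.Lib.Geo

open Module Polynomial Matrix
open Cfsg.Agent.Lib.Classical.Witt Cfsg.Agent.Lib.Classical.Abs Cfsg.Agent.Lib.Classical
open Cfsg.Agent.Lib.Classical.Orth Cfsg.Agent.Lib.Known3.Spinor Cfsg.Agent.Lib.Known3.QuadIso

local notation "P" => QuadraticMap.polarBilin

section Free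

variable {F V : Type*} [Field F] [AddCommGroup V] [Module F V] [Finite V]

/-- A fixed point free isometry of prime order acts freely on the nonzero singular vectors. -/
theorem free_zero_count (B : QuadraticForm F V) {r : ℕ} [hr : Fact r.Prime] (g : OG B) (hg : g ^ r = 1)
    (hf : ∀ v, g.1 v = v → v = 0) : r ∣ Nat.card {v : V // B v = 0} - 1 := by
  classical
  letI : Fintype V := Fintype.ofFinite V
  let S := {v : V // v ≠ 0 ∧ B v = 0}
  let f : Function.End S := fun v => ⟨g.1 v.1, fun h => v.2.1 (by simpa using h), by rw [OG_pres]; exact v.2.2⟩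
  have hfn : ∀ (n : ℕ) (v : S), ((f ^ n) v).1 = (g ^ n).1 v.1 := by
    intro n
    induction n with
    | zero => intro v; rfl
    | succ n ih =>
      intro v
      rw [pow_succ]
      show ((f ^ n) (f v)).1 = _
      rw [ih, pow_succ, Orth.mul_apply']
  have hf1 : f ^ r ^ 1 = 1 := by
    funext v
    apply Subtype.ext
    rw [pow_one, hfn, hg]
    rfl
  have h1 := Equiv.Perm.card_fixedPoints_modEq hf1
  have h2 : IsEmpty (Function.fixedPoints f) := by
    constructor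
    rintro ⟨v, hv⟩
    have h3 : g.1 v.1 = v.1 := congrArg Subtype.val hv
    exact v.2.1 (hf _ h3)
  rw [Fintype.card_eq_zero_iff.2 h2] at h1
  have h3 : r ∣ Fintype.card S := (Nat.modEq_zero_iff_dvd).1 h1
  have h4 : Fintype.card S = Nat.card {v : V // B v = 0} - 1 := by
    rw [Nat.card_eq_fintype_card, Fintype.card_subtype, Fintype.card_subtype]
    rw [← Finset.card_erase_of_mem (a := (0 : V)) (by simp)]
    congr 1
    ext v
    simp [and_comm]
  rwa [← h4]

end Free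

section Core

variable {F : Type*} [Field F] [Fintype F] {p : ℕ} [Fact p.Prime] [CharP F p] {q : ℕ}
  {d : ℕ} {Q : (Fin d ⊕ Fin d → F) → F}

/-- A fixed point free element of order `r` of the symplectic group conjugate into the orthogonal group. -/
theorem exists_free_OG (h2 : (2 : F) = 0) (hd : 1 ≤ d) (hQ : Cfsg.Geo.IsNondegenerateQuadraticForm Q)
    (hQf : ∀ u v, QuadraticMap.polar Q u v = Cfsg.sympForm d F u v) {r : ℕ} [hr : Fact r.Prime]
    (hall : ∀ x ∈ Cfsg.spGL d F, (∃ z : F, ((x ^ r : GL (Fin d ⊕ Fin d) F) : Matrix (Fin d ⊕ Fin d) (Fin d ⊕ Fin d) F) = z • (1 : Matrix (Fin d ⊕ Fin d) (Fin d ⊕ Fin d) F)) →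
      (∀ z : F, (x : Matrix (Fin d ⊕ Fin d) (Fin d ⊕ Fin d) F) ≠ z • (1 : Matrix (Fin d ⊕ Fin d) (Fin d ⊕ Fin d) F)) →
      ∃ g ∈ Cfsg.spGL d F, g⁻¹ * x * g ∈ Cfsg.Geo.quadSimilarityGroup Q)
    (y : (Fin d ⊕ Fin d → F) →ₗ[F] (Fin d ⊕ Fin d → F)) (hy : y ^ r = 1)
    (hyf : ∀ u v, Cfsg.sympForm d F (y u) (y v) = Cfsg.sympForm d F u v)
    (hker : finrank F (LinearMap.ker (aeval y (X - C 1 : F[X]))) = 0) :
    ∃ g : OG (bundleQ hQ), g ^ r = 1 ∧ ∀ v, g.1 v = v → v = 0 := by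
  classical
  have hr1 : 1 ≤ r := (Fact.out : r.Prime).one_lt.le
  have hyy : y ^ (r - 1) * y = 1 := by rw [← pow_succ, Nat.sub_add_cancel hr1, hy]
  have hyy' : y * y ^ (r - 1) = 1 := by rw [← pow_succ', Nat.sub_add_cancel hr1, hy]
  let E : (Fin d ⊕ Fin d → F) ≃ₗ[F] (Fin d ⊕ Fin d → F) := LinearEquiv.ofLinear y (y ^ (r - 1)) hyy' hyy
  have hE : ∀ v, E v = y v := fun v => rfl
  have hEn : ∀ n : ℕ, ∀ v, (E ^ n) v = (y ^ n) v := by
    intro n
    induction n with
    | zero => intro v; rfl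
    | succ n ih =>
      intro v
      rw [pow_succ, LinearEquiv.mul_apply, ih, pow_succ, Module.End.mul_apply, hE]
  let x : GL (Fin d ⊕ Fin d) F := act.symm E
  have hxa : ∀ v, act x v = y v := fun v => by simp [x, hE]
  have hxr : x ^ r = 1 := by
    apply act.injective
    apply LinearEquiv.ext
    intro v
    rw [map_pow, MulEquiv.apply_symm_apply, hEn, hy, map_one]
    rfl
  have hxs : x ∈ Cfsg.spGL d F := by
    rw [mem_spGL_iff]
    intro a b
    rw [hxa, hxa, hyf]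
  have hinj : ∀ v, y v = v → v = 0 := by
    intro v hv
    have h1 : v ∈ LinearMap.ker (aeval y (X - C 1 : F[X])) := mem_ker_aeval_sub_one.2 hv
    rw [Submodule.finrank_eq_zero.1 hker] at h1
    simpa using h1
  haveI : Nonempty (Fin d) := ⟨⟨0, by omega⟩⟩
  have hns : ∀ z : F, (x : Matrix (Fin d ⊕ Fin d) (Fin d ⊕ Fin d) F) ≠ z • (1 : Matrix (Fin d ⊕ Fin d) (Fin d ⊕ Fin d) F) := by
    intro z hz
    have hz2 : ∀ v, y v = z • v := by
      intro v
      rw [← hxa, act_apply, hz, Matrix.smul_mulVec, Matrix.one_mulVec]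
    have h1 : z ^ 2 = 1 := sp_scalar_sq hd (fun u v => by
      have := hyf u v
      rwa [hz2, hz2] at this)
    have h3 : z * z = 1 * 1 := by rw [← pow_two, h1, mul_one]
    have h4 : z = 1 := char2_sq_inj h2 h3
    have h0 : (Pi.single (Sum.inl ⟨0, by omega⟩) 1 : Fin d ⊕ Fin d → F) ≠ 0 := by
      intro h
      have := congrFun h (Sum.inl ⟨0, by omega⟩)
      simp at this
    apply h0
    apply hinj
    rw [hz2, h4, one_smul]
  obtain ⟨g, hg, hyq⟩ := hall x hxs ⟨1, by rw [hxr, one_smul, Units.val_one]⟩ hns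
  have hys : g⁻¹ * x * g ∈ Cfsg.spGL d F := Subgroup.mul_mem _ (Subgroup.mul_mem _ (Subgroup.inv_mem _ hg) hxs) hg
  obtain ⟨ŷ, hŷ⟩ := conj_to_OG hQ hd hQf hys hyq
  refine ⟨ŷ, ?_, ?_⟩
  · apply OG_ext
    intro v
    have h1 : ((ŷ ^ r : OG (bundleQ hQ)) : (Fin d ⊕ Fin d → F) ≃ₗ[F] (Fin d ⊕ Fin d → F)) = (ŷ.1) ^ r := by
      simp
    rw [h1, hŷ, ← map_pow]
    have h3 : (g⁻¹ * x * g) ^ r = 1 := by
      have := conj_pow (a := g⁻¹) (b := x) (i := r)
      rw [inv_inv] at this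
      rw [this, hxr]
      simp
    rw [h3, map_one]
    rfl
  · intro v hv
    rw [hŷ, map_mul, map_mul, LinearEquiv.mul_apply, LinearEquiv.mul_apply] at hv
    have h1 := congrArg (act g) hv
    rw [← LinearEquiv.mul_apply, ← map_mul, mul_inv_cancel, map_one, hxa] at h1
    have h3 := hinj _ h1
    simpa using h3

/-- The index of the orthogonal group in the symplectic group. -/
theorem sp_index_mul (hq : Fintype.card F = q) (hd : 1 ≤ d) (hQ : Cfsg.Geo.IsNondegenerateQuadraticForm Q)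
    (hQf : ∀ u v, QuadraticMap.polar Q u v = Cfsg.sympForm d F u v) :
    (Cfsg.Geo.quadSimilarityGroup Q).relIndex (Cfsg.spGL d F) * Nat.card (OG (bundleQ hQ)) =
      q ^ (d ^ 2) * ∏ j ∈ Finset.range d, (q ^ (2 * (j + 1)) - 1) := by
  classical
  have hV : finrank F (Fin d ⊕ Fin d → F) = 2 * d := by
    rw [finrank_fintype_fun_eq_card]
    simp
    ring
  have h1 := card_isoG_aform hq (aform_sympForm d F) d hV
  have h3 : Nat.card (Cfsg.spGL d F) = Nat.card (isoG (Cfsg.sympForm d F)) := by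
    apply Nat.card_congr
    exact Equiv.subtypeEquiv act.toEquiv (fun g => Iff.rfl)
  have h4 : Nat.card ((Cfsg.Geo.quadSimilarityGroup Q).subgroupOf (Cfsg.spGL d F)) = Nat.card (OG (bundleQ hQ)) := by
    apply Nat.card_congr
    refine
      { toFun := fun g => ⟨act g.1.1, fun u _ => Q_of_sim_sp hQf hd g.1.2 g.2 u⟩
        invFun := fun e => ⟨⟨act.symm e.1, ?_⟩, ?_⟩
        left_inv := ?_
        right_inv := ?_ }
    · apply sp_of_Q_pres hQf
      intro v
      have h9 : act (act.symm e.1) v = e.1 v := by rw [MulEquiv.apply_symm_apply]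
      rw [h9]
      exact OG_pres e v
    · refine ⟨1, fun v => ?_⟩
      have h9 : act (act.symm e.1) v = e.1 v := by rw [MulEquiv.apply_symm_apply]
      rw [Units.val_one, one_mul]
      show Q (act (act.symm e.1) v) = Q v
      rw [h9]
      exact OG_pres e v
    · intro g
      apply Subtype.ext
      apply Subtype.ext
      simp
    · intro e
      apply Subtype.ext
      simp
  have h5 := Subgroup.index_mul_card ((Cfsg.Geo.quadSimilarityGroup Q).subgroupOf (Cfsg.spGL d F))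
  rw [h4, h3, h1] at h5
  exact h5

/-- The diagonal element forces a totally singular half-dimensional subspace. -/
theorem diag_ts (h2 : (2 : F) = 0) (hd : 1 ≤ d) (hQ : Cfsg.Geo.IsNondegenerateQuadraticForm Q)
    (hQf : ∀ u v, QuadraticMap.polar Q u v = Cfsg.sympForm d F u v) {r : ℕ} [hr : Fact r.Prime]
    (hall : ∀ x ∈ Cfsg.spGL d F, (∃ z : F, ((x ^ r : GL (Fin d ⊕ Fin d) F) : Matrix (Fin d ⊕ Fin d) (Fin d ⊕ Fin d) F) = z • (1 : Matrix (Fin d ⊕ Fin d) (Fin d ⊕ Fin d) F)) →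
      (∀ z : F, (x : Matrix (Fin d ⊕ Fin d) (Fin d ⊕ Fin d) F) ≠ z • (1 : Matrix (Fin d ⊕ Fin d) (Fin d ⊕ Fin d) F)) →
      ∃ g ∈ Cfsg.spGL d F, g⁻¹ * x * g ∈ Cfsg.Geo.quadSimilarityGroup Q)
    {ζ : F} (hζ0 : ζ ≠ 0) (hζ1 : ζ ≠ 1) (hζr : ζ ^ r = 1) : Cfsg.Geo.IsPlusTypeOn Q ⊤ := by
  classical
  have hV : finrank F (Fin d ⊕ Fin d → F) = 2 * d := by
    rw [finrank_fintype_fun_eq_card]
    simp
    ring
  let δ : Fin d ⊕ Fin d → F := Sum.elim (fun _ => ζ) (fun _ => ζ⁻¹)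
  let δ' : Fin d ⊕ Fin d → F := Sum.elim (fun _ => ζ⁻¹) (fun _ => ζ)
  have hδ : ∀ j, δ j * δ' j = 1 := by
    rintro (j | j)
    · exact mul_inv_cancel₀ hζ0
    · exact inv_mul_cancel₀ hζ0
  let x : GL (Fin d ⊕ Fin d) F :=
    ⟨Matrix.diagonal δ, Matrix.diagonal δ',
      by rw [Matrix.diagonal_mul_diagonal, ← Matrix.diagonal_one]; congr 1; funext j; exact hδ j,
      by rw [Matrix.diagonal_mul_diagonal, ← Matrix.diagonal_one]; congr 1; funext j; rw [mul_comm]; exact hδ j⟩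
  have hxa : ∀ v j, act x v j = δ j * v j := by
    intro v j
    rw [act_apply]
    exact Matrix.mulVec_diagonal _ _ _
  have hxs : x ∈ Cfsg.spGL d F := by
    rw [mem_spGL_iff]
    intro a b
    rw [sympForm_eq_polar_plus h2, sympForm_eq_polar_plus h2, Cfsg.Agent.Lib.Known3.QuadIso.polar_Qplus,
      Cfsg.Agent.Lib.Known3.QuadIso.polar_Qplus]
    refine Finset.sum_congr rfl fun j _ => ?_
    simp only [hxa, δ, Sum.elim_inl, Sum.elim_inr]
    field_simp
  have hxr : x ^ r = 1 := by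
    apply Units.ext
    rw [Units.val_pow_eq_pow_val]
    show (Matrix.diagonal δ) ^ r = 1
    rw [Matrix.diagonal_pow, ← Matrix.diagonal_one]
    congr 1
    funext j
    rcases j with j | j
    · exact hζr
    · show (ζ⁻¹) ^ r = 1
      rw [inv_pow, hζr, inv_one]
  have hζ2 : ζ * ζ ≠ 1 := by
    intro h
    exact hζ1 (char2_sq_inj h2 (by rw [h, mul_one]))
  haveI : Nonempty (Fin d) := ⟨⟨0, by omega⟩⟩
  have hns : ∀ z : F, (x : Matrix (Fin d ⊕ Fin d) (Fin d ⊕ Fin d) F) ≠ z • (1 : Matrix (Fin d ⊕ Fin d) (Fin d ⊕ Fin d) F) := by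
    intro z hz
    have hz2 : ∀ v, act x v = z • v := by
      intro v
      rw [act_apply, hz, Matrix.smul_mulVec, Matrix.one_mulVec]
    have h1 : z ^ 2 = 1 := sp_scalar_sq hd (fun u v => by
      have := mem_spGL_iff.1 hxs u v
      rwa [hz2, hz2] at this)
    have h3 : z * z = 1 * 1 := by rw [← pow_two, h1, mul_one]
    have h4 : z = 1 := char2_sq_inj h2 h3
    have h5 := hz2 (Pi.single (Sum.inl ⟨0, by omega⟩) 1)
    have h6 := congrFun h5 (Sum.inl ⟨0, by omega⟩)
    rw [hxa, h4] at h6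
    simp [δ] at h6
    exact hζ1 h6
  obtain ⟨g, hg, hyq⟩ := hall x hxs ⟨1, by rw [hxr, one_smul, Units.val_one]⟩ hns
  have hys : g⁻¹ * x * g ∈ Cfsg.spGL d F := Subgroup.mul_mem _ (Subgroup.mul_mem _ (Subgroup.inv_mem _ hg) hxs) hg
  have hpres := Q_of_sim_sp hQf hd hys hyq
  let ι' : (Fin d → F) →ₗ[F] (Fin d ⊕ Fin d → F) :=
    { toFun := fun t => Sum.elim t 0
      map_add' := by intro a b; funext i; rcases i with i | i <;> simp
      map_smul' := by intro c a; funext i; rcases i with i | i <;> simp }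
  have hι : Function.Injective ι' := by
    intro a b hab
    funext i
    exact congrFun hab (Sum.inl i)
  have hxι : ∀ t, act x (ι' t) = ζ • ι' t := by
    intro t
    funext j
    rw [hxa]
    rcases j with j | j
    · rfl
    · simp [ι']
  refine ⟨(LinearMap.range ι').map ((act g⁻¹ : (Fin d ⊕ Fin d → F) ≃ₗ[F] (Fin d ⊕ Fin d → F)) : (Fin d ⊕ Fin d → F) →ₗ[F] (Fin d ⊕ Fin d → F)), le_top, ?_, ?_⟩
  · rintro _ ⟨_, ⟨t, rfl⟩, rfl⟩
    by_contra hne
    have h1 := hpres (act g⁻¹ (ι' t))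
    have h3 : act (g⁻¹ * x * g) (act g⁻¹ (ι' t)) = ζ • act g⁻¹ (ι' t) := by
      rw [map_mul, map_mul, LinearEquiv.mul_apply, LinearEquiv.mul_apply, ← LinearEquiv.mul_apply (act g), ← map_mul, mul_inv_cancel, map_one]
      show act g⁻¹ (act x (ι' t)) = _
      rw [hxι, map_smul]
    rw [h3] at h1
    have h4 : Q (ζ • act g⁻¹ (ι' t)) = ζ ^ 2 * Q (act g⁻¹ (ι' t)) := hQ.smul _ _
    rw [h4] at h1
    apply hζ2
    have h5 : ζ ^ 2 * Q (act g⁻¹ (ι' t)) = 1 * Q (act g⁻¹ (ι' t)) := by rw [one_mul]; exact h1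
    have h6 := mul_right_cancel₀ hne h5
    rw [← pow_two]
    exact h6
  · rw [LinearEquiv.finrank_map_eq, LinearMap.finrank_range_of_inj hι, finrank_fin_fun, finrank_top, hV]

/-- Elements of prime order of `Sp_{2d}(q)`, `q` even, and the orthogonal subgroups. -/
theorem sp_orth_core (hq : Fintype.card F = q) (hp : p = 2) (m : ℕ) {Q : (Fin (m + 1) ⊕ Fin (m + 1) → F) → F}
    (hQ : Cfsg.Geo.IsNondegenerateQuadraticForm Q)
    (hQf : ∀ u v, QuadraticMap.polar Q u v = Cfsg.sympForm (m + 1) F u v) (r : ℕ) [hr : Fact r.Prime]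
    (hΩ : r ∣ (Cfsg.Geo.quadSimilarityGroup Q).relIndex (Cfsg.spGL (m + 1) F)) :
    (∀ x ∈ Cfsg.spGL (m + 1) F, (∃ z : F, ((x ^ r : GL (Fin (m + 1) ⊕ Fin (m + 1)) F) : Matrix (Fin (m + 1) ⊕ Fin (m + 1)) (Fin (m + 1) ⊕ Fin (m + 1)) F) = z • (1 : Matrix (Fin (m + 1) ⊕ Fin (m + 1)) (Fin (m + 1) ⊕ Fin (m + 1)) F)) →
      (∀ z : F, (x : Matrix (Fin (m + 1) ⊕ Fin (m + 1)) (Fin (m + 1) ⊕ Fin (m + 1)) F) ≠ z • (1 : Matrix (Fin (m + 1) ⊕ Fin (m + 1)) (Fin (m + 1) ⊕ Fin (m + 1)) F)) →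
      ∃ g ∈ Cfsg.spGL (m + 1) F, g⁻¹ * x * g ∈ Cfsg.Geo.quadSimilarityGroup Q) ↔
    (r = 2 ∧ (Cfsg.Geo.IsPlusTypeOn Q ⊤ ∨ Odd (m + 1))) := by
  classical
  have h2 : (2 : F) = 0 := by
    have := CharP.cast_eq_zero F p
    rw [hp] at this
    exact_mod_cast this
  have hV : finrank F (Fin (m + 1) ⊕ Fin (m + 1) → F) = 2 * (m + 1) := by
    rw [finrank_fintype_fun_eq_card]
    simp
    ring
  constructor
  swap
  · rintro ⟨rfl, hcase⟩ x hx hz _
    exact sp_inv_conj h2 (by omega) hQ hQf hcase x hx hz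
  intro hall
  by_cases hr2 : r = 2
  · subst hr2
    refine ⟨rfl, ?_⟩
    by_cases hodd : Odd (m + 1)
    · exact Or.inr hodd
    · exact Or.inl (sp_a_type h2 (by omega) (Nat.not_odd_iff_even.1 hodd) hQ hQf hall)
  exfalso
  have hrp : r ≠ p := by rw [hp]; exact hr2
  have hq2 : 2 ≤ q := by rw [← hq]; exact Fintype.one_lt_card
  have hi := sp_index_mul hq (by omega : 1 ≤ m + 1) hQ hQf
  rw [Finset.prod_range_succ] at hi
  have hprodpos : 0 < ∏ j ∈ Finset.range m, (q ^ (2 * (j + 1)) - 1) := by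
    apply Finset.prod_pos
    intro j _
    have : 1 < q ^ (2 * (j + 1)) := Nat.one_lt_pow (by omega) (by omega)
    omega
  set PP := ∏ j ∈ Finset.range m, (q ^ (2 * (j + 1)) - 1) with hPP
  have hqpos : 0 < q ^ ((m + 1) * m) := by positivity
  have hT1 : 1 < q ^ (m + 1) := Nat.one_lt_pow (by omega) (by omega)
  obtain ⟨A, hA⟩ : ∃ A, q ^ (m + 1) = A + 2 := ⟨q ^ (m + 1) - 2, by omega⟩
  have hsq : q ^ (2 * (m + 1)) = (A + 2) * (A + 2) := by
    rw [two_mul, pow_add, hA]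
  have hdd : q ^ ((m + 1) ^ 2) = q ^ ((m + 1) * m) * (A + 2) := by
    rw [← hA, ← pow_add]
    congr 1
    ring
  have hT0 : 1 ≤ q ^ m := Nat.one_le_pow _ _ (by omega)
  obtain ⟨T, hT⟩ : ∃ T, q ^ m = T + 1 := ⟨q ^ m - 1, by omega⟩
  have hqT : q * (T + 1) = A + 2 := by
    rw [← hT, ← hA, pow_succ]
    ring
  have hrq : ¬ r ∣ A + 2 := by
    rw [← hA]
    exact not_dvd_pow_q hq hrp _
  have hr2' : ¬ r ∣ 2 := fun h => hr2 ((Nat.prime_dvd_prime_iff_eq hr.out Nat.prime_two).1 h)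
  by_cases hplus : Cfsg.Geo.IsPlusTypeOn Q ⊤
  · obtain ⟨U, -, hU, hU2⟩ := hplus
    rw [finrank_top, hV] at hU2
    obtain ⟨θ, hθ⟩ := isometry_plus_of_ts hV (bundleQ hQ) (bundleQ_nondeg hQ) U (by omega) (fun u hu => hU u hu)
    have hθ' : ∀ v, Qplus (m + 1) F (θ v) = bundleQ hQ v := fun v => by rw [Qplus_apply]; exact hθ v
    have hO : Nat.card (OG (bundleQ hQ)) = Nat.card (OG (Qplus (m + 1) F)) :=
      Nat.card_congr (isoGCongr θ _ _ (fun u _ => hθ' u)).toEquiv
    have hZ : Nat.card {v : Fin (m + 1) ⊕ Fin (m + 1) → F // bundleQ hQ v = 0} =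
        Nat.card {v : Fin (m + 1) ⊕ Fin (m + 1) → F // Qplus (m + 1) F v = 0} :=
      Nat.card_congr (θ.toEquiv.subtypeEquiv (fun v => by rw [← hθ']; rfl))
    rw [hO, show OG (Qplus (m + 1) F) = isoG (fun u _ : Fin (m + 1) ⊕ Fin (m + 1) → F => Qplus (m + 1) F u) from rfl,
      Qplus_order m, hq, hA, hsq, hdd] at hi
    have hid : (A + 2) * (A + 2) - 1 = (A + 1) * (A + 3) := by
      have : (A + 2) * (A + 2) = (A + 1) * (A + 3) + 1 := by ring
      omega
    rw [hid] at hi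
    simp only [Nat.add_succ_sub_one] at hi
    set R := (Cfsg.Geo.quadSimilarityGroup Q).relIndex (Cfsg.spGL (m + 1) F) with hR
    have hR2 : R * 2 = (A + 2) * (A + 3) := by
      have hpos : 0 < q ^ ((m + 1) * m) * (A + 1) * PP := by positivity
      apply Nat.eq_of_mul_eq_mul_right hpos
      calc R * 2 * (q ^ ((m + 1) * m) * (A + 1) * PP) = R * (2 * q ^ ((m + 1) * m) * (A + 1) * PP) := by ring
        _ = q ^ ((m + 1) * m) * (A + 2) * (PP * ((A + 1) * (A + 3))) := hi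
        _ = _ := by ring
    have hdvd : r ∣ A + 3 := by
      have h3 : r ∣ (A + 2) * (A + 3) := hR2 ▸ Dvd.dvd.mul_right hΩ 2
      exact (hr.out.dvd_mul.1 h3).resolve_left hrq
    have hdvd' : r ∣ q ^ (m + 1) + 1 := by rw [hA]; exact hdvd
    obtain ⟨h, s, hord, hh, hd, hm⟩ := half_order_of_dvd hr2 hdvd'
    have hc : cOf (orderOf (q : ZMod r)) = 2 * h := by
      rw [cOf, if_pos, hord]
      rw [hord]
      exact even_two_mul h
    have hs : (2 * s + 1) * cOf (orderOf (q : ZMod r)) = 2 * (m + 1) := by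
      rw [hc, hm]
      ring
    obtain ⟨y, hy, hyf, hker⟩ := exists_sp_model (p := p) hq hrp (2 * s + 1) (Fin (m + 1) ⊕ Fin (m + 1) → F) (aform_sympForm (m + 1) F) (by rw [hs, hV])
    rw [hs, hV, Nat.sub_self] at hker
    obtain ⟨g, hgr, hfree⟩ := exists_free_OG h2 (by omega) hQ hQf hall y hy hyf hker
    have hcount := free_zero_count (bundleQ hQ) g hgr hfree
    rw [hZ] at hcount
    have hz := Qplus_zeros (F := F) m
    rw [hq, hT, hA] at hz
    have e3 : q ^ (2 * m + 1) = (A + 2) * (T + 1) := by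
      rw [← hA, ← hT, two_mul, pow_succ, pow_succ, pow_add]
      ring
    rw [e3] at hz
    set Z := Nat.card {v : Fin (m + 1) ⊕ Fin (m + 1) → F // Qplus (m + 1) F v = 0}
    have hZ1 : Z - 1 = (A + 1) * (T + 2) := by
      have : Z + (T + 1) = (A + 1) * (T + 2) + 1 + (T + 1) := by
        rw [hz]
        ring
      omega
    rw [hZ1] at hcount
    rcases hr.out.dvd_mul.1 hcount with h3 | h3
    · apply hr2'
      have := (Nat.dvd_sub hdvd h3)
      rwa [show A + 3 - (A + 1) = 2 by omega] at this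
    · -- then `q ≡ 1`
      have h4 : ((q : ZMod r)) = 1 := by
        have h5 : (((T + 2 : ℕ)) : ZMod r) = 0 := (ZMod.natCast_eq_zero_iff _ r).2 h3
        have h6 : (((A + 3 : ℕ)) : ZMod r) = 0 := (ZMod.natCast_eq_zero_iff _ r).2 hdvd
        have h7 : ((q * (T + 1) : ℕ) : ZMod r) = ((A + 2 : ℕ) : ZMod r) := by rw [hqT]
        push_cast at h5 h6 h7
        have h8 : (T : ZMod r) + 1 = -1 := by linear_combination h5
        have h9 : (A : ZMod r) + 2 = -1 := by linear_combination h6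
        rw [h8, h9] at h7
        linear_combination -h7
      rw [h4, orderOf_one] at hord
      omega
  · -- the minus case
    have hcl := isometry_even (F := F) (m := m + 1) (by omega) hV (bundleQ hQ) (bundleQ_nondeg hQ)
    rcases hcl with ⟨θ, hθ⟩ | ⟨ζ, θ, hζ, hθ⟩
    · exfalso
      apply hplus
      obtain ⟨U, hU, hU2⟩ := Cfsg.Agent.Lib.Known3.Witt.exists_singular_plus (F := F) (m + 1)
      refine ⟨U.map (θ.symm : (Fin (m + 1) ⊕ Fin (m + 1) → F) →ₗ[F] _), le_top, ?_, ?_⟩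
      · rintro _ ⟨u, hu, rfl⟩
        have := hθ (θ.symm u)
        rw [LinearEquiv.apply_symm_apply, hU u hu] at this
        exact this.symm
      · rw [LinearEquiv.finrank_map_eq, hU2, finrank_top, hV]
    have hab := anisotropic_of ζ hζ
    let θ' : (Fin (m + 1) ⊕ Fin (m + 1) → F) ≃ₗ[F] ((Fin m ⊕ Fin m) ⊕ Fin 2 → F) := θ
    have hθ' : ∀ v, Qminus m F 1 ζ (θ' v) = bundleQ hQ v := fun v => by rw [Qminus_apply]; exact hθ v
    have hO : Nat.card (OG (bundleQ hQ)) = Nat.card (OG (Qminus m F 1 ζ)) :=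
      Nat.card_congr (isoGCongr θ' _ _ (fun u _ => hθ' u)).toEquiv
    have hZ : Nat.card {v : Fin (m + 1) ⊕ Fin (m + 1) → F // bundleQ hQ v = 0} =
        Nat.card {v : (Fin m ⊕ Fin m) ⊕ Fin 2 → F // Qminus m F 1 ζ v = 0} :=
      Nat.card_congr (θ'.toEquiv.subtypeEquiv (fun v => by rw [← hθ']; rfl))
    rw [hO, show OG (Qminus m F 1 ζ) = isoG (fun u _ : (Fin m ⊕ Fin m) ⊕ Fin 2 → F => Qminus m F 1 ζ u) from rfl,
      Qminus_order hab m, hq, hA, hsq, hdd] at hi
    have hid : (A + 2) * (A + 2) - 1 = (A + 1) * (A + 3) := by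
      have : (A + 2) * (A + 2) = (A + 1) * (A + 3) + 1 := by ring
      omega
    rw [hid] at hi
    set R := (Cfsg.Geo.quadSimilarityGroup Q).relIndex (Cfsg.spGL (m + 1) F) with hR
    have hR2 : R * 2 = (A + 2) * (A + 1) := by
      have hpos : 0 < q ^ ((m + 1) * m) * (A + 3) * PP := by positivity
      apply Nat.eq_of_mul_eq_mul_right hpos
      calc R * 2 * (q ^ ((m + 1) * m) * (A + 3) * PP) = R * (2 * q ^ ((m + 1) * m) * (A + 2 + 1) * PP) := by ring
        _ = q ^ ((m + 1) * m) * (A + 2) * (PP * ((A + 1) * (A + 3))) := hi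
        _ = _ := by ring
    have hdvd : r ∣ A + 1 := by
      have h3 : r ∣ (A + 2) * (A + 1) := hR2 ▸ Dvd.dvd.mul_right hΩ 2
      exact (hr.out.dvd_mul.1 h3).resolve_left hrq
    by_cases hq1 : r ∣ q - 1
    · have hu : r ∣ Nat.card Fˣ := by
        rw [Nat.card_eq_fintype_card, Fintype.card_units, hq]
        exact hq1
      obtain ⟨u, hu'⟩ := exists_prime_orderOf_dvd_card' r hu
      have hu1 : (u : F) ≠ 1 := by
        intro h
        have : u = 1 := Units.ext h
        rw [this, orderOf_one] at hu'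
        exact hr.out.one_lt.ne hu'
      have hur : (u : F) ^ r = 1 := by
        rw [← Units.val_pow_eq_pow_val, ← hu', pow_orderOf_eq_one, Units.val_one]
      exact hplus (diag_ts h2 (by omega) hQ hQf hall u.ne_zero hu1 hur)
    · have hord : orderOf (q : ZMod r) ∣ m + 1 := by
        rw [orderOf_dvd_iff_pow_eq_one]
        have h5 : (((A + 1 : ℕ)) : ZMod r) = 0 := (ZMod.natCast_eq_zero_iff _ r).2 hdvd
        have h6 : ((q ^ (m + 1) : ℕ) : ZMod r) = ((A + 2 : ℕ) : ZMod r) := by rw [hA]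
        push_cast at h5 h6
        rw [h6]
        linear_combination h5
      obtain ⟨k, hk⟩ := hord
      obtain ⟨s, hs⟩ : ∃ s, s * cOf (orderOf (q : ZMod r)) = 2 * (m + 1) := by
        by_cases he : Even (orderOf (q : ZMod r))
        · refine ⟨2 * k, ?_⟩
          rw [cOf, if_pos he, hk]
          ring
        · refine ⟨k, ?_⟩
          rw [cOf, if_neg he, hk]
          ring
      obtain ⟨y, hy, hyf, hker⟩ := exists_sp_model (p := p) hq hrp s (Fin (m + 1) ⊕ Fin (m + 1) → F) (aform_sympForm (m + 1) F) (by rw [hs, hV])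
      rw [hs, hV, Nat.sub_self] at hker
      obtain ⟨g, hgr, hfree⟩ := exists_free_OG h2 (by omega) hQ hQf hall y hy hyf hker
      have hcount := free_zero_count (bundleQ hQ) g hgr hfree
      rw [hZ] at hcount
      have hz := Qminus_zeros hab m
      rw [hq, hT, hA] at hz
      have e3 : q ^ (2 * m + 1) = (A + 2) * (T + 1) := by
        rw [← hA, ← hT, two_mul, pow_succ, pow_succ, pow_add]
        ring
      rw [e3] at hz
      set Z := Nat.card {v : (Fin m ⊕ Fin m) ⊕ Fin 2 → F // Qminus m F 1 ζ v = 0}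
      have hZ1 : Z - 1 = (A + 3) * T := by
        have : Z + (A + 2) = (A + 3) * T + 1 + (A + 2) := by
          rw [hz]
          ring
        omega
      rw [hZ1] at hcount
      rcases hr.out.dvd_mul.1 hcount with h3 | h3
      · apply hr2'
        have := (Nat.dvd_sub h3 hdvd)
        rwa [show A + 3 - (A + 1) = 2 by omega] at this
      · apply hq1
        have h4 : ((q : ZMod r)) = 1 := by
          have h5 : ((T : ℕ) : ZMod r) = 0 := (ZMod.natCast_eq_zero_iff _ r).2 h3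
          have h6 : (((A + 1 : ℕ)) : ZMod r) = 0 := (ZMod.natCast_eq_zero_iff _ r).2 hdvd
          have h7 : ((q * (T + 1) : ℕ) : ZMod r) = ((A + 2 : ℕ) : ZMod r) := by rw [hqT]
          push_cast at h5 h6 h7
          rw [h5] at h7
          linear_combination h7 + h6
        rw [← ZMod.natCast_eq_zero_iff, Nat.cast_sub (by omega), h4]
        simp

end Core

end Cfsg.Agent.Lib.Geo
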