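import Mathlib
import Cfsg.Agent.Lib.Geo.ElusSpTop

set_option autoImplicit false

/-! Orthogonal decompositions: counting, transitivity and invariant families. -/

namespace Cfsg.Agent.Lib.Geo

open Polynomial Module
open Cfsg.Agent.Lib.Classical.Abs (isoG mem_isoG)

universe u

section Count

/-- Orbit-stabilizer for a transitive action on a subset. -/
theorem card_orbit_subtype {G X : Type*} [Group G] [MulAction G X] (P : X → Prop)
    (hinv : ∀ (g : G) x, P x → P (g • x)) (htrans : ∀ x y, P x → P y → ∃ g : G, g • x = y) (x₀ : X) (hx₀ : P x₀) :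
    Nat.card G = Nat.card {x // P x} * Nat.card (MulAction.stabilizer G x₀) := by
  apply Cfsg.Agent.Lib.Classical.Abs.card_eq_mul_stab (fun g : G => (⟨g • x₀, hinv g x₀ hx₀⟩ : {x // P x}))
  · rintro ⟨y, hy⟩
    obtain ⟨g, hg⟩ := htrans x₀ y hx₀ hy
    exact ⟨g, Subtype.ext hg⟩
  · intro g g'
    rw [Subtype.mk.injEq, MulAction.mem_stabilizer_iff, mul_smul, inv_smul_eq_iff]
    exact eq_comm

/-- Ordered families modulo permutations. -/
theorem perm_card_div {X : Type*} {t : ℕ} (P : (Fin t → X) → Prop) (hperm : ∀ (D : Fin t → X) (π : Equiv.Perm (Fin t)), P D → P (D ∘ π))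
    (hinj : ∀ D, P D → Function.Injective D) {r : ℕ} (hr : r ∣ Nat.card {D // P D} / t.factorial) : r ∣ Nat.card {D // P D} := by
  letI : MulAction (Equiv.Perm (Fin t)) {D // P D} :=
    { smul := fun π D => ⟨D.1 ∘ (π⁻¹ : Equiv.Perm (Fin t)), hperm D.1 _ D.2⟩
      one_smul := fun D => by
        apply Subtype.ext
        rfl
      mul_smul := fun π ρ D => by
        apply Subtype.ext
        rfl }
  have hfree : ∀ D : {D // P D}, MulAction.stabilizer (Equiv.Perm (Fin t)) D = ⊥ := by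
    intro D
    rw [eq_bot_iff]
    intro π hπ
    rw [MulAction.mem_stabilizer_iff] at hπ
    rw [Subgroup.mem_bot]
    have h1 : ∀ j, D.1 (π⁻¹ j) = D.1 j := fun j => congrFun (congrArg Subtype.val hπ) j
    have h2 : ∀ j, π⁻¹ j = j := fun j => hinj D.1 D.2 (h1 j)
    have h3 : π⁻¹ = 1 := Equiv.ext h2
    exact inv_eq_one.1 h3
  have h1 := Nat.card_congr (MulAction.selfEquivOrbitsQuotientProd (G := Equiv.Perm (Fin t)) (X := {D // P D}) hfree)
  rw [Nat.card_prod, Nat.card_eq_fintype_card (α := Equiv.Perm (Fin t)), Fintype.card_perm, Fintype.card_fin] at h1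
  rw [h1, Nat.mul_div_cancel _ (Nat.factorial_pos t)] at hr
  rw [h1]
  exact hr.mul_right _

variable {F : Type*} [Field F] {V : Type*} [AddCommGroup V] [Module F V]

/-- The action of automorphisms on subspaces. -/
@[reducible] def subAct : MulAction (V ≃ₗ[F] V) (Submodule F V) where
  smul g S := S.map (g : V →ₗ[F] V)
  one_smul S := Submodule.map_id S
  mul_smul g h S := by
    show S.map ((g * h : V ≃ₗ[F] V) : V →ₗ[F] V) = (S.map (h : V →ₗ[F] V)).map (g : V →ₗ[F] V)
    rw [← Submodule.map_comp]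
    rfl

/-- Counting families of subspaces. -/
theorem fam_card_mul {f : V → V → F} {t : ℕ} (P : (Fin t → Submodule F V) → Prop)
    (hinv : ∀ g ∈ isoG f, ∀ D, P D → P (fun j => (D j).map (g : V →ₗ[F] V)))
    (htrans : ∀ D D', P D → P D' → ∃ g ∈ isoG f, ∀ j, (D j).map (g : V →ₗ[F] V) = D' j) {D₀ : Fin t → Submodule F V} (hD₀ : P D₀) :
    Nat.card {D // P D} ∣ Nat.card (isoG f) := by
  letI := subAct (F := F) (V := V)
  rw [card_orbit_subtype (G := isoG f) (X := Fin t → Submodule F V) P (fun g x hx => hinv g.1 g.2 x hx) (fun x y hx hy => by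
    obtain ⟨g, hg, h⟩ := htrans x y hx hy
    exact ⟨⟨g, hg⟩, funext h⟩) D₀ hD₀]
  exact dvd_mul_right _ _

end Count

section Orth

variable {F : Type*} [Field F]

/-- Orthogonal decompositions. -/
def OrthP {ι : Type} [Fintype ι] [DecidableEq ι] (f : (ι → F) → (ι → F) → F) {t : ℕ} (a : ℕ) (D : Fin t → Submodule F (ι → F)) : Prop :=
  Cfsg.Geo.IsMDecomposition a D ∧ (∀ j, ∀ u ∈ D j, u ≠ 0 → ∃ v ∈ D j, f u v ≠ 0) ∧
    (∀ j j', j ≠ j' → ∀ u ∈ D j, ∀ v ∈ D j', f u v = 0)

variable {ι : Type} [Fintype ι] [DecidableEq ι] {f : (ι → F) → (ι → F) → F} {t a : ℕ}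

theorem orthP_perm {D : Fin t → Submodule F (ι → F)} (π : Equiv.Perm (Fin t)) (h : OrthP f a D) : OrthP f a (D ∘ π) := by
  obtain ⟨h1, h2, h3⟩ := h
  refine ⟨⟨h1.two_le, h1.pos, fun j => h1.finrank_eq _, h1.indep.comp π.injective, ?_⟩, fun j => h2 _,
    fun j j' hj => h3 _ _ (fun h => hj (π.injective h))⟩
  rw [← h1.iSup_eq_top]
  exact Equiv.iSup_comp (g := fun j => D j) π

theorem orthP_inj {D : Fin t → Submodule F (ι → F)} (h : OrthP f a D) : Function.Injective D := by
  apply h.1.indep.injective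
  intro j h0
  have h1 := h.1.finrank_eq j
  rw [h0, finrank_bot] at h1
  have := h.1.pos
  omega

theorem orthP_map (hf : AForm f) {D : Fin t → Submodule F (ι → F)} (h : OrthP f a D) (g : (ι → F) ≃ₗ[F] (ι → F))
    (hg : ∀ u v, f (g u) (g v) = f u v) : OrthP f a (fun j => (D j).map (g : (ι → F) →ₗ[F] (ι → F))) := by
  obtain ⟨h1, h2, h3⟩ := h
  have hfin : ∀ j, finrank F ((D j).map (g : (ι → F) →ₗ[F] (ι → F))) = a := by
    intro j
    rw [LinearEquiv.finrank_map_eq, h1.finrank_eq]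
  have htop : ⨆ j, (D j).map (g : (ι → F) →ₗ[F] (ι → F)) = ⊤ := by
    rw [← Submodule.map_iSup, h1.iSup_eq_top, Submodule.map_top, LinearEquiv.range]
  refine ⟨⟨h1.two_le, h1.pos, hfin, ?_, htop⟩, ?_, ?_⟩
  · apply indep_of_finrank_sum
    rw [htop]
    have h4 := finrank_iSup_indep D h1.indep
    rw [h1.iSup_eq_top] at h4
    rw [h4]
    apply Finset.sum_congr rfl
    intro j _
    rw [hfin, h1.finrank_eq]
  · rintro j _ ⟨u, hu, rfl⟩ hne
    obtain ⟨v, hv, hv2⟩ := h2 j u hu (fun h0 => hne (by rw [h0, map_zero]))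
    refine ⟨g v, Submodule.mem_map_of_mem hv, ?_⟩
    show f (g u) (g v) ≠ 0
    rw [hg]
    exact hv2
  · rintro j j' hj _ ⟨u, hu, rfl⟩ _ ⟨v, hv, rfl⟩
    show f (g u) (g v) = 0
    rw [hg]
    exact h3 j j' hj u hu v hv

/-- The form in terms of projections onto the members of an orthogonal decomposition. -/
theorem form_proj (hf : AForm f) {D : Fin t → Submodule F (ι → F)} (π : Fin t → ((ι → F) →ₗ[F] (ι → F)))
    (h1 : ∀ l x, π l x ∈ D l) (h4 : ∀ x, ∑ l, π l x = x)
    (h3 : ∀ j j', j ≠ j' → ∀ u ∈ D j, ∀ v ∈ D j', f u v = 0) (u v : ι → F) : f u v = ∑ l, f (π l u) (π l v) := by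
  have h5 : hf.toBilin (∑ l, π l u) (∑ m, π m v) = ∑ l, hf.toBilin (π l u) (π l v) := by
    have h6 : hf.toBilin (∑ l, π l u) = ∑ l, hf.toBilin (π l u) := map_sum _ _ _
    rw [h6, LinearMap.sum_apply]
    apply Finset.sum_congr rfl
    intro l _
    rw [map_sum, Finset.sum_eq_single l]
    · intro m _ hm
      exact h3 l m (Ne.symm hm) _ (h1 l u) _ (h1 m v)
    · simp
  rw [h4, h4] at h5
  exact h5

/-- The isometry group is transitive on the orthogonal decompositions. -/
theorem orthP_trans (hf : AForm f) {D D' : Fin t → Submodule F (ι → F)} (h : OrthP f a D) (h' : OrthP f a D') :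
    ∃ g : (ι → F) ≃ₗ[F] (ι → F), (∀ u v, f (g u) (g v) = f u v) ∧ ∀ j, (D j).map (g : (ι → F) →ₗ[F] (ι → F)) = D' j := by
  classical
  obtain ⟨h1, h2, h3⟩ := h
  obtain ⟨h1', h2', h3'⟩ := h'
  have hiso : ∀ l, ∃ θ : D l ≃ₗ[F] D' l, ∀ u v : D l, f (θ u) (θ v) = f u v := fun l =>
    aform_isometry (aform_on hf (h2 l)) (aform_on hf (h2' l)) (by rw [h1.finrank_eq, h1'.finrank_eq])
  choose θ hθ using hiso
  obtain ⟨π, p1, p2, p3, p4⟩ := exists_proj h1.indep h1.iSup_eq_top
  obtain ⟨π', p1', p2', p3', p4'⟩ := exists_proj h1'.indep h1'.iSup_eq_top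
  let T : (ι → F) →ₗ[F] (ι → F) := ∑ l, (D' l).subtype ∘ₗ (θ l).toLinearMap ∘ₗ (π l).codRestrict (D l) (p1 l)
  have hT : ∀ l (x : D l), T (x : ι → F) = θ l x := by
    intro l x
    simp only [T, LinearMap.sum_apply, LinearMap.comp_apply]
    rw [Finset.sum_eq_single l]
    · have : (π l).codRestrict (D l) (p1 l) (x : ι → F) = x := Subtype.ext (p2 l x x.2)
      rw [this]
      rfl
    · intro m _ hm
      have : (π m).codRestrict (D m) (p1 m) (x : ι → F) = 0 := Subtype.ext (p3 m l hm x x.2)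
      rw [this]
      simp
    · simp
  have hTπ : ∀ l u, π' l (T u) = θ l ⟨π l u, p1 l u⟩ := by
    intro l u
    conv_lhs => rw [← p4 u, map_sum, map_sum]
    rw [Finset.sum_eq_single l]
    · have : T (π l u) = θ l ⟨π l u, p1 l u⟩ := hT l ⟨π l u, p1 l u⟩
      rw [this]
      exact p2' l _ (θ l _).2
    · intro m _ hm
      have : T (π m u) = θ m ⟨π m u, p1 m u⟩ := hT m ⟨π m u, p1 m u⟩
      rw [this]
      exact p3' l m (Ne.symm hm) _ (θ m _).2
    · simp
  have hTs : Function.Surjective T := by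
    intro y
    have h5 : ∀ l, ∃ x, T x = π' l y := by
      intro l
      obtain ⟨x, hx⟩ := (θ l).surjective ⟨π' l y, p1' l y⟩
      refine ⟨x, ?_⟩
      rw [hT, hx]
    choose x hx using h5
    refine ⟨∑ l, x l, ?_⟩
    rw [map_sum]
    simp only [hx]
    exact p4' y
  have hTi : Function.Injective T := LinearMap.injective_iff_surjective.2 hTs
  let e : (ι → F) ≃ₗ[F] (ι → F) := LinearEquiv.ofBijective T ⟨hTi, hTs⟩
  have he : ∀ v, e v = T v := fun v => rfl
  refine ⟨e, ?_, ?_⟩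
  · intro u v
    rw [he, he, form_proj hf π' p1' p4' h3', form_proj hf π p1 p4 h3 u v]
    apply Finset.sum_congr rfl
    intro l _
    rw [hTπ, hTπ, hθ]
  · intro j
    apply Submodule.eq_of_le_of_finrank_eq
    · rintro _ ⟨x, hx, rfl⟩
      have h6 : T x = θ j ⟨x, hx⟩ := hT j ⟨x, hx⟩
      show T x ∈ _
      rw [h6]
      exact (θ j _).2
    · rw [LinearEquiv.finrank_map_eq, h1.finrank_eq, h1'.finrank_eq]

/-- The number of orthogonal decompositions divides the order of the isometry group. -/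
theorem orthP_card_dvd [Finite F] (hf : AForm f) {D₀ : Fin t → Submodule F (ι → F)} (h₀ : OrthP f a D₀) :
    Nat.card {D : Fin t → Submodule F (ι → F) // OrthP f a D} ∣ Nat.card (isoG f) := by
  apply fam_card_mul (F := F) (f := f) (fun D => OrthP f a D) (fun g hg D hD => orthP_map hf hD g hg) (fun D D' hD hD' => ?_) h₀
  obtain ⟨g, h1, h2⟩ := orthP_trans hf hD hD'
  exact ⟨g, h1, h2⟩

/-- A divisor of the number of unordered orthogonal decompositions. -/
theorem orthP_card_div [Finite F] (hf : AForm f) {D₀ : Fin t → Submodule F (ι → F)} (h₀ : OrthP f a D₀) {r : ℕ}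
    (h : r ∣ Nat.card {D : Fin t → Submodule F (ι → F) // OrthP f a D} / t.factorial) : r ∣ Nat.card (isoG f) :=
  (perm_card_div _ (fun D π hD => orthP_perm π hD) (fun D hD => orthP_inj hD) h).trans (orthP_card_dvd hf h₀)

end Orth

section Fam

variable {F : Type*} [Field F] {V : Type u} [AddCommGroup V] [Module F V] [FiniteDimensional F V] {f : V → V → F}

/-- Recursive construction of orthogonal invariant families. -/
theorem orth_fam (hf : AForm f) (y : Module.End F V) (hiso : ∀ u v, f (y u) (y v) = f u v) (a : ℕ) (P : ℕ → Submodule F V → Prop)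
    (h0 : ∀ W, P 0 W → W = ⊥) (hnd : ∀ t' W, P t' W → NDOn f W)
    (hstep : ∀ t' W₀, P (t' + 1) W₀ → ∃ D₀ : Submodule F V, D₀ ≤ W₀ ∧ (∀ v ∈ D₀, y v ∈ D₀) ∧ NDOn f D₀ ∧ finrank F D₀ = a ∧ P t' (W₀ ⊓ aperp hf D₀)) :
    ∀ t' W₀, P t' W₀ → ∃ D : Fin t' → Submodule F V, (∀ j, ∀ v ∈ D j, y v ∈ D j) ∧ (∀ j, NDOn f (D j)) ∧ (∀ j, finrank F (D j) = a) ∧
      (∀ j j', j ≠ j' → ∀ u ∈ D j, ∀ v ∈ D j', f u v = 0) ∧ (∀ j, D j ≤ W₀) ∧ ⨆ j, D j = W₀ := by
  intro t'
  induction t' with
  | zero =>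
    intro W₀ h
    refine ⟨fun j => j.elim0, fun j => j.elim0, fun j => j.elim0, fun j => j.elim0, fun j => j.elim0, fun j => j.elim0, ?_⟩
    rw [h0 W₀ h]
    exact iSup_of_empty _
  | succ t' ih =>
    intro W₀ h
    obtain ⟨D₀, h1, h2, h3, h4, h5⟩ := hstep t' W₀ h
    obtain ⟨D', hD1, hD2, hD3, hD4, hD5, hD6⟩ := ih _ h5
    have hW₀nd := hnd _ _ h
    obtain ⟨_, hsup, _⟩ := rel_perp hf h3 h1 hW₀nd
    have horth : ∀ j, ∀ v ∈ D' j, ∀ u ∈ D₀, f v u = 0 := fun j v hv u hu => ((hD5 j) hv).2 u hu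
    refine ⟨Fin.cons D₀ D', ?_, ?_, ?_, ?_, ?_, ?_⟩
    · intro j
      refine Fin.cases ?_ (fun j => ?_) j
      · exact h2
      · exact hD1 j
    · intro j
      refine Fin.cases ?_ (fun j => ?_) j
      · exact h3
      · exact hD2 j
    · intro j
      refine Fin.cases ?_ (fun j => ?_) j
      · exact h4
      · exact hD3 j
    · intro j j'
      refine Fin.cases ?_ (fun j => ?_) j <;> refine Fin.cases ?_ (fun j' => ?_) j' <;> intro hj u hu v hv
      · exact absurd rfl hj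
      · rw [hf.skew]
        simp only [Fin.cons_zero, Fin.cons_succ] at hu hv
        rw [horth j' v hv u hu, neg_zero]
      · simp only [Fin.cons_zero, Fin.cons_succ] at hu hv
        exact horth j u hu v hv
      · simp only [Fin.cons_succ] at hu hv
        exact hD4 j j' (fun h => hj (by rw [h])) u hu v hv
    · intro j
      refine Fin.cases ?_ (fun j => ?_) j
      · exact h1
      · exact (hD5 j).trans inf_le_left
    · rw [← hsup, ← hD6]
      apply le_antisymm
      · apply iSup_le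
        intro j
        refine Fin.cases ?_ (fun j => ?_) j
        · exact le_sup_left
        · exact le_sup_of_le_right (le_iSup D' j)
      · apply sup_le
        · exact le_iSup_of_le (0 : Fin (t' + 1)) le_rfl
        · apply iSup_le
          intro j
          exact le_iSup_of_le (Fin.succ j) le_rfl

end Fam

section Exist

variable {F : Type*} [Field F] {ι : Type} [Fintype ι] [DecidableEq ι] {f : (ι → F) → (ι → F) → F} {t a : ℕ}

theorem orthP_of_fam (ht : 2 ≤ t) (ha : 0 < a) (hn : Fintype.card ι = a * t) {D : Fin t → Submodule F (ι → F)}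
    (h1 : ∀ j, NDOn f (D j)) (h2 : ∀ j, finrank F (D j) = a) (h3 : ∀ j j', j ≠ j' → ∀ u ∈ D j, ∀ v ∈ D j', f u v = 0)
    (h4 : ⨆ j, D j = ⊤) : OrthP f a D := by
  refine ⟨⟨ht, ha, h2, ?_, h4⟩, h1, h3⟩
  apply indep_of_finrank_sum
  rw [h4, finrank_top]
  simp [h2, hn, mul_comm]

/-- Existence of orthogonal decompositions. -/
theorem exists_orthP (hf : AForm f) (ht : 2 ≤ t) (ha : 0 < a) (hae : Even a) (hn : Fintype.card ι = a * t) :
    ∃ D : Fin t → Submodule F (ι → F), OrthP f a D := by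
  obtain ⟨e, he⟩ := hae
  obtain ⟨D, -, h1, h2, h3, -, h4⟩ := orth_fam hf (1 : Module.End F (ι → F)) (fun _ _ => rfl) a
    (fun t' W => NDOn f W ∧ finrank F W = a * t')
    (fun W h => Submodule.finrank_eq_zero.1 (by rw [h.2, mul_zero]))
    (fun t' W h => h.1)
    (fun t' W₀ h => by
      obtain ⟨h1, h2⟩ := h
      have h3 : (t' + 1) * a = t' * a + a := by ring
      have h4 : a * (t' + 1) = t' * a + a := by ring
      obtain ⟨U, hU1, hU2, hU3⟩ := exists_nd_sub hf e W₀ h1 (by rw [h2, h4]; omega)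
      obtain ⟨h5, _, _⟩ := rel_perp hf hU2 hU1 h1
      refine ⟨U, hU1, fun v hv => hv, hU2, by omega, h5, ?_⟩
      rw [finrank_rel_perp hf hU2 hU1 h1, h2, hU3, h4, mul_comm a t']
      omega)
    t ⊤ ⟨fun u _ hne =>
      let ⟨b, hb⟩ := hf.nd u hne
      ⟨b, trivial, hb⟩, by rw [finrank_top]; simpa using hn⟩
  exact ⟨D, orthP_of_fam ht ha hn h1 h2 h3 h4⟩

end Exist

end Cfsg.Agent.Lib.Geo
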