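import Mathlib
import Cfsg.Agent.Lib.Geo.ElusSpOrth
import Cfsg.Agent.Lib.Classical.IsoBridge

set_option autoImplicit false

/-! Pairs of complementary totally isotropic subspaces. -/

namespace Cfsg.Agent.Lib.Geo

open Polynomial Module
open Cfsg.Agent.Lib.Classical.Abs (isoG mem_isoG)

universe u

section Pair

variable {F : Type*} [Field F] {V : Type*} [AddCommGroup V] [Module F V] [FiniteDimensional F V] {f : V → V → F}

theorem finrank_ti_pair (hf : AForm f) {U W : Submodule F V} (hc : IsCompl U W) (hU : ∀ u ∈ U, ∀ v ∈ U, f u v = 0)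
    (hW : ∀ u ∈ W, ∀ v ∈ W, f u v = 0) : finrank F U + finrank F U = finrank F V ∧ finrank F W = finrank F U := by
  have h1 := Submodule.finrank_add_eq_of_isCompl hc
  have h2 : U ≤ aperp hf U := fun u hu v hv => hU u hu v hv
  have h3 : W ≤ aperp hf W := fun u hu v hv => hW u hu v hv
  have h4 := Submodule.finrank_mono h2
  have h5 := Submodule.finrank_mono h3
  rw [finrank_aperp] at h4 h5
  omega

/-- The pairing between complementary totally isotropic subspaces. -/
noncomputable def tiPair (hf : AForm f) (U W : Submodule F V) : W →ₗ[F] Dual F U :=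
  U.subtype.dualMap ∘ₗ hf.toBilin.flip ∘ₗ W.subtype

theorem tiPair_apply (hf : AForm f) (U W : Submodule F V) (w : W) (u : U) : tiPair hf U W w u = f u w := rfl

theorem tiPair_inj (hf : AForm f) {U W : Submodule F V} (hc : IsCompl U W)
    (hW : ∀ u ∈ W, ∀ v ∈ W, f u v = 0) : Function.Injective (tiPair hf U W) := by
  rw [injective_iff_map_eq_zero]
  rintro ⟨w, hw⟩ h0
  apply Subtype.ext
  by_contra hne
  obtain ⟨b, hb⟩ := hf.nd w hne
  have htop : b ∈ U ⊔ W := by rw [hc.sup_eq_top]; trivial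
  obtain ⟨a, ha, c, hc', rfl⟩ := Submodule.mem_sup.1 htop
  apply hb
  have h1 : f a w = 0 := by
    have := congrArg (fun φ : Dual F U => φ ⟨a, ha⟩) h0
    simpa [tiPair_apply] using this
  rw [hf.add_right, hW w hw c hc', add_zero, hf.skew, h1, neg_zero]

/-- The pairing as an isomorphism. -/
theorem exists_ti_equiv (hf : AForm f) {U W : Submodule F V} (hc : IsCompl U W) (hU : ∀ u ∈ U, ∀ v ∈ U, f u v = 0)
    (hW : ∀ u ∈ W, ∀ v ∈ W, f u v = 0) : ∃ ψ : W ≃ₗ[F] Dual F U, ∀ (w : W) (u : U), ψ w u = f u w := by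
  have h1 := (finrank_ti_pair hf hc hU hW).2
  have h2 : finrank F W = finrank F (Dual F U) := by
    rw [Subspace.dual_finrank_eq, h1]
  exact ⟨LinearEquiv.ofInjectiveOfFinrankEq _ (tiPair_inj hf hc hW) h2, fun w u => rfl⟩

/-- An isomorphism between members of pairs extends to an isometry carrying one pair to the other. -/
theorem lagr_pair_map (hf : AForm f) {U W U' W' : Submodule F V} (hc : IsCompl U W) (hU : ∀ u ∈ U, ∀ v ∈ U, f u v = 0)
    (hW : ∀ u ∈ W, ∀ v ∈ W, f u v = 0) (hc' : IsCompl U' W') (hU' : ∀ u ∈ U', ∀ v ∈ U', f u v = 0)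
    (hW' : ∀ u ∈ W', ∀ v ∈ W', f u v = 0) (A : U ≃ₗ[F] U') :
    ∃ g : V ≃ₗ[F] V, (∀ u v, f (g u) (g v) = f u v) ∧ (∀ u : U, g u = A u) ∧ U.map (g : V →ₗ[F] V) = U' ∧ W.map (g : V →ₗ[F] V) = W' := by
  obtain ⟨ψ, hψ⟩ := exists_ti_equiv hf hc hU hW
  obtain ⟨ψ', hψ'⟩ := exists_ti_equiv hf hc' hU' hW'
  let B : W ≃ₗ[F] W' := ψ.trans (A.symm.dualMap.trans ψ'.symm)
  have hB : ∀ (u : U) (w : W), f (A u) (B w) = f u w := by
    intro u w
    have h1 : ψ' (B w) = A.symm.dualMap (ψ w) := by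
      simp [B]
    have h2 := congrArg (fun φ : Dual F U' => φ (A u)) h1
    simp only [hψ', LinearEquiv.dualMap_apply, LinearEquiv.symm_apply_apply, hψ] at h2
    exact h2
  obtain ⟨T, hT⟩ : ∃ T : V →ₗ[F] V, T = LinearMap.ofIsCompl hc (U'.subtype ∘ₗ A.toLinearMap) (W'.subtype ∘ₗ B.toLinearMap) := ⟨_, rfl⟩
  have h1 : ∀ a : U, T a = A a := by
    intro a
    rw [hT, LinearMap.ofIsCompl_left_apply]
    rfl
  have h2 : ∀ b : W, T b = B b := by
    intro b
    rw [hT, LinearMap.ofIsCompl_right_apply]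
    rfl
  have hTs : Function.Surjective T := by
    intro v
    have htop : v ∈ U' ⊔ W' := by rw [hc'.sup_eq_top]; trivial
    obtain ⟨a, ha, b, hb, rfl⟩ := Submodule.mem_sup.1 htop
    refine ⟨(A.symm ⟨a, ha⟩ : U) + (B.symm ⟨b, hb⟩ : W), ?_⟩
    rw [map_add, h1, h2]
    simp
  have hTi : Function.Injective T := LinearMap.injective_iff_surjective.2 hTs
  let e : V ≃ₗ[F] V := LinearEquiv.ofBijective T ⟨hTi, hTs⟩
  have he : ∀ v, e v = T v := fun v => rfl
  have hfinU : finrank F U' = finrank F U := A.finrank_eq.symm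
  refine ⟨e, ?_, ?_, ?_, ?_⟩
  · intro u v
    have hdec : ∀ w : V, ∃ a : U, ∃ b : W, w = a + b := by
      intro w
      have h3 : w ∈ U ⊔ W := by rw [hc.sup_eq_top]; trivial
      obtain ⟨a, ha, b, hb, rfl⟩ := Submodule.mem_sup.1 h3
      exact ⟨⟨a, ha⟩, ⟨b, hb⟩, rfl⟩
    obtain ⟨a, b, rfl⟩ := hdec u
    obtain ⟨a', b', rfl⟩ := hdec v
    rw [he, he, map_add, map_add, h1, h1, h2, h2]
    simp only [hf.add_left, hf.add_right]
    rw [hU' _ (A a).2 _ (A a').2, hW' _ (B b).2 _ (B b').2, hU _ a.2 _ a'.2, hW _ b.2 _ b'.2, hB,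
      hf.skew (B b : V) (A a' : V), hB, hf.skew (b : V) (a' : V)]
  · intro u
    rw [he, h1]
  · apply Submodule.eq_of_le_of_finrank_eq
    · rintro _ ⟨x, hx, rfl⟩
      have h3 := h1 ⟨x, hx⟩
      show T x ∈ _
      rw [show T x = _ from h3]
      exact (A ⟨x, hx⟩).2
    · rw [LinearEquiv.finrank_map_eq, hfinU]
  · apply Submodule.eq_of_le_of_finrank_eq
    · rintro _ ⟨x, hx, rfl⟩
      have h3 := h2 ⟨x, hx⟩
      show T x ∈ _
      rw [show T x = _ from h3]
      exact (B ⟨x, hx⟩).2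
    · rw [LinearEquiv.finrank_map_eq, B.finrank_eq]

/-- Pairs of complementary totally isotropic subspaces. -/
def LagrP (f : V → V → F) (P : Submodule F V × Submodule F V) : Prop :=
  IsCompl P.1 P.2 ∧ (∀ u ∈ P.1, ∀ v ∈ P.1, f u v = 0) ∧ (∀ u ∈ P.2, ∀ v ∈ P.2, f u v = 0)

theorem lagrP_map (P : Submodule F V × Submodule F V) (hP : LagrP f P) (g : V ≃ₗ[F] V) (hg : ∀ u v, f (g u) (g v) = f u v) :
    LagrP f (P.1.map (g : V →ₗ[F] V), P.2.map (g : V →ₗ[F] V)) := by
  obtain ⟨h1, h2, h3⟩ := hP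
  refine ⟨(Submodule.orderIsoMapComap g).isCompl h1, ?_, ?_⟩
  · rintro _ ⟨u, hu, rfl⟩ _ ⟨v, hv, rfl⟩
    show f (g u) (g v) = 0
    rw [hg]
    exact h2 u hu v hv
  · rintro _ ⟨u, hu, rfl⟩ _ ⟨v, hv, rfl⟩
    show f (g u) (g v) = 0
    rw [hg]
    exact h3 u hu v hv

/-- The swap has no fixed points. -/
theorem lagrP_even [Finite F] [Nontrivial V] (hf : AForm f) : 2 ∣ Nat.card {P // LagrP f P} := by
  classical
  haveI : Finite V := Module.finite_of_finite F
  haveI : Finite (Submodule F V) := Finite.of_injective (fun S : Submodule F V => (S : Set V)) SetLike.coe_injective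
  letI : Fintype {P // LagrP f P} := Fintype.ofFinite _
  let σ : Function.End {P // LagrP f P} := fun P => ⟨(P.1.2, P.1.1), P.2.1.symm, P.2.2.2, P.2.2.1⟩
  have hσ : σ ^ 2 ^ 1 = 1 := by
    funext P
    apply Subtype.ext
    rfl
  haveI : Fact (Nat.Prime 2) := ⟨Nat.prime_two⟩
  have h1 := Equiv.Perm.card_fixedPoints_modEq (f := σ) (p := 2) (n := 1) hσ
  have h2 : IsEmpty (Function.fixedPoints σ) := by
    constructor
    rintro ⟨P, hP⟩
    have h3 : (P.1.2, P.1.1) = P.1 := congrArg Subtype.val hP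
    have h4 : P.1.2 = P.1.1 := congrArg Prod.fst h3
    have h5 := P.2.1
    rw [h4] at h5
    have h6 : P.1.1 = ⊥ := by simpa using h5.inf_eq_bot
    have h7 : P.1.1 = ⊤ := by simpa using h5.sup_eq_top
    rw [h6] at h7
    exact bot_ne_top h7
  rw [Fintype.card_eq_zero_iff.2 h2] at h1
  rw [Nat.card_eq_fintype_card]
  exact (Nat.modEq_zero_iff_dvd.1 h1)

/-- Orbit counting on pairs. -/
theorem lagr_count [Finite F] (hf : AForm f) {x₀ : Submodule F V × Submodule F V} (hx₀ : LagrP f x₀) :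
    Nat.card {P // LagrP f P} * Nat.card (x₀.1 ≃ₗ[F] x₀.1) ∣ Nat.card (isoG f) := by
  classical
  haveI : Finite V := Module.finite_of_finite F
  haveI : Finite (V ≃ₗ[F] V) := Finite.of_injective (fun e => (e : V → V)) DFunLike.coe_injective
  letI := subAct (F := F) (V := V)
  have hinv : ∀ (g : isoG f) x, LagrP f x → LagrP f (g • x) := fun g x hx => lagrP_map x hx g.1 g.2
  have htrans : ∀ x y, LagrP f x → LagrP f y → ∃ g : isoG f, g • x = y := by
    intro x y hx hy
    have h1 := (finrank_ti_pair hf hx.1 hx.2.1 hx.2.2).1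
    have h2 := (finrank_ti_pair hf hy.1 hy.2.1 hy.2.2).1
    have h3 : finrank F x.1 = finrank F y.1 := by omega
    obtain ⟨g, hg, _, h4, h5⟩ := lagr_pair_map hf hx.1 hx.2.1 hx.2.2 hy.1 hy.2.1 hy.2.2 (LinearEquiv.ofFinrankEq _ _ h3)
    exact ⟨⟨g, hg⟩, Prod.ext h4 h5⟩
  have h1 := card_orbit_subtype (G := isoG f) (X := Submodule F V × Submodule F V) (LagrP f) hinv htrans x₀ hx₀
  rw [h1]
  apply Nat.mul_dvd_mul_left
  -- restriction to the first member
  have hstab : ∀ g : MulAction.stabilizer (isoG f) x₀, x₀.1.map ((g.1.1 : V ≃ₗ[F] V) : V →ₗ[F] V) = x₀.1 := by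
    intro g
    have h2 : g.1 • x₀ = x₀ := g.2
    exact congrArg Prod.fst h2
  let ρ : MulAction.stabilizer (isoG f) x₀ →* (x₀.1 ≃ₗ[F] x₀.1) :=
    { toFun := fun g => (g.1.1).ofSubmodules x₀.1 x₀.1 (hstab g)
      map_one' := by
        ext u
        rfl
      map_mul' := by
        intro g g'
        ext u
        rfl }
  have hρ : Function.Surjective ρ := by
    intro A
    obtain ⟨g, hg, h2, h3, h4⟩ := lagr_pair_map hf hx₀.1 hx₀.2.1 hx₀.2.2 hx₀.1 hx₀.2.1 hx₀.2.2 A
    refine ⟨⟨⟨g, hg⟩, Prod.ext h3 h4⟩, ?_⟩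
    ext u
    exact h2 u
  exact Subgroup.card_dvd_of_surjective ρ hρ

end Pair

section NT

variable {F : Type*} [Field F] [Fintype F] {p : ℕ} [Fact p.Prime] [CharP F p] {q : ℕ}
  (hq : Fintype.card F = q) {r : ℕ} [hr : Fact r.Prime] (hrp : r ≠ p)

include hq hrp in
/-- Primes dividing the number of pairs of complementary totally isotropic subspaces. -/
theorem lagr_prime_dvd {V : Type*} [AddCommGroup V] [Module F V] [FiniteDimensional F V] {f : V → V → F} (hf : AForm f) (d : ℕ)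
    (hV : finrank F V = 2 * d) {x₀ : Submodule F V × Submodule F V} (hx₀ : LagrP f x₀)
    (h : r ∣ Nat.card {P // LagrP f P}) : ∃ j, j < d ∧ r ∣ q ^ (j + 1) + 1 := by
  classical
  have hq2 : 2 ≤ q := by rw [← hq]; exact Fintype.one_lt_card
  have h1 := lagr_count hf hx₀
  have hfin : finrank F x₀.1 = d := by
    have := (finrank_ti_pair hf hx₀.1 hx₀.2.1 hx₀.2.2).1
    omega
  obtain ⟨e₀⟩ : Nonempty (x₀.1 ≃ₗ[F] (Fin d → F)) := ⟨LinearEquiv.ofFinrankEq _ _ (by simp [hfin])⟩
  have h2 : Nat.card (x₀.1 ≃ₗ[F] x₀.1) = Nat.card (Matrix.GeneralLinearGroup (Fin d) F) := by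
    apply Nat.card_congr
    refine Equiv.trans ?_ (Cfsg.Agent.Lib.Classical.Abs.glLin (ι := Fin d) (F := F)).toEquiv.symm
    exact { toFun := fun φ => e₀.symm.trans (φ.trans e₀)
            invFun := fun ψ => e₀.trans (ψ.trans e₀.symm)
            left_inv := fun φ => by ext u; simp
            right_inv := fun ψ => by ext u; simp }
  rw [h2, Matrix.card_GL_field, hq, prod_pow_sub q d d hq2 le_rfl, card_isoG_aform hq hf d hV] at h1
  have h3 : ∏ i : Fin d, (q ^ (d - (i : ℕ)) - 1) = ∏ j ∈ Finset.range d, (q ^ (j + 1) - 1) := by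
    rw [Fin.prod_univ_eq_prod_range (fun i => q ^ (d - i) - 1) d, ← Finset.prod_range_reflect]
    apply Finset.prod_congr rfl
    intro j hj
    have := Finset.mem_range.1 hj
    congr 2
    omega
  have h4 : ∏ j ∈ Finset.range d, (q ^ (2 * (j + 1)) - 1) =
      (∏ j ∈ Finset.range d, (q ^ (j + 1) - 1)) * ∏ j ∈ Finset.range d, (q ^ (j + 1) + 1) := by
    rw [← Finset.prod_mul_distrib]
    apply Finset.prod_congr rfl
    intro j _
    rw [mul_comm 2, pow_mul]
    have h5 : 1 ≤ q ^ (j + 1) := Nat.one_le_pow _ _ (by omega)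
    obtain ⟨a, ha⟩ : ∃ a, q ^ (j + 1) = a + 1 := ⟨q ^ (j + 1) - 1, by omega⟩
    rw [ha]
    simp only [Nat.add_sub_cancel]
    have h6 : (a + 1) ^ 2 - 1 = a * (a + 1 + 1) := by
      have : (a + 1) ^ 2 = a * (a + 1 + 1) + 1 := by ring
      omega
    exact h6
  rw [h3, h4] at h1
  have hPm : 0 < ∏ j ∈ Finset.range d, (q ^ (j + 1) - 1) := by
    apply Finset.prod_pos
    intro j _
    have h5 : 2 ≤ q ^ (j + 1) := by
      calc 2 ≤ q ^ 1 := by simpa using hq2
        _ ≤ q ^ (j + 1) := Nat.pow_le_pow_right (by omega) (by omega)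
    omega
  obtain ⟨Pm, hPmdef⟩ : ∃ Pm, Pm = ∏ j ∈ Finset.range d, (q ^ (j + 1) - 1) := ⟨_, rfl⟩
  obtain ⟨Pp, hPpdef⟩ : ∃ Pp, Pp = ∏ j ∈ Finset.range d, (q ^ (j + 1) + 1) := ⟨_, rfl⟩
  rw [← hPmdef, ← hPpdef] at h1
  rw [← hPmdef] at hPm
  have h5 : Nat.card {P // LagrP f P} * (∏ i : Fin d, q ^ (i : ℕ)) ∣ q ^ (d ^ 2) * Pp := by
    apply Nat.dvd_of_mul_dvd_mul_right hPm
    convert h1 using 1 <;> ring
  have h6 : r ∣ q ^ (d ^ 2) * Pp := (h.trans (dvd_mul_right _ _)).trans h5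
  rcases (Nat.Prime.dvd_mul hr.out).1 h6 with h7 | h7
  · exfalso
    have h8 := hr.out.dvd_of_dvd_pow h7
    obtain ⟨f, hpos, hf⟩ := FiniteField.card F p
    rw [← hq, hf] at h8
    have h9 := hr.out.dvd_of_dvd_pow h8
    exact hrp ((Nat.prime_dvd_prime_iff_eq hr.out Fact.out).1 h9)
  · rw [hPpdef] at h7
    obtain ⟨j, hj, hj2⟩ := (hr.out.prime.dvd_finset_prod_iff _).1 h7
    exact ⟨j, Finset.mem_range.1 hj, hj2⟩

omit [Fact r.Prime] in
/-- A prime dividing `q^j + 1` has even order. -/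
theorem order_even_of_dvd [Fact r.Prime] (hr2 : r ≠ 2) {j : ℕ} (hj : 0 < j) (h : r ∣ q ^ j + 1) :
    Even (orderOf (q : ZMod r)) ∧ orderOf (q : ZMod r) ≤ 2 * j := by
  have h1 : (q : ZMod r) ^ j = -1 := by
    have := (ZMod.natCast_eq_zero_iff (q ^ j + 1) r).2 h
    push_cast at this
    exact eq_neg_of_add_eq_zero_left this
  have h2 : (q : ZMod r) ^ (2 * j) = 1 := by
    rw [mul_comm, pow_mul, h1]
    ring
  have h3 := orderOf_dvd_of_pow_eq_one h2
  refine ⟨?_, Nat.le_of_dvd (by omega) h3⟩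
  by_contra hodd
  rw [Nat.not_even_iff_odd] at hodd
  have hco : Nat.Coprime (orderOf (q : ZMod r)) 2 := (Nat.coprime_two_right).2 hodd
  have h4 := hco.dvd_of_dvd_mul_left h3
  have h5 : (q : ZMod r) ^ j = 1 := by
    obtain ⟨k, hk⟩ := h4
    rw [hk, pow_mul, pow_orderOf_eq_one, one_pow]
  rw [h1] at h5
  have h6 : ((2 : ℕ) : ZMod r) = 0 := by
    push_cast
    linear_combination -h5
  have h7 := (ZMod.natCast_eq_zero_iff 2 r).1 h6
  exact hr2 ((Nat.prime_dvd_prime_iff_eq Fact.out Nat.prime_two).1 h7)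

end NT

section NoPair

variable {F : Type*} [Field F] [Fintype F] {p : ℕ} [Fact p.Prime] [CharP F p] {q : ℕ}
  (hq : Fintype.card F = q) {r : ℕ} [hr : Fact r.Prime] (hrp : r ≠ p) (hr2 : r ≠ 2)
  {V : Type u} [AddCommGroup V] [Module F V] [FiniteDimensional F V]
  {f : V → V → F} (hf : AForm f) {y : V →ₗ[F] V} (hy : y ^ r = 1) (hiso : ∀ u v, f (y u) (y v) = f u v)

include hrp hf hy hiso in
/-- The non-fixed part is nondegenerate. -/
theorem cyc_ker_nd : NDOn f (LinearMap.ker (aeval y (cyclotomic r F))) := by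
  obtain ⟨W, h1, h2, -, h4, -⟩ := fixed_decomp (p := p) hrp hf hy hiso
  have hle : W ≤ LinearMap.ker (aeval y (cyclotomic r F)) := by
    intro v hv
    have h5 : aeval y (cyclotomic r F) v ∈ W := aeval_mem_of_inv y W h2 _ v hv
    have h6 : aeval y (X - C 1 : F[X]) (aeval y (cyclotomic r F) v) = 0 := by
      have h7 := congrArg (fun A => A v) (ann_of_pow (F := F) hy)
      simpa only [map_mul, Module.End.mul_apply, LinearMap.zero_apply] using h7
    have h8 : aeval y (cyclotomic r F) v ∈ LinearMap.ker (aeval y (X - C 1 : F[X])) := h6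
    exact (Submodule.disjoint_def.1 h1.disjoint) _ h8 h5
  have h5 := finrank_inv_split y (coprime_cyc (p := p) hrp) (ann_of_pow hy) ⊤ (fun _ _ => trivial)
  rw [top_inf_eq, top_inf_eq, finrank_top] at h5
  have h6 := Submodule.finrank_add_eq_of_isCompl h1
  have h7 : W = LinearMap.ker (aeval y (cyclotomic r F)) := Submodule.eq_of_le_of_finrank_eq hle (by omega)
  rw [← h7]
  exact h4

include hq hrp hr2 hf hy hiso in
/-- An element whose non-fixed part is a single block of dimension the even order of `q` fixes no pair of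
complementary totally isotropic subspaces. -/
theorem no_pair (hev : Even (orderOf (q : ZMod r))) (hc : finrank F (LinearMap.ker (aeval y (X - C 1 : F[X]))) + orderOf (q : ZMod r) = finrank F V)
    {U W : Submodule F V} (hcompl : IsCompl U W) (hU : ∀ u ∈ U, ∀ v ∈ U, f u v = 0) (hW : ∀ u ∈ W, ∀ v ∈ W, f u v = 0)
    (hmap : (U.map y = U ∧ W.map y = W) ∨ (U.map y = W ∧ W.map y = U)) : False := by
  have hipos := order_pos (p := p) hq hrp
  obtain ⟨i, hi⟩ : ∃ i, i = orderOf (q : ZMod r) := ⟨_, rfl⟩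
  rw [← hi] at hipos hc
  have hVpos : 0 < finrank F V := by omega
  rcases hmap with ⟨hU1, hW1⟩ | ⟨hU1, hW1⟩
  · have hUinv : ∀ v ∈ U, y v ∈ U := fun v hv => by
      rw [← hU1]; exact Submodule.mem_map_of_mem hv
    have hWinv : ∀ v ∈ W, y v ∈ W := fun v hv => by
      rw [← hW1]; exact Submodule.mem_map_of_mem hv
    obtain ⟨D, hD⟩ : ∃ D, D = LinearMap.ker (aeval y (cyclotomic r F)) := ⟨_, rfl⟩
    have hDnd : NDOn f D := by rw [hD]; exact cyc_ker_nd (p := p) hrp hf hy hiso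
    have hfinD : finrank F D = i := by
      have h5 := finrank_inv_split y (coprime_cyc (p := p) hrp) (ann_of_pow hy) ⊤ (fun _ _ => trivial)
      rw [top_inf_eq, top_inf_eq, finrank_top] at h5
      rw [hD]
      omega
    have hDinv : ∀ {S : Submodule F V}, (∀ v ∈ S, y v ∈ S) → ∀ v ∈ S ⊓ D, y v ∈ S ⊓ D := by
      intro S hS v hv
      refine ⟨hS v hv.1, ?_⟩
      have h2 : aeval y (cyclotomic r F) v = 0 := by
        have := hv.2
        rwa [SetLike.mem_coe, hD, LinearMap.mem_ker] at this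
      rw [SetLike.mem_coe, hD, LinearMap.mem_ker]
      have h3 : aeval y (cyclotomic r F) * y = y * aeval y (cyclotomic r F) := by
        have := congrArg (aeval y) (Polynomial.X_mul (p := cyclotomic r F))
        simpa [map_mul, aeval_X] using this.symm
      rw [← Module.End.mul_apply, h3, Module.End.mul_apply, h2, map_zero]
    have hdvd : ∀ {S : Submodule F V}, (∀ v ∈ S, y v ∈ S) → i ∣ finrank F (S ⊓ D : Submodule F V) := by
      intro S hS
      rw [hi]
      exact order_dvd_of_inv (p := p) hq hrp (S ⊓ D) (hDinv hS) (by rw [← hD]; exact inf_le_right)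
    have hsup : (U ⊓ D) ⊔ (W ⊓ D) = D := by
      apply le_antisymm (sup_le inf_le_right inf_le_right)
      intro m hm
      have htop : m ∈ U ⊔ W := by rw [hcompl.sup_eq_top]; trivial
      obtain ⟨u, hu, w, hw, rfl⟩ := Submodule.mem_sup.1 htop
      have h2 : aeval y (cyclotomic r F) (u + w) = 0 := by
        rwa [hD, LinearMap.mem_ker] at hm
      rw [map_add] at h2
      have h3 : aeval y (cyclotomic r F) u ∈ U := aeval_mem_of_inv y U hUinv _ u hu
      have h4 : aeval y (cyclotomic r F) w ∈ W := aeval_mem_of_inv y W hWinv _ w hw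
      have h5 : aeval y (cyclotomic r F) u = 0 := by
        apply (Submodule.disjoint_def.1 hcompl.disjoint) _ h3
        rw [eq_neg_of_add_eq_zero_left h2]
        exact W.neg_mem h4
      have h6 : aeval y (cyclotomic r F) w = 0 := by
        rw [h5, zero_add] at h2
        exact h2
      exact Submodule.add_mem_sup ⟨hu, by rw [SetLike.mem_coe, hD, LinearMap.mem_ker]; exact h5⟩
        ⟨hw, by rw [SetLike.mem_coe, hD, LinearMap.mem_ker]; exact h6⟩
    have hinf : (U ⊓ D) ⊓ (W ⊓ D) = ⊥ := by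
      rw [eq_bot_iff]
      rintro v ⟨⟨h1, _⟩, h2, _⟩
      exact (Submodule.disjoint_def.1 hcompl.disjoint) v h1 h2
    have hsum := Submodule.finrank_sup_add_finrank_inf_eq (U ⊓ D) (W ⊓ D)
    rw [hsup, hinf, finrank_bot, add_zero, hfinD] at hsum
    have hDne : D ≠ ⊥ := by
      intro h0
      rw [h0, finrank_bot] at hfinD
      omega
    obtain ⟨m, hm, hm0⟩ := Submodule.exists_mem_ne_zero_of_ne_bot hDne
    obtain ⟨v, hv, hv2⟩ := hDnd m hm hm0
    have hdA := hdvd hUinv
    have hdB := hdvd hWinv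
    by_cases hA0 : finrank F (U ⊓ D : Submodule F V) = 0
    · have h1 : W ⊓ D = D := Submodule.eq_of_le_of_finrank_eq inf_le_right (by omega)
      have h2 : D ≤ W := inf_eq_right.1 h1
      exact hv2 (hW m (h2 hm) v (h2 hv))
    · have h3 := Nat.le_of_dvd (Nat.pos_of_ne_zero hA0) hdA
      have h1 : U ⊓ D = D := Submodule.eq_of_le_of_finrank_eq inf_le_right (by omega)
      have h2 : D ≤ U := inf_eq_right.1 h1
      exact hv2 (hU m (h2 hm) v (h2 hv))
  · exfalso
    obtain ⟨k, hk⟩ := hr.out.odd_of_ne_two hr2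
    have hev2 : ∀ j, U.map (y ^ (2 * j)) = U := by
      intro j
      induction j with
      | zero =>
        rw [mul_zero, pow_zero]
        exact Submodule.map_id U
      | succ j ih =>
        have h1 : y ^ (2 * (j + 1)) = y ^ (2 * j) * (y * y) := by
          rw [mul_add, pow_add, pow_two]
        rw [h1, Module.End.mul_eq_comp, Module.End.mul_eq_comp, Submodule.map_comp, Submodule.map_comp, hU1, hW1, ih]
    have h2 : U.map (y ^ r) = W := by
      rw [hk, pow_succ', Module.End.mul_eq_comp, Submodule.map_comp, hev2, hU1]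
    rw [hy] at h2
    have h3 : U = W := by
      rw [← h2]
      exact (Submodule.map_id U).symm
    rw [← h3] at hcompl
    have h4 : U = ⊥ := by simpa using hcompl.inf_eq_bot
    have h5 : U = ⊤ := by simpa using hcompl.sup_eq_top
    have h6 := Submodule.finrank_add_eq_of_isCompl hcompl
    rw [h4, finrank_bot] at h6
    omega

end NoPair

end Cfsg.Agent.Lib.Geo
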