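import Mathlib
import Cfsg.Agent.Lib.Geo.Transv

set_option autoImplicit false

/-! Elementary facts on the tensor product subgroups. -/

namespace Cfsg.Agent.Lib.Geo

open scoped MatrixGroups Matrix Kronecker
open Module

variable {ι : Type} [Fintype ι] [DecidableEq ι] {F : Type*} [Field F] {n₁ n₂ : ℕ}

local notation "W" => (Fin n₁ × Fin n₂ → F)

/-- The Kronecker product of two invertible matrices. -/
def kronG (a : GL (Fin n₁) F) (b : GL (Fin n₂) F) : GL (Fin n₁ × Fin n₂) F where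
  val := (a : Matrix (Fin n₁) (Fin n₁) F) ⊗ₖ (b : Matrix (Fin n₂) (Fin n₂) F)
  inv := ((a⁻¹ : GL (Fin n₁) F) : Matrix (Fin n₁) (Fin n₁) F) ⊗ₖ ((b⁻¹ : GL (Fin n₂) F) : Matrix (Fin n₂) (Fin n₂) F)
  val_inv := by
    rw [← Matrix.mul_kronecker_mul, ← Units.val_mul, ← Units.val_mul, mul_inv_cancel, mul_inv_cancel,
      Units.val_one, Units.val_one, Matrix.one_kronecker_one]
  inv_val := by
    rw [← Matrix.mul_kronecker_mul, ← Units.val_mul, ← Units.val_mul, inv_mul_cancel, inv_mul_cancel,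
      Units.val_one, Units.val_one, Matrix.one_kronecker_one]

theorem kronG_val (a : GL (Fin n₁) F) (b : GL (Fin n₂) F) :
    ((kronG a b : GL (Fin n₁ × Fin n₂) F) : Matrix (Fin n₁ × Fin n₂) (Fin n₁ × Fin n₂) F) =
      (a : Matrix (Fin n₁) (Fin n₁) F) ⊗ₖ (b : Matrix (Fin n₂) (Fin n₂) F) := rfl

theorem kronG_mul (a a' : GL (Fin n₁) F) (b b' : GL (Fin n₂) F) :
    kronG (a * a') (b * b') = kronG a b * kronG a' b' := by
  apply Units.ext
  rw [Units.val_mul, kronG_val, kronG_val, kronG_val, Units.val_mul, Units.val_mul, Matrix.mul_kronecker_mul]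

theorem kronG_one : kronG (1 : GL (Fin n₁) F) (1 : GL (Fin n₂) F) = 1 := by
  apply Units.ext
  rw [kronG_val, Units.val_one, Units.val_one, Units.val_one, Matrix.one_kronecker_one]

theorem mem_kronecker_iff {g : GL (Fin n₁ × Fin n₂) F} :
    g ∈ Cfsg.Geo.kroneckerSubgroup n₁ n₂ F ↔ ∃ a b, g = kronG a b :=
  ⟨fun ⟨a, b, h⟩ => ⟨a, b, Units.ext h⟩, fun ⟨a, b, h⟩ => ⟨a, b, by rw [h]; rfl⟩⟩

variable (e : ι ≃ Fin n₁ × Fin n₂) (P : GL ι F)

/-- Conjugating and reindexing. -/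
def tconj : GL (Fin n₁ × Fin n₂) F →* GL ι F :=
  ((MulAut.conj P).toMonoidHom).comp (Cfsg.Geo.glReindex e.symm).toMonoidHom

theorem tconj_injective : Function.Injective (tconj e P) := by
  intro a b h
  simpa [tconj] using h

theorem mem_tensor_iff {g : GL ι F} :
    g ∈ Cfsg.Geo.tensorProductSubgroup n₁ n₂ e P ↔ ∃ a b, g = tconj e P (kronG a b) := by
  constructor
  · rintro ⟨_, ⟨x, hx, rfl⟩, rfl⟩
    obtain ⟨a, b, rfl⟩ := mem_kronecker_iff.1 hx
    exact ⟨a, b, rfl⟩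
  · rintro ⟨a, b, rfl⟩
    exact ⟨_, ⟨kronG a b, mem_kronecker_iff.2 ⟨a, b, rfl⟩, rfl⟩, rfl⟩

/-- The coordinates `x ↦ P (x ∘ e)`. -/
noncomputable def tPhi : (Fin n₁ × Fin n₂ → F) ≃ₗ[F] (ι → F) :=
  (LinearEquiv.funCongrLeft F F e).trans (act P)

theorem tPhi_apply (x : W) : tPhi e P x = (P : Matrix ι ι F) *ᵥ (x ∘ e) := rfl

theorem act_tconj (G : GL (Fin n₁ × Fin n₂) F) (x : W) :
    act (tconj e P G) (tPhi e P x) = tPhi e P ((G : Matrix _ _ F) *ᵥ x) := by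
  have h1 : ((tconj e P G : GL ι F) : Matrix ι ι F) =
      (P : Matrix ι ι F) * (((Cfsg.Geo.glReindex e.symm G : GL ι F)) : Matrix ι ι F) * ((P⁻¹ : GL ι F) : Matrix ι ι F) := rfl
  have h2 : (Cfsg.Geo.glReindex e.symm G : GL ι F).val = (G : Matrix _ _ F).submatrix e e := rfl
  show ((tconj e P G : GL ι F) : Matrix ι ι F) *ᵥ ((P : Matrix ι ι F) *ᵥ (x ∘ e)) =
    (P : Matrix ι ι F) *ᵥ ((((G : Matrix _ _ F) *ᵥ x)) ∘ e)
  rw [h1, h2, Matrix.mulVec_mulVec, mul_assoc, mul_assoc, ← Units.val_mul, inv_mul_cancel, Units.val_one, mul_one]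
  rw [← Matrix.mulVec_mulVec]
  congr 1
  funext i
  simp only [Matrix.mulVec, dotProduct, Function.comp, Matrix.submatrix_apply]
  exact Fintype.sum_equiv e _ _ (fun _ => rfl)

end Cfsg.Agent.Lib.Geo
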