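import Mathlib
import Cfsg.Agent.Lib.Geo.TensorTools
import Cfsg.Agent.Lib.Geo.Decomp

set_option autoImplicit false

/-! Pure tensors and the stabilizers of tensor decompositions whose first factor has a unique frame. -/

namespace Cfsg.Agent.Lib.Geo

open scoped MatrixGroups Matrix Kronecker
open Module

variable {ι : Type} [Fintype ι] [DecidableEq ι] {F : Type*} [Field F] {n₁ n₂ : ℕ}

/-- Pure tensors in coordinates. -/
def pt (u : Fin n₁ → F) (v : Fin n₂ → F) : Fin n₁ × Fin n₂ → F := fun ab => u ab.1 * v ab.2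

theorem pt_apply (u : Fin n₁ → F) (v : Fin n₂ → F) (ab : Fin n₁ × Fin n₂) : pt u v ab = u ab.1 * v ab.2 := rfl

theorem kron_mulVec_pt (A : Matrix (Fin n₁) (Fin n₁) F) (B : Matrix (Fin n₂) (Fin n₂) F)
    (u : Fin n₁ → F) (v : Fin n₂ → F) : (A ⊗ₖ B) *ᵥ pt u v = pt (A *ᵥ u) (B *ᵥ v) := by
  funext ⟨a, b⟩
  simp only [Matrix.mulVec, dotProduct, pt, Matrix.kroneckerMap_apply, Fintype.sum_prod_type]
  rw [Finset.sum_mul_sum]
  refine Finset.sum_congr rfl fun x _ => Finset.sum_congr rfl fun y _ => ?_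
  ring

theorem pt_add_left (u u' : Fin n₁ → F) (v : Fin n₂ → F) : pt (u + u') v = pt u v + pt u' v := by
  funext ab
  simp [pt, add_mul]

theorem pt_add_right (u : Fin n₁ → F) (v v' : Fin n₂ → F) : pt u (v + v') = pt u v + pt u v' := by
  funext ab
  simp [pt, mul_add]

theorem pt_smul_left (c : F) (u : Fin n₁ → F) (v : Fin n₂ → F) : pt (c • u) v = c • pt u v := by
  funext ab
  simp [pt, mul_assoc]

theorem pt_smul_right (c : F) (u : Fin n₁ → F) (v : Fin n₂ → F) : pt u (c • v) = c • pt u v := by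
  funext ab
  simp only [pt, Pi.smul_apply, smul_eq_mul]
  ring

theorem pt_ne_zero {u : Fin n₁ → F} {v : Fin n₂ → F} (hu : u ≠ 0) (hv : v ≠ 0) : pt u v ≠ 0 := by
  obtain ⟨i, hi⟩ := Function.ne_iff.1 hu
  obtain ⟨j, hj⟩ := Function.ne_iff.1 hv
  intro h
  have := congrFun h (i, j)
  simp only [pt, Pi.zero_apply, mul_eq_zero] at this hi hj
  tauto

/-- Uniqueness of pure tensors. -/
theorem pt_eq_pt {u u' : Fin n₁ → F} {v v' : Fin n₂ → F} (hu : u ≠ 0) (hv : v ≠ 0)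
    (h : pt u v = pt u' v') : ∃ c : F, c ≠ 0 ∧ u' = c • u ∧ v = c • v' := by
  obtain ⟨i, hi⟩ := Function.ne_iff.1 hu
  obtain ⟨j, hj⟩ := Function.ne_iff.1 hv
  simp only [Pi.zero_apply] at hi hj
  have e : ∀ a b, u a * v b = u' a * v' b := fun a b => congrFun h (a, b)
  have hi' : u' i ≠ 0 := by
    intro h0
    have := e i j
    rw [h0, zero_mul] at this
    exact mul_ne_zero hi hj this
  have hj' : v' j ≠ 0 := by
    intro h0
    have := e i j
    rw [h0, mul_zero] at this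
    exact mul_ne_zero hi hj this
  obtain ⟨c, hc⟩ : ∃ c, c = u' i / u i := ⟨_, rfl⟩
  have hc0 : c ≠ 0 := by rw [hc]; exact div_ne_zero hi' hi
  have hci : u' i = c * u i := by rw [hc]; field_simp
  have hvb : ∀ b, v b = c * v' b := by
    intro b
    have e1 := e i b
    rw [hci] at e1
    have : u i * (v b - c * v' b) = 0 := by linear_combination e1
    exact sub_eq_zero.1 ((mul_eq_zero.1 this).resolve_left hi)
  refine ⟨c, hc0, ?_, ?_⟩
  · funext a
    have e1 := e a j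
    rw [hvb j] at e1
    have : v' j * (u' a - c * u a) = 0 := by linear_combination -e1
    have h2 := sub_eq_zero.1 ((mul_eq_zero.1 this).resolve_left hj')
    simpa using h2
  · funext b
    simpa using hvb b

section Tau

variable (e : ι ≃ Fin n₁ × Fin n₂) (P : GL ι F)

/-- The image of a pure tensor. -/
noncomputable def tau (u : Fin n₁ → F) (v : Fin n₂ → F) : ι → F := tPhi e P (pt u v)

theorem tau_def (u : Fin n₁ → F) (v : Fin n₂ → F) : tau e P u v = (P : Matrix ι ι F) *ᵥ (pt u v ∘ e) := rfl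

theorem tau_add_left (u u' : Fin n₁ → F) (v : Fin n₂ → F) : tau e P (u + u') v = tau e P u v + tau e P u' v := by
  rw [tau, pt_add_left, map_add]
  rfl

theorem tau_add_right (u : Fin n₁ → F) (v v' : Fin n₂ → F) : tau e P u (v + v') = tau e P u v + tau e P u v' := by
  rw [tau, pt_add_right, map_add]
  rfl

theorem tau_smul_left (c : F) (u : Fin n₁ → F) (v : Fin n₂ → F) : tau e P (c • u) v = c • tau e P u v := by
  rw [tau, pt_smul_left, map_smul]
  rfl

theorem tau_smul_right (c : F) (u : Fin n₁ → F) (v : Fin n₂ → F) : tau e P u (c • v) = c • tau e P u v := by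
  rw [tau, pt_smul_right, map_smul]
  rfl

theorem tau_zero_left (v : Fin n₂ → F) : tau e P (0 : Fin n₁ → F) v = 0 := by
  have := tau_smul_left e P (0 : F) (0 : Fin n₁ → F) v
  simpa using this

theorem tau_zero_right (u : Fin n₁ → F) : tau e P u (0 : Fin n₂ → F) = 0 := by
  have := tau_smul_right e P (0 : F) u (0 : Fin n₂ → F)
  simpa using this

theorem tau_ne_zero {u : Fin n₁ → F} {v : Fin n₂ → F} (hu : u ≠ 0) (hv : v ≠ 0) : tau e P u v ≠ 0 := by
  intro h
  exact pt_ne_zero hu hv ((tPhi e P).map_eq_zero_iff.1 h)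

theorem tau_eq_tau {u u' : Fin n₁ → F} {v v' : Fin n₂ → F} (hu : u ≠ 0) (hv : v ≠ 0)
    (h : tau e P u v = tau e P u' v') : ∃ c : F, c ≠ 0 ∧ u' = c • u ∧ v = c • v' :=
  pt_eq_pt hu hv ((tPhi e P).injective h)

theorem tau_left_inj {u u' : Fin n₁ → F} {v : Fin n₂ → F} (hv : v ≠ 0)
    (h : tau e P u v = tau e P u' v) : u = u' := by
  have h0 : tau e P (u - u') v = 0 := by
    have : u - u' = u + (-1 : F) • u' := by simp [sub_eq_add_neg]
    rw [this, tau_add_left, tau_smul_left, h]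
    simp
  by_contra hne
  exact tau_ne_zero e P (sub_ne_zero.2 hne) hv h0

theorem tau_right_inj {u : Fin n₁ → F} {v v' : Fin n₂ → F} (hu : u ≠ 0)
    (h : tau e P u v = tau e P u v') : v = v' := by
  have h0 : tau e P u (v - v') = 0 := by
    have : v - v' = v + (-1 : F) • v' := by simp [sub_eq_add_neg]
    rw [this, tau_add_right, tau_smul_right, h]
    simp
  by_contra hne
  exact tau_ne_zero e P hu (sub_ne_zero.2 hne) h0

theorem act_tau (a : GL (Fin n₁) F) (b : GL (Fin n₂) F) (u : Fin n₁ → F) (v : Fin n₂ → F) :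
    act (tconj e P (kronG a b)) (tau e P u v) = tau e P ((a : Matrix _ _ F) *ᵥ u) ((b : Matrix _ _ F) *ᵥ v) := by
  rw [tau, act_tconj, kronG_val, kron_mulVec_pt]
  rfl

/-- A tensor element which is the identity on one factor line and has a fixed vector on another. -/
theorem tensor_fix {g : GL ι F} (hg : g ∈ Cfsg.Geo.tensorProductSubgroup n₁ n₂ e P) {b b' : Fin n₁ → F} (hb : b ≠ 0)
    {w₀ : Fin n₂ → F} (hw₀ : w₀ ≠ 0) (h : ∀ w, act g (tau e P b w) = tau e P b w)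
    (h' : act g (tau e P b' w₀) = tau e P b' w₀) : ∀ w, act g (tau e P b' w) = tau e P b' w := by
  obtain ⟨A, B, rfl⟩ := (mem_tensor_iff e P).1 hg
  intro w
  simp only [act_tau] at h h' ⊢
  obtain ⟨A', hA'⟩ : ∃ A' : Matrix (Fin n₁) (Fin n₁) F, A' = (A : Matrix _ _ F) := ⟨_, rfl⟩
  obtain ⟨B', hB'⟩ : ∃ B' : Matrix (Fin n₂) (Fin n₂) F, B' = (B : Matrix _ _ F) := ⟨_, rfl⟩
  rw [← hA', ← hB'] at h h' ⊢
  -- B' is a scalar on all vectors
  obtain ⟨c, hc, e1, e2⟩ := tau_eq_tau e P hb hw₀ (h w₀).symm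
  have hB : ∀ y, y = c • (B' *ᵥ y) := by
    intro y
    have e3 := h y
    rw [e1, tau_smul_left, ← tau_smul_right] at e3
    exact (tau_right_inj e P hb e3).symm
  have hBy : ∀ y, B' *ᵥ y = c⁻¹ • y := by
    intro y
    conv_rhs => rw [hB y]
    rw [smul_smul, inv_mul_cancel₀ hc, one_smul]
  rw [hBy, tau_smul_right, ← tau_smul_left] at h' ⊢
  have := tau_left_inj e P hw₀ h'
  rw [this]

end Tau

section Form

/-- The four identities needed for a sesquilinear form. -/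
structure Sesq (σ : F → F) {n : ℕ} (g : (Fin n → F) → (Fin n → F) → F) : Prop where
  add_left : ∀ x y v, g (x + y) v = g x v + g y v
  smul_left : ∀ (c : F) (x v : Fin n → F), g (c • x) v = c * g x v
  add_right : ∀ v x y, g v (x + y) = g v x + g v y
  smul_right : ∀ (c : F) (v x : Fin n → F), g v (c • x) = σ c * g v x

theorem bilinear_sesq {n : ℕ} {g : (Fin n → F) → (Fin n → F) → F} (hg : Cfsg.Geo.IsBilinearForm g) : Sesq id g :=
  ⟨hg.add_left, hg.smul_left, hg.add_right, hg.smul_right⟩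

theorem Sesq.gram {σ : F → F} {n : ℕ} {g : (Fin n → F) → (Fin n → F) → F} (hg : Sesq σ g) (u u' : Fin n → F) :
    g u u' = ∑ i, ∑ k, u i * Cfsg.Geo.gramMatrix g i k * σ (u' k) := by
  have hz : ∀ y, g 0 y = 0 := fun y => by simpa using hg.smul_left 0 0 y
  have hz' : ∀ y, g y 0 = 0 := fun y => by
    have h1 := hg.add_right y 0 0
    simp only [add_zero] at h1
    linear_combination -h1
  have hsumL : ∀ (s : Finset (Fin n)) (φ : Fin n → Fin n → F) (y : Fin n → F), g (s.sum fun i => (φ i)) y = s.sum fun i => g (φ i) y := by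
    intro s φ y
    classical
    induction s using Finset.induction_on with
    | empty => simp [hz]
    | insert a s ha ih => rw [Finset.sum_insert ha, Finset.sum_insert ha, hg.add_left, ih]
  have hsumR : ∀ (s : Finset (Fin n)) (φ : Fin n → Fin n → F) (y : Fin n → F), g y (s.sum fun i => (φ i)) = s.sum fun i => g y (φ i) := by
    intro s φ y
    classical
    induction s using Finset.induction_on with
    | empty => simp [hz']
    | insert a s ha ih => rw [Finset.sum_insert ha, Finset.sum_insert ha, hg.add_right, ih]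
  have e1 : ∀ x : Fin n → F, x = ∑ i, x i • (Pi.single i 1 : Fin n → F) := by
    intro x
    funext j
    simp [Finset.sum_apply, Pi.single_apply]
  conv_lhs => rw [e1 u, e1 u']
  rw [hsumL]
  refine Finset.sum_congr rfl fun i _ => ?_
  rw [hg.smul_left, hsumR, Finset.mul_sum]
  refine Finset.sum_congr rfl fun k _ => ?_
  rw [hg.smul_right]
  simp only [Cfsg.Geo.gramMatrix]
  ring

variable {σ : F → F} (e : ι ≃ Fin n₁ × Fin n₂) (P : GL ι F) {g₁ : (Fin n₁ → F) → (Fin n₁ → F) → F}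
  {g₂ : (Fin n₂ → F) → (Fin n₂ → F) → F} {f : (ι → F) → (ι → F) → F}

/-- The form on pure tensors. -/
theorem tau_form (hσ : ∀ x y, σ (x * y) = σ x * σ y) (h₁ : Sesq σ g₁) (h₂ : Sesq σ g₂) {c : F}
    (hc : ∀ x y : Fin n₁ × Fin n₂ → F,
      f ((P : Matrix ι ι F) *ᵥ (x ∘ e)) ((P : Matrix ι ι F) *ᵥ (y ∘ e)) =
      c * Cfsg.Geo.formOfGram σ (Cfsg.Geo.gramMatrix g₁ ⊗ₖ Cfsg.Geo.gramMatrix g₂) x y)
    (u u' : Fin n₁ → F) (w w' : Fin n₂ → F) :
    f (tau e P u w) (tau e P u' w') = c * (g₁ u u' * g₂ w w') := by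
  rw [tau_def, tau_def, hc, h₁.gram u u', h₂.gram w w']
  congr 1
  simp only [Cfsg.Geo.formOfGram, Fintype.sum_prod_type, pt, Matrix.kroneckerMap_apply, hσ]
  simp only [Finset.sum_mul_sum]
  refine Finset.sum_congr rfl fun a _ => Finset.sum_congr rfl fun k _ => Finset.sum_congr rfl fun b _ =>
    Finset.sum_congr rfl fun l _ => ?_
  ring

end Form

section Blocks

variable (e : ι ≃ Fin n₁ × Fin n₂) (P : GL ι F)

/-- `w ↦ u ⊗ w` as a linear map. -/
noncomputable def tauR (u : Fin n₁ → F) : (Fin n₂ → F) →ₗ[F] (ι → F) where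
  toFun := tau e P u
  map_add' := tau_add_right e P u
  map_smul' c w := tau_smul_right e P c u w

/-- The block `u ⊗ W`. -/
noncomputable def bD (u : Fin n₁ → F) : Submodule F (ι → F) := LinearMap.range (tauR e P u)

theorem mem_bD {u : Fin n₁ → F} {x : ι → F} : x ∈ bD e P u ↔ ∃ w, x = tau e P u w :=
  ⟨fun ⟨w, hw⟩ => ⟨w, hw.symm⟩, fun ⟨w, hw⟩ => ⟨w, hw.symm⟩⟩

theorem tau_mem_bD (u : Fin n₁ → F) (w : Fin n₂ → F) : tau e P u w ∈ bD e P u := ⟨w, rfl⟩

theorem finrank_bD {u : Fin n₁ → F} (hu : u ≠ 0) : finrank F (bD e P u) = n₂ := by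
  have hinj : Function.Injective (tauR e P (n₂ := n₂) u) := fun v v' h => tau_right_inj e P hu h
  rw [bD, LinearMap.finrank_range_of_inj hinj, Module.finrank_fin_fun]

/-- A tensor element whose first factor permutes the lines of a frame stabilizes the blocks. -/
theorem kron_mem_stab {t : ℕ} {b : Fin t → (Fin n₁ → F)} (hb : ∀ j, b j ≠ 0) (A : GL (Fin n₁) F) (B : GL (Fin n₂) F)
    (σ : Equiv.Perm (Fin t)) (h : ∀ j, ∃ c : F, (A : Matrix _ _ F) *ᵥ b j = c • b (σ j)) :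
    tconj e P (kronG A B) ∈ Cfsg.Geo.decompositionStabilizer (fun j => bD e P (b j)) := by
  refine mem_stabD_of (k := n₂) (fun i => finrank_bD e P (hb i)) σ fun l x hx => ?_
  obtain ⟨w, rfl⟩ := (mem_bD e P).1 hx
  obtain ⟨c, hc⟩ := h l
  rw [act_tau, hc, tau_smul_left, ← tau_smul_right]
  exact tau_mem_bD e P _ _

/-- An isometry in the tensor subgroup gives a similarity on the first factor. -/
theorem kron_similarity {f : (ι → F) → (ι → F) → F} {g₁ : (Fin n₁ → F) → (Fin n₁ → F) → F}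
    {g₂ : (Fin n₂ → F) → (Fin n₂ → F) → F} {c : F} (hc : c ≠ 0)
    (hform : ∀ u u' w w', f (tau e P u w) (tau e P u' w') = c * (g₁ u u' * g₂ w w'))
    {A : GL (Fin n₁) F} {B : GL (Fin n₂) F}
    (hg : ∀ x y, f (act (tconj e P (kronG A B)) x) (act (tconj e P (kronG A B)) y) = f x y)
    (h₁ : ∃ u u', g₁ u u' ≠ 0) (h₂ : ∃ w w', g₂ w w' ≠ 0) :
    ∃ ρ : F, ρ ≠ 0 ∧ ∀ u u', g₁ ((A : Matrix _ _ F) *ᵥ u) ((A : Matrix _ _ F) *ᵥ u') = ρ * g₁ u u' := by
  obtain ⟨u₀, u₀', hu⟩ := h₁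
  obtain ⟨w, w', hw⟩ := h₂
  have key : ∀ u u', g₁ ((A : Matrix _ _ F) *ᵥ u) ((A : Matrix _ _ F) *ᵥ u') * g₂ ((B : Matrix _ _ F) *ᵥ w) ((B : Matrix _ _ F) *ᵥ w') =
      g₁ u u' * g₂ w w' := by
    intro u u'
    have := hg (tau e P u w) (tau e P u' w')
    rw [act_tau, act_tau, hform, hform] at this
    exact mul_left_cancel₀ hc this
  have hB : g₂ ((B : Matrix _ _ F) *ᵥ w) ((B : Matrix _ _ F) *ᵥ w') ≠ 0 := by
    intro h0
    have := key u₀ u₀'
    rw [h0, mul_zero] at this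
    exact mul_ne_zero hu hw this.symm
  refine ⟨g₂ w w' / g₂ ((B : Matrix _ _ F) *ᵥ w) ((B : Matrix _ _ F) *ᵥ w'), div_ne_zero hw hB, fun u u' => ?_⟩
  have := key u u'
  field_simp
  linear_combination this

/-- The elements of the tensor subgroup in an isometry group stabilize the blocks of the frame. -/
theorem tensor_le_stab {f : (ι → F) → (ι → F) → F} {g₁ : (Fin n₁ → F) → (Fin n₁ → F) → F}
    {g₂ : (Fin n₂ → F) → (Fin n₂ → F) → F} {c : F} (hc : c ≠ 0)
    (hform : ∀ u u' w w', f (tau e P u w) (tau e P u' w') = c * (g₁ u u' * g₂ w w'))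
    (h₁ : ∃ u u', g₁ u u' ≠ 0) (h₂ : ∃ w w', g₂ w w' ≠ 0) {t : ℕ} {b : Fin t → (Fin n₁ → F)} (hb : ∀ j, b j ≠ 0)
    (hframe : ∀ A : GL (Fin n₁) F, (∃ ρ : F, ρ ≠ 0 ∧ ∀ u u', g₁ ((A : Matrix _ _ F) *ᵥ u) ((A : Matrix _ _ F) *ᵥ u') = ρ * g₁ u u') →
      ∃ σ : Equiv.Perm (Fin t), ∀ j, ∃ d : F, (A : Matrix _ _ F) *ᵥ b j = d • b (σ j))
    {g : GL ι F} (hg : g ∈ Cfsg.Geo.tensorProductSubgroup n₁ n₂ e P) (hiso : ∀ x y, f (act g x) (act g y) = f x y) :
    g ∈ Cfsg.Geo.decompositionStabilizer (fun j => bD e P (b j)) := by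
  obtain ⟨A, B, rfl⟩ := (mem_tensor_iff e P).1 hg
  obtain ⟨σ, hσ⟩ := hframe A (kron_similarity e P hc hform hiso h₁ h₂)
  exact kron_mem_stab e P hb A B σ hσ

/-- Non-tensor elements: identity on a block, a fixed vector but not the identity on another. -/
theorem not_tensor_of {g : GL ι F} {b b' : Fin n₁ → F} (hb : b ≠ 0) {w₀ : Fin n₂ → F} (hw₀ : w₀ ≠ 0)
    (h : ∀ w, act g (tau e P b w) = tau e P b w) (h' : act g (tau e P b' w₀) = tau e P b' w₀)
    {w₁ : Fin n₂ → F} (h'' : act g (tau e P b' w₁) ≠ tau e P b' w₁) :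
    g ∉ Cfsg.Geo.tensorProductSubgroup n₁ n₂ e P := fun hg =>
  h'' (tensor_fix e P hg hb hw₀ h h' w₁)

/-- Non-block vectors. -/
theorem not_mem_blocks {t : ℕ} {D : Fin t → Submodule F (ι → F)} {f : (ι → F) → (ι → F) → F}
    (hadd : ∀ v x y, f v (x + y) = f v x + f v y)
    (horth : ∀ i j, i ≠ j → ∀ x ∈ D i, ∀ y ∈ D j, f x y = 0)
    (hnd : ∀ j, ∀ x ∈ D j, x ≠ 0 → ∃ y ∈ D j, f y x ≠ 0)
    {i j : Fin t} (hij : i ≠ j) {x y : ι → F} (hx : x ∈ D i) (hy : y ∈ D j) (hx0 : x ≠ 0) (hy0 : y ≠ 0) (l : Fin t) :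
    x + y ∉ D l := by
  intro hl
  by_cases hli : l = i
  · subst hli
    obtain ⟨z, hz, hzy⟩ := hnd j y hy hy0
    have h1 := horth j l hij.symm z hz _ hl
    rw [hadd, horth j l hij.symm z hz x hx, zero_add] at h1
    exact hzy h1
  · obtain ⟨z, hz, hzx⟩ := hnd i x hx hx0
    have h1 := horth i l (Ne.symm hli) z hz _ hl
    rw [hadd] at h1
    by_cases hij' : j = i
    · exact absurd hij'.symm hij
    · rw [horth i j hij z hz y hy, add_zero] at h1
      exact hzx h1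

/-- A vector which goes outside the blocks. -/
theorem not_stab_of {t : ℕ} {D : Fin t → Submodule F (ι → F)} {g : GL ι F} {l : Fin t} {x : ι → F} (hx : x ∈ D l)
    (h : ∀ m, act g x ∉ D m) : g ∉ Cfsg.Geo.decompositionStabilizer D := fun hg => by
  obtain ⟨σ, hσ⟩ := act_mem_of_stabD hg
  exact h _ (hσ l x hx)

end Blocks

/-- The subgroup in the middle. -/
theorem between_of {G : Type*} [Group G] {T S I : Subgroup G} (hle : ∀ g ∈ T, g ∈ I → g ∈ S) {g₁ g₂ : G}
    (h₁ : g₁ ∈ I) (h₁' : g₁ ∈ S) (h₁'' : g₁ ∉ T) (h₂ : g₂ ∈ I) (h₂' : g₂ ∉ S) :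
    ∃ K : Subgroup G, T ⊓ I < K ∧ K < I := by
  refine ⟨S ⊓ I, ?_, ?_⟩
  · refine lt_of_le_of_ne (fun g hg => ⟨hle g hg.1 hg.2, hg.2⟩) fun h => ?_
    have : g₁ ∈ T ⊓ I := by
      rw [h]
      exact ⟨h₁', h₁⟩
    exact h₁'' this.1
  · refine lt_of_le_of_ne inf_le_right fun h => ?_
    have : g₂ ∈ S ⊓ I := by
      rw [h]
      exact h₂
    exact h₂' this.1

end Cfsg.Agent.Lib.Geo
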