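import Mathlib
import Cfsg.Agent.Lib.Geo.TensorFrame
import Cfsg.Agent.Lib.Geo.ElusFP3

set_option autoImplicit false

/-! Kronecker products in the tensor coordinates: eigenspaces, ranks and conjugacy. -/

namespace Cfsg.Agent.Lib.Geo

open Polynomial Module
open scoped Matrix Kronecker MatrixGroups

section Tens

variable {ι : Type} [Fintype ι] [DecidableEq ι] {F : Type*} [Field F] {a b : ℕ} (e : ι ≃ Fin a × Fin b) (P : GL ι F)

/-- A map of the space acting as a Kronecker product in the tensor coordinates. -/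
def IsTens (G : Module.End F (ι → F)) (A : Matrix (Fin a) (Fin a) F) (B : Matrix (Fin b) (Fin b) F) : Prop :=
  ∀ x, G (tPhi e P x) = tPhi e P ((A ⊗ₖ B) *ᵥ x)

theorem isTens_tconj (A : GL (Fin a) F) (B : GL (Fin b) F) :
    IsTens e P (Matrix.toLin' ((tconj e P (kronG A B) : GL ι F) : Matrix ι ι F)) (A : Matrix (Fin a) (Fin a) F) (B : Matrix (Fin b) (Fin b) F) := by
  intro x
  have := act_tconj e P (kronG A B) x
  rw [kronG_val] at this
  exact this

theorem isTens_of_mem {g : GL ι F} (hg : g ∈ Cfsg.Geo.tensorProductSubgroup a b e P) :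
    ∃ (A : GL (Fin a) F) (B : GL (Fin b) F), IsTens e P (Matrix.toLin' (g : Matrix ι ι F)) (A : Matrix (Fin a) (Fin a) F) (B : Matrix (Fin b) (Fin b) F) := by
  obtain ⟨A, B, rfl⟩ := (mem_tensor_iff e P).1 hg
  exact ⟨A, B, isTens_tconj e P A B⟩

variable {e P}

theorem kron_pow (A : Matrix (Fin a) (Fin a) F) (B : Matrix (Fin b) (Fin b) F) (k : ℕ) : (A ⊗ₖ B) ^ k = (A ^ k) ⊗ₖ (B ^ k) := by
  induction k with
  | zero => simp [Matrix.one_kronecker_one]
  | succ k ih => rw [pow_succ, ih, pow_succ, pow_succ, Matrix.mul_kronecker_mul]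

theorem IsTens.pow {G : Module.End F (ι → F)} {A : Matrix (Fin a) (Fin a) F} {B : Matrix (Fin b) (Fin b) F}
    (h : IsTens e P G A B) (k : ℕ) : IsTens e P (G ^ k) (A ^ k) (B ^ k) := by
  induction k with
  | zero =>
    intro x
    simp [Matrix.one_kronecker_one]
  | succ k ih =>
    intro x
    rw [pow_succ, Module.End.mul_apply, h x, ih, pow_succ, pow_succ, Matrix.mul_kronecker_mul, Matrix.mulVec_mulVec]

theorem IsTens.rescale {G : Module.End F (ι → F)} {A : Matrix (Fin a) (Fin a) F} {B : Matrix (Fin b) (Fin b) F}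
    (h : IsTens e P G A B) {t : F} (ht : t ≠ 0) : IsTens e P G (t⁻¹ • A) (t • B) := by
  intro x
  rw [h x, Matrix.smul_kronecker, Matrix.kronecker_smul, smul_smul, inv_mul_cancel₀ ht, one_smul]

/-- If `A` is not scalar, the eigenspaces of the product are small. -/
theorem tens_bound {G : Module.End F (ι → F)} {A : Matrix (Fin a) (Fin a) F} {B : Matrix (Fin b) (Fin b) F}
    (h : IsTens e P G A B) (hA : ∀ α : F, A ≠ α • 1) {c : F} (hc : c ≠ 0) :
    finrank F (LinearMap.ker (G - c • (1 : Module.End F (ι → F)))) + b ≤ Fintype.card ι := by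
  classical
  obtain ⟨u, hu⟩ : ∃ u, LinearIndependent F ![u, A *ᵥ u] := by
    by_contra hcon
    push Not at hcon
    obtain ⟨α, hα⟩ := LinearMap.exists_eq_smul_id_of_forall_notLinearIndependent (f := Matrix.toLin' A) (fun v => by
      rw [Matrix.toLin'_apply]
      exact hcon v)
    apply hA α
    apply Matrix.toLin'.injective
    rw [hα, map_smul, Matrix.toLin'_one]
    rfl
  let ptR : (Fin b → F) →ₗ[F] (Fin a × Fin b → F) :=
    { toFun := pt u
      map_add' := pt_add_right u
      map_smul' := fun c v => pt_smul_right c u v }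
  let Θ : (Fin b → F) →ₗ[F] (ι → F) := (G - c • (1 : Module.End F (ι → F))) ∘ₗ (tPhi e P : (Fin a × Fin b → F) →ₗ[F] (ι → F)) ∘ₗ ptR
  have hinj : Function.Injective Θ := by
    rw [injective_iff_map_eq_zero]
    intro w hw
    have h1 : G (tPhi e P (pt u w)) = c • tPhi e P (pt u w) := by
      have : (G - c • (1 : Module.End F (ι → F))) (tPhi e P (pt u w)) = 0 := hw
      simpa [sub_eq_zero] using this
    rw [h (pt u w), kron_mulVec_pt, ← map_smul] at h1
    have h2 := (tPhi e P).injective h1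
    funext j
    obtain ⟨hne⟩ : Nonempty (Fin a) := by
      by_contra hcon
      rw [not_nonempty_iff] at hcon
      have h3 := LinearIndependent.ne_zero 0 hu
      apply h3
      funext i
      exact (hcon.false i).elim
    have h3 : (c * w j) • u + (-(B *ᵥ w) j) • (A *ᵥ u) = 0 := by
      funext i
      have h4 := congrFun h2 (i, j)
      simp only [pt_apply, Pi.smul_apply, smul_eq_mul] at h4
      simp only [Pi.add_apply, Pi.smul_apply, smul_eq_mul, Pi.zero_apply]
      linear_combination -h4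
    have h5 := (LinearIndependent.pair_iff.1 hu) _ _ h3
    exact (mul_eq_zero.1 h5.1).resolve_left hc
  have h1 := LinearMap.finrank_range_add_finrank_ker (G - c • (1 : Module.End F (ι → F)))
  have h2 : LinearMap.range Θ ≤ LinearMap.range (G - c • (1 : Module.End F (ι → F))) := by
    rintro _ ⟨w, rfl⟩
    exact ⟨_, rfl⟩
  have h3 := Submodule.finrank_mono h2
  rw [LinearMap.finrank_range_of_inj hinj, finrank_fin_fun] at h3
  rw [finrank_fintype_fun_eq_card] at h1
  omega

theorem kron_smul_one_mulVec (α : F) (B : Matrix (Fin b) (Fin b) F) (y : Fin a × Fin b → F) (i : Fin a) (j : Fin b) :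
    (((α • (1 : Matrix (Fin a) (Fin a) F)) ⊗ₖ B) *ᵥ y) (i, j) = α * (B *ᵥ (fun j' => y (i, j'))) j := by
  classical
  simp only [Matrix.mulVec, dotProduct, Matrix.kroneckerMap_apply, Fintype.sum_prod_type, Matrix.smul_apply, smul_eq_mul]
  rw [Finset.sum_eq_single i]
  · rw [Finset.mul_sum]
    refine Finset.sum_congr rfl fun j' _ => ?_
    rw [Matrix.one_apply_eq]
    ring
  · intro i' _ hi'
    apply Finset.sum_eq_zero
    intro j' _
    rw [Matrix.one_apply_ne (Ne.symm hi')]
    ring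
  · intro h
    exact absurd (Finset.mem_univ i) h

/-- The eigenspaces of a product with a scalar factor. -/
theorem tens_ker_scalar {G : Module.End F (ι → F)} {B : Matrix (Fin b) (Fin b) F} {α : F} (hα : α ≠ 0)
    (h : IsTens e P G (α • 1) B) (c : F) :
    finrank F (LinearMap.ker (G - c • (1 : Module.End F (ι → F)))) =
      a * finrank F (LinearMap.ker (Matrix.toLin' B - (α⁻¹ * c) • (1 : Module.End F (Fin b → F)))) := by
  classical
  obtain ⟨S, hS⟩ : ∃ S, S = LinearMap.ker (Matrix.toLin' B - (α⁻¹ * c) • (1 : Module.End F (Fin b → F))) := ⟨_, rfl⟩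
  rw [← hS]
  have hSm : ∀ v, v ∈ S ↔ B *ᵥ v = (α⁻¹ * c) • v := by
    intro v
    rw [hS]
    simp only [LinearMap.mem_ker, LinearMap.sub_apply, LinearMap.smul_apply, Module.End.one_apply, sub_eq_zero, Matrix.toLin'_apply]
  let Φ : (Fin a → S) →ₗ[F] (ι → F) := (tPhi e P : (Fin a × Fin b → F) →ₗ[F] (ι → F)) ∘ₗ
    ((LinearEquiv.curry F F (Fin a) (Fin b)).symm : (Fin a → Fin b → F) →ₗ[F] (Fin a × Fin b → F)) ∘ₗ (LinearMap.compLeft S.subtype (Fin a))
  have hΦ : ∀ f, Φ f = tPhi e P (fun ij => (f ij.1 : Fin b → F) ij.2) := fun f => rfl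
  have hinj : Function.Injective Φ := by
    intro f f' hff
    rw [hΦ, hΦ] at hff
    have h1 := (tPhi e P).injective hff
    funext i
    apply Subtype.ext
    funext j
    exact congrFun h1 (i, j)
  have hcond : ∀ y : Fin a × Fin b → F, (G - c • (1 : Module.End F (ι → F))) (tPhi e P y) = 0 ↔ ∀ i, (fun j' => y (i, j')) ∈ S := by
    intro y
    have h1 : (G - c • (1 : Module.End F (ι → F))) (tPhi e P y) = 0 ↔ ((α • (1 : Matrix (Fin a) (Fin a) F)) ⊗ₖ B) *ᵥ y = c • y := by
      simp only [LinearMap.sub_apply, LinearMap.smul_apply, Module.End.one_apply, sub_eq_zero]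
      rw [h y, ← map_smul]
      exact (tPhi e P).injective.eq_iff
    rw [h1]
    constructor
    · intro h2 i
      rw [hSm]
      funext j
      have h3 := congrFun h2 (i, j)
      rw [kron_smul_one_mulVec] at h3
      simp only [Pi.smul_apply, smul_eq_mul] at h3 ⊢
      rw [mul_assoc, ← h3, inv_mul_cancel_left₀ hα]
    · intro h2
      funext ⟨i, j⟩
      rw [kron_smul_one_mulVec]
      have h3 := (hSm _).1 (h2 i)
      rw [h3]
      simp only [Pi.smul_apply, smul_eq_mul]
      rw [← mul_assoc, ← mul_assoc, mul_inv_cancel₀ hα, one_mul]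
  have hrange : LinearMap.range Φ = LinearMap.ker (G - c • (1 : Module.End F (ι → F))) := by
    ext x
    constructor
    · rintro ⟨f, rfl⟩
      rw [LinearMap.mem_ker, hΦ, hcond]
      intro i
      exact (f i).2
    · intro hx
      obtain ⟨y, rfl⟩ := (tPhi e P).surjective x
      rw [LinearMap.mem_ker, hcond] at hx
      exact ⟨fun i => ⟨_, hx i⟩, rfl⟩
  rw [← hrange, LinearMap.finrank_range_of_inj hinj, Module.finrank_pi_fintype]
  simp

/-- If a Kronecker product is scalar so are its factors. -/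
theorem kron_eq_smul_one {A : Matrix (Fin a) (Fin a) F} {B : Matrix (Fin b) (Fin b) F} {z : F} (hz : z ≠ 0) (ha : 0 < a) (hb : 0 < b)
    (h : A ⊗ₖ B = z • 1) : ∃ α β : F, A = α • 1 ∧ B = β • 1 ∧ α * β = z := by
  classical
  have hent : ∀ i i' j j', A i i' * B j j' = z * (if i = i' then 1 else 0) * (if j = j' then 1 else 0) := by
    intro i i' j j'
    have h1 := congrFun (congrFun h (i, j)) (i', j')
    simp only [Matrix.kroneckerMap_apply, Matrix.smul_apply, Matrix.one_apply, Prod.mk.injEq, smul_eq_mul] at h1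
    rw [h1]
    by_cases h2 : i = i' <;> by_cases h3 : j = j' <;> simp [h2, h3]
  obtain ⟨i₀⟩ : Nonempty (Fin a) := ⟨⟨0, ha⟩⟩
  obtain ⟨j₀⟩ : Nonempty (Fin b) := ⟨⟨0, hb⟩⟩
  have h0 := hent i₀ i₀ j₀ j₀
  simp only [if_true, mul_one] at h0
  have hα : A i₀ i₀ ≠ 0 := fun h => hz (by rw [← h0, h, zero_mul])
  have hβ : B j₀ j₀ ≠ 0 := fun h => hz (by rw [← h0, h, mul_zero])
  refine ⟨A i₀ i₀, B j₀ j₀, ?_, ?_, h0⟩
  · ext i i'
    have h1 := hent i i' j₀ j₀
    simp only [if_true, mul_one] at h1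
    simp only [Matrix.smul_apply, Matrix.one_apply, smul_eq_mul]
    apply mul_right_cancel₀ hβ
    rw [h1, ← h0]
    by_cases h2 : i = i' <;> simp [h2]
  · ext j j'
    have h1 := hent i₀ i₀ j j'
    simp only [if_true, mul_one] at h1
    simp only [Matrix.smul_apply, Matrix.one_apply, smul_eq_mul]
    apply mul_left_cancel₀ hα
    rw [h1, ← h0]
    by_cases h2 : j = j' <;> simp [h2]

/-- A product acting as a scalar has scalar factors. -/
theorem IsTens.scalar_factors {G : Module.End F (ι → F)} {A : Matrix (Fin a) (Fin a) F} {B : Matrix (Fin b) (Fin b) F}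
    (h : IsTens e P G A B) {z : F} (hz : z ≠ 0) (hG : G = z • 1) (ha : 0 < a) (hb : 0 < b) :
    ∃ α β : F, A = α • 1 ∧ B = β • 1 ∧ α * β = z := by
  apply kron_eq_smul_one hz ha hb
  apply Matrix.toLin'.injective
  apply LinearMap.ext
  intro y
  apply (tPhi e P).injective
  have h1 := h y
  rw [hG] at h1
  rw [Matrix.toLin'_apply, ← h1, map_smul, Matrix.toLin'_one]
  simp

theorem IsTens.alpha_ne_zero {G : Module.End F (ι → F)} {B : Matrix (Fin b) (Fin b) F} (h : IsTens e P G ((0 : F) • 1) B)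
    (hinj : Function.Injective G) (hn : 0 < Fintype.card ι) : False := by
  haveI : Nonempty ι := Fintype.card_pos_iff.1 hn
  have h1 : ∀ x, G x = 0 := by
    intro x
    obtain ⟨y, rfl⟩ := (tPhi e P).surjective x
    rw [h y]
    have h2 : ((0 : F) • (1 : Matrix (Fin a) (Fin a) F)) ⊗ₖ B = 0 := by
      rw [zero_smul]
      ext i j
      simp
    rw [h2, Matrix.zero_mulVec, map_zero]
  have h2 : (fun _ => 1 : ι → F) = 0 := hinj (by rw [h1, map_zero])
  have h3 := congrFun h2 (Classical.arbitrary ι)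
  simp at h3

/-- Large eigenspaces force the first factor to be a nonzero scalar. -/
theorem tens_large_scalar {G : Module.End F (ι → F)} {A : Matrix (Fin a) (Fin a) F} {B : Matrix (Fin b) (Fin b) F}
    (h : IsTens e P G A B) (hinj : Function.Injective G) (hn : 0 < Fintype.card ι) {c : F} (hc : c ≠ 0)
    (hlarge : Fintype.card ι < finrank F (LinearMap.ker (G - c • (1 : Module.End F (ι → F)))) + b) :
    ∃ α : F, α ≠ 0 ∧ A = α • 1 := by
  by_contra hcon
  push Not at hcon
  by_cases h0 : ∃ α : F, A = α • 1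
  · obtain ⟨α, hα⟩ := h0
    by_cases hα0 : α = 0
    · subst hα0
      rw [hα] at h
      exact h.alpha_ne_zero hinj hn
    · exact hcon α hα0 hα
  · push Not at h0
    have := tens_bound h h0 hc
    omega

/-- With a scalar first factor the eigenspaces have dimension divisible by `a`. -/
theorem tens_dvd {G : Module.End F (ι → F)} {A : Matrix (Fin a) (Fin a) F} {B : Matrix (Fin b) (Fin b) F}
    (h : IsTens e P G A B) {α : F} (hα : α ≠ 0) (hA : A = α • 1) (c : F) :
    a ∣ finrank F (LinearMap.ker (G - c • (1 : Module.End F (ι → F)))) := by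
  subst hA
  rw [tens_ker_scalar hα h c]
  exact Dvd.intro _ rfl

theorem IsTens.eq_smul {G : Module.End F (ι → F)} {α β : F} (h : IsTens e P G (α • (1 : Matrix (Fin a) (Fin a) F)) (β • (1 : Matrix (Fin b) (Fin b) F))) :
    G = (α * β) • 1 := by
  apply LinearMap.ext
  intro x
  obtain ⟨y, rfl⟩ := (tPhi e P).surjective x
  rw [h y, Matrix.smul_kronecker, Matrix.kronecker_smul, smul_smul, Matrix.one_kronecker_one, Matrix.smul_mulVec, Matrix.one_mulVec, map_smul]
  rfl

/-- An element of prime order with few fixed vectors is not in the tensor group. -/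
theorem tens_block {p : ℕ} [Fact p.Prime] [Fintype F] [CharP F p] {q r : ℕ} (hq : Fintype.card F = q) [hr : Fact r.Prime] (hrp : r ≠ p) (hrq : ¬ r ∣ q - 1)
    (ha : 2 ≤ a) (hab : a < b) (hn : Fintype.card ι = a * b)
    {G : Module.End F (ι → F)} {A : Matrix (Fin a) (Fin a) F} {B : Matrix (Fin b) (Fin b) F} (h : IsTens e P G A B) (hy : G ^ r = 1)
    (hker : finrank F (LinearMap.ker (G - (1 : F) • (1 : Module.End F (ι → F)))) + orderOf (q : ZMod r) = Fintype.card ι) : False := by
  classical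
  have hrP : r.Prime := hr.out
  have hi0 := order_pos (F := F) (p := p) hq hrp
  obtain ⟨i, hi⟩ : ∃ i, i = orderOf (q : ZMod r) := ⟨_, rfl⟩
  rw [← hi] at hker hi0
  have hnpos : 0 < Fintype.card ι := by rw [hn]; exact Nat.mul_pos (by omega) (by omega)
  have hinj : Function.Injective G := by
    have h1 : G ^ (r - 1) * G = 1 := by
      rw [← pow_succ, Nat.sub_add_cancel hrP.one_lt.le, hy]
    apply Function.LeftInverse.injective (g := G ^ (r - 1))
    intro v
    rw [← Module.End.mul_apply, h1]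
    rfl
  have hG : G ^ r = (1 : F) • 1 := by rw [hy, one_smul]
  obtain ⟨α, β, hα, hβ, hαβ⟩ := (h.pow r).scalar_factors one_ne_zero hG (by omega) (by omega)
  have hα0 : α ≠ 0 := left_ne_zero_of_mul (by rw [hαβ]; exact one_ne_zero)
  obtain ⟨α₀, hα₀⟩ := exists_root_of_coprime (F := F) hq hrP hrq α
  have hα₀0 : α₀ ≠ 0 := by
    rintro rfl
    rw [zero_pow hrP.ne_zero] at hα₀
    exact hα0 hα₀.symm
  have h₁ := h.rescale hα₀0
  obtain ⟨A₁, hA₁d⟩ : ∃ A₁, A₁ = α₀⁻¹ • A := ⟨_, rfl⟩
  obtain ⟨B₁, hB₁d⟩ : ∃ B₁, B₁ = α₀ • B := ⟨_, rfl⟩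
  rw [← hA₁d, ← hB₁d] at h₁
  have hA₁ : A₁ ^ r = 1 := by
    rw [hA₁d, _root_.smul_pow, hα, smul_smul, inv_pow, hα₀, inv_mul_cancel₀ hα0, one_smul]
  have hB₁ : B₁ ^ r = 1 := by
    rw [hB₁d, _root_.smul_pow, hβ, smul_smul, hα₀, hαβ, one_smul]
  have hkerA : ∀ (n' : ℕ) (M : Matrix (Fin n') (Fin n') F), M ^ r = 1 → ∃ e', n' = finrank F (LinearMap.ker (Matrix.toLin' M - (1 : F) • (1 : Module.End F (Fin n' → F)))) + e' * i := by
    intro n' M hM
    have hy' : (Matrix.toLin' M) ^ r = 1 := by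
      rw [← Matrix.toLin'_pow, hM, Matrix.toLin'_one]
      rfl
    obtain ⟨e', he'⟩ := finrank_inv_eq (F := F) (p := p) (y := Matrix.toLin' M) hq hrp hy' ⊤ (fun v _ => trivial)
    rw [top_inf_eq, finrank_top, finrank_fin_fun] at he'
    have hk : LinearMap.ker (aeval (Matrix.toLin' M) (X - C 1 : F[X])) = LinearMap.ker (Matrix.toLin' M - (1 : F) • (1 : Module.End F (Fin n' → F))) := by
      ext v
      rw [ker_aeval_X_sub_C, ker_sub_smul_mem]
    rw [hk, ← hi] at he'
    exact ⟨e', he'⟩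
  have hA₁1 : A₁ = 1 := by
    by_cases hib : i < b
    · have hlarge : Fintype.card ι < finrank F (LinearMap.ker (G - (1 : F) • (1 : Module.End F (ι → F)))) + b := by omega
      obtain ⟨α', hα'0, hα'⟩ := tens_large_scalar h₁ hinj hnpos one_ne_zero hlarge
      have h3 : α' ^ r = 1 := by
        rw [hα', _root_.smul_pow, one_pow] at hA₁
        have h4 := congrFun (congrFun hA₁ ⟨0, by omega⟩) ⟨0, by omega⟩
        simpa using h4
      rw [hα', eq_one_of_pow_coprime (F := F) hq hrP hrq h3, one_smul]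
    · obtain ⟨e', he'⟩ := hkerA a A₁ hA₁
      have he0 : e' = 0 := by
        by_contra hne
        have : 1 * i ≤ e' * i := Nat.mul_le_mul_right _ (by omega)
        omega
      subst he0
      rw [zero_mul, add_zero] at he'
      have h3 : LinearMap.ker (Matrix.toLin' A₁ - (1 : F) • (1 : Module.End F (Fin a → F))) = ⊤ :=
        Submodule.eq_top_of_finrank_eq (by rw [← he', finrank_fin_fun])
      apply Matrix.toLin'.injective
      apply LinearMap.ext
      intro v
      have h4 : v ∈ LinearMap.ker (Matrix.toLin' A₁ - (1 : F) • (1 : Module.End F (Fin a → F))) := by rw [h3]; trivial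
      rw [ker_sub_smul_mem, one_smul] at h4
      rw [h4, Matrix.toLin'_one]
      rfl
  rw [hA₁1] at h₁
  have h₂ : IsTens e P G ((1 : F) • (1 : Matrix (Fin a) (Fin a) F)) B₁ := by rwa [one_smul]
  have hk := tens_ker_scalar one_ne_zero h₂ 1
  rw [inv_one, one_mul] at hk
  obtain ⟨e'', he''⟩ := hkerA b B₁ hB₁
  obtain ⟨k, hkd⟩ : ∃ k, k = finrank F (LinearMap.ker (Matrix.toLin' B₁ - (1 : F) • (1 : Module.End F (Fin b → F)))) := ⟨_, rfl⟩
  rw [← hkd] at hk he''
  rw [hk, hn, he''] at hker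
  have h6 : a * (k + e'' * i) = a * k + (a * e'') * i := by ring
  rw [h6] at hker
  have h5 : (a * e'') * i = 1 * i := by
    rw [one_mul]
    omega
  have h7 := Nat.eq_of_mul_eq_mul_right hi0 h5
  have h8 : a = 1 := Nat.eq_one_of_mul_eq_one_right h7
  omega

end Tens

section Gen

variable {F : Type*} [Field F] {V : Type*} [AddCommGroup V] [Module F V]

/-- Conjugate maps have eigenspaces of the same dimension. -/
theorem finrank_ker_of_conj (E : V ≃ₗ[F] V) (G T : Module.End F V) (h : ∀ v, E (G v) = T (E v)) (c : F) :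
    finrank F (LinearMap.ker (G - c • (1 : Module.End F V))) = finrank F (LinearMap.ker (T - c • (1 : Module.End F V))) := by
  have h1 : LinearMap.ker (T - c • (1 : Module.End F V)) = (LinearMap.ker (G - c • (1 : Module.End F V))).map (E : V →ₗ[F] V) := by
    ext v
    simp only [LinearMap.mem_ker, LinearMap.sub_apply, LinearMap.smul_apply, Module.End.one_apply, sub_eq_zero, Submodule.mem_map]
    constructor
    · intro hv
      refine ⟨E.symm v, ?_, by simp⟩
      apply E.injective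
      rw [h, map_smul]
      simp [hv]
    · rintro ⟨u, hu, rfl⟩
      simp only [LinearEquiv.coe_coe]
      rw [← h, hu, map_smul]
  rw [h1]
  exact (LinearEquiv.finrank_map_eq E _).symm

/-- A map with prescribed eigenspace dimension and prescribed square. -/
theorem exists_sq_model [FiniteDimensional F V] (h2 : (2 : F) ≠ 0) {w : F} (hw : w ≠ 0) {s : ℕ} (hs : s ≤ finrank F V) :
    ∃ B : Module.End F V, B ^ 2 = (w ^ 2) • (1 : Module.End F V) ∧ finrank F (LinearMap.ker (B - w • (1 : Module.End F V))) = s := by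
  obtain ⟨U₁, -, hU₁⟩ := exists_sub_of_le (⊤ : Submodule F V) s (by rwa [finrank_top])
  obtain ⟨U₂, hc₂⟩ := Submodule.exists_isCompl U₁
  obtain ⟨x', hx1, hx2⟩ := exists_eigen_model hc₂ w
  have hdec : ∀ v : V, ∃ a ∈ U₁, ∃ b ∈ U₂, a + b = v := by
    intro v
    have h3 : v ∈ U₁ ⊔ U₂ := by rw [hc₂.sup_eq_top]; trivial
    exact Submodule.mem_sup.1 h3
  have hsq : x' ^ 2 = (w ^ 2) • (1 : Module.End F V) := by
    apply LinearMap.ext
    intro v
    obtain ⟨a, ha, b, hb, rfl⟩ := hdec v
    rw [pow_two, Module.End.mul_apply, map_add, hx1 a ha, hx2 b hb, map_add, map_smul, map_smul, hx1 a ha, hx2 b hb]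
    simp only [LinearMap.smul_apply, Module.End.one_apply, smul_add, smul_smul]
    congr 2 <;> ring
  have hc' := eigen_compl h2 hw x' hsq
  have hle₁ : finrank F U₁ ≤ finrank F (LinearMap.ker (x' - w • (1 : Module.End F V))) := by
    apply Submodule.finrank_mono
    intro u hu
    exact (ker_sub_smul_mem x' w u).2 (hx1 u hu)
  have hle₂ : finrank F U₂ ≤ finrank F (LinearMap.ker (x' - (-w) • (1 : Module.End F V))) := by
    apply Submodule.finrank_mono
    intro u hu
    exact (ker_sub_smul_mem x' (-w) u).2 (hx2 u hu)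
  have h5 := Submodule.finrank_add_eq_of_isCompl hc₂
  have h6 := Submodule.finrank_add_eq_of_isCompl hc'
  exact ⟨x', hsq, by omega⟩

/-- Irreducibility of a binomial. -/
theorem irr_X_sq_sub {z : F} (hno : ∀ d : F, d ^ 2 ≠ z) : Irreducible (X ^ 2 - C z : F[X]) := by
  have hmon : (X ^ 2 - C z : F[X]).Monic := monic_X_pow_sub_C z (by norm_num)
  have hdeg : (X ^ 2 - C z : F[X]).natDegree = 2 := natDegree_X_pow_sub_C
  apply (Monic.irreducible_iff_roots_eq_zero_of_degree_le_three hmon (by omega) (by omega)).2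
  rw [Multiset.eq_zero_iff_forall_notMem]
  intro d hd
  have h4 := (mem_roots'.1 hd).2
  simp only [IsRoot.def, eval_sub, eval_pow, eval_X, eval_C] at h4
  exact hno d (sub_eq_zero.1 h4)

end Gen

section Diag

variable {ι : Type} [Fintype ι] [DecidableEq ι] {F : Type*} [Field F]

/-- Eigenspaces of diagonal maps. -/
theorem finrank_ker_diag (dg : ι → F) (c : F) :
    finrank F (LinearMap.ker (Matrix.toLin' (Matrix.diagonal dg) - c • (1 : Module.End F (ι → F)))) = Nat.card {i // dg i = c} := by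
  classical
  let Φ : ({i // dg i = c} → F) →ₗ[F] (ι → F) :=
    { toFun := fun f i => if h : dg i = c then f ⟨i, h⟩ else 0
      map_add' := fun f f' => by
        funext i
        by_cases h : dg i = c <;> simp [h]
      map_smul' := fun t f => by
        funext i
        by_cases h : dg i = c <;> simp [h] }
  have hinj : Function.Injective Φ := by
    intro f f' hff
    funext ⟨i, hi⟩
    have := congrFun hff i
    simpa [Φ, hi] using this
  have hrange : LinearMap.range Φ = LinearMap.ker (Matrix.toLin' (Matrix.diagonal dg) - c • (1 : Module.End F (ι → F))) := by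
    ext v
    simp only [LinearMap.mem_range, LinearMap.mem_ker, LinearMap.sub_apply, LinearMap.smul_apply, Module.End.one_apply, sub_eq_zero, Matrix.toLin'_apply]
    constructor
    · rintro ⟨f, rfl⟩
      funext i
      rw [Matrix.mulVec_diagonal]
      simp only [Φ, LinearMap.coe_mk, AddHom.coe_mk, Pi.smul_apply, smul_eq_mul]
      by_cases h : dg i = c
      · simp [h]
      · simp [h]
    · intro hv
      refine ⟨fun i => v i, ?_⟩
      funext i
      simp only [Φ, LinearMap.coe_mk, AddHom.coe_mk]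
      by_cases h : dg i = c
      · simp [h]
      · simp only [h, dif_neg, not_false_eq_true]
        have h1 := congrFun hv i
        rw [Matrix.mulVec_diagonal] at h1
        simp only [Pi.smul_apply, smul_eq_mul] at h1
        have h2 : (dg i - c) * v i = 0 := by linear_combination h1
        exact ((mul_eq_zero.1 h2).resolve_left (sub_ne_zero.2 h)).symm
  rw [← hrange, LinearMap.finrank_range_of_inj hinj, finrank_fintype_fun_eq_card, Nat.card_eq_fintype_card]

end Diag

section SLGL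

variable {n : ℕ} {F : Type*} [Field F]

theorem det_of_mem_sl {x : GL (Fin n) F} (hx : x ∈ Cfsg.Geo.specialLinear (Fin n) F) : LinearMap.det (Matrix.toLin' (x : Matrix (Fin n) (Fin n) F)) = 1 := by
  rw [LinearMap.det_toLin']
  have h1 : Matrix.GeneralLinearGroup.det x = 1 := hx
  have h2 := congrArg Units.val h1
  simpa using h2

theorem toGL_mem_sl (x : Matrix.SpecialLinearGroup (Fin n) F) : Matrix.SpecialLinearGroup.toGL x ∈ Cfsg.Geo.specialLinear (Fin n) F := by
  show Matrix.GeneralLinearGroup.det (Matrix.SpecialLinearGroup.toGL x) = 1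
  apply Units.ext
  simpa using x.2

/-- From a conjugating map of determinant one to an element of the special linear group. -/
theorem conj_final_gl (x g : GL (Fin n) F) (E : Module.End F (Fin n → F)) (hdet : LinearMap.det E = 1)
    (h : ∀ v, E (Matrix.toLin' (g : Matrix (Fin n) (Fin n) F) v) = Matrix.toLin' (x : Matrix (Fin n) (Fin n) F) (E v)) :
    ∃ k ∈ Cfsg.Geo.specialLinear (Fin n) F, k⁻¹ * x * k = g := by
  obtain ⟨s, hs⟩ := sl_exists_of_det E hdet
  refine ⟨Matrix.SpecialLinearGroup.toGL s, toGL_mem_sl s, ?_⟩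
  have h1 : Matrix.SpecialLinearGroup.toGL s * g = x * Matrix.SpecialLinearGroup.toGL s := by
    apply Units.ext
    apply Matrix.toLin'.injective
    apply LinearMap.ext
    intro v
    rw [Units.val_mul, Units.val_mul, Matrix.toLin'_mul, Matrix.toLin'_mul]
    have h2 : Matrix.toLin' ((Matrix.SpecialLinearGroup.toGL s : GL (Fin n) F) : Matrix (Fin n) (Fin n) F) = E := hs
    rw [h2]
    exact h v
  rw [mul_assoc, ← h1]
  group

/-- A transvection of order `p`. -/
theorem exists_transv_elt (hn : 2 ≤ n) {p : ℕ} [Fact p.Prime] [CharP F p] : ∃ x : Matrix.SpecialLinearGroup (Fin n) F,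
    ((x ^ p : Matrix.SpecialLinearGroup (Fin n) F) : Matrix (Fin n) (Fin n) F) = (1 : F) • (1 : Matrix (Fin n) (Fin n) F) ∧
    (∀ z : F, (x : Matrix (Fin n) (Fin n) F) ≠ z • (1 : Matrix (Fin n) (Fin n) F)) ∧
    finrank F (LinearMap.ker (Matrix.toLin' (x : Matrix (Fin n) (Fin n) F) - (1 : F) • (1 : Module.End F (Fin n → F)))) = n - 1 := by
  classical
  obtain ⟨i₀, hi₀⟩ : ∃ i₀ : Fin n, i₀ = ⟨0, by omega⟩ := ⟨_, rfl⟩
  obtain ⟨i₁, hi₁⟩ : ∃ i₁ : Fin n, i₁ = ⟨1, by omega⟩ := ⟨_, rfl⟩
  have h01 : i₁ ≠ i₀ := by rw [hi₀, hi₁]; simp [Fin.ext_iff]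
  have hdetM : (Matrix.transvection i₁ i₀ (1 : F)).det = 1 := Matrix.det_transvection_of_ne _ _ h01 _
  obtain ⟨x, hx⟩ : ∃ x : Matrix.SpecialLinearGroup (Fin n) F, x = ⟨Matrix.transvection i₁ i₀ (1 : F), hdetM⟩ := ⟨_, rfl⟩
  have hxc : (x : Matrix (Fin n) (Fin n) F) = Matrix.transvection i₁ i₀ (1 : F) := by rw [hx]
  have hpow : ∀ k : ℕ, (Matrix.transvection i₁ i₀ (1 : F)) ^ k = Matrix.transvection i₁ i₀ (k : F) := by
    intro k
    induction k with
    | zero => simp
    | succ k ih =>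
      rw [pow_succ, ih, Matrix.transvection_mul_transvection_same (h := h01)]
      push_cast
      rfl
  refine ⟨x, ?_, ?_, ?_⟩
  · rw [Matrix.SpecialLinearGroup.coe_pow, hxc, hpow, CharP.cast_eq_zero, Matrix.transvection_zero, one_smul]
  · intro z hz
    rw [hxc] at hz
    have h1 := congrFun (congrFun hz i₁) i₀
    simp [Matrix.transvection, Matrix.one_apply_ne h01, Matrix.single_apply] at h1
  · have hker : LinearMap.ker (Matrix.toLin' (x : Matrix (Fin n) (Fin n) F) - (1 : F) • (1 : Module.End F (Fin n → F))) =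
        LinearMap.ker (LinearMap.proj i₀ : (Fin n → F) →ₗ[F] F) := by
      ext v
      simp only [LinearMap.mem_ker, LinearMap.sub_apply, LinearMap.smul_apply, Module.End.one_apply, sub_eq_zero, LinearMap.proj_apply, one_smul]
      rw [hxc, Matrix.toLin'_apply]
      have hmv : (Matrix.transvection i₁ i₀ (1 : F)).mulVec v = v + Function.update (0 : Fin n → F) i₁ (v i₀) := by
        ext i
        simp only [Matrix.transvection, one_smul, Matrix.add_mulVec, Matrix.one_mulVec, Pi.add_apply]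
        congr 1
        simp only [Matrix.mulVec, dotProduct, Matrix.single_apply, Function.update_apply, Pi.zero_apply]
        by_cases hi : i₁ = i
        · subst hi
          simp
        · have : i ≠ i₁ := fun h => hi h.symm
          simp [hi, this]
      rw [hmv]
      constructor
      · intro h
        have h3 := congrFun h i₁
        simpa using h3
      · intro h
        rw [h]
        ext i
        simp [Function.update_apply]
    rw [hker, finrank_ker_coord]

end SLGL

section Target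

variable {n : ℕ} {F : Type*} [Field F] {a b : ℕ} (e : Fin n ≃ Fin a × Fin b) (P : GL (Fin n) F)

theorem gl_of_end {m : ℕ} (f : Module.End F (Fin m → F)) (hf : Function.Injective f) : ∃ A : GL (Fin m) F, Matrix.toLin' (A : Matrix (Fin m) (Fin m) F) = f := by
  refine ⟨act.symm (LinearEquiv.ofInjectiveEndo f hf), ?_⟩
  apply LinearMap.ext
  intro v
  rw [Matrix.toLin'_apply, act_symm_val_mulVec]
  rfl

/-- The target with two eigenvalues. -/
theorem tens_target_even (T : Module.End F (Fin n → F)) {w : F} (h2 : (2 : F) ≠ 0) (hw : w ≠ 0) (hT : T ^ 2 = (w ^ 2) • (1 : Module.End F (Fin n → F)))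
    {s : ℕ} (hs : finrank F (LinearMap.ker (T - w • (1 : Module.End F (Fin n → F)))) = a * s) (hsb : s ≤ b)
    (hne : LinearMap.ker (T - w • (1 : Module.End F (Fin n → F))) ≠ ⊥) :
    ∃ (g : GL (Fin n) F) (E : Module.End F (Fin n → F)), g ∈ Cfsg.Geo.tensorProductSubgroup a b e P ∧ LinearMap.det E = 1 ∧
      ∀ v, E (Matrix.toLin' (g : Matrix (Fin n) (Fin n) F) v) = T (E v) := by
  obtain ⟨B₀, hB₀, hB₀d⟩ := exists_sq_model (V := Fin b → F) h2 hw (s := s) (by rwa [finrank_fin_fun])
  have hB₀inj : Function.Injective B₀ := by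
    rw [injective_iff_map_eq_zero]
    intro v hv
    have h1 := LinearMap.congr_fun hB₀ v
    rw [pow_two, Module.End.mul_apply, hv, map_zero] at h1
    have h3 : (w ^ 2) • v = 0 := h1.symm
    exact (smul_eq_zero.1 h3).resolve_left (pow_ne_zero 2 hw)
  obtain ⟨B, hB⟩ := gl_of_end B₀ hB₀inj
  obtain ⟨G, hGd⟩ : ∃ G, G = Matrix.toLin' ((tconj e P (kronG (1 : GL (Fin a) F) B) : GL (Fin n) F) : Matrix (Fin n) (Fin n) F) := ⟨_, rfl⟩
  have hG := isTens_tconj e P (1 : GL (Fin a) F) B
  rw [← hGd] at hG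
  have hG₁ : IsTens e P G ((1 : F) • (1 : Matrix (Fin a) (Fin a) F)) (B : Matrix (Fin b) (Fin b) F) := by
    rw [one_smul]
    exact hG
  have hdim := tens_ker_scalar one_ne_zero hG₁ w
  rw [inv_one, one_mul, hB, hB₀d, ← hs] at hdim
  have hBsq : ((B : Matrix (Fin b) (Fin b) F)) ^ 2 = (w ^ 2) • 1 := by
    apply Matrix.toLin'.injective
    rw [Matrix.toLin'_pow, hB, hB₀, map_smul, Matrix.toLin'_one]
    rfl
  have hG2 : G ^ 2 = (w ^ 2) • (1 : Module.End F (Fin n → F)) := by
    have h3 := hG₁.pow 2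
    rw [hBsq, _root_.smul_pow, one_pow, one_pow, one_smul, ← one_smul F (1 : Matrix (Fin a) (Fin a) F)] at h3
    have h4 := h3.eq_smul
    rw [one_mul] at h4
    exact h4
  obtain ⟨E₀, hE₀⟩ := conj_of_eigen h2 hw hG2 hT hdim
  have hc := eigen_compl h2 hw T hT
  obtain ⟨T', hT'1, hT'2⟩ := exists_eigen_dil hc (y := T) (lam := w) (fun v hv => (ker_sub_smul_mem T w v).1 hv) (by
      intro v hv
      have h7 : T v = (-w) • v := (ker_sub_smul_mem T (-w) v).1 hv
      have h8 : T (T v) = (-w) • T v := by rw [h7, map_smul, h7]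
      exact (ker_sub_smul_mem T (-w) (T v)).2 h8) hne (LinearMap.det (E₀ : (Fin n → F) →ₗ[F] (Fin n → F)))⁻¹
  refine ⟨tconj e P (kronG (1 : GL (Fin a) F) B), T' ∘ₗ (E₀ : (Fin n → F) →ₗ[F] (Fin n → F)), (mem_tensor_iff e P).2 ⟨_, _, rfl⟩, ?_, ?_⟩
  · rw [LinearMap.det_comp, hT'2, inv_mul_cancel₀ (LinearEquiv.isUnit_det' E₀).ne_zero]
  · intro v
    simp only [LinearMap.comp_apply, LinearEquiv.coe_coe]
    rw [← hGd, hE₀, hT'1]

/-- The target with a nonsquare. -/
theorem tens_target_nonsq [Finite F] (ha : a = 2) (hn : 0 < n) (T : Module.End F (Fin n → F)) {z : F} (hno : ∀ d : F, d ^ 2 ≠ z)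
    (hT : T ^ 2 = z • (1 : Module.End F (Fin n → F))) :
    ∃ (g : GL (Fin n) F) (E : Module.End F (Fin n → F)), g ∈ Cfsg.Geo.tensorProductSubgroup a b e P ∧ LinearMap.det E = 1 ∧
      ∀ v, E (Matrix.toLin' (g : Matrix (Fin n) (Fin n) F) v) = T (E v) := by
  classical
  have hz0 : z ≠ 0 := fun h => hno 0 (by rw [h]; ring)
  have hirr := irr_X_sq_sub hno
  obtain ⟨y₀, hy₀⟩ := exists_irr_model (F := F) (V := Fin a → F) hirr 1 (by
    rw [finrank_fin_fun, natDegree_X_pow_sub_C, one_mul, ha])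
  have hy₀sq : y₀ ^ 2 = z • (1 : Module.End F (Fin a → F)) := by
    rw [map_sub, map_pow, aeval_X, aeval_C, sub_eq_zero] at hy₀
    rw [hy₀, Module.algebraMap_end_eq_smul_id]
    rfl
  have hinj : Function.Injective y₀ := by
    rw [injective_iff_map_eq_zero]
    intro v hv
    have h1 := LinearMap.congr_fun hy₀sq v
    rw [pow_two, Module.End.mul_apply, hv, map_zero] at h1
    have h3 : z • v = 0 := h1.symm
    exact (smul_eq_zero.1 h3).resolve_left hz0
  obtain ⟨A, hA⟩ := gl_of_end y₀ hinj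
  obtain ⟨G, hGd⟩ : ∃ G, G = Matrix.toLin' ((tconj e P (kronG A (1 : GL (Fin b) F)) : GL (Fin n) F) : Matrix (Fin n) (Fin n) F) := ⟨_, rfl⟩
  have hG := isTens_tconj e P A (1 : GL (Fin b) F)
  rw [← hGd] at hG
  have hAsq : ((A : Matrix (Fin a) (Fin a) F)) ^ 2 = z • 1 := by
    apply Matrix.toLin'.injective
    rw [Matrix.toLin'_pow, hA, hy₀sq, map_smul, Matrix.toLin'_one]
    rfl
  have hG2 : G ^ 2 = z • (1 : Module.End F (Fin n → F)) := by
    have h3 := hG.pow 2
    rw [hAsq, Units.val_one, one_pow, ← one_smul F (1 : Matrix (Fin b) (Fin b) F)] at h3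
    have h4 := h3.eq_smul
    rw [mul_one] at h4
    exact h4
  have hann₁ : aeval G (X ^ 2 - C z : F[X]) = 0 := by
    rw [map_sub, map_pow, aeval_X, aeval_C, hG2, Module.algebraMap_end_eq_smul_id, sub_eq_zero]
    rfl
  have hann₂ : aeval T (X ^ 2 - C z : F[X]) = 0 := by
    rw [map_sub, map_pow, aeval_X, aeval_C, hT, Module.algebraMap_end_eq_smul_id, sub_eq_zero]
    rfl
  obtain ⟨E₀, hE₀⟩ := conj_of_irr G T hirr hann₁ hann₂
  obtain ⟨T', hT'1, hT'2⟩ := exists_norm_comm G hirr hann₁ (by rw [finrank_fin_fun]; exact hn) (t := (LinearMap.det (E₀ : (Fin n → F) →ₗ[F] (Fin n → F)))⁻¹)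
  refine ⟨tconj e P (kronG A (1 : GL (Fin b) F)), (E₀ : (Fin n → F) →ₗ[F] (Fin n → F)) ∘ₗ T', (mem_tensor_iff e P).2 ⟨_, _, rfl⟩, ?_, ?_⟩
  · rw [LinearMap.det_comp, hT'2, mul_inv_cancel₀ (LinearEquiv.isUnit_det' E₀).ne_zero]
  · intro v
    simp only [LinearMap.comp_apply, LinearEquiv.coe_coe]
    rw [← hGd, hT'1, hE₀]

/-- The data of an element conjugate into the tensor group. -/
theorem tens_data {r : ℕ} (x g : GL (Fin n) F) (z : F) (hx : ((x ^ r : GL (Fin n) F) : Matrix (Fin n) (Fin n) F) = z • (1 : Matrix (Fin n) (Fin n) F))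
    (hg : g⁻¹ * x * g ∈ Cfsg.Geo.tensorProductSubgroup a b e P) :
    ∃ (G : Module.End F (Fin n → F)) (A : Matrix (Fin a) (Fin a) F) (B : Matrix (Fin b) (Fin b) F), IsTens e P G A B ∧ Function.Injective G ∧
      G ^ r = z • (1 : Module.End F (Fin n → F)) ∧
      ∀ c : F, finrank F (LinearMap.ker (G - c • (1 : Module.End F (Fin n → F)))) = finrank F (LinearMap.ker (Matrix.toLin' (x : Matrix (Fin n) (Fin n) F) - c • (1 : Module.End F (Fin n → F)))) := by
  obtain ⟨A, B, hAB⟩ := isTens_of_mem e P hg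
  refine ⟨_, A, B, hAB, ?_, ?_, ?_⟩
  · apply Function.LeftInverse.injective (g := Matrix.toLin' (((g⁻¹ * x * g)⁻¹ : GL (Fin n) F) : Matrix (Fin n) (Fin n) F))
    intro v
    rw [Matrix.toLin'_apply, Matrix.toLin'_apply, Matrix.mulVec_mulVec, ← Units.val_mul, inv_mul_cancel, Units.val_one, Matrix.one_mulVec]
  · have hpow : ((g⁻¹ * x * g) ^ r : GL (Fin n) F) = g⁻¹ * x ^ r * g := by
      have := conj_pow (a := g⁻¹) (b := x) (i := r)
      simpa using this
    rw [← Matrix.toLin'_pow, ← Units.val_pow_eq_pow_val, hpow, Units.val_mul, Units.val_mul, hx, Matrix.mul_smul, Matrix.smul_mul, mul_one, ← Units.val_mul,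
      inv_mul_cancel, Units.val_one, lin_smul_one]
  · intro c
    apply finrank_ker_of_conj (act g)
    intro v
    rw [act_apply, act_apply, Matrix.toLin'_apply, Matrix.toLin'_apply, Matrix.mulVec_mulVec, Matrix.mulVec_mulVec, ← Units.val_mul, ← Units.val_mul]
    congr 2
    group

end Target

section Elements

variable {n : ℕ} {F : Type*} [Field F]

/-- A diagonal element with two non-trivial entries. -/
theorem exists_diag2 (hn : 3 ≤ n) {ζ : F} (hζ0 : ζ ≠ 0) (hζ1 : ζ ≠ 1) {r : ℕ} (hζr : ζ ^ r = 1) : ∃ x : Matrix.SpecialLinearGroup (Fin n) F,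
    ((x ^ r : Matrix.SpecialLinearGroup (Fin n) F) : Matrix (Fin n) (Fin n) F) = (1 : F) • (1 : Matrix (Fin n) (Fin n) F) ∧
    (∀ z : F, (x : Matrix (Fin n) (Fin n) F) ≠ z • (1 : Matrix (Fin n) (Fin n) F)) ∧
    finrank F (LinearMap.ker (Matrix.toLin' (x : Matrix (Fin n) (Fin n) F) - (1 : F) • (1 : Module.End F (Fin n → F)))) = n - 2 ∧
    (ζ * ζ ≠ 1 → finrank F (LinearMap.ker (Matrix.toLin' (x : Matrix (Fin n) (Fin n) F) - ζ • (1 : Module.End F (Fin n → F)))) = 1) := by
  classical
  obtain ⟨i₀, hi₀⟩ : ∃ i₀ : Fin n, i₀ = ⟨0, by omega⟩ := ⟨_, rfl⟩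
  obtain ⟨i₁, hi₁⟩ : ∃ i₁ : Fin n, i₁ = ⟨1, by omega⟩ := ⟨_, rfl⟩
  obtain ⟨i₂, hi₂⟩ : ∃ i₂ : Fin n, i₂ = ⟨2, by omega⟩ := ⟨_, rfl⟩
  have h01 : i₀ ≠ i₁ := by rw [hi₀, hi₁]; simp [Fin.ext_iff]
  have h02 : i₀ ≠ i₂ := by rw [hi₀, hi₂]; simp [Fin.ext_iff]
  have h12 : i₁ ≠ i₂ := by rw [hi₁, hi₂]; simp [Fin.ext_iff]
  obtain ⟨dg, hdg⟩ : ∃ dg : Fin n → F, dg = fun i => (if i = i₀ then ζ else 1) * (if i = i₁ then ζ⁻¹ else 1) := ⟨_, rfl⟩
  have hdetM : (Matrix.diagonal dg).det = 1 := by
    rw [Matrix.det_diagonal, hdg, Finset.prod_mul_distrib, Finset.prod_ite_eq' Finset.univ i₀ (fun _ => ζ),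
      Finset.prod_ite_eq' Finset.univ i₁ (fun _ => ζ⁻¹)]
    simp [hζ0]
  obtain ⟨x, hx⟩ : ∃ x : Matrix.SpecialLinearGroup (Fin n) F, x = ⟨Matrix.diagonal dg, hdetM⟩ := ⟨_, rfl⟩
  have hxc : (x : Matrix (Fin n) (Fin n) F) = Matrix.diagonal dg := by rw [hx]
  have hdgi : ∀ i, i ≠ i₀ → i ≠ i₁ → dg i = 1 := by
    intro i h1 h2
    simp [hdg, h1, h2]
  have hdg0 : dg i₀ = ζ := by
    simp [hdg, h01]
  have hdg1 : dg i₁ = ζ⁻¹ := by
    simp [hdg, h01.symm]
  have hζi : ζ⁻¹ ≠ 1 := by
    intro h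
    apply hζ1
    rw [← inv_inv ζ, h, inv_one]
  refine ⟨x, ?_, ?_, ?_, ?_⟩
  · rw [Matrix.SpecialLinearGroup.coe_pow, hxc, Matrix.diagonal_pow, one_smul]
    rw [← Matrix.diagonal_one]
    congr 1
    ext i
    simp only [Pi.pow_apply, hdg, mul_pow, ite_pow, hζr, inv_pow, one_pow, inv_one, ite_self, mul_one, Pi.one_apply]
  · intro z hz
    rw [hxc] at hz
    have h1 := congrFun (congrFun hz i₀) i₀
    have h3 := congrFun (congrFun hz i₂) i₂
    simp only [Matrix.smul_apply, Matrix.diagonal_apply_eq, Matrix.one_apply_eq, smul_eq_mul, mul_one] at h1 h3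
    rw [hdg0] at h1
    rw [hdgi i₂ h02.symm h12.symm] at h3
    exact hζ1 (by rw [h1, ← h3])
  · rw [hxc, finrank_ker_diag, Nat.card_eq_fintype_card, Fintype.card_subtype]
    have h3 : (Finset.univ.filter fun i => dg i = 1) = (Finset.univ.erase i₀).erase i₁ := by
      ext i
      simp only [Finset.mem_filter, Finset.mem_univ, true_and, Finset.mem_erase, ne_eq, and_true]
      constructor
      · intro h
        refine ⟨?_, ?_⟩
        · rintro rfl
          rw [hdg1] at h
          exact hζi h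
        · rintro rfl
          rw [hdg0] at h
          exact hζ1 h
      · rintro ⟨h1, h2⟩
        exact hdgi i h2 h1
    rw [h3, Finset.card_erase_of_mem (by simp [h01.symm]), Finset.card_erase_of_mem (by simp), Finset.card_univ, Fintype.card_fin]
    omega
  · intro hζζ
    rw [hxc, finrank_ker_diag, Nat.card_eq_fintype_card, Fintype.card_subtype]
    have h3 : (Finset.univ.filter fun i => dg i = ζ) = {i₀} := by
      ext i
      simp only [Finset.mem_filter, Finset.mem_univ, true_and, Finset.mem_singleton]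
      constructor
      · intro h
        by_contra h1
        by_cases h2 : i = i₁
        · rw [h2, hdg1] at h
          apply hζζ
          calc ζ * ζ = ζ * ζ⁻¹ := by rw [h]
            _ = 1 := mul_inv_cancel₀ hζ0
        · rw [hdgi i h1 h2] at h
          exact hζ1 h.symm
      · rintro rfl
        exact hdg0
    rw [h3, Finset.card_singleton]

variable [Fintype F] {p : ℕ} [Fact p.Prime] [CharP F p] {q : ℕ}

/-- A prime dividing the order of `GL` has small order. -/
theorem order_le_of_dvd_gl (hq : Fintype.card F = q) {r : ℕ} [hr : Fact r.Prime] (hrp : r ≠ p) (hn : 0 < n) (hdvd : r ∣ Nat.card (GL (Fin n) F)) :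
    orderOf (q : ZMod r) ≤ n := by
  have hq1 : 1 ≤ q := by rw [← hq]; exact Fintype.card_pos
  rw [Matrix.card_GL_field, hq] at hdvd
  obtain ⟨j, -, hj⟩ := (Prime.dvd_finset_prod_iff hr.out.prime _).1 hdvd
  have hj2 : (j : ℕ) ≤ n := j.2.le
  have h1 : q ^ n - q ^ (j : ℕ) = q ^ (j : ℕ) * (q ^ (n - j) - 1) := by
    rw [Nat.mul_sub, mul_one, ← pow_add, Nat.add_sub_cancel' hj2]
  rw [h1] at hj
  have hrq : ¬ r ∣ q := by
    intro h
    obtain ⟨f, hf1, hf2⟩ := FiniteField.card F p
    rw [← hq, hf2] at h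
    exact hrp ((Nat.prime_dvd_prime_iff_eq hr.out hf1).1 (hr.out.dvd_of_dvd_pow h))
  have h2 : r ∣ q ^ (n - j) - 1 := (hr.out.dvd_mul.1 hj).resolve_left (fun h => hrq (hr.out.dvd_of_dvd_pow h))
  have h3 := (order_dvd_iff (r := r) (q := q) (k := n - j) hq1).1 h2
  have h4 := Nat.le_of_dvd (by have := j.2; omega) h3
  omega

end Elements

end Cfsg.Agent.Lib.Geo
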