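import Mathlib
import Cfsg.Agent.Lib.Geo.ElusSubfield

set_option autoImplicit false

/-! The twisted unipotent element of Jordan type `2^m`: it has no conjugate over a subfield of index two. -/

namespace Cfsg.Agent.Lib.Geo

open Polynomial Module

universe u v

section Blocks

variable {F : Type v} [Field F]

theorem det_twist {m : ℕ} (H G : Matrix (Fin m) (Fin m) F) (τ : Fin m → F) :
    ∃ ε : F, (ε = 1 ∨ ε = -1) ∧ (Matrix.fromBlocks H (Matrix.diagonal τ * G) G 0).det = ε * ((∏ i, τ i) * G.det ^ 2) := by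
  classical
  obtain ⟨A, hA⟩ : ∃ A, A = Matrix.fromBlocks H (Matrix.diagonal τ * G) G 0 := ⟨_, rfl⟩
  have h1 : A.submatrix id (Equiv.sumComm (Fin m) (Fin m)) = Matrix.fromBlocks (Matrix.diagonal τ * G) H 0 G := by
    rw [hA]
    ext (i | i) (j | j) <;> rfl
  have h2 := Matrix.det_permute' (Equiv.sumComm (Fin m) (Fin m)) A
  rw [h1, Matrix.det_fromBlocks_zero₂₁, Matrix.det_mul, Matrix.det_diagonal] at h2
  rw [← hA]
  rcases Int.units_eq_one_or (Equiv.Perm.sign (Equiv.sumComm (Fin m) (Fin m))) with hs | hs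
  · rw [hs] at h2
    refine ⟨1, Or.inl rfl, ?_⟩
    simp only [Units.val_one, Int.cast_one, one_mul] at h2 ⊢
    rw [← h2]
    ring
  · rw [hs] at h2
    refine ⟨-1, Or.inr rfl, ?_⟩
    simp only [Units.val_neg, Units.val_one, Int.cast_neg, Int.cast_one] at h2
    linear_combination h2

variable {n : ℕ} {F₀ : Subfield F}

/-- A matrix that is a scalar multiple of one over `F₀` and unipotent of square zero is over `F₀`. -/
theorem rat_of_unipotent (h2 : (2 : F) ≠ 0) (G : Matrix (Fin n) (Fin n) F) {c : F} (hc : c ≠ 0) (a : Matrix (Fin n) (Fin n) F₀)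
    (hG : ∀ i j, G i j = c * (a i j : F)) (hN : (G - 1) * (G - 1) = 0) (hne : G ≠ 1) :
    ∃ b : Matrix (Fin n) (Fin n) F₀, ∀ i j, G i j = (b i j : F) := by
  classical
  have hsq : ∀ i j, ∑ l, G i l * G l j - 2 * G i j + (1 : Matrix (Fin n) (Fin n) F) i j = 0 := by
    intro i j
    have h3 := congrFun (congrFun hN i) j
    have h4 : (G - 1) * (G - 1) = G * G - 2 • G + 1 := by
      noncomm_ring
    rw [h4] at h3
    simp only [Matrix.add_apply, Matrix.sub_apply, Matrix.smul_apply, Matrix.zero_apply, Matrix.mul_apply] at h3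
    rw [← h3]
    simp only [nsmul_eq_mul, Nat.cast_ofNat]
  by_cases hoff : ∃ i j, i ≠ j ∧ a i j ≠ 0
  · obtain ⟨i, j, hij, haij⟩ := hoff
    have h3 := hsq i j
    rw [Matrix.one_apply_ne hij, add_zero] at h3
    obtain ⟨A, hA⟩ : ∃ A : F₀, A = ∑ l, a i l * a l j := ⟨_, rfl⟩
    have h4 : ∑ l, G i l * G l j = c ^ 2 * (A : F) := by
      rw [hA, AddSubmonoidClass.coe_finset_sum, Finset.mul_sum]
      apply Finset.sum_congr rfl
      intro l _
      rw [hG, hG, Subfield.coe_mul]
      ring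
    rw [h4, hG] at h3
    have h5 : c * (c * (A : F) - 2 * (a i j : F)) = 0 := by linear_combination h3
    have h6 : c * (A : F) = 2 * (a i j : F) := sub_eq_zero.1 ((mul_eq_zero.1 h5).resolve_left hc)
    have haij' : (a i j : F) ≠ 0 := fun h0 => haij (Subtype.ext h0)
    have hA0 : (A : F) ≠ 0 := by
      intro h0
      rw [h0, mul_zero] at h6
      exact (mul_ne_zero h2 haij') h6.symm
    have hcm : c ∈ F₀ := by
      have h7 : c = 2 * (a i j : F) * (A : F)⁻¹ := by
        field_simp
        exact h6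
      rw [h7]
      exact F₀.mul_mem (F₀.mul_mem (ofNat_mem F₀ 2) (a i j).2) (F₀.inv_mem A.2)
    refine ⟨fun i j => ⟨c, hcm⟩ * a i j, fun i j => ?_⟩
    rw [hG, Subfield.coe_mul]
  · push Not at hoff
    exfalso
    apply hne
    have hoff' : ∀ i j, i ≠ j → G i j = 0 := by
      intro i j hij
      rw [hG, hoff i j hij]
      simp
    ext i j
    by_cases hij : i = j
    · subst hij
      have h3 := hsq i i
      rw [Finset.sum_eq_single i (fun l _ hl => by rw [hoff' i l hl.symm, zero_mul]) (by simp), Matrix.one_apply_eq] at h3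
      have h4 : (G i i - 1) ^ 2 = 0 := by linear_combination h3
      rw [Matrix.one_apply_eq]
      exact sub_eq_zero.1 (pow_eq_zero_iff (by norm_num) |>.1 h4)
    · rw [hoff' i j hij, Matrix.one_apply_ne hij]

end Blocks

section Main

variable {F : Type v} [Field F] [Fintype F]

/-- The map sending `e_{inr i}` to `τ i • e_{inl i}`. -/
noncomputable def twistMap {m n : ℕ} (σ : Fin m ⊕ Fin m ≃ Fin n) (τ : Fin m → F) : Module.End F (Fin n → F) where
  toFun v := fun a => Sum.elim (fun i => τ i * v (σ (Sum.inr i))) (fun _ => 0) (σ.symm a)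
  map_add' u v := by
    ext a
    cases h : σ.symm a <;> simp [h, mul_add]
  map_smul' c v := by
    ext a
    cases h : σ.symm a <;> simp [h, mul_left_comm]

theorem twistMap_inl {m n : ℕ} (σ : Fin m ⊕ Fin m ≃ Fin n) (τ : Fin m → F) (v : Fin n → F) (i : Fin m) :
    twistMap σ τ v (σ (Sum.inl i)) = τ i * v (σ (Sum.inr i)) := by
  simp [twistMap]

theorem twistMap_inr {m n : ℕ} (σ : Fin m ⊕ Fin m ≃ Fin n) (τ : Fin m → F) (v : Fin n → F) (i : Fin m) :
    twistMap σ τ v (σ (Sum.inr i)) = 0 := by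
  simp [twistMap]

/-- The twisted element has no conjugate over the subfield of index two. -/
theorem twist_derangement [CharP F 3] {q q₀ : ℕ} (hq : Fintype.card F = q) (F₀ : Subfield F)
    (hF₀ : Nat.card F₀ = q₀) (hqk : q = q₀ ^ 2) {m n : ℕ} (hn : n = 2 * m) (hm : 1 ≤ m) :
    ∃ x : Matrix.SpecialLinearGroup (Fin n) F,
      (∃ z : F, ((x ^ 3 : Matrix.SpecialLinearGroup (Fin n) F) : Matrix (Fin n) (Fin n) F) = z • (1 : Matrix (Fin n) (Fin n) F)) ∧
      (∀ z : F, (x : Matrix (Fin n) (Fin n) F) ≠ z • (1 : Matrix (Fin n) (Fin n) F)) ∧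
      ∀ P : Matrix.SpecialLinearGroup (Fin n) F, P⁻¹ * x * P ∉ ((Cfsg.Geo.subfieldSubgroup F₀ 1).comap
        (Matrix.SpecialLinearGroup.toGL : Matrix.SpecialLinearGroup (Fin n) F →* GL (Fin n) F)) := by
  classical
  haveI : Fact (Nat.Prime 3) := ⟨Nat.prime_three⟩
  have h2F : (2 : F) ≠ 0 := by
    intro h
    have h3 : ((2 : ℕ) : F) = 0 := by exact_mod_cast h
    have h4 : 3 ∣ 2 := (CharP.cast_eq_zero_iff F 3 2).1 h3
    omega
  have hch : ringChar F ≠ 2 := by
    rw [ringChar.eq F 3]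
    norm_num
  obtain ⟨t, ht⟩ := FiniteField.exists_nonsquare hch
  have ht0 : t ≠ 0 := fun h0 => ht (by rw [h0]; exact IsSquare.zero)
  let i₀ : Fin m := ⟨0, by omega⟩
  obtain ⟨τ, hτ⟩ : ∃ τ : Fin m → F, τ = fun i => if i = i₀ then t else 1 := ⟨_, rfl⟩
  have hτ0 : ∀ i, τ i ≠ 0 := by
    intro i
    rw [hτ]
    simp only
    split_ifs
    · exact ht0
    · exact one_ne_zero
  have hτprod : ∏ i, τ i = t := by
    rw [hτ, Finset.prod_ite_eq' Finset.univ i₀ (fun _ => t)]
    simp
  let σ : Fin m ⊕ Fin m ≃ Fin n := finSumFinEquiv.trans (finCongr (by omega))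
  obtain ⟨N, hN⟩ : ∃ N, N = twistMap σ τ := ⟨_, rfl⟩
  have hN1 : ∀ v i, N v (σ (Sum.inl i)) = τ i * v (σ (Sum.inr i)) := fun v i => by rw [hN, twistMap_inl]
  have hN2 : ∀ v i, N v (σ (Sum.inr i)) = 0 := fun v i => by rw [hN, twistMap_inr]
  have hext : ∀ u v : Fin n → F, (∀ s, u (σ s) = v (σ s)) → u = v := by
    intro u v h
    ext a
    have := h (σ.symm a)
    simpa using this
  have hNN : ∀ v, N (N v) = 0 := by
    intro v
    apply hext
    rintro (i | i)
    · rw [hN1, hN2, mul_zero]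
      rfl
    · rw [hN2]
      rfl
  have hN3 : N ^ 3 = 0 := by
    apply LinearMap.ext
    intro v
    have h3 : N ^ 3 = N * N * N := by rw [pow_succ, pow_two]
    rw [h3]
    simp only [Module.End.mul_apply, hNN, map_zero, LinearMap.zero_apply]
  have hyr : (1 + N) ^ 3 = 1 := by
    rw [one_add_pow_char (p := 3) N, hN3, add_zero]
  have hdet : LinearMap.det (1 + N) = 1 := by
    apply eq_one_of_pow_char (p := 3)
    rw [← map_pow, hyr, map_one]
  -- standard vectors
  let e : Fin m ⊕ Fin m → (Fin n → F) := fun s => Pi.single (σ s) 1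
  have he : ∀ s s', e s (σ s') = if s' = s then 1 else 0 := by
    intro s s'
    simp only [e, Pi.single_apply, σ.injective.eq_iff]
  have hNe1 : ∀ i, N (e (Sum.inl i)) = 0 := by
    intro i
    apply hext
    rintro (l | l)
    · rw [hN1, he]
      simp
    · rw [hN2]
      rfl
  have hNe2 : ∀ i, N ((τ i)⁻¹ • e (Sum.inr i)) = e (Sum.inl i) := by
    intro i
    apply hext
    rintro (l | l)
    · rw [hN1, Pi.smul_apply, he, he]
      by_cases hl : l = i
      · subst hl
        simp [hτ0]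
      · simp [hl]
    · rw [hN2, he]
      simp
  have hns : ∀ z : F, (1 + N) ≠ z • (1 : Module.End F (Fin n → F)) := by
    intro z hz
    have h1 := LinearMap.congr_fun hz (e (Sum.inl i₀))
    simp only [LinearMap.add_apply, Module.End.one_apply, hNe1, add_zero, LinearMap.smul_apply] at h1
    have h3 := congrFun h1 (σ (Sum.inl i₀))
    rw [Pi.smul_apply, he] at h3
    simp at h3
    have hz1 : z = 1 := h3.symm
    subst hz1
    have h4 := LinearMap.congr_fun hz ((τ i₀)⁻¹ • e (Sum.inr i₀))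
    simp only [LinearMap.add_apply, Module.End.one_apply, hNe2, one_smul, LinearMap.smul_apply] at h4
    have h5 := congrFun h4 (σ (Sum.inl i₀))
    simp only [Pi.add_apply, Pi.smul_apply, he] at h5
    simp at h5
  obtain ⟨x, hx, hx1, hx2⟩ := sl_lift (r := 3) (1 + N) hdet (c := 1) (by rw [hyr, one_smul]) hns
  refine ⟨x, hx1, hx2, fun P hP => ?_⟩
  rw [Subgroup.mem_comap] at hP
  obtain ⟨c, a, hc, hca⟩ := entries_of_mem_subfield hP
  -- matrices
  obtain ⟨Pm, hPm⟩ : ∃ Pm : Matrix (Fin n) (Fin n) F, Pm = (P : Matrix (Fin n) (Fin n) F) := ⟨_, rfl⟩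
  obtain ⟨Pi', hPi⟩ : ∃ Pi' : Matrix (Fin n) (Fin n) F, Pi' = ((P⁻¹ : Matrix.SpecialLinearGroup (Fin n) F) : Matrix (Fin n) (Fin n) F) := ⟨_, rfl⟩
  have h12 : Pi' * Pm = 1 := by
    rw [hPi, hPm, ← Matrix.SpecialLinearGroup.coe_mul, inv_mul_cancel]
    simp
  have h21 : Pm * Pi' = 1 := by
    rw [hPi, hPm, ← Matrix.SpecialLinearGroup.coe_mul, mul_inv_cancel]
    simp
  obtain ⟨M₀, hM₀⟩ : ∃ M₀ : Matrix (Fin n) (Fin n) F, M₀ = LinearMap.toMatrix' N := ⟨_, rfl⟩
  have hMv : ∀ v, M₀.mulVec v = N v := by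
    intro v
    rw [hM₀, LinearMap.toMatrix'_mulVec]
  have hMM : M₀ * M₀ = 0 := by
    rw [hM₀, ← LinearMap.toMatrix'_comp]
    have : N ∘ₗ N = 0 := LinearMap.ext hNN
    rw [this]
    simp
  have hX : (x : Matrix (Fin n) (Fin n) F) = 1 + M₀ := by
    apply Matrix.toLin'.injective
    rw [hx, map_add, Matrix.toLin'_one, hM₀, Matrix.toLin'_toMatrix']
    rfl
  obtain ⟨G, hG⟩ : ∃ G : Matrix (Fin n) (Fin n) F, G = ((P⁻¹ * x * P : Matrix.SpecialLinearGroup (Fin n) F) : Matrix (Fin n) (Fin n) F) := ⟨_, rfl⟩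
  have hGval : G = Pi' * (1 + M₀) * Pm := by
    rw [hG, Matrix.SpecialLinearGroup.coe_mul, Matrix.SpecialLinearGroup.coe_mul, hX, hPi, hPm]
  obtain ⟨N', hN'⟩ : ∃ N', N' = G - 1 := ⟨_, rfl⟩
  have hN'val : N' = Pi' * M₀ * Pm := by
    rw [hN', hGval, Matrix.mul_add, Matrix.add_mul, Matrix.mul_one, h12, add_sub_cancel_left]
  have hN'N' : N' * N' = 0 := by
    rw [hN'val]
    calc Pi' * M₀ * Pm * (Pi' * M₀ * Pm) = Pi' * M₀ * (Pm * Pi') * M₀ * Pm := by
          simp only [Matrix.mul_assoc]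
      _ = 0 := by
          rw [h21, Matrix.mul_one, Matrix.mul_assoc Pi', hMM, Matrix.mul_zero, Matrix.zero_mul]
  have hGne : G ≠ 1 := by
    intro h0
    apply hx2 1
    rw [one_smul]
    rw [hGval] at h0
    have h3 : 1 + M₀ = Pm * (Pi' * (1 + M₀) * Pm) * Pi' := by
      simp only [← Matrix.mul_assoc]
      rw [h21, Matrix.one_mul, Matrix.mul_assoc, h21, Matrix.mul_one]
    rw [h0, Matrix.mul_one, h21] at h3
    rw [hX]
    exact h3
  have hca' : ∀ i j, G i j = c * (a i j : F) := by
    intro i j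
    rw [hG]
    exact hca i j
  obtain ⟨b, hb⟩ := rat_of_unipotent h2F G hc a hca' (by rw [← hN']; exact hN'N') hGne
  -- the map over the subfield
  obtain ⟨Nb, hNb⟩ : ∃ Nb : Matrix (Fin n) (Fin n) F₀, Nb = b - 1 := ⟨_, rfl⟩
  have hNbval : ∀ i j, N' i j = (Nb i j : F) := by
    intro i j
    rw [hN', hNb, Matrix.sub_apply, Matrix.sub_apply, hb, Subfield.coe_sub]
    congr 1
    by_cases hij : i = j
    · subst hij
      simp
    · simp [Matrix.one_apply_ne hij]
  have hNbNb : Nb * Nb = 0 := by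
    ext i j
    have h3 := congrFun (congrFun hN'N' i) j
    rw [Matrix.mul_apply] at h3
    simp only [hNbval] at h3
    rw [Matrix.mul_apply, AddSubmonoidClass.coe_finset_sum]
    simpa using h3
  let ι₀ : (Fin n → F₀) → (Fin n → F) := fun u i => (u i : F)
  have hι₀ : ∀ u, N'.mulVec (ι₀ u) = ι₀ (Nb.mulVec u) := by
    intro u
    ext i
    simp only [ι₀, Matrix.mulVec, dotProduct, hNbval, AddSubmonoidClass.coe_finset_sum, Subfield.coe_mul]
  obtain ⟨L, hL⟩ : ∃ L : Module.End F₀ (Fin n → F₀), L = Matrix.toLin' Nb := ⟨_, rfl⟩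
  have hLv : ∀ v, L v = Nb.mulVec v := by
    intro v
    rw [hL, Matrix.toLin'_apply]
  have hLL : ∀ v, L (L v) = 0 := by
    intro v
    rw [hLv, hLv, Matrix.mulVec_mulVec, hNbNb, Matrix.zero_mulVec]
  -- the rank over the subfield
  have hfinF₀ : finrank F₀ (Fin n → F₀) = n := by simp
  have hrle : 2 * finrank F₀ (LinearMap.range L) ≤ n := by
    have h3 := LinearMap.finrank_range_add_finrank_ker L
    have h4 : LinearMap.range L ≤ LinearMap.ker L := by
      rintro _ ⟨v, rfl⟩
      exact hLL v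
    have h5 := Submodule.finrank_mono h4
    rw [hfinF₀] at h3
    omega
  -- a basis of the range
  let cb := Module.finBasis F₀ (LinearMap.range L)
  have hrge : m ≤ finrank F₀ (LinearMap.range L) := by
    -- the span of the images of the basis contains the range of `N'`
    obtain ⟨S, hS⟩ : ∃ S : Submodule F (Fin n → F), S = Submodule.span F (Set.range (fun i => ι₀ (cb i : Fin n → F₀))) := ⟨_, rfl⟩
    have hSfin : finrank F S ≤ finrank F₀ (LinearMap.range L) := by
      rw [hS]
      have := finrank_range_le_card (R := F) (fun i => ι₀ (cb i : Fin n → F₀))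
      simpa [Set.finrank] using this
    have hι₀add : ∀ u v, ι₀ (u + v) = ι₀ u + ι₀ v := by
      intro u v
      ext i
      simp [ι₀]
    have hι₀smul : ∀ (s : F₀) u, ι₀ (s • u) = (s : F) • ι₀ u := by
      intro s u
      ext i
      simp [ι₀]
    have hι₀mem : ∀ w : LinearMap.range L, ι₀ (w : Fin n → F₀) ∈ S := by
      intro w
      have h3 := cb.sum_repr w
      rw [← h3, AddSubmonoidClass.coe_finset_sum]
      have h4 : ∀ (T : Finset (Fin (finrank F₀ (LinearMap.range L)))), ι₀ (∑ i ∈ T, ((cb.repr w i • cb i : LinearMap.range L) : Fin n → F₀)) ∈ S := by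
        intro T
        induction T using Finset.induction_on with
        | empty =>
          have : ι₀ (∑ i ∈ (∅ : Finset (Fin (finrank F₀ (LinearMap.range L)))), ((cb.repr w i • cb i : LinearMap.range L) : Fin n → F₀)) = 0 := by
            ext i
            simp [ι₀]
          rw [this]
          exact S.zero_mem
        | insert i T hi ih =>
          rw [Finset.sum_insert hi, hι₀add]
          refine S.add_mem ?_ ih
          rw [Submodule.coe_smul, hι₀smul]
          refine S.smul_mem _ ?_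
          rw [hS]
          exact Submodule.subset_span ⟨i, rfl⟩
      exact h4 _
    -- the vectors `P⁻¹ e` lie in the span
    have hmem : ∀ v, N'.mulVec v ∈ S := by
      intro v
      have h3 : v = ∑ j, v j • (Pi.single j (1 : F) : Fin n → F) := by
        ext l
        simp [Finset.sum_apply, Pi.single_apply]
      rw [h3, Matrix.mulVec_sum]
      refine S.sum_mem (fun j _ => ?_)
      rw [Matrix.mulVec_smul]
      refine S.smul_mem _ ?_
      have h4 : (Pi.single j (1 : F) : Fin n → F) = ι₀ (Pi.single j 1) := by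
        ext l
        by_cases hl : l = j
        · subst hl
          simp [ι₀]
        · simp [ι₀, Pi.single_apply, hl]
      rw [h4, hι₀, ← hLv]
      exact hι₀mem ⟨L _, ⟨_, rfl⟩⟩
    have hind : LinearIndependent F (fun i : Fin m => Pi'.mulVec (e (Sum.inl i))) := by
      rw [Fintype.linearIndependent_iff]
      intro g hg i
      have h3 : Pm.mulVec (∑ l, g l • Pi'.mulVec (e (Sum.inl l))) = 0 := by rw [hg, Matrix.mulVec_zero]
      rw [Matrix.mulVec_sum] at h3
      simp only [Matrix.mulVec_smul, Matrix.mulVec_mulVec, h21, Matrix.one_mulVec] at h3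
      have h4 := congrFun h3 (σ (Sum.inl i))
      rw [Finset.sum_apply] at h4
      simp only [Pi.smul_apply, he, smul_eq_mul, Pi.zero_apply, Sum.inl.injEq] at h4
      rw [Finset.sum_eq_single i] at h4
      · simpa using h4
      · intro l _ hl
        simp [hl.symm]
      · simp
    have hspan : Submodule.span F (Set.range (fun i : Fin m => Pi'.mulVec (e (Sum.inl i)))) ≤ S := by
      apply Submodule.span_le.2
      rintro _ ⟨i, rfl⟩
      have h3 : Pi'.mulVec (e (Sum.inl i)) = N'.mulVec (Pi'.mulVec ((τ i)⁻¹ • e (Sum.inr i))) := by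
        rw [hN'val, Matrix.mulVec_mulVec, Matrix.mul_assoc, Matrix.mul_assoc, h21, Matrix.mul_one, ← Matrix.mulVec_mulVec,
          hMv, hNe2]
      show Pi'.mulVec (e (Sum.inl i)) ∈ S
      rw [h3]
      exact hmem _
    have h5 := Submodule.finrank_mono hspan
    rw [finrank_span_eq_card hind, Fintype.card_fin] at h5
    omega
  have hr : finrank F₀ (LinearMap.range L) = m := by omega
  -- lifting the basis of the range
  let cm := Module.finBasisOfFinrankEq F₀ (LinearMap.range L) hr
  have hlift : ∀ i, ∃ u, L u = (cm i : Fin n → F₀) := fun i => (cm i).2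
  choose u hu using hlift
  have hU : LinearIndependent F₀ (Sum.elim u (fun i => (cm i : Fin n → F₀))) := by
    rw [Fintype.linearIndependent_iff]
    intro g hg
    rw [Fintype.sum_sum_type] at hg
    simp only [Sum.elim_inl, Sum.elim_inr] at hg
    have hcmind : ∀ f : Fin m → F₀, ∑ i, f i • (cm i : Fin n → F₀) = 0 → f = 0 := by
      intro f hf
      have h3 : ∑ i, f i • cm i = 0 := by
        apply Subtype.ext
        rw [AddSubmonoidClass.coe_finset_sum]
        simpa using hf
      ext i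
      have := Fintype.linearIndependent_iff.1 cm.linearIndependent f h3 i
      simp [this]
    have h3 := congrArg L hg
    rw [map_add, map_sum, map_sum, map_zero] at h3
    simp only [map_smul, hu] at h3
    have hLc : ∀ i, L (cm i : Fin n → F₀) = 0 := by
      intro i
      rw [← hu, hLL]
    simp only [hLc, smul_zero, Finset.sum_const_zero, add_zero] at h3
    have h4 := hcmind _ h3
    have h5 : ∀ i, g (Sum.inl i) = 0 := fun i => congrFun h4 i
    simp only [h5, zero_smul, Finset.sum_const_zero, zero_add] at hg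
    have h6 := hcmind _ hg
    rintro (i | i)
    · exact h5 i
    · exact congrFun h6 i
  obtain ⟨U₀, hU₀⟩ : ∃ U₀ : Matrix (Fin m ⊕ Fin m) (Fin m ⊕ Fin m) F₀, U₀ = Matrix.of fun a s => (Sum.elim u (fun i => (cm i : Fin n → F₀)) s) (σ a) := ⟨_, rfl⟩
  have hU₀det : U₀.det ≠ 0 := by
    have h3 : LinearIndependent F₀ U₀.col := by
      rw [Fintype.linearIndependent_iff] at hU ⊢
      intro g hg
      apply hU g
      ext l
      have h5 := congrFun hg (σ.symm l)
      rw [Finset.sum_apply] at h5 ⊢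
      simp only [Pi.smul_apply, smul_eq_mul, Matrix.col_apply, Pi.zero_apply, hU₀, Matrix.of_apply, Equiv.apply_symm_apply] at h5 ⊢
      rw [h5]
    have h5 := Matrix.linearIndependent_cols_iff_isUnit.1 h3
    exact ((Matrix.isUnit_iff_isUnit_det _).1 h5).ne_zero
  -- the determinant of the family
  obtain ⟨w, hw⟩ : ∃ w : Fin m → (Fin n → F), w = fun j => Pm.mulVec (ι₀ (u j)) := ⟨_, rfl⟩
  have hNw : ∀ j, N (w j) = Pm.mulVec (ι₀ (cm j : Fin n → F₀)) := by
    intro j
    rw [← hu, hLv, ← hι₀, hw, ← hMv, Matrix.mulVec_mulVec, Matrix.mulVec_mulVec, hN'val]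
    congr 1
    simp only [← Matrix.mul_assoc]
    rw [h21, Matrix.one_mul]
  obtain ⟨H', hH'⟩ : ∃ H' : Matrix (Fin m) (Fin m) F, H' = Matrix.of fun i j => w j (σ (Sum.inl i)) := ⟨_, rfl⟩
  obtain ⟨G', hG'⟩ : ∃ G' : Matrix (Fin m) (Fin m) F, G' = Matrix.of fun i j => w j (σ (Sum.inr i)) := ⟨_, rfl⟩
  obtain ⟨ε, hε, hdetB⟩ := det_twist H' G' τ
  have hblock : Matrix.fromBlocks H' (Matrix.diagonal τ * G') G' 0 = (Pm.submatrix σ σ) * (F₀.subtype : F₀ →+* F).mapMatrix U₀ := by
    ext a s
    rw [Matrix.mul_apply]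
    have hmain : ∀ (v : Fin n → F₀), Pm.mulVec (ι₀ v) (σ a) = ∑ s', Pm (σ a) (σ s') * (v (σ s') : F) := by
      intro v
      simp only [Matrix.mulVec, dotProduct, ι₀]
      rw [← Equiv.sum_comp σ]
    have hUent : ∀ s' s, (F₀.subtype : F₀ →+* F).mapMatrix U₀ s' s = (((Sum.elim u (fun i => (cm i : Fin n → F₀)) s) (σ s') : F₀) : F) := by
      intro s' s
      rw [hU₀]
      rfl
    simp only [Matrix.submatrix_apply, hUent]
    rcases s with j | j
    · simp only [Sum.elim_inl]
      rw [← hmain]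
      rcases a with i | i
      · rw [hH', hw]
        rfl
      · rw [hG', hw]
        rfl
    · simp only [Sum.elim_inr]
      rw [← hmain, ← hNw]
      rcases a with i | i
      · rw [hN1, Matrix.fromBlocks_apply₁₂, Matrix.diagonal_mul, hG']
        rfl
      · rw [hN2, Matrix.fromBlocks_apply₂₂]
        rfl
  rw [hblock, Matrix.det_mul, Matrix.det_submatrix_equiv_self, hPm, P.2, one_mul, ← RingHom.map_det, hτprod] at hdetB
  obtain ⟨s₁, hs₁⟩ := sq_of_mem_subfield hq hF₀ hqk h2F (U₀.det).2 (fun h0 => hU₀det (Subtype.ext h0))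
  obtain ⟨s₂, hs₂⟩ := sq_of_mem_subfield hq hF₀ hqk h2F (neg_mem F₀.one_mem) (neg_ne_zero.2 one_ne_zero)
  have hs₁0 : s₁ ≠ 0 := by
    rintro rfl
    apply hU₀det
    apply Subtype.ext
    rw [ZeroMemClass.coe_zero, ← hs₁]
    ring
  have hval : (F₀.subtype : F₀ →+* F) U₀.det = s₁ ^ 2 := hs₁.symm
  rw [hval] at hdetB
  have hG0 : G'.det ≠ 0 := by
    intro h0
    rw [h0] at hdetB
    apply pow_ne_zero 2 hs₁0
    rw [hdetB]
    ring
  apply ht
  rcases hε with rfl | rfl
  · refine ⟨s₁ / G'.det, ?_⟩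
    field_simp
    linear_combination -hdetB
  · refine ⟨s₁ * s₂ / G'.det, ?_⟩
    field_simp
    have h7 : s₂ * s₂ = -1 := by rw [← pow_two]; exact hs₂
    linear_combination (-s₁ ^ 2) * (h7) + hdetB

/-- In the odd-degree case every element is a square times an element of the subfield. -/
theorem square_mul_subfield {q q₀ k : ℕ} (hq : Fintype.card F = q) (h2 : (2 : F) ≠ 0) (F₀ : Subfield F)
    (hF₀ : Nat.card F₀ = q₀) (hqk : q = q₀ ^ k) (hk : Odd k) (D : F) (hD : D ≠ 0) :
    ∃ t a : F, t ≠ 0 ∧ a ∈ F₀ ∧ a ≠ 0 ∧ t ^ 2 * a = D := by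
  classical
  haveI : Fintype F₀ := Fintype.ofFinite _
  have hch : ringChar F ≠ 2 := by
    intro h
    apply h2
    have := ringChar.Nat.cast_ringChar (R := F)
    rw [h] at this
    exact_mod_cast this
  have hoddq : q % 2 = 1 := by
    rw [← hq]
    exact FiniteField.odd_card_of_char_ne_two hch
  have hcard0 : Fintype.card F₀ = q₀ := by rw [← Nat.card_eq_fintype_card, hF₀]
  have hq₀2 : 2 ≤ q₀ := by rw [← hcard0]; exact Fintype.one_lt_card
  have hq₀odd : Odd q₀ := by
    rw [← Nat.not_even_iff_odd]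
    intro h
    have h3 : Even q := by
      rw [hqk]
      exact h.pow_of_ne_zero hk.pos.ne'
    rw [Nat.even_iff] at h3
    omega
  by_cases hsq : IsSquare D
  · obtain ⟨t, ht⟩ := hsq
    refine ⟨t, 1, fun h0 => hD (by rw [ht, h0]; ring), F₀.one_mem, one_ne_zero, ?_⟩
    rw [ht]
    ring
  -- a generator of the units of the subfield is not a square
  obtain ⟨ω, hω⟩ := IsCyclic.exists_generator (α := F₀ˣ)
  have hord : orderOf ω = q₀ - 1 := by
    rw [orderOf_eq_card_of_forall_mem_zpowers hω, Nat.card_eq_fintype_card, Fintype.card_units, hcard0]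
  obtain ⟨a, ha⟩ : ∃ a : F, a = ((ω : F₀) : F) := ⟨_, rfl⟩
  have ha0 : a ≠ 0 := by
    rw [ha]
    intro h0
    exact ω.ne_zero (Subtype.ext h0)
  have hnot : ¬ IsSquare a := by
    intro hsq2
    have h3 := (FiniteField.isSquare_iff hch ha0).1 hsq2
    rw [hq] at h3
    obtain ⟨R, hR⟩ : ∃ R, R = ∑ l ∈ Finset.range k, q₀ ^ l := ⟨_, rfl⟩
    have hRodd : Odd R := by
      rw [hR]
      exact geom_sum_odd _ _ hq₀odd hk
    have hgeom : q - 1 = (q₀ - 1) * R := by
      rw [hqk, hR]
      exact geom_sum_nat q₀ k (by omega)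
    have h4 : ω ^ (q / 2) = 1 := by
      ext
      rw [Units.val_pow_eq_pow_val, Units.val_one, SubmonoidClass.coe_pow, OneMemClass.coe_one, ← ha]
      exact h3
    have h5 := orderOf_dvd_of_pow_eq_one h4
    rw [hord] at h5
    have h6 : q / 2 * 2 = (q₀ - 1) * R := by
      rw [← hgeom]
      omega
    obtain ⟨t, ht⟩ := h5
    rw [ht] at h6
    have h7 : t * 2 = R := by
      apply Nat.eq_of_mul_eq_mul_left (by omega : 0 < q₀ - 1)
      rw [← h6]
      ring
    rw [← h7] at hRodd
    exact (Nat.not_even_iff_odd.2 hRodd) (even_two.mul_left t)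
  have hquot : IsSquare (D / a) := by
    have hD2 := FiniteField.pow_dichotomy hch hD
    have ha2 := FiniteField.pow_dichotomy hch ha0
    have h3 : D ^ (Fintype.card F / 2) ≠ 1 := fun h0 => hsq ((FiniteField.isSquare_iff hch hD).2 h0)
    have h4 : a ^ (Fintype.card F / 2) ≠ 1 := fun h0 => hnot ((FiniteField.isSquare_iff hch ha0).2 h0)
    have h5 := hD2.resolve_left h3
    have h6 := ha2.resolve_left h4
    refine (FiniteField.isSquare_iff hch (div_ne_zero hD ha0)).2 ?_
    rw [div_pow, h5, h6]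
    exact div_self (neg_ne_zero.2 one_ne_zero)
  obtain ⟨t, ht⟩ := hquot
  refine ⟨t, a, ?_, by rw [ha]; exact (ω : F₀).2, ha0, ?_⟩
  · intro h0
    rw [h0, mul_zero] at ht
    exact (div_ne_zero hD ha0) ht
  · have h7 : D = t ^ 2 * a := by
      rw [pow_two, ← ht]
      field_simp
    exact h7.symm

/-- In characteristic three every element is a cube. -/
theorem exists_cube_root [CharP F 3] (a : F) : ∃ b : F, b ^ 3 = a := by
  haveI : Fact (Nat.Prime 3) := ⟨Nat.prime_three⟩
  have h1 : Function.Injective (frobenius F 3) := (frobenius F 3).injective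
  have h2 : Function.Surjective (frobenius F 3) := Finite.injective_iff_surjective.1 h1
  obtain ⟨b, hb⟩ := h2 a
  exact ⟨b, hb⟩

end Main

end Cfsg.Agent.Lib.Geo
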