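import Mathlib
import Cfsg.Agent.Lib.Geo.SUMax
import Cfsg.Agent.Lib.Classical.Hermitian
import Cfsg.Prelude.Def_LieClassical

set_option autoImplicit false

/-! The standard hermitian form in terms of `SForm`. -/

namespace Cfsg.Agent.Lib.Geo

open scoped MatrixGroups Matrix
open Module Cfsg.Agent.Lib.Classical

variable {F : Type*} [Field F] [Fintype F] {q n : ℕ}

theorem herm_sform (hF : Fintype.card F = q ^ 2) : SForm (conjQ hF) (Cfsg.hermForm n F q) where
  inv := conjQ_conjQ hF
  add_left := hermForm_add_left hF
  smul_left := hermForm_smul_left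
  herm v w := by
    rw [conjQ_apply]
    exact (hermForm_symm hF w v).symm
  nd v hv := by
    by_contra hcon
    push Not at hcon
    exact hv (hermForm_nondeg_right hF hcon)

theorem GU_eq_uGroup : Cfsg.GU n F q = uGroup (Cfsg.hermForm n F q) :=
  Subgroup.ext fun _ => Iff.rfl

end Cfsg.Agent.Lib.Geo
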