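import Mathlib
import Cfsg.Agent.Lib.Geo.RatStruct
import Cfsg.Agent.Lib.Geo.RootElts

set_option autoImplicit false

/-! Rational covectors for a rational structure on `ι → F`, transitivity of the rational special
linear group on rational root data, the field of root coefficients of an overgroup. -/

namespace Cfsg.Agent.Lib.Geo

open scoped MatrixGroups Matrix
open Module

variable {ι : Type} [Fintype ι] [DecidableEq ι] {F : Type*} [Field F]

local notation "V" => (ι → F)

section cov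

variable {F₀ : Subfield F} (P : GL ι F)

theorem rat_sub' (u w : ι → F₀) : rat F₀ P (u - w) = rat F₀ P u - rat F₀ P w := by
  have h : u - w = u + (-1 : F₀) • w := by
    funext i
    simp [sub_eq_add_neg]
  rw [h, rat_add, rat_smul]
  simp [sub_eq_add_neg]

/-- the `F`-linear extension of a rational covector, in the frame `P` -/
noncomputable def cl (ψ : Dual F₀ (ι → F₀)) : Dual F V :=
  (∑ i, ((ψ (Pi.single i 1) : F₀) : F) • (LinearMap.proj i : V →ₗ[F] F)) ∘ₗ
    ((act P⁻¹ : V ≃ₗ[F] V) : V →ₗ[F] V)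

theorem cl_apply (ψ : Dual F₀ (ι → F₀)) (x : V) :
    cl P ψ x = ∑ i, ((ψ (Pi.single i 1) : F₀) : F) * (act P⁻¹ x) i := by
  simp [cl, LinearMap.sum_apply]

theorem cl_rat (ψ : Dual F₀ (ι → F₀)) (u : ι → F₀) : cl P ψ (rat F₀ P u) = (ψ u : F) := by
  rw [cl_apply, rat, act_inv_act]
  have h : u = ∑ i, u i • (Pi.single i 1 : ι → F₀) := by
    funext k
    simp [Finset.sum_apply, Pi.single_apply]
  conv_rhs => rw [h, map_sum]
  simp only [map_smul, smul_eq_mul, incl]
  push_cast
  exact Finset.sum_congr rfl fun i _ => mul_comm _ _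

/-- every vector is an `F`-combination of the rational basis -/
theorem sum_rat (x : V) : x = ∑ i, (act P⁻¹ x) i • rat F₀ P (Pi.single i 1) := by
  apply (act P⁻¹).injective
  rw [map_sum]
  simp only [map_smul, rat, act_inv_act]
  funext k
  simp only [Finset.sum_apply, Pi.smul_apply, smul_eq_mul, incl, Pi.single_apply]
  rw [Finset.sum_eq_single k]
  · simp
  · intro b _ hb
    simp [hb.symm]
  · simp

/-- linear maps agreeing on the rational basis agree -/
theorem lin_ext_rat {W : Type*} [AddCommGroup W] [Module F W] {f g : V →ₗ[F] W}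
    (h : ∀ i, f (rat F₀ P (Pi.single i 1)) = g (rat F₀ P (Pi.single i 1))) : f = g := by
  refine LinearMap.ext fun x => ?_
  rw [sum_rat (F₀ := F₀) P x, map_sum, map_sum]
  simp only [map_smul, h]

theorem cl_ext {φ φ' : Dual F V} (h : ∀ u : ι → F₀, φ (rat F₀ P u) = φ' (rat F₀ P u)) : φ = φ' :=
  lin_ext_rat (F₀ := F₀) P fun i => h _

theorem cl_add (ψ ψ' : Dual F₀ (ι → F₀)) : cl P (ψ + ψ') = cl P ψ + cl P ψ' := by
  apply cl_ext (F₀ := F₀) P
  intro u
  simp [cl_rat]

theorem cl_smul (c : F₀) (ψ : Dual F₀ (ι → F₀)) : cl P (c • ψ) = (c : F) • cl P ψ := by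
  apply cl_ext (F₀ := F₀) P
  intro u
  simp [cl_rat]

theorem cl_sub (ψ ψ' : Dual F₀ (ι → F₀)) : cl P (ψ - ψ') = cl P ψ - cl P ψ' := by
  apply cl_ext (F₀ := F₀) P
  intro u
  simp [cl_rat]

theorem cl_zero : cl P (0 : Dual F₀ (ι → F₀)) = 0 := by
  apply cl_ext (F₀ := F₀) P
  intro u
  simp [cl_rat]

theorem cl_injective : Function.Injective (cl P : Dual F₀ (ι → F₀) → Dual F V) := by
  intro ψ ψ' h
  ext i
  have := congrArg (fun φ : Dual F V => φ (rat F₀ P (Pi.single i 1))) h
  simp only [cl_rat] at this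
  simpa using Subtype.ext this

theorem cl_ne_zero {ψ : Dual F₀ (ι → F₀)} (h : ψ ≠ 0) : cl P ψ ≠ 0 := by
  intro h0
  rw [← cl_zero (F₀ := F₀) P] at h0
  exact h (cl_injective P h0)

theorem cl_proj (i : ι) (x : V) :
    cl P (LinearMap.proj i : (ι → F₀) →ₗ[F₀] F₀) x = (act P⁻¹ x) i := by
  rw [cl_apply]
  simp only [LinearMap.proj_apply, Pi.single_apply]
  rw [Finset.sum_eq_single i]
  · simp
  · intro b _ hb
    simp [hb.symm]
  · simp

/-- the rational covector with prescribed rational values -/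
noncomputable def ratCov (φ : Dual F V) (h : ∀ u : ι → F₀, φ (rat F₀ P u) ∈ F₀) : Dual F₀ (ι → F₀) where
  toFun u := ⟨φ (rat F₀ P u), h u⟩
  map_add' u v := Subtype.ext (by simp [rat_add])
  map_smul' c u := Subtype.ext (by simp [rat_smul])

theorem cl_ratCov (φ : Dual F V) (h : ∀ u : ι → F₀, φ (rat F₀ P u) ∈ F₀) :
    cl P (ratCov P φ h) = φ := by
  apply cl_ext (F₀ := F₀) P
  intro u
  rw [cl_rat]
  rfl

/-- a vector with rational coordinates is rational -/
theorem exists_rat_of_coords (v : V) (h : ∀ ψ : Dual F₀ (ι → F₀), cl P ψ v ∈ F₀) :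
    ∃ w : ι → F₀, v = rat F₀ P w := by
  refine ⟨fun i => ⟨(act P⁻¹ v) i, ?_⟩, ?_⟩
  · have := h (LinearMap.proj i)
    rwa [cl_proj] at this
  · apply (act P⁻¹).injective
    rw [rat, act_inv_act]
    rfl

/-- a vector outside a rational line is separated from it by a rational covector -/
theorem exists_form_sep {a₀ : ι → F₀} (ha : a₀ ≠ 0) {x : V} (hx : ∀ c : F, x ≠ c • rat F₀ P a₀) :
    ∃ ψ : Dual F₀ (ι → F₀), ψ a₀ = 0 ∧ cl P ψ x ≠ 0 := by
  by_contra hcon
  push Not at hcon
  obtain ⟨j, hj⟩ : ∃ j, a₀ j ≠ 0 := by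
    by_contra h
    push Not at h
    exact ha (funext h)
  have hj' : ((a₀ j : F₀) : F) ≠ 0 := by simpa using hj
  set y := act P⁻¹ x with hy
  have key : ∀ i, ((a₀ j : F₀) : F) * y i = (a₀ i : F) * y j := by
    intro i
    have h1 := hcon (a₀ j • (LinearMap.proj i : (ι → F₀) →ₗ[F₀] F₀) - a₀ i • (LinearMap.proj j : (ι → F₀) →ₗ[F₀] F₀))
      (by simp [mul_comm])
    rw [cl_sub, cl_smul, cl_smul] at h1
    simp only [LinearMap.sub_apply, LinearMap.smul_apply, cl_proj, smul_eq_mul] at h1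
    exact sub_eq_zero.1 h1
  apply hx (y j * ((a₀ j : F₀) : F)⁻¹)
  apply (act P⁻¹).injective
  rw [map_smul, rat, act_inv_act]
  funext i
  simp only [Pi.smul_apply, smul_eq_mul, incl]
  rw [← hy]
  field_simp
  linear_combination key i

/-- a covector off a rational covector is separated from it by a rational vector -/
theorem exists_vec_sep {θ : Dual F₀ (ι → F₀)} (hθ : θ ≠ 0) {φ : Dual F V}
    (hφ : ∀ c : F, φ ≠ c • cl P θ) :
    ∃ w : ι → F₀, θ w = 0 ∧ φ (rat F₀ P w) ≠ 0 := by
  by_contra hcon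
  push Not at hcon
  obtain ⟨j, hj⟩ : ∃ j, θ (Pi.single j 1) ≠ 0 := by
    by_contra h
    push Not at h
    apply hθ
    ext i
    simpa using h i
  have hj' : ((θ (Pi.single j 1) : F₀) : F) ≠ 0 := by simpa using hj
  have key : ∀ i, ((θ (Pi.single j 1) : F₀) : F) * φ (rat F₀ P (Pi.single i 1))
      = (θ (Pi.single i 1) : F) * φ (rat F₀ P (Pi.single j 1)) := by
    intro i
    have h1 := hcon (θ (Pi.single j 1) • Pi.single i 1 - θ (Pi.single i 1) • Pi.single j 1)
      (by simp [mul_comm])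
    rw [rat_sub' P, rat_smul, rat_smul] at h1
    simp only [map_sub, map_smul, smul_eq_mul] at h1
    exact sub_eq_zero.1 h1
  apply hφ (φ (rat F₀ P (Pi.single j 1)) * ((θ (Pi.single j 1) : F₀) : F)⁻¹)
  apply lin_ext_rat (F₀ := F₀) P
  intro i
  simp only [LinearMap.smul_apply, cl_rat, smul_eq_mul]
  field_simp
  linear_combination key i

end cov

end Cfsg.Agent.Lib.Geo
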