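import Mathlib
import Cfsg.Agent.Lib.Geo.RatCov
import Cfsg.Agent.Lib.Geo.DickStep

set_option autoImplicit false

/-! The subfield subgroup of `SL_n` is maximal. -/

namespace Cfsg.Agent.Lib.Geo

open scoped MatrixGroups Matrix
open Module

variable {ι : Type} [Fintype ι] [DecidableEq ι] {F : Type*} [Field F]

local notation "V" => (ι → F)

section tvin

/-- the transvection with form `φ` and centre `v` lies in `M` -/
def TvIn (M : Subgroup (GL ι F)) (φ : Dual F V) (v : V) : Prop := ∃ h : φ v = 0, tv h ∈ M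

variable {M : Subgroup (GL ι F)}

theorem TvIn.mem {φ : Dual F V} {v : V} (hT : TvIn M φ v) (h : φ v = 0) : tv h ∈ M := by
  obtain ⟨h', hm⟩ := hT
  exact hm

theorem tvIn_zero_form (v : V) : TvIn M (0 : Dual F V) v := by
  refine ⟨by simp, ?_⟩
  rw [tv_zero_form]
  exact M.one_mem

theorem tvIn_zero_center (φ : Dual F V) : TvIn M φ (0 : V) := by
  refine ⟨by simp, ?_⟩
  rw [tv_zero_center]
  exact M.one_mem

theorem TvIn.comm {φ ψ : Dual F V} {v w : V} (h₁ : TvIn M φ v) (h₂ : TvIn M ψ w) (h0 : ψ v = 0) :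
    TvIn M (φ w • ψ) v := by
  obtain ⟨h1, hm1⟩ := h₁
  obtain ⟨h2, hm2⟩ := h₂
  have h3 : (φ w • ψ) v = 0 := by simp [h0]
  refine ⟨h3, ?_⟩
  rw [← tv_comm h1 h2 h0 h3]
  exact M.mul_mem (M.mul_mem (M.mul_mem hm1 hm2) (M.inv_mem hm1)) (M.inv_mem hm2)

theorem TvIn.smul_center {φ : Dual F V} {v : V} {s : F} (h : TvIn M (s • φ) v) (hs : s ≠ 0) :
    TvIn M φ (s • v) := by
  obtain ⟨h1, hm⟩ := h
  have h2 : φ (s • v) = 0 := by
    have : s * φ v = 0 := by simpa using h1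
    simp [this]
  refine ⟨h2, ?_⟩
  rwa [← tv_smul_center s h1 h2]

theorem TvIn.smul_form {φ : Dual F V} {v : V} {s : F} (h : TvIn M φ (s • v)) :
    TvIn M (s • φ) v := by
  obtain ⟨h1, hm⟩ := h
  have h2 : (s • φ) v = 0 := by simpa using h1
  refine ⟨h2, ?_⟩
  rwa [tv_smul_center s h2 h1]

theorem TvIn.conj {φ : Dual F V} {v : V} (h : TvIn M φ v) {g : GL ι F} (hg : g ∈ M) :
    TvIn M (φ ∘ₗ ((act g⁻¹ : V ≃ₗ[F] V) : V →ₗ[F] V)) (act g v) := by
  obtain ⟨h1, hm⟩ := h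
  obtain ⟨h2, h3⟩ := conj_tv h1 g
  refine ⟨h2, ?_⟩
  rw [← h3]
  exact M.mul_mem (M.mul_mem hg hm) (M.inv_mem hg)

theorem TvIn.add {φ φ' : Dual F V} {v : V} (h : TvIn M φ v) (h' : TvIn M φ' v) :
    TvIn M (φ + φ') v := by
  obtain ⟨h1, hm⟩ := h
  obtain ⟨h2, hm'⟩ := h'
  have h3 : (φ + φ') v = 0 := by simp [h1, h2]
  refine ⟨h3, ?_⟩
  rw [← tv_mul_form h1 h2 h3]
  exact M.mul_mem hm hm'

theorem TvIn.neg {φ : Dual F V} {v : V} (h : TvIn M φ v) : TvIn M (-φ) v := by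
  obtain ⟨h1, hm⟩ := h
  have h3 : (-φ) v = 0 := by simp [h1]
  refine ⟨h3, ?_⟩
  rw [← tv_inv h1 h3]
  exact M.inv_mem hm

theorem TvIn.sub {φ φ' : Dual F V} {v : V} (h : TvIn M φ v) (h' : TvIn M φ' v) :
    TvIn M (φ - φ') v := by
  rw [sub_eq_add_neg]
  exact h.add h'.neg

end tvin

/-- Transitivity of `SL` on nonzero root data. -/
theorem exists_sl_move {K : Type*} [Field K] (hn : 4 ≤ Fintype.card ι) {φ₀ φ : Dual K (ι → K)}
    {v₀ v : ι → K} (h₀ : φ₀ v₀ = 0) (h : φ v = 0) (hφ₀ : φ₀ ≠ 0) (hφ : φ ≠ 0) (hv₀ : v₀ ≠ 0)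
    (hv : v ≠ 0) :
    ∃ e : (ι → K) ≃ₗ[K] (ι → K), LinearMap.det (e : (ι → K) →ₗ[K] (ι → K)) = 1 ∧ e v₀ = v ∧
      ∀ x, φ (e x) = φ₀ x := by
  obtain ⟨p, hp₀, hp⟩ := exists_not_mem_two hφ₀ hφ
  have key : ∀ (ψ : Dual K (ι → K)) (w : ι → K), ψ w = 0 → ψ p ≠ 0 → w ≠ 0 →
      Generic (Submodule.span K {p}) ψ w := by
    intro ψ w h1 h2 h3
    refine ⟨h1, ?_, ⟨p, Submodule.mem_span_singleton_self p, h2⟩⟩
    intro hw
    obtain ⟨c, rfl⟩ := Submodule.mem_span_singleton.1 hw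
    have h4 : c * ψ p = 0 := by simpa using h1
    rcases mul_eq_zero.1 h4 with h5 | h5
    · exact h3 (by simp [h5])
    · exact h2 h5
  obtain ⟨e, -, hd, he, hφe⟩ := exists_move hn (key φ₀ v₀ h₀ hp₀ hv₀) (key φ v h hp hv)
  exact ⟨e, hd, he, hφe⟩

section rootfield

variable {F₀ : Subfield F} (P : GL ι F) {M : Subgroup (GL ι F)}

/-- the root coefficients of `M` in the rational structure -/
def RA (M : Subgroup (GL ι F)) (F₀ : Subfield F) (P : GL ι F) (d : F) : Prop :=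
  ∀ (ψ : Dual F₀ (ι → F₀)) (u : ι → F₀), ψ u = 0 → TvIn M (d • cl P ψ) (rat F₀ P u)

/-- a rational transvection is the lift of the transvection over the subfield -/
theorem tv_rat_eq (ψ : Dual F₀ (ι → F₀)) (u : ι → F₀) (h₀ : ψ u = 0)
    (h : cl P ψ (rat F₀ P u) = 0) : tv h = liftG P (LinearEquiv.transvection h₀) := by
  apply act.injective
  refine LinearEquiv.toLinearMap_injective ?_
  apply lin_ext_rat (F₀ := F₀) P
  intro i
  simp only [LinearEquiv.coe_coe]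
  rw [act_liftG, act_tv_apply, cl_rat, LinearEquiv.transvection.apply, rat_add, rat_smul]

variable (hlift : ∀ e : (ι → F₀) ≃ₗ[F₀] (ι → F₀),
  LinearMap.det (e : (ι → F₀) →ₗ[F₀] (ι → F₀)) = 1 → liftG P e ∈ M)

include hlift

theorem tvIn_rat (ψ : Dual F₀ (ι → F₀)) (u : ι → F₀) (h₀ : ψ u = 0) :
    TvIn M (cl P ψ) (rat F₀ P u) := by
  have h : cl P ψ (rat F₀ P u) = 0 := by rw [cl_rat, h₀]; rfl
  refine ⟨h, ?_⟩
  rw [tv_rat_eq P ψ u h₀ h]
  apply hlift
  show LinearMap.det (LinearMap.transvection ψ u) = 1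
  rw [LinearMap.transvection.det, h₀, add_zero]

theorem RA_of_one (hn : 4 ≤ Fintype.card ι) {d : F} {ψ₀ : Dual F₀ (ι → F₀)} {u₀ : ι → F₀}
    (hψ₀ : ψ₀ ≠ 0) (hu₀ : u₀ ≠ 0) (h₀ : ψ₀ u₀ = 0)
    (hm : TvIn M (d • cl P ψ₀) (rat F₀ P u₀)) : RA M F₀ P d := by
  intro ψ u hψu
  by_cases hψ : ψ = 0
  · subst hψ
    rw [cl_zero, smul_zero]
    exact tvIn_zero_form _
  by_cases hu : u = 0
  · subst hu
    rw [rat_zero]
    exact tvIn_zero_center _
  obtain ⟨e, hdet, heu, heψ⟩ := exists_sl_move hn h₀ hψu hψ₀ hψ hu₀ hu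
  have hℓ := hlift e hdet
  have h1 := hm.conj hℓ
  rw [act_liftG, heu] at h1
  convert h1 using 1
  apply cl_ext (F₀ := F₀) P
  intro w
  have h2 : act (liftG P e)⁻¹ (rat F₀ P w) = rat F₀ P (e.symm w) := by
    have h3 : rat F₀ P w = act (liftG P e) (rat F₀ P (e.symm w)) := by
      rw [act_liftG, LinearEquiv.apply_symm_apply]
    rw [h3, act_inv_act]
  simp only [LinearMap.smul_apply, LinearMap.comp_apply, LinearEquiv.coe_coe, h2, cl_rat, smul_eq_mul]
  rw [← heψ (e.symm w), LinearEquiv.apply_symm_apply]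

omit hlift in
theorem RA_zero : RA M F₀ P 0 := by
  intro ψ u _
  rw [zero_smul]
  exact tvIn_zero_form _

omit hlift in
theorem RA_add {d d' : F} (h : RA M F₀ P d) (h' : RA M F₀ P d') : RA M F₀ P (d + d') := by
  intro ψ u hu
  rw [add_smul]
  exact (h ψ u hu).add (h' ψ u hu)

omit hlift in
theorem RA_neg {d : F} (h : RA M F₀ P d) : RA M F₀ P (-d) := by
  intro ψ u hu
  have h1 : (-d) • cl P ψ = -(d • cl P ψ) := by
    ext x
    simp
  rw [h1]
  exact (h ψ u hu).neg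

theorem RA_one : RA M F₀ P 1 := by
  intro ψ u hu
  rw [one_smul]
  exact tvIn_rat P hlift ψ u hu

theorem RA_of_mem {c : F} (hc : c ∈ F₀) : RA M F₀ P c := by
  intro ψ u hu
  have h1 := tvIn_rat P hlift ((⟨c, hc⟩ : F₀) • ψ) u (by simp [hu])
  rwa [cl_smul] at h1

theorem RA_mul (hn : 4 ≤ Fintype.card ι) {d d' : F} (h : RA M F₀ P d) (h' : RA M F₀ P d') :
    RA M F₀ P (d * d') := by
  obtain ⟨i, j, k, hij, hik, hjk⟩ := Fintype.two_lt_card_iff.1 (by omega : 2 < Fintype.card ι)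
  have hs : ∀ l m : ι, l ≠ m → (LinearMap.proj m : (ι → F₀) →ₗ[F₀] F₀) (Pi.single l 1) = 0 := by
    intro l m hlm
    simp [Pi.single_apply, hlm.symm]
  have hs1 : ∀ l : ι, (LinearMap.proj l : (ι → F₀) →ₗ[F₀] F₀) (Pi.single l 1) = 1 := by
    intro l
    simp
  have h1 := h (LinearMap.proj j) (Pi.single i 1) (hs _ _ hij)
  have h2 := h' (LinearMap.proj k) (Pi.single j 1) (hs _ _ hjk)
  have h3 := h1.comm h2 (by
    simp only [LinearMap.smul_apply, cl_rat, hs _ _ hik, smul_eq_mul]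
    simp)
  simp only [LinearMap.smul_apply, cl_rat, hs1, smul_eq_mul] at h3
  rw [show ((d * ((1 : F₀) : F)) • (d' • cl P (LinearMap.proj k : (ι → F₀) →ₗ[F₀] F₀)))
    = (d * d') • cl P (LinearMap.proj k : (ι → F₀) →ₗ[F₀] F₀) by
      rw [smul_smul]
      simp] at h3
  refine RA_of_one P hlift hn ?_ ?_ (hs _ _ hik) h3
  · intro h0
    have := hs1 k
    rw [h0] at this
    simp at this
  · intro h0
    have := congrFun h0 i
    simp at this

theorem RA_pow (hn : 4 ≤ Fintype.card ι) {d : F} (h : RA M F₀ P d) (k : ℕ) : RA M F₀ P (d ^ k) := by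
  induction k with
  | zero => simpa using RA_one P hlift
  | succ k ih =>
    rw [pow_succ]
    exact RA_mul P hlift hn ih h

/-- the field of root coefficients -/
def rootField [Fintype F] (hn : 4 ≤ Fintype.card ι) : Subfield F where
  carrier := {d | RA M F₀ P d}
  mul_mem' := fun h h' => RA_mul P hlift hn h h'
  one_mem' := RA_one P hlift
  add_mem' := fun h h' => RA_add P h h'
  zero_mem' := RA_zero P
  neg_mem' := fun h => RA_neg P h
  inv_mem' := by
    intro d hd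
    by_cases h0 : d = 0
    · subst h0
      simpa using RA_zero P
    · have h1 : d⁻¹ = d ^ (Fintype.card F - 2) := by
        have h2 := FiniteField.pow_card_sub_one_eq_one d h0
        have h3 : 2 ≤ Fintype.card F := Fintype.one_lt_card
        have h4 : Fintype.card F - 1 = (Fintype.card F - 2) + 1 := by omega
        rw [h4, pow_succ] at h2
        exact (eq_inv_of_mul_eq_one_left h2).symm
      show RA M F₀ P d⁻¹
      rw [h1]
      exact RA_pow P hlift hn hd _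

end rootfield

section kill

/-- a nonzero covector vanishing at two given vectors -/
theorem exists_form_kill2 {K : Type*} [Field K] (hn : 3 ≤ Fintype.card ι) (x y : ι → K) :
    ∃ ψ : Dual K (ι → K), ψ ≠ 0 ∧ ψ x = 0 ∧ ψ y = 0 := by
  have h1 : Module.finrank K (Submodule.span K ({x, y} : Set (ι → K))) ≤ 2 := by
    classical
    have := finrank_span_finset_le_card (R := K) ({x, y} : Finset (ι → K))
    have h2 : ({x, y} : Finset (ι → K)).card ≤ 2 := Finset.card_le_two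
    rw [Finset.coe_insert, Finset.coe_singleton] at this
    unfold Set.finrank at this
    omega
  have hlt : Submodule.span K ({x, y} : Set (ι → K)) < ⊤ := by
    rw [lt_top_iff_ne_top]
    intro h
    rw [h, finrank_top, Module.finrank_fintype_fun_eq_card] at h1
    omega
  obtain ⟨f, hf, hker⟩ := Submodule.exists_le_ker_of_lt_top _ hlt
  exact ⟨f, hf, hker (Submodule.subset_span (by simp)), hker (Submodule.subset_span (by simp))⟩

/-- a nonzero vector killed by two given covectors -/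
theorem exists_vec_kill2 {K : Type*} [Field K] (hn : 3 ≤ Fintype.card ι) (φ ψ : Dual K (ι → K)) :
    ∃ x : ι → K, x ≠ 0 ∧ φ x = 0 ∧ ψ x = 0 := by
  have h1 := finrank_cutL [φ, ψ]
  have h2 : cutL [φ, ψ] ≠ ⊥ := by
    intro h0
    rw [h0, finrank_bot] at h1
    simp at h1
    omega
  obtain ⟨b, hb, hb0⟩ := Submodule.exists_mem_ne_zero_of_ne_bot h2
  rw [mem_cutL] at hb
  exact ⟨b, hb0, hb _ (by simp), hb _ (by simp)⟩

end kill

section rigid

variable {F₀ : Subfield F} (P : GL ι F) {M : Subgroup (GL ι F)}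
variable (hlift : ∀ e : (ι → F₀) ≃ₗ[F₀] (ι → F₀),
  LinearMap.det (e : (ι → F₀) →ₗ[F₀] (ι → F₀)) = 1 → liftG P e ∈ M)
  (hn : 4 ≤ Fintype.card ι) (hA : ∀ d, RA M F₀ P d → d ∈ F₀)

include hlift hn hA

theorem R0 {d : F} {ψ : Dual F₀ (ι → F₀)} {u : ι → F₀} (hψ : ψ ≠ 0) (hu : u ≠ 0) (h₀ : ψ u = 0)
    (hm : TvIn M (d • cl P ψ) (rat F₀ P u)) : d ∈ F₀ :=
  hA d (RA_of_one P hlift hn hψ hu h₀ hm)

theorem R1 {φ : Dual F V} {a₀ : ι → F₀} (ha : a₀ ≠ 0) (hT : TvIn M φ (rat F₀ P a₀)) (x₀ : ι → F₀) :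
    φ (rat F₀ P x₀) ∈ F₀ := by
  obtain ⟨ψ₁, h1, h2, h3⟩ := exists_form_kill2 (by omega : 3 ≤ Fintype.card ι) a₀ x₀
  have h4 := hT.comm (tvIn_rat P hlift ψ₁ x₀ h3) (by rw [cl_rat, h2]; rfl)
  exact R0 P hlift hn hA h1 ha h2 h4

theorem R1_cov {φ : Dual F V} {a₀ : ι → F₀} (ha : a₀ ≠ 0) (hT : TvIn M φ (rat F₀ P a₀)) :
    ∃ ψ : Dual F₀ (ι → F₀), cl P ψ = φ :=
  ⟨ratCov P φ (R1 P hlift hn hA ha hT), cl_ratCov P φ _⟩

theorem R1' {θ : Dual F₀ (ι → F₀)} {v : V} (hθ : θ ≠ 0) (hT : TvIn M (cl P θ) v)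
    (ψ : Dual F₀ (ι → F₀)) : cl P ψ v ∈ F₀ := by
  obtain ⟨w₀, h1, h2, h3⟩ := exists_vec_kill2 (by omega : 3 ≤ Fintype.card ι) θ ψ
  have h4 := (tvIn_rat P hlift ψ w₀ h3).comm hT (by rw [cl_rat, h2]; rfl)
  exact R0 P hlift hn hA hθ h1 h2 h4

theorem R1'_vec {θ : Dual F₀ (ι → F₀)} {v : V} (hθ : θ ≠ 0) (hT : TvIn M (cl P θ) v) :
    ∃ w : ι → F₀, v = rat F₀ P w :=
  exists_rat_of_coords P v (R1' P hlift hn hA hθ hT)

theorem R2 {φ : Dual F V} {v : V} {a₀ : ι → F₀} (hT : TvIn M φ v) (ha : a₀ ≠ 0)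
    (hz : φ (rat F₀ P a₀) = 0) (hv : v ≠ 0) :
    ∃ c : F, c ≠ 0 ∧ ∃ ψ : Dual F₀ (ι → F₀), cl P ψ = c • φ := by
  by_cases hx : ∀ c : F, v ≠ c • rat F₀ P a₀
  · obtain ⟨ψ₁, h1, h2⟩ := exists_form_sep P ha hx
    have h3 := (tvIn_rat P hlift ψ₁ a₀ h1).comm hT hz
    exact ⟨_, h2, R1_cov P hlift hn hA ha h3⟩
  · push Not at hx
    obtain ⟨c, hc⟩ := hx
    have hc0 : c ≠ 0 := by
      rintro rfl
      exact hv (by simpa using hc)
    rw [hc] at hT
    exact ⟨c, hc0, R1_cov P hlift hn hA ha hT.smul_form⟩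

theorem R2' {φ : Dual F V} {v : V} {θ : Dual F₀ (ι → F₀)} (hT : TvIn M φ v) (hθ : θ ≠ 0)
    (hz : cl P θ v = 0) (hφ : φ ≠ 0) :
    ∃ c : F, c ≠ 0 ∧ ∃ w : ι → F₀, c • v = rat F₀ P w := by
  by_cases hx : ∀ c : F, φ ≠ c • cl P θ
  · obtain ⟨w₀, h1, h2⟩ := exists_vec_sep P hθ hx
    have h3 := hT.comm (tvIn_rat P hlift θ w₀ h1) hz
    exact ⟨_, h2, R1'_vec P hlift hn hA hθ (h3.smul_center h2)⟩
  · push Not at hx
    obtain ⟨c, hc⟩ := hx
    have hc0 : c ≠ 0 := by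
      rintro rfl
      exact hφ (by simpa using hc)
    rw [hc] at hT
    exact ⟨c, hc0, R1'_vec P hlift hn hA hθ (hT.smul_center hc0)⟩

/-- A transvection of `M` with a non-rational centre has no rational zeros. -/
theorem no_rat_zero {φ : Dual F V} {v : V} (hT : TvIn M φ v) (hφ : φ ≠ 0) (hv : v ≠ 0)
    (hnr : ∀ (c : F) (w : ι → F₀), v ≠ c • rat F₀ P w) :
    (∀ θ : Dual F₀ (ι → F₀), θ ≠ 0 → cl P θ v ≠ 0) ∧ (∀ a₀ : ι → F₀, a₀ ≠ 0 → φ (rat F₀ P a₀) ≠ 0) := by
  have h1 : ∀ θ : Dual F₀ (ι → F₀), θ ≠ 0 → cl P θ v ≠ 0 := by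
    intro θ hθ h0
    obtain ⟨c, hc, w, hw⟩ := R2' P hlift hn hA hT hθ h0 hφ
    apply hnr c⁻¹ w
    rw [← hw, smul_smul, inv_mul_cancel₀ hc, one_smul]
  refine ⟨h1, fun a₀ ha h0 => ?_⟩
  obtain ⟨c, hc, ψ, hψ⟩ := R2 P hlift hn hA hT ha h0 hv
  have hψ0 : ψ ≠ 0 := by
    rintro rfl
    rw [cl_zero] at hψ
    apply hφ
    have : c • φ = 0 := hψ.symm
    exact (smul_eq_zero.1 this).resolve_left hc
  apply h1 ψ hψ0
  rw [hψ]
  have := hT.1
  simp [this]

end rigid

section lift2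

open Cfsg.Agent.Lib.KS2.SL2 (mul00 mul01 mul10 mul11 inv00 inv01 inv10 inv11 det_rel)

/-- The elements of `SL₂(F)` induced on the plane spanned by `a` and `u` by elements of `M`
acting trivially modulo that plane. -/
def planeLift (M : Subgroup (GL ι F)) (a u : V) : Subgroup SL(2, F) where
  carrier := {x | ∃ z ∈ M,
    act z a = (x : Matrix (Fin 2) (Fin 2) F) 0 0 • a + (x : Matrix (Fin 2) (Fin 2) F) 1 0 • u ∧
    act z u = (x : Matrix (Fin 2) (Fin 2) F) 0 1 • a + (x : Matrix (Fin 2) (Fin 2) F) 1 1 • u ∧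
    ∀ y : V, ∃ s t : F, act z y = y + s • a + t • u}
  mul_mem' := by
    rintro x x' ⟨z, hz, h1, h2, h3⟩ ⟨z', hz', h1', h2', h3'⟩
    refine ⟨z * z', M.mul_mem hz hz', ?_, ?_, ?_⟩
    · rw [map_mul, LinearEquiv.mul_apply, h1', map_add, map_smul, map_smul, h1, h2]
      simp only [mul00, mul10]
      (module)
    · rw [map_mul, LinearEquiv.mul_apply, h2', map_add, map_smul, map_smul, h1, h2]
      simp only [mul01, mul11]
      (module)
    · intro y
      obtain ⟨s', t', e'⟩ := h3' y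
      obtain ⟨s, t, e⟩ := h3 y
      rw [map_mul, LinearEquiv.mul_apply, e', map_add, map_add, map_smul, map_smul, h1, h2, e]
      exact ⟨s + s' * (x : Matrix (Fin 2) (Fin 2) F) 0 0 + t' * (x : Matrix (Fin 2) (Fin 2) F) 0 1,
        t + s' * (x : Matrix (Fin 2) (Fin 2) F) 1 0 + t' * (x : Matrix (Fin 2) (Fin 2) F) 1 1, by module⟩
  one_mem' := by
    refine ⟨1, M.one_mem, ?_, ?_, ?_⟩
    · simp [act_apply]
    · simp [act_apply]
    · intro y
      exact ⟨0, 0, by simp [act_apply]⟩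
  inv_mem' := by
    rintro x ⟨z, hz, h1, h2, h3⟩
    have hd := det_rel x
    refine ⟨z⁻¹, M.inv_mem hz, ?_, ?_, ?_⟩
    · apply (act z).injective
      rw [act_act_inv, map_add, map_smul, map_smul, h1, h2]
      simp only [inv00, inv10]
      have e : (x : Matrix (Fin 2) (Fin 2) F) 1 1 • ((x : Matrix (Fin 2) (Fin 2) F) 0 0 • a + (x : Matrix (Fin 2) (Fin 2) F) 1 0 • u) +
          (-(x : Matrix (Fin 2) (Fin 2) F) 1 0) • ((x : Matrix (Fin 2) (Fin 2) F) 0 1 • a + (x : Matrix (Fin 2) (Fin 2) F) 1 1 • u)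
          = ((x : Matrix (Fin 2) (Fin 2) F) 0 0 * (x : Matrix (Fin 2) (Fin 2) F) 1 1 - (x : Matrix (Fin 2) (Fin 2) F) 0 1 * (x : Matrix (Fin 2) (Fin 2) F) 1 0) • a := by
        (module)
      rw [e, hd, one_smul]
    · apply (act z).injective
      rw [act_act_inv, map_add, map_smul, map_smul, h1, h2]
      simp only [inv01, inv11]
      have e : (-(x : Matrix (Fin 2) (Fin 2) F) 0 1) • ((x : Matrix (Fin 2) (Fin 2) F) 0 0 • a + (x : Matrix (Fin 2) (Fin 2) F) 1 0 • u) +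
          ((x : Matrix (Fin 2) (Fin 2) F) 0 0) • ((x : Matrix (Fin 2) (Fin 2) F) 0 1 • a + (x : Matrix (Fin 2) (Fin 2) F) 1 1 • u)
          = ((x : Matrix (Fin 2) (Fin 2) F) 0 0 * (x : Matrix (Fin 2) (Fin 2) F) 1 1 - (x : Matrix (Fin 2) (Fin 2) F) 0 1 * (x : Matrix (Fin 2) (Fin 2) F) 1 0) • u := by
        (module)
      rw [e, hd, one_smul]
    · intro y
      obtain ⟨s, t, e⟩ := h3 (act z⁻¹ y)
      rw [act_act_inv] at e
      refine ⟨-s, -t, ?_⟩
      have e2 : y + (-s) • a + (-t) • u = (act z⁻¹ y + s • a + t • u) + (-s) • a + (-t) • u := by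
        rw [← e]
      rw [e2]
      (module)

end lift2

section final

open Cfsg.Agent.Lib.Classical.Dick (uu ll)

variable {F₀ : Subfield F} (P : GL ι F) {M : Subgroup (GL ι F)}

/-- a ring endomorphism with fixed field `F₀` -/
theorem exists_frob [Fintype F] (F₀ : Subfield F) : ∃ σ : F →+* F, ∀ a, σ a = a ↔ a ∈ F₀ := by
  classical
  obtain ⟨p, hp⟩ := CharP.exists F
  haveI : Fact p.Prime := ⟨CharP.char_is_prime F p⟩
  haveI : Fintype F₀ := Fintype.ofFinite _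
  haveI : CharP F₀ p := (algebraMap F₀ F).charP_iff (algebraMap F₀ F).injective p |>.2 hp
  obtain ⟨f, -, hf⟩ := FiniteField.card F₀ p
  haveI : ExpChar F p := ExpChar.prime Fact.out
  refine ⟨iterateFrobenius F p f, fun a => ?_⟩
  rw [iterateFrobenius_def]
  have h1 : Nat.card F₀ = p ^ (f : ℕ) := by
    rw [Nat.card_eq_fintype_card, hf]
  have h2 : 1 < p ^ (f : ℕ) := by
    rw [← h1]
    exact Finite.one_lt_card
  exact mem_iff_pow_eq h1 h2 a

/-- A subgroup of `GL` containing the elementary transvections contains `SL`. -/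
theorem sl_le_of_elem [Nontrivial ι] (M' : Subgroup (GL ι F))
    (h : ∀ (i j : ι) (hij : i ≠ j) (a : F),
      ((Matrix.SpecialLinearGroup.transvection hij a : Matrix.SpecialLinearGroup ι F) : GL ι F) ∈ M') :
    Cfsg.Geo.specialLinear ι F ≤ M' := by
  intro g hg
  have hdet : Matrix.det (g : Matrix ι ι F) = 1 := by
    have h1 : Matrix.GeneralLinearGroup.det g = 1 := hg
    have h2 := congrArg Units.val h1
    exact h2
  let A : Matrix.SpecialLinearGroup ι F := ⟨(g : Matrix ι ι F), hdet⟩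
  have key : ∀ B : Matrix.SpecialLinearGroup ι F, (B : GL ι F) ∈ M' := by
    intro B
    refine Cfsg.Agent.Lib.Classical.transvection_induction (fun C => (C : GL ι F) ∈ M') B h ?_
    intro C D hC hD
    rw [map_mul]
    exact M'.mul_mem hC hD
  have h3 := key A
  have h4 : (A : GL ι F) = g := by
    ext1
    rfl
  rwa [h4] at h3

/-- If the root field of `M` is `⊤`, then `M` contains `SL`. -/
theorem sl_le_of_RA [Nontrivial ι] (h : ∀ d, RA M F₀ P d) : Cfsg.Geo.specialLinear ι F ≤ M := by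
  intro g hg
  have hg' : P⁻¹ * g * P ∈ Cfsg.Geo.specialLinear ι F := by
    have h1 : Matrix.GeneralLinearGroup.det g = 1 := hg
    show Matrix.GeneralLinearGroup.det (P⁻¹ * g * P) = 1
    rw [map_mul, map_mul, h1, mul_one, ← map_mul]
    simp
  have key := sl_le_of_elem (M.comap (MulAut.conj P).toMonoidHom) ?_ hg'
  · have : (MulAut.conj P).toMonoidHom (P⁻¹ * g * P) ∈ M := key
    simpa [mul_assoc] using this
  · intro i j hij a
    have hφ : ((a • LinearMap.proj j : Dual F (ι → F))) (Pi.single i 1) = 0 := by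
      simp [Pi.single_apply, hij]
    have h1 : ((Matrix.SpecialLinearGroup.transvection hij a : Matrix.SpecialLinearGroup ι F) : GL ι F) = tv hφ := by
      apply act.injective
      ext1 x
      rw [act_tv_apply, act_apply]
      funext k
      simp [Matrix.SpecialLinearGroup.transvection_coe, Matrix.add_mulVec, Matrix.single_mulVec,
        Pi.single_apply]
      by_cases hk : k = i <;> simp [hk]
    rw [h1]
    show P * tv hφ * P⁻¹ ∈ M
    have h2 := h a (LinearMap.proj j) (Pi.single i 1) (by simp [Pi.single_apply, hij])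
    obtain ⟨h3, h4⟩ := h2
    convert h4 using 1
    apply act.injective
    ext1 x
    rw [map_mul, map_mul, LinearEquiv.mul_apply, LinearEquiv.mul_apply, act_tv_apply, act_tv_apply,
      map_add, act_act_inv, map_smul]
    have e1 : rat F₀ P (Pi.single i 1) = act P (Pi.single i 1) := by
      rw [rat]
      congr 1
      funext k
      by_cases hk : k = i
      · subst hk
        simp [incl]
      · simp [incl, Pi.single_apply, hk]
    have e2 : (a • cl P (LinearMap.proj j : (ι → F₀) →ₗ[F₀] F₀)) x = (a • LinearMap.proj j : Dual F V) (act P⁻¹ x) := by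
      simp [cl_proj]
    rw [e1, e2]

/-- The main step: no proper overgroup with small root field. -/
theorem no_over_sl [Fintype F] (hn : 4 ≤ Fintype.card ι) {r : ℕ} (hr : r.Prime)
    (hcard : Fintype.card F = Nat.card F₀ ^ r)
    (hlift : ∀ e : (ι → F₀) ≃ₗ[F₀] (ι → F₀),
      LinearMap.det (e : (ι → F₀) →ₗ[F₀] (ι → F₀)) = 1 → liftG P e ∈ M)
    (hA : ∀ d, RA M F₀ P d → d ∈ F₀) {g : GL ι F} (hg : g ∈ M) {u₀ : ι → F₀}
    (hnr : ∀ (c : F) (w : ι → F₀), act g (rat F₀ P u₀) ≠ c • rat F₀ P w) : False := by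
  classical
  haveI : Fintype F₀ := Fintype.ofFinite _
  have hq : 1 < Nat.card F₀ := Finite.one_lt_card
  set u := act g (rat F₀ P u₀) with hu
  have hu0 : u ≠ 0 := by
    intro h0
    apply hnr 0 0
    rw [h0]
    simp
  have hu₀0 : u₀ ≠ 0 := by
    rintro rfl
    apply hu0
    rw [hu, rat_zero, map_zero]
  obtain ⟨ψ₀, hψ₀, h01, -⟩ := exists_form_kill2 (by omega : 3 ≤ Fintype.card ι) u₀ u₀
  set φ₀ : Dual F V := (cl P ψ₀) ∘ₗ ((act g⁻¹ : V ≃ₗ[F] V) : V →ₗ[F] V) with hφ₀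
  have hT₀ : TvIn M φ₀ u := (tvIn_rat P hlift ψ₀ u₀ h01).conj hg
  have hφ₀0 : φ₀ ≠ 0 := by
    intro h0
    apply cl_ne_zero P hψ₀
    refine LinearMap.ext fun x => ?_
    have h1 := congrArg (fun φ : Dual F V => φ (act g x)) h0
    simpa [hφ₀, act_inv_act] using h1
  obtain ⟨hnz1, hnz2⟩ := no_rat_zero P hlift hn hA hT₀ hφ₀0 hu0 hnr
  -- n ≤ r
  have hnr' : Fintype.card ι ≤ r := by
    have hinj : Function.Injective (fun w : ι → F₀ => φ₀ (rat F₀ P w)) := by
      intro w w' h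
      by_contra hne
      apply hnz2 (w - w') (sub_ne_zero.2 hne)
      rw [rat_sub', map_sub]
      exact sub_eq_zero.2 h
    have h1 := Nat.card_le_card_of_injective _ hinj
    rw [Nat.card_fun, Nat.card_eq_fintype_card (α := F), hcard, Nat.card_eq_fintype_card (α := ι)] at h1
    exact (Nat.pow_le_pow_iff_right hq).1 h1
  -- the configuration
  obtain ⟨j, i₁, i₂, hji₁, hji₂, hi₁₂⟩ := Fintype.two_lt_card_iff.1 (by omega : 2 < Fintype.card ι)
  have hs : ∀ l m : ι, l ≠ m → (LinearMap.proj m : (ι → F₀) →ₗ[F₀] F₀) (Pi.single l 1) = 0 := by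
    intro l m hlm
    simp [Pi.single_apply, hlm.symm]
  have hs1 : ∀ l : ι, (LinearMap.proj l : (ι → F₀) →ₗ[F₀] F₀) (Pi.single l 1) = 1 := by
    intro l
    simp
  have hprojne : ∀ l : ι, (LinearMap.proj l : (ι → F₀) →ₗ[F₀] F₀) ≠ 0 := by
    intro l h0
    have := hs1 l
    rw [h0] at this
    simp at this
  have hej : (Pi.single j 1 : ι → F₀) ≠ 0 := by
    intro h0
    have := congrFun h0 j
    simp at this
  set a := rat F₀ P (Pi.single j 1) with ha
  set t₀ := φ₀ a with ht₀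
  have ht₀0 : t₀ ≠ 0 := hnz2 _ hej
  set L := planeLift M a u with hL
  have hllL : ll t₀ ∈ L := by
    obtain ⟨h1, h2⟩ := hT₀
    refine ⟨tv h1, h2, ?_, ?_, ?_⟩
    · rw [act_tv_apply]
      simp [ht₀]
    · rw [act_tv_apply]
      simp [h1]
    · intro y
      exact ⟨0, φ₀ y, by rw [act_tv_apply]; simp⟩
  have hca : ∀ ψ : Dual F₀ (ι → F₀), ψ (Pi.single j 1) = 0 → cl P ψ a = 0 := by
    intro ψ hψ
    rw [ha, cl_rat, hψ]
    rfl
  have huuL : ∀ ψ : Dual F₀ (ι → F₀), ψ (Pi.single j 1) = 0 → uu (cl P ψ u) ∈ L := by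
    intro ψ hψ
    obtain ⟨h1, h2⟩ := tvIn_rat P hlift ψ (Pi.single j 1) hψ
    refine ⟨tv h1, h2, ?_, ?_, ?_⟩
    · rw [act_tv_apply]
      simp [hca ψ hψ]
    · rw [act_tv_apply]
      simp [add_comm]
      exact rfl
    · intro y
      exact ⟨cl P ψ y, 0, by rw [act_tv_apply]; simp; exact rfl⟩
  set S : Set F := {b | ∃ ψ : Dual F₀ (ι → F₀), ψ (Pi.single j 1) = 0 ∧ cl P ψ u = b} with hS
  have hb₁ : cl P (LinearMap.proj i₁ : (ι → F₀) →ₗ[F₀] F₀) u ∈ S := ⟨_, hs _ _ hji₁, rfl⟩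
  have hb₂ : cl P (LinearMap.proj i₂ : (ι → F₀) →ₗ[F₀] F₀) u ∈ S := ⟨_, hs _ _ hji₂, rfl⟩
  have hb₁0 : cl P (LinearMap.proj i₁ : (ι → F₀) →ₗ[F₀] F₀) u ≠ 0 := hnz1 _ (hprojne i₁)
  have hind : ∀ c ∈ F₀, cl P (LinearMap.proj i₂ : (ι → F₀) →ₗ[F₀] F₀) u
      ≠ c * cl P (LinearMap.proj i₁ : (ι → F₀) →ₗ[F₀] F₀) u := by
    intro c hc h
    have h1 : (LinearMap.proj i₂ : (ι → F₀) →ₗ[F₀] F₀) - (⟨c, hc⟩ : F₀) • (LinearMap.proj i₁ : (ι → F₀) →ₗ[F₀] F₀) ≠ 0 := by
      intro h0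
      have h2 := congrArg (fun ψ : Dual F₀ (ι → F₀) => ψ (Pi.single i₂ 1)) h0
      simp [hs _ _ hi₁₂.symm] at h2
    apply hnz1 _ h1
    rw [cl_sub, cl_smul]
    simp only [LinearMap.sub_apply, LinearMap.smul_apply, smul_eq_mul]
    rw [h]
    ring
  have hSc : ∀ c ∈ F₀, ∀ b ∈ S, c * b ∈ S := by
    rintro c hc b ⟨ψ, hψ, rfl⟩
    refine ⟨(⟨c, hc⟩ : F₀) • ψ, by simp [hψ], ?_⟩
    rw [cl_smul]
    simp
  have hall : ∀ d : F, uu d ∈ L := fun d =>
    DS.root_closure hr hcard L ht₀0 hllL S (by rintro b ⟨ψ, hψ, rfl⟩; exact huuL ψ hψ) hSc hb₁ hb₂ hb₁0 hind d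
  -- every coefficient occurs
  have hsurj : ∀ d : F, ∃ ψ : Dual F₀ (ι → F₀), ψ (Pi.single j 1) = 0 ∧ cl P ψ u = d := by
    intro d
    obtain ⟨z, hz, h1, h2, h3⟩ := hall d
    have h1' : act z a = a := by simpa using h1
    have h2' : act z u = d • a + u := by simpa using h2
    have hinva : act z⁻¹ a = a := by
      apply (act z).injective
      rw [act_act_inv, h1']
    have hform : ∀ ψ : Dual F₀ (ι → F₀), ψ (Pi.single j 1) = 0 → ∀ (x₀ : ι → F₀) (s t : F),
        act z (rat F₀ P x₀) = rat F₀ P x₀ + s • a + t • u → t * cl P ψ u ∈ F₀ := by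
      intro ψ hψ x₀ s t e
      have hT1 := (tvIn_rat P hlift ψ (Pi.single j 1) hψ).conj (M.inv_mem hz)
      rw [inv_inv] at hT1
      change TvIn M _ (act z⁻¹ a) at hT1
      rw [hinva] at hT1
      have hT2 := hT1.sub (tvIn_rat P hlift ψ (Pi.single j 1) hψ)
      have h5 := R1 P hlift hn hA hej hT2 x₀
      simp only [LinearMap.sub_apply, LinearMap.comp_apply, LinearEquiv.coe_coe] at h5
      rw [e] at h5
      simp only [map_add, map_smul, hca ψ hψ, smul_eq_mul, mul_zero, add_zero] at h5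
      have e2 : cl P ψ (rat F₀ P x₀) + t * cl P ψ u - cl P ψ (rat F₀ P x₀) = t * cl P ψ u := by ring
      rwa [e2] at h5
    have ht0 : ∀ (x₀ : ι → F₀) (s t : F), act z (rat F₀ P x₀) = rat F₀ P x₀ + s • a + t • u → t = 0 := by
      intro x₀ s t e
      by_contra htne
      have h4 := hform _ (hs _ _ hji₁) x₀ s t e
      have h5 := hform _ (hs _ _ hji₂) x₀ s t e
      apply hind _ (F₀.mul_mem h5 (F₀.inv_mem h4))
      field_simp
    set κ : Dual F V := cl P (LinearMap.proj j : (ι → F₀) →ₗ[F₀] F₀) with hκ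
    have hκa : κ a = 1 := by
      rw [hκ, ha, cl_rat, hs1]
      rfl
    set n₂ : Dual F V := κ ∘ₗ (((act z : V ≃ₗ[F] V) : V →ₗ[F] V) - LinearMap.id) with hn₂
    have hzrat : ∀ i : ι, ((act z : V ≃ₗ[F] V) : V →ₗ[F] V) (rat F₀ P (Pi.single i 1))
        = (LinearMap.id + n₂.smulRight a : V →ₗ[F] V) (rat F₀ P (Pi.single i 1)) := by
      intro i
      obtain ⟨s, t, e⟩ := h3 (rat F₀ P (Pi.single i 1))
      have ht := ht0 _ s t e
      subst ht
      rw [zero_smul, add_zero] at e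
      have h4 : n₂ (rat F₀ P (Pi.single i 1)) = s := by
        simp only [hn₂, LinearMap.comp_apply, LinearMap.sub_apply, LinearEquiv.coe_coe, LinearMap.id_apply]
        rw [e, add_sub_cancel_left, map_smul, hκa]
        simp
      simp only [LinearEquiv.coe_coe, LinearMap.add_apply, LinearMap.id_apply, LinearMap.smulRight_apply, h4]
      exact e
    have hzall := lin_ext_rat (F₀ := F₀) P hzrat
    have hzy : ∀ y : V, act z y = y + n₂ y • a := by
      intro y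
      have := congrArg (fun f : V →ₗ[F] V => f y) hzall
      simpa using this
    have hn₂a : n₂ a = 0 := by
      simp only [hn₂, LinearMap.comp_apply, LinearMap.sub_apply, LinearEquiv.coe_coe, LinearMap.id_apply]
      rw [h1', sub_self, map_zero]
    have htv : z = tv hn₂a := by
      apply act.injective
      ext1 y
      rw [act_tv_apply, hzy]
    have hT : TvIn M n₂ a := ⟨hn₂a, htv ▸ hz⟩
    obtain ⟨ψ', hψ'⟩ := R1_cov P hlift hn hA hej hT
    refine ⟨ψ', ?_, ?_⟩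
    · have h5 : cl P ψ' a = 0 := by rw [hψ', hn₂a]
      rw [ha, cl_rat] at h5
      exact_mod_cast h5
    · rw [hψ']
      simp only [hn₂, LinearMap.comp_apply, LinearMap.sub_apply, LinearEquiv.coe_coe, LinearMap.id_apply]
      rw [h2', add_sub_cancel_right, map_smul, hκa]
      simp
  -- counting
  let T : ({i : ι // i ≠ j} → F₀) → F := fun c => ∑ i : {i : ι // i ≠ j}, (c i : F) * (act P⁻¹ u) i
  have hTs : Function.Surjective T := by
    intro d
    obtain ⟨ψ, hψ, hd⟩ := hsurj d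
    refine ⟨fun i => ψ (Pi.single i.1 1), ?_⟩
    rw [← hd, cl_apply, Fintype.sum_eq_add_sum_subtype_ne _ j, hψ]
    simp [T]
  have hcardT := Nat.card_le_card_of_surjective T hTs
  rw [Nat.card_fun, Nat.card_eq_fintype_card (α := F), hcard, Nat.card_eq_fintype_card (α := {i : ι // i ≠ j}),
    Fintype.card_subtype_compl] at hcardT
  have h9 := (Nat.pow_le_pow_iff_right hq).1 hcardT
  simp at h9
  omega

/-- The subfield subgroup of `SL` is maximal. -/
theorem isMaximalIn_sl_subfield [Fintype F] (hn : 4 ≤ Fintype.card ι) (F₀ : Subfield F) {r : ℕ}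
    (hr : r.Prime) (hcard : Fintype.card F = Nat.card F₀ ^ r) (P : GL ι F) :
    Cfsg.Geo.IsMaximalIn (Cfsg.Geo.specialLinear ι F)
      (Cfsg.Geo.subfieldSubgroup F₀ P ⊓ Cfsg.Geo.specialLinear ι F) := by
  classical
  obtain ⟨σ, hfix⟩ := exists_frob F₀
  haveI : Nontrivial ι := Fintype.one_lt_card_iff_nontrivial.1 (by omega)
  have hdet : ∀ M : Subgroup (GL ι F), Cfsg.Geo.subfieldSubgroup F₀ P ⊓ Cfsg.Geo.specialLinear ι F ≤ M →
      ∀ e : (ι → F₀) ≃ₗ[F₀] (ι → F₀), LinearMap.det (e : (ι → F₀) →ₗ[F₀] (ι → F₀)) = 1 → liftG P e ∈ M :=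
    fun M hM e he => hM ⟨liftG_mem_subfield P σ hfix e, det_liftG P e he⟩
  refine ⟨lt_of_le_of_ne inf_le_right ?_, ?_⟩
  · -- properness
    intro heq
    obtain ⟨d, hd⟩ : ∃ d : F, d ∉ F₀ := by
      by_contra hcon
      push Not at hcon
      have h1 : Nat.card F₀ = Fintype.card F := by
        rw [← Nat.card_eq_fintype_card]
        exact Nat.card_congr (Equiv.subtypeUnivEquiv hcon)
      rw [hcard] at h1
      have hq : 1 < Nat.card F₀ := Finite.one_lt_card
      have h2 : 1 = r := Nat.pow_right_injective hq (by simpa using h1)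
      exact hr.one_lt.ne h2
    obtain ⟨i, j, hij⟩ := exists_pair_ne ι
    have hφ : (d • cl P (LinearMap.proj j : (ι → F₀) →ₗ[F₀] F₀)) (rat F₀ P (Pi.single i 1)) = 0 := by
      simp [cl_rat, Pi.single_apply, hij.symm]
    have hmem : tv hφ ∈ Cfsg.Geo.specialLinear ι F := tv_mem_SL hφ
    rw [← heq] at hmem
    obtain ⟨c, w, hcw⟩ := rat_of_mem_subfield P hmem.1 (Pi.single j 1 : ι → F₀)
    rw [act_tv_apply] at hcw
    simp only [LinearMap.smul_apply, cl_rat, smul_eq_mul] at hcw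
    have h1 := congrArg (act P⁻¹) hcw
    rw [map_add, map_smul, map_smul, rat, rat, rat, act_inv_act, act_inv_act, act_inv_act] at h1
    have h2 := congrFun h1 j
    have h3 := congrFun h1 i
    simp [incl, Pi.single_apply, hij, hij.symm] at h2 h3
    have hc0 : c ≠ 0 := by
      rintro rfl
      simp at h2
    have hw0 : ((w j : F₀) : F) ≠ 0 := by
      intro h0
      rw [h0] at h2
      simp at h2
    apply hd
    rw [h3]
    have h4 : c = ((w j : F₀) : F)⁻¹ := by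
      field_simp
      exact h2.symm
    rw [h4]
    exact F₀.mul_mem (F₀.inv_mem (w j).2) (w i).2
  · intro M hHM hMS
    by_cases hMH : M ≤ Cfsg.Geo.subfieldSubgroup F₀ P ⊓ Cfsg.Geo.specialLinear ι F
    · exact Or.inl (le_antisymm hMH hHM)
    right
    apply le_antisymm hMS
    have hlift := hdet M hHM
    set A : Subfield F := rootField (M := M) (F₀ := F₀) P hlift hn with hA
    have hF₀A : F₀ ≤ A := fun c hc => RA_of_mem P hlift hc
    rcases DS.subfield_prime_index hr hcard hF₀A with hAe | hAt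
    · exfalso
      have hAF : ∀ d, RA M F₀ P d → d ∈ F₀ := by
        intro d hd
        have : d ∈ A := hd
        rwa [hAe] at this
      obtain ⟨g, hg, hgH⟩ := SetLike.not_le_iff_exists.1 hMH
      have hgS : g ∉ Cfsg.Geo.subfieldSubgroup F₀ P := fun h => hgH ⟨h, hMS hg⟩
      have : ∃ u₀ : ι → F₀, ∀ (c : F) (w : ι → F₀), act g (rat F₀ P u₀) ≠ c • rat F₀ P w := by
        by_contra hcon
        push Not at hcon
        exact hgS (mem_subfield_of P σ hfix hcon)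
      obtain ⟨u₀, hu₀⟩ := this
      exact no_over_sl P hn hr hcard hlift hAF hg hu₀
    · apply sl_le_of_RA (F₀ := F₀) P
      intro d
      have : d ∈ A := by rw [hAt]; trivial
      exact this

end final

end Cfsg.Agent.Lib.Geo
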