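import Mathlib
import Cfsg.Agent.Lib.Geo.SubfieldSL

set_option autoImplicit false

/-! Overgroups of the monomial group in `GL`: a subgroup containing all diagonal matrices, all
permutation matrices and a non-monomial element contains an elementary transvection, provided
`5 ≤ q` and the dimension is at least three. -/

namespace Cfsg.Agent.Lib.Geo.MN

open scoped MatrixGroups Matrix
open Module
open Cfsg.Agent.Lib.Geo

variable {J : Type} [Fintype J] [DecidableEq J] {F : Type*} [Field F]

/-- coordinate vector -/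
abbrev ee (F : Type*) [Field F] (j : J) : J → F := Pi.single j 1

/-- diagonal equivalence -/
noncomputable def dgE (s : J → F) (hs : ∀ j, s j ≠ 0) : (J → F) ≃ₗ[F] (J → F) where
  toFun x j := s j * x j
  invFun x j := (s j)⁻¹ * x j
  map_add' x y := by
    funext j
    simp [mul_add]
  map_smul' c x := by
    funext j
    simp [mul_left_comm]
  left_inv x := by
    funext j
    simp [hs j]
  right_inv x := by
    funext j
    simp [hs j]

/-- diagonal element -/
noncomputable def dg (s : J → F) (hs : ∀ j, s j ≠ 0) : GL J F := act.symm (dgE s hs)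

theorem act_dg (s : J → F) (hs : ∀ j, s j ≠ 0) (x : J → F) (j : J) : act (dg s hs) x j = s j * x j := by
  simp [dg, dgE]

/-- permutation element -/
noncomputable def pm (π : Equiv.Perm J) : GL J F := act.symm (LinearEquiv.funCongrLeft F F π.symm)

theorem act_pm (π : Equiv.Perm J) (x : J → F) (j : J) : act (pm π) x j = x (π.symm j) := by
  simp [pm, LinearEquiv.funCongrLeft, LinearMap.funLeft]

theorem act_pm_ee (π : Equiv.Perm J) (i : J) : act (pm π) (ee F i) = ee F (π i) := by
  funext j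
  rw [act_pm]
  simp only [ee, Pi.single_apply, Equiv.symm_apply_eq]

theorem eq_inv_of_act {z z₁ : GL J F} (h : ∀ x, act z (act z₁ x) = x) : z₁ = z⁻¹ := by
  apply eq_inv_of_mul_eq_one_right
  apply act.injective
  ext1 x
  rw [map_mul, map_one, LinearEquiv.mul_apply, h]
  rfl

/-- coordinates of a form -/
theorem form_sum (α : Dual F (J → F)) (x : J → F) : α x = ∑ j, x j * α (ee F j) := by
  conv_lhs => rw [← Finset.univ_sum_single x]
  rw [map_sum]
  refine Finset.sum_congr rfl fun j _ => ?_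
  have : Pi.single j (x j) = x j • ee F j := by
    funext k
    by_cases h : k = j
    · subst h
      simp [ee]
    · simp [ee, h]
  rw [this, map_smul, smul_eq_mul]

/-- a one-coordinate diagonal element -/
noncomputable def d1 (i : J) (b : F) (hb : b ≠ 0) : GL J F :=
  dg (Function.update (fun _ => (1 : F)) i b) (fun j => by
    by_cases h : j = i
    · subst h
      simpa using hb
    · simp [h])

theorem act_d1 (i : J) (b : F) (hb : b ≠ 0) (x : J → F) :
    act (d1 i b hb) x = x + ((b - 1) * x i) • ee F i := by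
  funext j
  rw [d1, act_dg]
  by_cases h : j = i
  · subst h
    simp
    ring
  · simp [h, ee]

theorem act_d1_inv (i : J) (b : F) (hb : b ≠ 0) (x : J → F) :
    act (d1 i b hb)⁻¹ x = x + ((b⁻¹ - 1) * x i) • ee F i := by
  have h : d1 i b⁻¹ (inv_ne_zero hb) = (d1 i b hb)⁻¹ := by
    apply eq_inv_of_act
    intro y
    rw [act_d1, act_d1]
    funext j
    by_cases h : j = i
    · subst h
      simp [hb]
      field_simp
      ring
    · simp [h, ee]
  rw [← h, act_d1]

/-- the data of a family of homologies in `P` -/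
def Hm (P : Subgroup (GL J F)) (α : Dual F (J → F)) (a : J → F) : Prop :=
  α a = 1 ∧ ∀ s : F, s ≠ 0 → ∃ z ∈ P, ∀ x, act z x = x + ((s - 1) * α x) • a

/-- an elementary transvection in `P` -/
def Elem (P : Subgroup (GL J F)) : Prop :=
  ∃ (l k : J) (c : F), l ≠ k ∧ c ≠ 0 ∧ TvIn P (c • (LinearMap.proj k : Dual F (J → F))) (ee F l)

variable {P : Subgroup (GL J F)}

theorem hm_inv {α : Dual F (J → F)} {a : J → F} (h1 : α a = 1) {s : F} (hs : s ≠ 0) {z z₁ : GL J F}
    (hz : ∀ x, act z x = x + ((s - 1) * α x) • a)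
    (hz₁ : ∀ x, act z₁ x = x + ((s⁻¹ - 1) * α x) • a) : z₁ = z⁻¹ := by
  apply eq_inv_of_act
  intro x
  rw [hz, hz₁, map_add, map_smul, h1]
  simp only [smul_eq_mul, mul_one]
  have : (s - 1) * (α x + (s⁻¹ - 1) * α x) = -((s⁻¹ - 1) * α x) := by
    field_simp
    ring
  rw [this, neg_smul]
  abel

theorem hm_act_inv {α : Dual F (J → F)} {a : J → F} (h1 : α a = 1) {s : F} (hs : s ≠ 0) {z : GL J F}
    (hz : ∀ x, act z x = x + ((s - 1) * α x) • a) (x : J → F) :
    act z⁻¹ x = x + ((s⁻¹ - 1) * α x) • a := by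
  have hinv : (act z)⁻¹ x = x + ((s⁻¹ - 1) * α x) • a := by
    apply (act z).injective
    show act z ((act z).symm x) = _
    rw [LinearEquiv.apply_symm_apply, hz, map_add, map_smul, h1]
    simp only [smul_eq_mul, mul_one]
    have : (s - 1) * (α x + (s⁻¹ - 1) * α x) = -((s⁻¹ - 1) * α x) := by
      field_simp
      ring
    rw [this, neg_smul]
    abel
  rw [map_inv]
  exact hinv

theorem ai (g : GL J F) (w : J → F) : act g⁻¹ (act g w) = w := by
  rw [map_inv]
  exact (act g).symm_apply_apply w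

theorem aj (g : GL J F) (w : J → F) : act g (act g⁻¹ w) = w := by
  rw [map_inv]
  exact (act g).apply_symm_apply w

/-- the form `x ↦ α (g x)` -/
noncomputable def frm (α : Dual F (J → F)) (g : GL J F) : Dual F (J → F) :=
  α ∘ₗ ((act g : (J → F) ≃ₗ[F] (J → F)) : (J → F) →ₗ[F] (J → F))

theorem frm_apply (α : Dual F (J → F)) (g : GL J F) (x : J → F) : frm α g x = α (act g x) := rfl

/-- the coordinate form `x ↦ (g x) j` -/
noncomputable def cf (g : GL J F) (j : J) : Dual F (J → F) := frm (LinearMap.proj j) g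

theorem cf_apply (g : GL J F) (j : J) (x : J → F) : cf g j x = act g x j := rfl

/-- conjugates by `P` -/
theorem Hm.conj {α : Dual F (J → F)} {a : J → F} (hH : Hm P α a) {w : GL J F} (hw : w ∈ P) :
    Hm P (frm α w⁻¹) (act w a) := by
  refine ⟨?_, fun s hs => ?_⟩
  · rw [frm_apply, ai]
    exact hH.1
  · obtain ⟨z, hzP, hz⟩ := hH.2 s hs
    refine ⟨w * z * w⁻¹, P.mul_mem (P.mul_mem hw hzP) (P.inv_mem hw), fun x => ?_⟩
    rw [map_mul, map_mul, LinearEquiv.mul_apply, LinearEquiv.mul_apply, hz, map_add, aj, map_smul, frm_apply]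

variable (hD : ∀ (s : J → F) (hs : ∀ j, s j ≠ 0), dg s hs ∈ P)

include hD

theorem d1_mem (i : J) (b : F) (hb : b ≠ 0) : d1 i b hb ∈ P := hD _ _

/-- homologies from conjugating the diagonal group -/
theorem Hm.of_conj {y : GL J F} (hy : y ∈ P) (j : J) : Hm P (cf y⁻¹ j) (act y (ee F j)) := by
  refine ⟨?_, fun s hs => ?_⟩
  · rw [cf_apply, ai]
    simp [ee]
  · refine ⟨y * d1 j s hs * y⁻¹, P.mul_mem (P.mul_mem hy (d1_mem hD j s hs)) (P.inv_mem hy), fun x => ?_⟩
    rw [map_mul, map_mul, LinearEquiv.mul_apply, LinearEquiv.mul_apply, act_d1, map_add, aj, map_smul, cf_apply]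

omit hD in
theorem TvIn.sub_center {φ : Dual F (J → F)} {v v' : J → F} (h : TvIn P φ v) (h' : TvIn P φ v') :
    TvIn P φ (v - v') := by
  obtain ⟨h1, hm⟩ := h
  obtain ⟨h2, hm'⟩ := h'
  have h3 : φ (v - v') = 0 := by simp [h1, h2]
  refine ⟨h3, ?_⟩
  have h4 : (-φ) v' = 0 := by simp [h2]
  have h5 : φ (-v') = 0 := by simp [h2]
  have h6 : tv h4 = tv h5 := by
    apply act.injective
    ext1 x
    rw [act_tv_apply, act_tv_apply]
    simp
  have h7 : tv h3 = tv h1 * (tv h2)⁻¹ := by
    rw [tv_inv h2 h4, h6]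
    have := tv_mul_center h1 h5 (by rw [map_add, h1, h5, add_zero])
    rw [this]
    exact tv_congr _ _ rfl (by abel)
  rw [h7]
  exact P.mul_mem hm (P.inv_mem hm')

omit hD in
theorem exists_b [Fintype F] (hq : 3 ≤ Fintype.card F) : ∃ b : F, b ≠ 0 ∧ b ≠ 1 := by
  classical
  obtain ⟨b, hb⟩ : ∃ b, b ∉ ({0, 1} : Finset F) := by
    by_contra hcon
    push Not at hcon
    have h1 : Fintype.card F ≤ ({0, 1} : Finset F).card := by
      rw [← Finset.card_univ]
      exact Finset.card_le_card fun x _ => hcon x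
    have h2 : ({0, 1} : Finset F).card ≤ 2 := Finset.card_le_two
    omega
  simp only [Finset.mem_insert, Finset.mem_singleton, not_or] at hb
  exact ⟨b, hb.1, hb.2⟩

/-- a transvection with coordinate centre gives an elementary one -/
theorem elem_of_center {ψ : Dual F (J → F)} {i k : J} (hT : TvIn P ψ (ee F i)) (hik : i ≠ k)
    (hψ : ψ (ee F k) ≠ 0) {b : F} (hb0 : b ≠ 0) (hb1 : b ≠ 1) : Elem P := by
  have h1 := Cfsg.Agent.Lib.Geo.TvIn.conj hT (d1_mem hD k b hb0)
  have e0 : act (d1 k b hb0) (ee F i) = ee F i := by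
    rw [act_d1]
    simp [ee, Pi.single_apply, hik.symm]
  rw [e0] at h1
  have h2 := Cfsg.Agent.Lib.Geo.TvIn.sub h1 hT
  have e1 : (ψ ∘ₗ ((act (d1 k b hb0)⁻¹ : (J → F) ≃ₗ[F] (J → F)) : (J → F) →ₗ[F] (J → F))) - ψ =
      ((b⁻¹ - 1) * ψ (ee F k)) • (LinearMap.proj k : Dual F (J → F)) := by
    refine LinearMap.ext fun x => ?_
    simp only [LinearMap.sub_apply, LinearMap.comp_apply, LinearEquiv.coe_coe, act_d1_inv, map_add, map_smul,
      LinearMap.smul_apply, LinearMap.proj_apply, smul_eq_mul]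
    ring
  rw [e1] at h2
  refine ⟨i, k, _, hik, mul_ne_zero ?_ hψ, h2⟩
  rw [sub_ne_zero]
  intro h
  apply hb1
  rw [← inv_inv b, h, inv_one]

/-- a transvection with coordinate form gives an elementary one -/
theorem elem_of_form {a : J → F} {i k : J} {κ : F} (hT : TvIn P (κ • (LinearMap.proj i : Dual F (J → F))) a)
    (hik : i ≠ k) (hκ : κ ≠ 0) (hak : a k ≠ 0) {b : F} (hb0 : b ≠ 0) (hb1 : b ≠ 1) : Elem P := by
  have h1 := Cfsg.Agent.Lib.Geo.TvIn.conj hT (d1_mem hD k b hb0)
  have e1 : ((κ • (LinearMap.proj i : Dual F (J → F))) ∘ₗ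
      ((act (d1 k b hb0)⁻¹ : (J → F) ≃ₗ[F] (J → F)) : (J → F) →ₗ[F] (J → F))) = κ • LinearMap.proj i := by
    refine LinearMap.ext fun x => ?_
    simp only [LinearMap.comp_apply, LinearEquiv.coe_coe, LinearMap.smul_apply, LinearMap.proj_apply, smul_eq_mul]
    rw [act_d1_inv]
    simp [ee, Pi.single_apply, hik]
  rw [e1] at h1
  have h2 := TvIn.sub_center h1 hT
  have e2 : act (d1 k b hb0) a - a = ((b - 1) * a k) • ee F k := by
    rw [act_d1]
    abel
  rw [e2] at h2
  have h3 := Cfsg.Agent.Lib.Geo.TvIn.smul_form h2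
  rw [smul_smul] at h3
  exact ⟨k, i, _, hik.symm, mul_ne_zero (mul_ne_zero (sub_ne_zero.2 hb1) hak) hκ, h3⟩

/-- the first pattern -/
theorem elem_P1 {α : Dual F (J → F)} {a : J → F} (hH : Hm P α a) {i : J} (hai : a i ≠ 0)
    (hαi : α (ee F i) = 0) {b : F} (hb0 : b ≠ 0) (hb1 : b ≠ 1) : Elem P := by
  have hfrm : frm α (d1 i b hb0)⁻¹ = α := by
    refine LinearMap.ext fun x => ?_
    rw [frm_apply, act_d1_inv, map_add, map_smul, hαi]
    simp
  have H' := hH.conj (d1_mem hD i b hb0)
  rw [hfrm] at H'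
  have ea : act (d1 i b hb0) a = a + ((b - 1) * a i) • ee F i := act_d1 i b hb0 a
  obtain ⟨z', hz'P, hz'⟩ := H'.2 b hb0
  obtain ⟨z₁, hz₁P, hz₁⟩ := hH.2 b⁻¹ (inv_ne_zero hb0)
  set κ : F := (b - 1) * b⁻¹ * ((b - 1) * a i) with hκ
  have hκ0 : κ ≠ 0 := by
    have : b - 1 ≠ 0 := sub_ne_zero.2 hb1
    exact mul_ne_zero (mul_ne_zero this (inv_ne_zero hb0)) (mul_ne_zero this hai)
  have h0 : (κ • α) (ee F i) = 0 := by simp [hαi]
  have hw : tv h0 = z' * z₁ := by
    apply act.injective
    ext1 x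
    rw [map_mul, LinearEquiv.mul_apply, act_tv_apply, hz', hz₁, ea]
    simp only [map_add, map_smul, hH.1, smul_eq_mul, mul_one, LinearMap.smul_apply]
    have e3 : (b - 1) * (α x + (b⁻¹ - 1) * α x) = (b - 1) * b⁻¹ * α x := by ring
    rw [e3]
    have e4 : (b⁻¹ - 1) * α x = - ((b - 1) * b⁻¹ * α x) := by
      field_simp
      ring
    rw [e4, smul_add, neg_smul, smul_smul]
    have e5 : (b - 1) * b⁻¹ * α x * ((b - 1) * a i) = κ * α x := by
      rw [hκ]
      ring
    rw [e5]
    abel
  have hT : TvIn P (κ • α) (ee F i) := ⟨h0, by rw [hw]; exact P.mul_mem hz'P hz₁P⟩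
  -- a coordinate of `α` away from `i`
  obtain ⟨k, hk⟩ : ∃ k, α (ee F k) ≠ 0 := by
    by_contra hcon
    push Not at hcon
    have := hH.1
    rw [form_sum] at this
    simp [hcon] at this
  have hik : i ≠ k := by
    rintro rfl
    exact hk hαi
  exact elem_of_center hD hT hik (by simpa using ⟨hκ0, hk⟩) hb0 hb1

/-- the second pattern -/
theorem elem_P2 {α : Dual F (J → F)} {a : J → F} (hH : Hm P α a) {i : J} (hai : a i = 0)
    (hαi : α (ee F i) ≠ 0) {b : F} (hb0 : b ≠ 0) (hb1 : b ≠ 1) : Elem P := by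
  have H' := hH.conj (d1_mem hD i b hb0)
  have ea : act (d1 i b hb0) a = a := by
    rw [act_d1, hai]
    simp
  rw [ea] at H'
  have hfrm : ∀ x, frm α (d1 i b hb0)⁻¹ x = α x + (b⁻¹ - 1) * x i * α (ee F i) := by
    intro x
    rw [frm_apply, act_d1_inv, map_add, map_smul, smul_eq_mul]
  obtain ⟨z', hz'P, hz'⟩ := H'.2 b hb0
  obtain ⟨z₁, hz₁P, hz₁⟩ := hH.2 b⁻¹ (inv_ne_zero hb0)
  set κ : F := (b - 1) * ((b⁻¹ - 1) * α (ee F i)) with hκ
  have hb2 : b⁻¹ - 1 ≠ 0 := by
    rw [sub_ne_zero]
    intro h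
    apply hb1
    rw [← inv_inv b, h, inv_one]
  have hκ0 : κ ≠ 0 := mul_ne_zero (sub_ne_zero.2 hb1) (mul_ne_zero hb2 hαi)
  have h0 : (κ • (LinearMap.proj i : Dual F (J → F))) a = 0 := by simp [hai]
  have hw : tv h0 = z' * z₁ := by
    apply act.injective
    ext1 x
    rw [map_mul, LinearEquiv.mul_apply, act_tv_apply, hz', hz₁]
    simp only [map_add, map_smul, smul_eq_mul, LinearMap.smul_apply, LinearMap.proj_apply]
    have h1 : frm α (d1 i b hb0)⁻¹ a = 1 := H'.1
    rw [h1, mul_one, hfrm]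
    rw [add_assoc, ← add_smul]
    congr 2
    rw [hκ]
    field_simp
    ring
  have hT : TvIn P (κ • (LinearMap.proj i : Dual F (J → F))) a := ⟨h0, by rw [hw]; exact P.mul_mem hz'P hz₁P⟩
  obtain ⟨k, hk⟩ : ∃ k, a k ≠ 0 := by
    by_contra hcon
    push Not at hcon
    have h1 : a = 0 := funext hcon
    have := hH.1
    rw [h1, map_zero] at this
    exact zero_ne_one this
  have hik : i ≠ k := by
    rintro rfl
    exact hk hai
  exact elem_of_form hD hT hik hκ0 hk hb0 hb1

/-- the third pattern -/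
theorem elem_P3 {α : Dual F (J → F)} {a : J → F} (hH : Hm P α a) {i : J} (hai : a i ≠ 0)
    (hαi : α (ee F i) ≠ 0) (h1 : a i * α (ee F i) ≠ 1) (h2 : 2 * (a i * α (ee F i)) ≠ 1)
    {b : F} (hb0 : b ≠ 0) (hb1 : b ≠ 1) : Elem P := by
  set u : F := a i * α (ee F i) with hu
  have hu0 : u ≠ 0 := mul_ne_zero hai hαi
  set s : F := 1 - u⁻¹ with hs
  have hs0 : s ≠ 0 := by
    rw [hs, sub_ne_zero]
    intro h
    apply h1
    rw [← inv_inv u, ← h, inv_one]
  obtain ⟨z, hzP, hz⟩ := hH.2 s hs0
  have H' := Hm.of_conj hD (P.inv_mem hzP) i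
  rw [inv_inv] at H'
  have e1 : cf z i (ee F i) = 0 := by
    rw [cf_apply, hz]
    simp only [Pi.add_apply, Pi.smul_apply, smul_eq_mul, ee, Pi.single_eq_same]
    have : (s - 1) = -u⁻¹ := by
      rw [hs]
      ring
    rw [this]
    have e : 1 + -u⁻¹ * α (Pi.single i 1) * a i = 1 + -u⁻¹ * u := by
      rw [hu]
      ring
    rw [e]
    field_simp
    ring
  have e2 : act z⁻¹ (ee F i) i ≠ 0 := by
    rw [hm_act_inv hH.1 hs0 hz]
    simp only [Pi.add_apply, Pi.smul_apply, smul_eq_mul, ee, Pi.single_eq_same]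
    intro h
    apply h2
    have e : s * (1 + (s⁻¹ - 1) * α (Pi.single i 1) * a i) = s + (1 - s) * u := by
      rw [hu]
      field_simp
    rw [h, mul_zero] at e
    have e3 : (1 - s) * u = 1 := by
      rw [hs]
      field_simp
      ring
    rw [e3, hs] at e
    field_simp at e
    linear_combination (-1 : F) * e
  exact elem_P1 hD H' e2 e1 hb0 hb1

omit hD in
theorem exists_s [Fintype F] (hq : 7 ≤ Fintype.card F) {e : F} (he : e ≠ 0) :
    ∃ s : F, s ≠ 0 ∧ s ≠ 1 ∧ (s - 1) * (s⁻¹ - 1) * e ≠ 1 ∧ 2 * ((s - 1) * (s⁻¹ - 1) * e) ≠ 1 := by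
  classical
  let f : Polynomial F := (Polynomial.C e * (Polynomial.X - 1) ^ 2 + Polynomial.X) *
    (Polynomial.C (2 * e) * (Polynomial.X - 1) ^ 2 + Polynomial.X) * Polynomial.X * (Polynomial.X - 1)
  have hne : ∀ c : F, Polynomial.C c * (Polynomial.X - 1) ^ 2 + Polynomial.X ≠ (0 : Polynomial F) := by
    intro c h
    have := congrArg (Polynomial.eval (1 : F)) h
    simp at this
  have hf : f ≠ 0 := by
    refine mul_ne_zero (mul_ne_zero (mul_ne_zero (hne _) (hne _)) Polynomial.X_ne_zero) ?_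
    intro h
    have := congrArg (Polynomial.eval (0 : F)) h
    simp at this
  have hdeg : f.natDegree ≤ 6 := by
    simp only [f]
    compute_degree
  obtain ⟨s, hs⟩ := Polynomial.exists_eval_ne_zero_of_natDegree_lt_card f hf (by
    refine lt_of_le_of_lt (Nat.cast_le.2 hdeg) ?_
    rw [Cardinal.mk_fintype]
    exact_mod_cast hq)
  simp only [f, Polynomial.eval_mul, Polynomial.eval_add, Polynomial.eval_C, Polynomial.eval_pow,
    Polynomial.eval_sub, Polynomial.eval_X, Polynomial.eval_one] at hs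
  have hs0 : s ≠ 0 := fun h => hs (by simp [h])
  have hs1 : s ≠ 1 := fun h => hs (by simp [h])
  refine ⟨s, hs0, hs1, fun h => hs ?_, fun h => hs ?_⟩
  · have : e * (s - 1) ^ 2 + s = 0 := by
      field_simp at h
      linear_combination (-1 : F) * h
    rw [this]
    simp
  · have : 2 * e * (s - 1) ^ 2 + s = 0 := by
      field_simp at h
      linear_combination (-1 : F) * h
    rw [this]
    simp

omit hD in
/-- the coordinates of the new homology -/
theorem uk_formula {α : Dual F (J → F)} {a : J → F} (hH : Hm P α a) {i k : J} (hik : i ≠ k) {s : F} (hs : s ≠ 0)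
    {z : GL J F} (hz : ∀ x, act z x = x + ((s - 1) * α x) • a) :
    act z (ee F i) k = (s - 1) * α (ee F i) * a k ∧
      cf z⁻¹ i (ee F k) = (s⁻¹ - 1) * α (ee F k) * a i := by
  constructor
  · rw [hz]
    simp [ee, Pi.single_apply, hik.symm]
  · rw [cf_apply, hm_act_inv hH.1 hs hz]
    simp [ee, Pi.single_apply, hik]

/-- Main result: a non-monomial element gives an elementary transvection. -/
theorem gl_elem [Fintype F] (hq : 5 ≤ Fintype.card F) (hJ : 3 ≤ Fintype.card J)
    (hperm : ∀ π : Equiv.Perm J, pm π ∈ P) {y : GL J F} (hy : y ∈ P) {j i k : J} (hik : i ≠ k)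
    (hi : act y (ee F j) i ≠ 0) (hk : act y (ee F j) k ≠ 0) : Elem P := by
  classical
  obtain ⟨b, hb0, hb1⟩ := exists_b (F := F) (by omega : 3 ≤ Fintype.card F)
  by_contra hE
  have S1 : ∀ {α : Dual F (J → F)} {a : J → F}, Hm P α a → ∀ i, a i ≠ 0 → α (ee F i) ≠ 0 :=
    fun hH i h1 h2 => hE (elem_P1 hD hH h1 h2 hb0 hb1)
  have S1' : ∀ {α : Dual F (J → F)} {a : J → F}, Hm P α a → ∀ i, α (ee F i) ≠ 0 → a i ≠ 0 :=
    fun hH i h1 h2 => hE (elem_P2 hD hH h2 h1 hb0 hb1)
  have S2 : ∀ {α : Dual F (J → F)} {a : J → F}, Hm P α a → ∀ i, a i ≠ 0 →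
      a i * α (ee F i) = 1 ∨ 2 * (a i * α (ee F i)) = 1 := by
    intro α a hH i h1
    by_contra hcon
    push Not at hcon
    exact hE (elem_P3 hD hH h1 (S1 hH i h1) hcon.1 hcon.2 hb0 hb1)
  have S3 : ∀ {α : Dual F (J → F)} {a : J → F}, Hm P α a → ∀ i k, i ≠ k → a i ≠ 0 → a k ≠ 0 →
      ∀ s : F, s ≠ 0 → s ≠ 1 → ∃ z : GL J F, Hm P (cf z⁻¹ i) (act z (ee F i)) ∧
        act z (ee F i) k ≠ 0 ∧
        act z (ee F i) k * cf z⁻¹ i (ee F k) = (s - 1) * (s⁻¹ - 1) * ((a i * α (ee F i)) * (a k * α (ee F k))) := by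
    intro α a hH i k hik hi hk s hs0 hs1
    obtain ⟨z, hzP, hz⟩ := hH.2 s hs0
    refine ⟨z, Hm.of_conj hD hzP i, ?_, ?_⟩
    · rw [(uk_formula hH hik hs0 hz).1]
      exact mul_ne_zero (mul_ne_zero (sub_ne_zero.2 hs1) (S1 hH i hi)) hk
    · rw [(uk_formula hH hik hs0 hz).1, (uk_formula hH hik hs0 hz).2]
      ring
  have S4 : ∀ {α : Dual F (J → F)} {a : J → F}, Hm P α a → ∀ i k, i ≠ k → a i ≠ 0 → a k ≠ 0 →
      ∀ s : F, s ≠ 0 → s ≠ 1 → (s - 1) * (s⁻¹ - 1) * ((a i * α (ee F i)) * (a k * α (ee F k))) = 1 ∨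
        2 * ((s - 1) * (s⁻¹ - 1) * ((a i * α (ee F i)) * (a k * α (ee F k)))) = 1 := by
    intro α a hH i k hik hi hk s hs0 hs1
    obtain ⟨z, h1, h2, h3⟩ := S3 hH i k hik hi hk s hs0 hs1
    rw [← h3]
    exact S2 h1 k h2
  have H0 := Hm.of_conj hD hy j
  set α₀ := cf y⁻¹ j
  set a₀ := act y (ee F j)
  by_cases h5 : Fintype.card F = 5
  · -- the exceptional field
    have h50 : (5 : F) = 0 := by
      have := Nat.cast_card_eq_zero F
      rw [h5] at this
      exact_mod_cast this
    have h10 : (1 : F) ≠ 0 := one_ne_zero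
    have h20 : (2 : F) ≠ 0 := fun h => h10 (by linear_combination (1 : F) * h50 - 2 * h)
    have h30 : (3 : F) ≠ 0 := fun h => h10 (by linear_combination (2 : F) * h - h50)
    have h40 : (4 : F) ≠ 0 := fun h => h10 (by linear_combination (1 : F) * h50 - h)
    have h21 : (2 : F) ≠ 1 := fun h => h10 (by linear_combination h)
    have hn1 : (-1 : F) ≠ 1 := fun h => h20 (by linear_combination -h)
    have hinv2 : (2 : F)⁻¹ = 3 := by
      field_simp
      linear_combination (-1 : F) * h50
    -- both coordinates have value one half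
    have S5 : ∀ {α : Dual F (J → F)} {a : J → F}, Hm P α a → ∀ i k, i ≠ k → a i ≠ 0 → a k ≠ 0 →
        a i * α (ee F i) = 3 ∧ a k * α (ee F k) = 3 := by
      intro α a hH i k hik hi hk
      have c1 := S4 hH i k hik hi hk 2 h20 h21
      have c2 := S4 hH i k hik hi hk (-1) (by simpa using h10) hn1
      rw [hinv2] at c1
      rw [inv_neg_one] at c2
      have hu : ∀ m, a m ≠ 0 → a m * α (ee F m) = 1 ∨ a m * α (ee F m) = 3 := by
        intro m hm
        rcases S2 hH m hm with h | h
        · exact Or.inl h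
        · exact Or.inr (by linear_combination (3 : F) * h - (a m * α (ee F m)) * h50)
      rcases hu i hi with h1 | h1 <;> rcases hu k hk with h2 | h2 <;> rw [h1, h2] at c1 c2
      · exfalso
        rcases c1 with c1 | c1
        · exact h10 (by linear_combination c1)
        · exact h10 (by linear_combination (2 : F) * c1 - h50)
      · exfalso
        rcases c2 with c2 | c2
        · exact h10 (by linear_combination c2 - (2 : F) * h50)
        · exact h10 (by linear_combination (2 : F) * c2 - (9 : F) * h50)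
      · exfalso
        rcases c2 with c2 | c2
        · exact h10 (by linear_combination c2 - (2 : F) * h50)
        · exact h10 (by linear_combination (2 : F) * c2 - (9 : F) * h50)
      · exact ⟨h1, h2⟩
    obtain ⟨h1, h2⟩ := S5 H0 i k hik hi hk
    -- a third coordinate
    obtain ⟨l, hli, hlk⟩ : ∃ l, l ≠ i ∧ l ≠ k := by
      by_contra hcon
      push Not at hcon
      have : (Finset.univ : Finset J) ⊆ {i, k} := by
        intro x _
        by_cases hx : x = i
        · simp [hx]
        · simp [hcon x hx]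
      have h3 := Finset.card_le_card this
      rw [Finset.card_univ] at h3
      have h4 : ({i, k} : Finset J).card ≤ 2 := Finset.card_le_two
      omega
    by_cases hal : a₀ l ≠ 0
    · -- three coordinates in the support
      have hs0 : (-1 : F) ≠ 0 := by simpa using h10
      obtain ⟨z, hzP, hz⟩ := H0.2 (-1) hs0
      have H1 := Hm.of_conj hD hzP i
      obtain ⟨e1, e2⟩ := uk_formula H0 hik hs0 hz
      obtain ⟨e3, e4⟩ := uk_formula H0 hli.symm hs0 hz
      have hm2 : (-1 - 1 : F) ≠ 0 := fun h => h20 (by linear_combination (-1 : F) * h)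
      have hk' : act z (ee F i) k ≠ 0 := by
        rw [e1]
        exact mul_ne_zero (mul_ne_zero hm2 (S1 H0 i hi)) hk
      have hl' : act z (ee F i) l ≠ 0 := by
        rw [e3]
        exact mul_ne_zero (mul_ne_zero hm2 (S1 H0 i hi)) hal
      have h3 := (S5 H1 k l hlk.symm hk' hl').1
      rw [e1, e2, inv_neg_one] at h3
      have h36 : (36 : F) = 3 := by
        rw [← h3]
        linear_combination (-4 : F) * (α₀ (ee F k) * a₀ k) * h1 - (12 : F) * h2
      exact h20 (by linear_combination (7 : F) * h50 - h36)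
    · push Not at hal
      have hαl : α₀ (ee F l) = 0 := by
        by_contra hcon
        exact S1' H0 l hcon hal
      have hsw : ∀ m, m ≠ i → m ≠ l → Equiv.swap i l m = m := fun m h3 h4 => Equiv.swap_apply_of_ne_of_ne h3 h4
      have hp := hperm (Equiv.swap i l)
      have H2 := H0.conj hp
      have hinvee : ∀ m, act (pm (Equiv.swap i l))⁻¹ (ee F m) = ee F (Equiv.swap i l m) := by
        intro m
        have h3 := act_pm_ee (F := F) (Equiv.swap i l) (Equiv.swap i l m)
        rw [Equiv.swap_apply_self] at h3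
        rw [← h3, ai]
      have ha2 : ∀ m, act (pm (Equiv.swap i l)) a₀ m = a₀ (Equiv.swap i l m) := fun m => act_pm _ _ _
      have hα2 : ∀ m, frm α₀ (pm (Equiv.swap i l))⁻¹ (ee F m) = α₀ (ee F (Equiv.swap i l m)) := by
        intro m
        rw [frm_apply, hinvee]
      obtain ⟨z, hzP, hz⟩ := H2.2 2 h20
      have H3 := H0.conj hzP
      have hsum := form_sum α₀ a₀
      rw [H0.1] at hsum
      have hp1 : frm α₀ (pm (Equiv.swap i l))⁻¹ a₀ = -2 := by
        rw [form_sum]
        simp only [hα2]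
        have h3 : ∑ j, (a₀ j * α₀ (ee F (Equiv.swap i l j)) - a₀ j * α₀ (ee F j)) = -3 := by
          rw [Finset.sum_eq_add i l hli.symm (fun m _ hm => ?_) (by simp) (by simp)]
          · rw [Equiv.swap_apply_left, Equiv.swap_apply_right, hαl, hal, h1]
            ring
          · rw [hsw m hm.1 hm.2]
            ring
        rw [Finset.sum_sub_distrib, ← hsum] at h3
        linear_combination h3
      have hp2 : α₀ (act (pm (Equiv.swap i l)) a₀) = -2 := by
        rw [form_sum]
        simp only [ha2]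
        have h3 : ∑ j, (a₀ (Equiv.swap i l j) * α₀ (ee F j) - a₀ j * α₀ (ee F j)) = -3 := by
          rw [Finset.sum_eq_add i l hli.symm (fun m _ hm => ?_) (by simp) (by simp)]
          · rw [Equiv.swap_apply_left, Equiv.swap_apply_right, hαl, hal, h1]
            ring
          · rw [hsw m hm.1 hm.2]
            ring
        rw [Finset.sum_sub_distrib, ← hsum] at h3
        linear_combination h3
      have hzk : act z a₀ k = - a₀ k := by
        rw [hz, hp1]
        simp only [Pi.add_apply, Pi.smul_apply, smul_eq_mul]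
        rw [ha2, hsw k hik.symm hlk.symm]
        ring
      have hαk : frm α₀ z⁻¹ (ee F k) = - (3 * α₀ (ee F k)) := by
        rw [frm_apply, hm_act_inv H2.1 h20 hz, map_add, map_smul, hp2, hα2, hsw k hik.symm hlk.symm, hinv2]
        simp only [smul_eq_mul]
        ring
      have hk3 : act z a₀ k ≠ 0 := by
        rw [hzk]
        exact neg_ne_zero.2 hk
      rcases S2 H3 k hk3 with h3 | h3
      · rw [hzk, hαk] at h3
        have h9 : (9 : F) = 1 := by
          rw [← h3]
          linear_combination (-3 : F) * h2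
        exact h30 (by linear_combination h9 - h50)
      · rw [hzk, hαk] at h3
        have h18 : (18 : F) = 1 := by
          rw [← h3]
          linear_combination (-6 : F) * h2
        exact h20 (by linear_combination h18 - (3 : F) * h50)
  · -- the generic case
    have hq7 : 7 ≤ Fintype.card F := by
      by_contra hcon
      have h6 : Fintype.card F = 6 := by omega
      have := FiniteField.isPrimePow_card F
      rw [h6] at this
      revert this
      decide
    have he : (a₀ i * α₀ (ee F i)) * (a₀ k * α₀ (ee F k)) ≠ 0 :=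
      mul_ne_zero (mul_ne_zero hi (S1 H0 i hi)) (mul_ne_zero hk (S1 H0 k hk))
    obtain ⟨s, hs0, hs1, h1, h2⟩ := exists_s hq7 he
    rcases S4 H0 i k hik hi hk s hs0 hs1 with h | h
    · exact h1 h
    · exact h2 h

end Cfsg.Agent.Lib.Geo.MN
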