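import Mathlib
import Cfsg.Agent.Lib.Geo.MonoGL

set_option autoImplicit false

/-! Overgroups of the monomial subgroup of `SL_n`: basic facts about monomial matrices, and the
construction of non-monomial elements with many zeros in a column. -/

namespace Cfsg.Agent.Lib.Geo.MN

open scoped MatrixGroups Matrix
open Module
open Cfsg.Agent.Lib.Geo

variable {J : Type} [Fintype J] [DecidableEq J] {F : Type*} [Field F]

theorem entry (g : GL J F) (r k : J) : (g : Matrix J J F) r k = act g (ee F k) r := by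
  rw [act_apply]
  simp [Matrix.mulVec_single_one]

theorem ext_ee {g g' : GL J F} (h : ∀ j, act g (ee F j) = act g' (ee F j)) : g = g' := by
  apply Matrix.GeneralLinearGroup.ext
  intro r k
  rw [entry, entry, h]

theorem ee_coord (j r : J) : ee F j r = if r = j then 1 else 0 := by
  simp [ee, Pi.single_apply]

theorem ee_self (j : J) : ee F j j = 1 := by simp [ee]

theorem ee_ne {j r : J} (h : r ≠ j) : ee F j r = 0 := by simp [ee, h]

theorem ee_ne_zero (j : J) : ee F j ≠ 0 := by
  intro h
  have := congrFun h j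
  simp [ee] at this

/-- every vector is a combination of coordinate vectors -/
theorem vec_sum (x : J → F) : x = ∑ j, x j • ee F j := by
  funext r
  simp [Finset.sum_apply, ee, Pi.single_apply]

/-- the action in terms of columns -/
theorem act_sum (g : GL J F) (x : J → F) : act g x = ∑ j, x j • act g (ee F j) := by
  conv_lhs => rw [vec_sum x]
  rw [map_sum]
  simp only [map_smul]

/-- Monomial elements: every coordinate line goes to a coordinate line. -/
def MonoQ (g : GL J F) : Prop := ∀ j, ∃ (l : J) (c : F), act g (ee F j) = c • ee F l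

theorem MonoQ.mul {g h : GL J F} (hg : MonoQ g) (hh : MonoQ h) : MonoQ (g * h) := by
  intro j
  obtain ⟨l, c, h1⟩ := hh j
  obtain ⟨l', c', h2⟩ := hg l
  refine ⟨l', c * c', ?_⟩
  rw [map_mul, LinearEquiv.mul_apply, h1, map_smul, h2, smul_smul]

theorem act_ne_zero (g : GL J F) {x : J → F} (hx : x ≠ 0) : act g x ≠ 0 :=
  fun h => hx ((act g).map_eq_zero_iff.1 h)

/-- a monomial element in normal form -/
theorem MonoQ.decomp {g : GL J F} (hg : MonoQ g) :
    ∃ (π : Equiv.Perm J) (c : J → F), (∀ j, c j ≠ 0) ∧ ∀ j, act g (ee F j) = c j • ee F (π j) := by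
  classical
  choose σ c hσ using hg
  have hc : ∀ j, c j ≠ 0 := by
    intro j h
    apply act_ne_zero g (ee_ne_zero (F := F) j)
    rw [hσ, h, zero_smul]
  have hinj : Function.Injective σ := by
    intro j j' hjj
    by_contra hne
    have h1 : act g (c j' • ee F j - c j • ee F j') = 0 := by
      rw [map_sub, map_smul, map_smul, hσ, hσ, hjj, smul_smul, smul_smul, mul_comm, sub_self]
    have h2 : c j' • ee F j - c j • ee F j' = 0 := (act g).map_eq_zero_iff.1 h1
    have h3 := congrFun h2 j
    simp [ee_self, ee_ne hne, hc j'] at h3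
  exact ⟨Equiv.ofBijective σ (Finite.injective_iff_bijective.1 hinj), c, hc, hσ⟩

theorem MonoQ.inv {g : GL J F} (hg : MonoQ g) : MonoQ g⁻¹ := by
  obtain ⟨π, c, hc, h⟩ := hg.decomp
  intro l
  refine ⟨π.symm l, (c (π.symm l))⁻¹, ?_⟩
  have h1 := h (π.symm l)
  rw [Equiv.apply_symm_apply] at h1
  apply (act g).injective
  rw [aj, map_smul, h1, smul_smul, inv_mul_cancel₀ (hc _), one_smul]

/-- the diagonal element as a matrix -/
theorem dg_val (s : J → F) (hs : ∀ j, s j ≠ 0) : (dg s hs : Matrix J J F) = Matrix.diagonal s := by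
  ext r k
  rw [entry, act_dg, ee_coord, Matrix.diagonal_apply]
  split_ifs <;> simp

theorem dg_det (s : J → F) (hs : ∀ j, s j ≠ 0) : Matrix.GeneralLinearGroup.det (dg s hs) = ∏ j, s j := by
  have : ((Matrix.GeneralLinearGroup.det (dg s hs) : Fˣ) : F) = ((dg s hs : GL J F) : Matrix J J F).det := rfl
  rw [dg_val, Matrix.det_diagonal] at this
  exact this

theorem dg_mem_SL (s : J → F) (hs : ∀ j, s j ≠ 0) (h : ∏ j, s j = 1) :
    dg s hs ∈ Cfsg.Geo.specialLinear J F := by
  show Matrix.GeneralLinearGroup.det (dg s hs) = 1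
  apply Units.ext
  rw [dg_det, h]
  rfl

theorem d1_det (i : J) (b : F) (hb : b ≠ 0) : ((Matrix.GeneralLinearGroup.det (d1 i b hb) : Fˣ) : F) = b := by
  rw [d1, dg_det, Finset.prod_update_of_mem (Finset.mem_univ i)]
  simp

theorem dg_mono (s : J → F) (hs : ∀ j, s j ≠ 0) : MonoQ (dg s hs) := by
  intro j
  refine ⟨j, s j, ?_⟩
  funext r
  rw [act_dg]
  by_cases h : r = j
  · subst h
    simp [ee_self]
  · simp [ee_ne h]

theorem pm_mono (π : Equiv.Perm J) : MonoQ (pm π : GL J F) := by
  intro j
  exact ⟨π j, 1, by rw [act_pm_ee, one_smul]⟩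

theorem d1_mono (i : J) (b : F) (hb : b ≠ 0) : MonoQ (d1 i b hb) := dg_mono _ _

/-- making the determinant one -/
noncomputable def fix1 (g : GL J F) (i : J) : GL J F :=
  g * d1 i ((Matrix.GeneralLinearGroup.det g : Fˣ) : F)⁻¹ (inv_ne_zero (Units.ne_zero _))

theorem fix1_mem (g : GL J F) (i : J) : fix1 g i ∈ Cfsg.Geo.specialLinear J F := by
  show Matrix.GeneralLinearGroup.det (fix1 g i) = 1
  apply Units.ext
  rw [fix1, map_mul, Units.val_mul, d1_det, mul_inv_cancel₀ (Units.ne_zero _)]
  rfl

theorem act_fix1_ee {g : GL J F} {i j : J} (h : j ≠ i) : act (fix1 g i) (ee F j) = act g (ee F j) := by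
  rw [fix1, map_mul, LinearEquiv.mul_apply, act_d1, ee_ne h.symm]
  simp

theorem act_fix1 {g : GL J F} {i j : J} {x : J → F} (h : x i = 0) : act (fix1 g i) x = act g x := by
  rw [fix1, map_mul, LinearEquiv.mul_apply, act_d1, h]
  simp

theorem fix1_mono {g : GL J F} (hg : MonoQ g) (i : J) : MonoQ (fix1 g i) := hg.mul (d1_mono _ _ _)

/-- the two-coordinate diagonal element -/
noncomputable def d2 (i x : J) (b : F) (hb : b ≠ 0) : GL J F := d1 i b hb * d1 x b⁻¹ (inv_ne_zero hb)

theorem d2_mem (i x : J) (b : F) (hb : b ≠ 0) : d2 i x b hb ∈ Cfsg.Geo.specialLinear J F := by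
  show Matrix.GeneralLinearGroup.det (d2 i x b hb) = 1
  apply Units.ext
  rw [d2, map_mul, Units.val_mul, d1_det, d1_det]
  simp [hb]

theorem d2_mono (i x : J) (b : F) (hb : b ≠ 0) : MonoQ (d2 i x b hb) := (d1_mono _ _ _).mul (d1_mono _ _ _)

theorem act_d2 {i x : J} (hix : i ≠ x) (b : F) (hb : b ≠ 0) (v : J → F) :
    act (d2 i x b hb) v = v + ((b - 1) * v i) • ee F i + ((b⁻¹ - 1) * v x) • ee F x := by
  rw [d2, map_mul, LinearEquiv.mul_apply, act_d1, act_d1]
  simp only [Pi.add_apply, Pi.smul_apply, smul_eq_mul, ee_ne hix, ee_self, mul_zero, add_zero, mul_one]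
  abel

theorem act_d2_self {i x : J} (hix : i ≠ x) (b : F) (hb : b ≠ 0) : act (d2 i x b hb) (ee F i) = b • ee F i := by
  rw [act_d2 hix, ee_self, ee_ne hix.symm]
  simp only [mul_one, mul_zero, zero_smul, add_zero]
  funext r
  simp only [Pi.add_apply, Pi.smul_apply, smul_eq_mul]
  ring

theorem act_d2_fix {i x : J} (hix : i ≠ x) (b : F) (hb : b ≠ 0) {v : J → F} (h1 : v i = 0) (h2 : v x = 0) :
    act (d2 i x b hb) v = v := by
  rw [act_d2 hix, h1, h2]
  simp

theorem act_d2_other {i x m : J} (hix : i ≠ x) (b : F) (hb : b ≠ 0) (h1 : m ≠ i) (h2 : m ≠ x) :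
    act (d2 i x b hb) (ee F m) = ee F m :=
  act_d2_fix hix b hb (ee_ne h1.symm) (ee_ne h2.symm)

theorem d2_inv {i x : J} (hix : i ≠ x) (b : F) (hb : b ≠ 0) :
    (d2 i x b hb)⁻¹ = d2 i x b⁻¹ (inv_ne_zero hb) := by
  symm
  apply eq_inv_of_act
  intro v
  rw [act_d2 hix, act_d2 hix]
  funext r
  simp only [Pi.add_apply, Pi.smul_apply, smul_eq_mul, ee_ne hix, ee_ne hix.symm, ee_self, mul_zero, add_zero,
    mul_one, inv_inv]
  by_cases h1 : r = i
  · subst h1
    simp only [ee_self, ee_ne hix, mul_zero, add_zero, mul_one]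
    field_simp
    ring
  · by_cases h2 : r = x
    · subst h2
      simp only [ee_self, ee_ne h1, mul_zero, add_zero, mul_one]
      field_simp
      ring
    · simp [ee_ne h1, ee_ne h2]

theorem act_d2_inv {i x : J} (hix : i ≠ x) (b : F) (hb : b ≠ 0) (v : J → F) :
    act (d2 i x b hb)⁻¹ v = v + ((b⁻¹ - 1) * v i) • ee F i + ((b - 1) * v x) • ee F x := by
  rw [d2_inv hix, act_d2 hix, inv_inv]

theorem exists_avoid (S : Finset J) (h : S.card < Fintype.card J) : ∃ x, x ∉ S := by
  by_contra hcon
  push Not at hcon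
  have : Fintype.card J ≤ S.card := by
    rw [← Finset.card_univ]
    exact Finset.card_le_card fun x _ => hcon x
  omega

theorem nm_two {y : GL J F} (hy : ¬ MonoQ y) :
    ∃ j i k, i ≠ k ∧ act y (ee F j) i ≠ 0 ∧ act y (ee F j) k ≠ 0 := by
  unfold MonoQ at hy
  push Not at hy
  obtain ⟨j, hj⟩ := hy
  have h0 : act y (ee F j) ≠ 0 := act_ne_zero y (ee_ne_zero j)
  obtain ⟨i, hi⟩ : ∃ i, act y (ee F j) i ≠ 0 := by
    by_contra hcon
    push Not at hcon
    exact h0 (funext hcon)
  have h1 := hj i (act y (ee F j) i)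
  obtain ⟨k, hk⟩ : ∃ k, act y (ee F j) k ≠ (act y (ee F j) i • ee F i) k := by
    by_contra hcon
    push Not at hcon
    exact h1 (funext hcon)
  have hki : k ≠ i := by
    rintro rfl
    apply hk
    simp [ee_self]
  refine ⟨j, i, k, hki.symm, hi, ?_⟩
  intro h
  apply hk
  rw [h]
  simp [ee_ne hki]

theorem greedy (π : J → J) (S : Finset J) (k : ℕ) (hS : 2 * k + 1 ≤ S.card) :
    ∃ m : Fin (k + 1) → J, (∀ a, m a ∈ S) ∧ ∀ a b, a < b → m b ≠ m a ∧ m b ≠ π (m a) := by
  classical
  induction k with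
  | zero =>
    obtain ⟨x, hx⟩ := Finset.card_pos.1 (by omega : 0 < S.card)
    exact ⟨fun _ => x, fun _ => hx, fun a b hab => by
      exfalso
      omega⟩
  | succ k ih =>
    obtain ⟨m, hm, hm'⟩ := ih (by omega)
    let B : Finset J := Finset.univ.image m ∪ Finset.univ.image (fun a => π (m a))
    have hB : B.card ≤ 2 * (k + 1) := by
      refine (Finset.card_union_le _ _).trans ?_
      have h1 : (Finset.univ.image m).card ≤ k + 1 := by
        simpa using Finset.card_image_le (s := Finset.univ) (f := m)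
      have h2 : (Finset.univ.image (fun a => π (m a))).card ≤ k + 1 := by
        simpa using Finset.card_image_le (s := Finset.univ) (f := fun a => π (m a))
      omega
    obtain ⟨e, he, heB⟩ := Finset.exists_mem_notMem_of_card_lt_card (by omega : B.card < S.card)
    refine ⟨Fin.snoc m e, ?_, ?_⟩
    · intro a
      refine Fin.lastCases ?_ (fun a => ?_) a
      · simpa using he
      · simpa using hm a
    · intro a b
      refine Fin.lastCases ?_ (fun b => ?_) b
      · refine Fin.lastCases ?_ (fun a => ?_) a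
        · intro h
          exact absurd h (lt_irrefl _)
        · intro _
          simp only [Fin.snoc_last, Fin.snoc_castSucc]
          constructor
          · rintro rfl
            exact heB (Finset.mem_union_left _ (Finset.mem_image_of_mem _ (Finset.mem_univ a)))
          · rintro rfl
            exact heB (Finset.mem_union_right _ (Finset.mem_image_of_mem _ (Finset.mem_univ a)))
      · refine Fin.lastCases ?_ (fun a => ?_) a
        · intro h
          exfalso
          exact absurd h (not_lt.2 (Fin.le_last _))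
        · intro h
          simp only [Fin.snoc_castSucc]
          exact hm' a b (by simpa using h)

/-- the support of an eigenvector with eigenvalue not one consists of moved coordinates -/
theorem supp_moved {y : GL J F} (hy : MonoQ y) {v : J → F} {μ : F} (hμ : μ ≠ 1) (hv : act y v = μ • v)
    {r : J} (hr : v r ≠ 0) : act y (ee F r) ≠ ee F r := by
  intro hfix
  obtain ⟨π, c, hc, h⟩ := hy.decomp
  have h1 := h r
  rw [hfix] at h1
  have hπ : π r = r := by
    by_contra hne
    have := congrFun h1 r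
    simp [ee_self, ee_ne (Ne.symm hne)] at this
  have h2 : (act y v) r = v r := by
    rw [act_sum, Finset.sum_apply, Finset.sum_eq_single r]
    · rw [Pi.smul_apply, hfix, ee_self]
      simp
    · intro j _ hj
      rw [Pi.smul_apply, h, Pi.smul_apply, ee_ne]
      · simp
      · exact fun h3 => hj (π.injective (by rw [hπ]; exact h3.symm))
    · simp
  rw [hv] at h2
  simp only [Pi.smul_apply, smul_eq_mul] at h2
  exact hμ (mul_right_cancel₀ hr (by rw [h2, one_mul]))

/-- few moved coordinates when the fixed space has small codimension -/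
theorem mv_small {y : GL J F} (hy : MonoQ y) (φ : Fin 4 → Dual F (J → F))
    (hφ : ∀ x, (∀ l, φ l x = 0) → act y x = x) (S : Finset J) (hS : ∀ m ∈ S, act y (ee F m) ≠ ee F m) :
    S.card ≤ 8 := by
  classical
  by_contra hcard
  obtain ⟨π, c, hc, h⟩ := hy.decomp
  obtain ⟨m, hm, hm'⟩ := greedy π S 4 (by omega)
  have hinj : Function.Injective m := by
    intro a b hab
    by_contra hne
    rcases lt_or_gt_of_ne hne with h1 | h1
    · exact (hm' a b h1).1 hab.symm
    · exact (hm' b a h1).1 hab
  let L : (Fin 5 → F) →ₗ[F] (Fin 4 → F) :=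
    LinearMap.pi fun l => (φ l) ∘ₗ (Fintype.linearCombination F (fun a => ee F (m a)))
  have hker : LinearMap.ker L ≠ ⊥ := LinearMap.ker_ne_bot_of_finrank_lt (by simp)
  obtain ⟨t, ht, ht0⟩ := Submodule.exists_mem_ne_zero_of_ne_bot hker
  set w : J → F := ∑ a, t a • ee F (m a) with hw
  have hwc : ∀ a, w (m a) = t a := by
    intro a
    rw [hw, Finset.sum_apply, Finset.sum_eq_single a]
    · simp [ee_self]
    · intro b _ hb
      rw [Pi.smul_apply, ee_ne (fun h3 => hb (hinj h3.symm))]
      simp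
    · simp
  have hfix : act y w = w := by
    apply hφ
    intro l
    have h1 := congrFun (LinearMap.mem_ker.1 ht) l
    simpa [L, Fintype.linearCombination_apply, hw] using h1
  have hyw : ∀ r, act y w r = ∑ a, t a * (c (m a) * ee F (π (m a)) r) := by
    intro r
    rw [hw, map_sum, Finset.sum_apply]
    refine Finset.sum_congr rfl fun a _ => ?_
    rw [map_smul, h]
    simp
  -- the minimal index
  obtain ⟨a₀, ha₀, hmin⟩ : ∃ a₀, t a₀ ≠ 0 ∧ ∀ a, a < a₀ → t a = 0 := by
    have hne : (Finset.univ.filter fun a => t a ≠ 0).Nonempty := by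
      by_contra hcon
      rw [Finset.not_nonempty_iff_eq_empty, Finset.filter_eq_empty_iff] at hcon
      apply ht0
      funext a
      by_contra h3
      exact hcon (Finset.mem_univ a) h3
    refine ⟨Finset.min' _ hne, (Finset.mem_filter.1 (Finset.min'_mem _ hne)).2, fun a ha => ?_⟩
    by_contra h3
    exact absurd (Finset.min'_le _ a (Finset.mem_filter.2 ⟨Finset.mem_univ a, h3⟩)) (not_le.2 ha)
  have hπm : ∀ a, a ≠ a₀ → π (m a) ≠ π (m a₀) := fun a ha h3 => ha (hinj (π.injective h3))
  have hval : w (π (m a₀)) = t a₀ * c (m a₀) := by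
    rw [← hfix, hyw, Finset.sum_eq_single a₀]
    · simp [ee_self]
    · intro a _ ha
      rw [ee_ne (hπm a ha).symm]
      simp
    · simp
  have hne0 : w (π (m a₀)) ≠ 0 := by
    rw [hval]
    exact mul_ne_zero ha₀ (hc _)
  -- the coordinate lies in the image
  obtain ⟨b, hb⟩ : ∃ b, m b = π (m a₀) := by
    by_contra hcon
    push Not at hcon
    apply hne0
    rw [hw, Finset.sum_apply]
    refine Finset.sum_eq_zero fun a _ => ?_
    rw [Pi.smul_apply, ee_ne (fun h3 => hcon a h3.symm)]
    simp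
  have htb : t b ≠ 0 := by
    rw [← hwc, hb]
    exact hne0
  have hab : a₀ ≤ b := by
    by_contra h3
    exact htb (hmin b (not_le.1 h3))
  rcases hab.lt_or_eq with h3 | h3
  · exact (hm' a₀ b h3).2 hb
  · subst h3
    have h4 := hwc a₀
    rw [hb, hval] at h4
    have h5 : c (m a₀) = 1 := mul_left_cancel₀ ha₀ (by rw [h4, mul_one])
    apply hS _ (hm a₀)
    rw [h, h5, one_smul, ← hb]

variable {M : Subgroup (GL J F)}

/-- elementary transvections generate -/
theorem sl_le_of_Elem (hM : ∀ g, g ∈ Cfsg.Geo.specialLinear J F → MonoQ g → g ∈ M) (hJ : 3 ≤ Fintype.card J)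
    (hE : Elem M) : Cfsg.Geo.specialLinear J F ≤ M := by
  classical
  obtain ⟨l, k, c, hlk, hc, hT⟩ := hE
  haveI : Nontrivial J := ⟨⟨l, k, hlk⟩⟩
  apply sl_le_of_elem
  intro i j hij a
  have hφ : ((a • LinearMap.proj j : Dual F (J → F))) (ee F i) = 0 := by
    simp [ee_ne hij.symm]
  have h1 : ((Matrix.SpecialLinearGroup.transvection hij a : Matrix.SpecialLinearGroup J F) : GL J F) = tv hφ := by
    apply act.injective
    ext1 x
    rw [act_tv_apply, act_apply]
    funext r
    simp [Matrix.SpecialLinearGroup.transvection_coe, Matrix.add_mulVec, Matrix.single_mulVec,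
      Pi.single_apply]
    by_cases hr : r = i <;> simp [hr]
  rw [h1]
  -- move `(l, k)` to `(i, j)`
  obtain ⟨π, hπ1, hπ2⟩ : ∃ π : Equiv.Perm J, π l = i ∧ π k = j := by
    have h2 : Equiv.swap l i k ≠ i := by
      intro h
      apply hlk
      apply (Equiv.swap l i).injective
      rw [h, Equiv.swap_apply_left]
    refine ⟨Equiv.swap (Equiv.swap l i k) j * Equiv.swap l i, ?_, ?_⟩
    · rw [Equiv.Perm.mul_apply, Equiv.swap_apply_left]
      exact Equiv.swap_apply_of_ne_of_ne h2.symm hij
    · rw [Equiv.Perm.mul_apply, Equiv.swap_apply_left]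
  obtain ⟨m₀, hm₀⟩ := exists_avoid {l, k} (lt_of_le_of_lt Finset.card_le_two (by omega))
  simp only [Finset.mem_insert, Finset.mem_singleton, not_or] at hm₀
  have hgM := hM _ (fix1_mem (pm π : GL J F) m₀) (fix1_mono (pm_mono π) m₀)
  have hgl : act (fix1 (pm π : GL J F) m₀) (ee F l) = ee F i := by
    rw [act_fix1_ee (Ne.symm hm₀.1), act_pm_ee, hπ1]
  have hform : ∀ x, act (fix1 (pm π : GL J F) m₀)⁻¹ x k = x j := by
    intro x
    have key : ∀ w, act (fix1 (pm π : GL J F) m₀) w j = w k := by
      intro w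
      rw [fix1, map_mul, LinearEquiv.mul_apply, act_pm, ← hπ2, Equiv.symm_apply_apply, act_d1]
      simp [ee_ne (Ne.symm hm₀.2)]
    have := key (act (fix1 (pm π : GL J F) m₀)⁻¹ x)
    rw [aj] at this
    exact this.symm
  have h2 := Cfsg.Agent.Lib.Geo.TvIn.conj hT hgM
  rw [hgl] at h2
  have e1 : (c • (LinearMap.proj k : Dual F (J → F))) ∘ₗ
      ((act (fix1 (pm π : GL J F) m₀)⁻¹ : (J → F) ≃ₗ[F] (J → F)) : (J → F) →ₗ[F] (J → F)) = c • LinearMap.proj j := by
    refine LinearMap.ext fun x => ?_
    simp only [LinearMap.comp_apply, LinearEquiv.coe_coe, LinearMap.smul_apply, LinearMap.proj_apply, smul_eq_mul,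
      hform]
  rw [e1] at h2
  by_cases ha : a = 0
  · subst ha
    have h3 : tv hφ = tv (φ := 0) (v := ee F i) (by simp) := tv_congr _ _ (by simp) rfl
    rw [h3, tv_zero_form]
    exact M.one_mem
  · have hl0 : a / c ≠ 0 := div_ne_zero ha hc
    obtain ⟨x₃, hx₃⟩ := exists_avoid {i, j} (lt_of_le_of_lt Finset.card_le_two (by omega))
    simp only [Finset.mem_insert, Finset.mem_singleton, not_or] at hx₃
    have htM := hM _ (d2_mem i x₃ (a / c) hl0) (d2_mono i x₃ (a / c) hl0)
    have h3 := Cfsg.Agent.Lib.Geo.TvIn.conj h2 htM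
    rw [act_d2_self (Ne.symm hx₃.1)] at h3
    have e2 : (c • (LinearMap.proj j : Dual F (J → F))) ∘ₗ
        ((act (d2 i x₃ (a / c) hl0)⁻¹ : (J → F) ≃ₗ[F] (J → F)) : (J → F) →ₗ[F] (J → F)) = c • LinearMap.proj j := by
      refine LinearMap.ext fun x => ?_
      simp only [LinearMap.comp_apply, LinearEquiv.coe_coe, LinearMap.smul_apply, LinearMap.proj_apply, smul_eq_mul]
      rw [act_d2_inv (Ne.symm hx₃.1)]
      simp [ee_ne hij.symm, ee_ne (Ne.symm hx₃.2)]
    rw [e2] at h3
    have h4 := Cfsg.Agent.Lib.Geo.TvIn.smul_form h3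
    rw [smul_smul, div_mul_cancel₀ a hc] at h4
    exact h4.mem hφ

end Cfsg.Agent.Lib.Geo.MN
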