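import Mathlib
import Cfsg.Agent.Lib.Geo.MonoSL

set_option autoImplicit false

/-! Overgroups of the monomial subgroup of `SL_n`: from a non-monomial element to a non-monomial
element stabilizing a coordinate line or plane. -/

namespace Cfsg.Agent.Lib.Geo.MN

open scoped MatrixGroups Matrix
open Module
open Cfsg.Agent.Lib.Geo

variable {J : Type} [Fintype J] [DecidableEq J] {F : Type*} [Field F]

variable {M : Subgroup (GL J F)}

theorem d2_memM (hM : ∀ g, g ∈ Cfsg.Geo.specialLinear J F → MonoQ g → g ∈ M) (i x : J) (b : F) (hb : b ≠ 0) :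
    d2 i x b hb ∈ M := hM _ (d2_mem i x b hb) (d2_mono i x b hb)

/-- a zero entry -/
theorem Z1 (hJ : 13 ≤ Fintype.card J) (hM : ∀ g, g ∈ Cfsg.Geo.specialLinear J F → MonoQ g → g ∈ M)
    {g : GL J F} (hg : g ∈ M) (hnm : ¬ MonoQ g) :
    ∃ G ∈ M, ¬ MonoQ G ∧ ∃ i z, act G⁻¹ (ee F i) z = 0 := by
  classical
  by_cases h1 : ∃ i z, act g (ee F i) z = 0
  · obtain ⟨i, z, h⟩ := h1
    refine ⟨g⁻¹, M.inv_mem hg, fun h3 => hnm (by simpa using h3.inv), i, z, ?_⟩
    rwa [inv_inv]
  by_cases h2 : ∃ i z, act g⁻¹ (ee F i) z = 0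
  · exact ⟨g, hg, hnm, h2⟩
  push Not at h1 h2
  -- three distinct coordinates
  obtain ⟨k, -⟩ := exists_avoid (∅ : Finset J) (by simp; omega)
  obtain ⟨k', hk'⟩ := exists_avoid {k} (by simp; omega)
  obtain ⟨i, hi⟩ := exists_avoid {k, k'} (lt_of_le_of_lt Finset.card_le_two (by omega))
  simp only [Finset.mem_singleton] at hk'
  simp only [Finset.mem_insert, Finset.mem_singleton, not_or] at hi
  -- two rows are not proportional
  obtain ⟨j₁, j₂, hj⟩ : ∃ j₁ j₂, act g (ee F j₁) k * act g (ee F j₂) k' ≠ act g (ee F j₂) k * act g (ee F j₁) k' := by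
    by_contra hcon
    push Not at hcon
    obtain ⟨j₀⟩ : Nonempty J := ⟨k⟩
    have h3 : ∀ x, act g x k' * act g (ee F j₀) k = act g (ee F j₀) k' * act g x k := by
      intro x
      rw [act_sum, Finset.sum_apply, Finset.sum_apply, Finset.sum_mul, Finset.mul_sum]
      refine Finset.sum_congr rfl fun j _ => ?_
      simp only [Pi.smul_apply, smul_eq_mul]
      have := hcon j j₀
      linear_combination (- x j) * this
    have h4 := h3 (act g⁻¹ (ee F k'))
    rw [aj, ee_self, ee_ne (Ne.symm hk')] at h4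
    simp only [one_mul, mul_zero] at h4
    exact h1 j₀ k h4
  set v := act g⁻¹ (ee F i) with hv
  have hv0 : ∀ r, v r ≠ 0 := h2 i
  -- a row where the weights differ
  obtain ⟨r, hri, hr⟩ : ∃ r, r ≠ i ∧ act g (ee F j₁) r * v j₁ ≠ act g (ee F j₂) r * v j₂ := by
    by_contra hcon
    push Not at hcon
    have h3 := hcon k (Ne.symm hi.1)
    have h4 := hcon k' (Ne.symm hi.2)
    apply hj
    apply mul_right_cancel₀ (mul_ne_zero (hv0 j₁) (hv0 j₂))
    linear_combination (act g (ee F j₂) k' * v j₂) * h3 - (act g (ee F j₂) k * v j₂) * h4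
  have hjj : j₁ ≠ j₂ := by
    rintro rfl
    exact hr rfl
  set W₁ := act g (ee F j₁) r * v j₁ with hW₁
  set W₂ := act g (ee F j₂) r * v j₂ with hW₂
  have hW₁0 : W₁ ≠ 0 := mul_ne_zero (h1 j₁ r) (hv0 j₁)
  have hW₂0 : W₂ ≠ 0 := mul_ne_zero (h1 j₂ r) (hv0 j₂)
  set c := W₂ / W₁ with hc
  have hc0 : c ≠ 0 := div_ne_zero hW₂0 hW₁0
  have hc1 : c ≠ 1 := fun h => hr (by
    rw [hc, div_eq_one_iff_eq hW₁0] at h
    exact h.symm)
  set y := g * d2 j₁ j₂ c hc0 * g⁻¹ with hy
  have hyM : y ∈ M := M.mul_mem (M.mul_mem hg (d2_memM hM _ _ _ _)) (M.inv_mem hg)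
  have hyi : act y (ee F i) r = 0 := by
    rw [hy, map_mul, map_mul, LinearEquiv.mul_apply, LinearEquiv.mul_apply, ← hv, act_d2 hjj]
    simp only [map_add, map_smul, Pi.add_apply, Pi.smul_apply, smul_eq_mul]
    rw [hv, aj, ee_ne hri]
    rw [← hv]
    have : (c - 1) * v j₁ * act g (ee F j₁) r + (c⁻¹ - 1) * v j₂ * act g (ee F j₂) r = (c - 1) * W₁ + (c⁻¹ - 1) * W₂ := by
      rw [hW₁, hW₂]
      ring
    rw [zero_add, this, hc]
    field_simp
    ring
  by_cases hym : MonoQ y
  · exfalso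
    have hcv : act y (act g (ee F j₁)) = c • act g (ee F j₁) := by
      rw [hy, map_mul, map_mul, LinearEquiv.mul_apply, LinearEquiv.mul_apply, ai, act_d2_self hjj, map_smul]
    have hmv := mv_small hym ![cf g⁻¹ j₁, cf g⁻¹ j₂, cf g⁻¹ j₁, cf g⁻¹ j₁] (fun x hx => by
      have h3 := hx 0
      have h4 := hx 1
      simp only [Matrix.cons_val_zero, Matrix.cons_val_one, cf_apply] at h3 h4
      rw [hy, map_mul, map_mul, LinearEquiv.mul_apply, LinearEquiv.mul_apply, act_d2_fix hjj _ _ h3 h4, aj])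
      Finset.univ (fun m _ => supp_moved hym hc1 hcv (h1 j₁ m))
    rw [Finset.card_univ] at hmv
    omega
  · refine ⟨y⁻¹, M.inv_mem hyM, fun h3 => hym (by simpa using h3.inv), i, r, ?_⟩
    rwa [inv_inv]

theorem act_d2_zero {i x : J} (hix : i ≠ x) (b : F) (hb : b ≠ 0) {v : J → F} (h : v x = 0) :
    act (d2 i x b hb) v = v + ((b - 1) * v i) • ee F i := by
  rw [act_d2 hix, h]
  simp

/-- two zeros in a column -/
theorem Z2 [Fintype F] (hq : 5 ≤ Fintype.card F) (hJ : 13 ≤ Fintype.card J)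
    (hM : ∀ g, g ∈ Cfsg.Geo.specialLinear J F → MonoQ g → g ∈ M)
    {G : GL J F} (hG : G ∈ M) (hnm : ¬ MonoQ G) {i z : J} (hz : act G⁻¹ (ee F i) z = 0) :
    ∃ G' ∈ M, ¬ MonoQ G' ∧ ∃ i' z₁ z₂, z₁ ≠ z₂ ∧ act G'⁻¹ (ee F i') z₁ = 0 ∧ act G'⁻¹ (ee F i') z₂ = 0 := by
  classical
  set v := act G⁻¹ (ee F i) with hv
  by_cases h0 : ∃ z', z' ≠ z ∧ v z' = 0
  · obtain ⟨z', h1, h2⟩ := h0
    exact ⟨G, hG, hnm, i, z', z, h1, h2, hz⟩
  -- rows and columns
  obtain ⟨k, hk⟩ := exists_avoid {i} (by simp; omega)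
  obtain ⟨l, hl⟩ := exists_avoid {i, k} (lt_of_le_of_lt Finset.card_le_two (by omega))
  simp only [Finset.mem_singleton] at hk
  simp only [Finset.mem_insert, Finset.mem_singleton, not_or] at hl
  obtain ⟨j₁, hj₁⟩ := exists_avoid {z} (by simp; omega)
  obtain ⟨j₂, hj₂⟩ := exists_avoid {z, j₁} (lt_of_le_of_lt Finset.card_le_two (by omega))
  obtain ⟨j₃, hj₃⟩ := exists_avoid {z, j₁, j₂} (lt_of_le_of_lt Finset.card_le_three (by omega))
  simp only [Finset.mem_singleton] at hj₁
  simp only [Finset.mem_insert, Finset.mem_singleton, not_or] at hj₂ hj₃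
  -- a dependence
  let w : J → (Fin 2 → F) := fun j => ![act G (ee F j) k * v j, act G (ee F j) l * v j]
  let L : (Fin 3 → F) →ₗ[F] (Fin 2 → F) := Fintype.linearCombination F ![w j₁, w j₂, w j₃]
  have hker : LinearMap.ker L ≠ ⊥ := LinearMap.ker_ne_bot_of_finrank_lt (by simp)
  obtain ⟨t, ht, ht0⟩ := Submodule.exists_mem_ne_zero_of_ne_bot hker
  have hL : t 0 • w j₁ + t 1 • w j₂ + t 2 • w j₃ = 0 := by
    have h1 := LinearMap.mem_ker.1 ht
    simpa [L, Fintype.linearCombination_apply, Fin.sum_univ_three] using h1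
  have hLk : t 0 * (act G (ee F j₁) k * v j₁) + t 1 * (act G (ee F j₂) k * v j₂) +
      t 2 * (act G (ee F j₃) k * v j₃) = 0 := by
    simpa [w] using congrFun hL 0
  have hLl : t 0 * (act G (ee F j₁) l * v j₁) + t 1 * (act G (ee F j₂) l * v j₂) +
      t 2 * (act G (ee F j₃) l * v j₃) = 0 := by
    simpa [w] using congrFun hL 1
  -- the scale
  obtain ⟨lam, hlam0, hlam⟩ : ∃ lam : F, lam ≠ 0 ∧ ∀ a, 1 + lam * t a ≠ 0 := by
    let B : Finset F := insert 0 (Finset.univ.image fun a : Fin 3 => (-1) / t a)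
    have hB : B.card ≤ 4 := by
      refine (Finset.card_insert_le _ _).trans ?_
      have : (Finset.univ.image fun a : Fin 3 => (-1) / t a).card ≤ 3 := by
        simpa using Finset.card_image_le (s := Finset.univ) (f := fun a : Fin 3 => (-1) / t a)
      omega
    obtain ⟨lam, hlam⟩ : ∃ lam, lam ∉ B := by
      by_contra hcon
      push Not at hcon
      have : Fintype.card F ≤ B.card := by
        rw [← Finset.card_univ]
        exact Finset.card_le_card fun x _ => hcon x
      omega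
    refine ⟨lam, fun h => hlam (by simp [B, h]), fun a h => hlam ?_⟩
    have hta : t a ≠ 0 := by
      intro h3
      rw [h3] at h
      simp at h
    refine Finset.mem_insert_of_mem (Finset.mem_image.2 ⟨a, Finset.mem_univ a, ?_⟩)
    field_simp
    linear_combination (-1 : F) * h
  have hx : ∀ a, 1 + lam * t a ≠ 0 := hlam
  set X : GL J F := d2 j₁ z (1 + lam * t 0) (hx 0) * d2 j₂ z (1 + lam * t 1) (hx 1) * d2 j₃ z (1 + lam * t 2) (hx 2) with hX
  have hXM : X ∈ M := M.mul_mem (M.mul_mem (d2_memM hM _ _ _ _) (d2_memM hM _ _ _ _)) (d2_memM hM _ _ _ _)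
  have hjz₁ : j₁ ≠ z := hj₁
  have hjz₂ : j₂ ≠ z := hj₂.1
  have hjz₃ : j₃ ≠ z := hj₃.1
  have h12 : j₂ ≠ j₁ := hj₂.2
  have h13 : j₃ ≠ j₁ := hj₃.2.1
  have h23 : j₃ ≠ j₂ := hj₃.2.2
  have hXact : ∀ u : J → F, u z = 0 → act X u = u + (lam * t 0 * u j₁) • ee F j₁ + (lam * t 1 * u j₂) • ee F j₂ +
      (lam * t 2 * u j₃) • ee F j₃ := by
    intro u hu
    rw [hX, map_mul, map_mul, LinearEquiv.mul_apply, LinearEquiv.mul_apply, act_d2_zero hjz₃ _ _ hu]
    have e1 : (u + ((1 + lam * t 2 - 1) * u j₃) • ee F j₃) z = 0 := by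
      simp [hu, ee_ne hjz₃.symm]
    rw [act_d2_zero hjz₂ _ _ e1]
    have e2 : (u + ((1 + lam * t 2 - 1) * u j₃) • ee F j₃ + ((1 + lam * t 1 - 1) * (u + ((1 + lam * t 2 - 1) * u j₃) • ee F j₃) j₂) • ee F j₂) z = 0 := by
      simp [hu, ee_ne hjz₃.symm, ee_ne hjz₂.symm]
    rw [act_d2_zero hjz₁ _ _ e2]
    funext r
    simp only [Pi.add_apply, Pi.smul_apply, smul_eq_mul, ee_ne h23.symm, ee_ne h13.symm, ee_ne h12.symm, mul_zero, add_zero]
    ring
  set y := G * X * G⁻¹ with hy
  have hyM : y ∈ M := M.mul_mem (M.mul_mem hG hXM) (M.inv_mem hG)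
  have hyv : act y (ee F i) = ee F i + (lam * t 0 * v j₁) • act G (ee F j₁) + (lam * t 1 * v j₂) • act G (ee F j₂) +
      (lam * t 2 * v j₃) • act G (ee F j₃) := by
    rw [hy, map_mul, map_mul, LinearEquiv.mul_apply, LinearEquiv.mul_apply, ← hv, hXact v hz]
    simp only [map_add, map_smul]
    rw [hv, aj]
  have hyk : act y (ee F i) k = 0 := by
    rw [hyv]
    simp only [Pi.add_apply, Pi.smul_apply, smul_eq_mul, ee_ne hk]
    linear_combination lam * hLk
  have hyl : act y (ee F i) l = 0 := by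
    rw [hyv]
    simp only [Pi.add_apply, Pi.smul_apply, smul_eq_mul, ee_ne hl.1]
    linear_combination lam * hLl
  by_cases hym : MonoQ y
  · -- the eigenvector
    have hfix : ∀ x, (∀ l, (![cf G⁻¹ j₁, cf G⁻¹ j₂, cf G⁻¹ j₃, cf G⁻¹ z] : Fin 4 → Dual F (J → F)) l x = 0) → act y x = x := by
      intro x hx'
      have h1 : act G⁻¹ x j₁ = 0 := hx' 0
      have h2 : act G⁻¹ x j₂ = 0 := hx' 1
      have h3 : act G⁻¹ x j₃ = 0 := hx' 2
      have h4 : act G⁻¹ x z = 0 := hx' 3
      rw [hy, map_mul, map_mul, LinearEquiv.mul_apply, LinearEquiv.mul_apply, hXact _ h4, h1, h2, h3]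
      simp [aj]
    obtain ⟨j, μ, hμ, hjv⟩ : ∃ (j : J) (μ : F), μ ≠ 1 ∧ act y (act G (ee F j)) = μ • act G (ee F j) := by
      have hta : t 0 ≠ 0 ∨ t 1 ≠ 0 ∨ t 2 ≠ 0 := by
        by_contra hcon
        push Not at hcon
        apply ht0
        funext a
        fin_cases a
        · exact hcon.1
        · exact hcon.2.1
        · exact hcon.2.2
      have hne : ∀ a, t a ≠ 0 → 1 + lam * t a ≠ 1 := fun a h3 h4 =>
        mul_ne_zero hlam0 h3 (by linear_combination h4)
      have hact : ∀ j, act y (act G (ee F j)) = act G (act X (ee F j)) := by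
        intro j
        rw [hy, map_mul, map_mul, LinearEquiv.mul_apply, LinearEquiv.mul_apply, ai]
      rcases hta with h3 | h3 | h3
      · refine ⟨j₁, _, hne 0 h3, ?_⟩
        rw [hact, hXact _ (ee_ne hjz₁.symm), ee_self, ee_ne h12, ee_ne h13]
        simp only [mul_one, mul_zero, zero_smul, add_zero, map_add, map_smul]
        rw [← one_smul F (act G (ee F j₁)), smul_smul, ← add_smul]
        simp
      · refine ⟨j₂, _, hne 1 h3, ?_⟩
        rw [hact, hXact _ (ee_ne hjz₂.symm), ee_self, ee_ne h12.symm, ee_ne h23]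
        simp only [mul_one, mul_zero, zero_smul, add_zero, map_add, map_smul]
        rw [← one_smul F (act G (ee F j₂)), smul_smul, ← add_smul]
        simp
      · refine ⟨j₃, _, hne 2 h3, ?_⟩
        rw [hact, hXact _ (ee_ne hjz₃.symm), ee_self, ee_ne h13.symm, ee_ne h23.symm]
        simp only [mul_one, mul_zero, zero_smul, add_zero, map_add, map_smul]
        rw [← one_smul F (act G (ee F j₃)), smul_smul, ← add_smul]
        simp
    have hmv := mv_small hym _ hfix (Finset.univ.filter fun r => act G (ee F j) r ≠ 0)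
      (fun m hm => supp_moved hym hμ hjv (Finset.mem_filter.1 hm).2)
    have hcount := Finset.card_filter_add_card_filter_not (s := (Finset.univ : Finset J)) (fun r => act G (ee F j) r ≠ 0)
    rw [Finset.card_univ] at hcount
    have h5 : 1 < (Finset.univ.filter fun r => ¬ act G (ee F j) r ≠ 0).card := by omega
    obtain ⟨r₁, hr₁, r₂, hr₂, hr⟩ := Finset.one_lt_card.1 h5
    refine ⟨G⁻¹, M.inv_mem hG, fun h3 => hnm (by simpa using h3.inv), j, r₁, r₂, hr, ?_, ?_⟩
    · rw [inv_inv]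
      simpa using (Finset.mem_filter.1 hr₁).2
    · rw [inv_inv]
      simpa using (Finset.mem_filter.1 hr₂).2
  · refine ⟨y⁻¹, M.inv_mem hyM, fun h3 => hym (by simpa using h3.inv), i, k, l, Ne.symm hl.2, ?_, ?_⟩
    · rwa [inv_inv]
    · rwa [inv_inv]

/-- solving for two vectors -/
theorem two_solve {p q v₁ v₂ : J → F} {A₁ B₁ A₂ B₂ : F} (h1 : v₁ = A₁ • p + B₁ • q) (h2 : v₂ = A₂ • p + B₂ • q)
    (hind : ∀ ξ η : F, ξ • v₁ + η • v₂ = 0 → ξ = 0 ∧ η = 0) {r : J} (hr1 : v₁ r = 0) (hr2 : v₂ r = 0) :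
    p r = 0 ∧ q r = 0 := by
  have hdet : A₁ * B₂ - A₂ * B₁ ≠ 0 := by
    intro h
    have h3 : B₂ • v₁ + (-B₁) • v₂ = 0 := by
      rw [h1, h2]
      funext r'
      simp only [Pi.add_apply, Pi.smul_apply, smul_eq_mul, Pi.zero_apply]
      linear_combination (p r') * h
    have h4 : A₂ • v₁ + (-A₁) • v₂ = 0 := by
      rw [h1, h2]
      funext r'
      simp only [Pi.add_apply, Pi.smul_apply, smul_eq_mul, Pi.zero_apply]
      linear_combination (-q r') * h
    obtain ⟨e1, e2⟩ := hind _ _ h3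
    obtain ⟨e3, e4⟩ := hind _ _ h4
    rw [neg_eq_zero] at e2 e4
    have h5 : v₁ = 0 := by
      rw [h1, e2, e4]
      simp
    have := (hind 1 0 (by simp [h5])).1
    exact one_ne_zero this
  have e1 : A₁ * p r + B₁ * q r = 0 := by
    have := congrFun h1 r
    simpa [hr1] using this.symm
  have e2 : A₂ * p r + B₂ * q r = 0 := by
    have := congrFun h2 r
    simpa [hr2] using this.symm
  constructor
  · apply mul_left_cancel₀ hdet
    linear_combination B₂ * e1 - B₁ * e2
  · apply mul_left_cancel₀ hdet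
    linear_combination A₁ * e2 - A₂ * e1

/-- A monomial element with eigenvalues `1, c, c⁻¹` acts on a coordinate plane. -/
theorem mono_pair {z₀ : GL J F} {p q : J → F} {c : F} {A B : Dual F (J → F)} (hm : MonoQ z₀) (hc0 : c ≠ 0)
    (hc1 : c ≠ 1) (hc2 : c * c ≠ 1) (hc3 : c * c * c ≠ 1)
    (hform : ∀ w, act z₀ w = w + A w • p + B w • q) (hp : act z₀ p = c • p) (hq : act z₀ q = c⁻¹ • q)
    (hp0 : p ≠ 0) (hq0 : q ≠ 0) :
    ∃ a b, a ≠ b ∧ ∀ r, r ≠ a → r ≠ b → p r = 0 ∧ q r = 0 := by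
  classical
  obtain ⟨π, μ, hμ, hz⟩ := hm.decomp
  obtain ⟨d, hd⟩ : ∃ d, d = c⁻¹ := ⟨_, rfl⟩
  rw [← hd] at hq
  have hcd : c * d = 1 := by rw [hd, mul_inv_cancel₀ hc0]
  have hd0 : d ≠ 0 := by
    rw [hd]
    exact inv_ne_zero hc0
  -- the cubic identity
  have hcub : ∀ w r, act z₀ (act z₀ (act z₀ w)) r - (1 + c + d) * act z₀ (act z₀ w) r + (1 + c + d) * act z₀ w r - w r = 0 := by
    intro w r
    have e1 : act z₀ w = w + A w • p + B w • q := hform w
    have e2 : act z₀ (act z₀ w) = act z₀ w + (A w * c) • p + (B w * d) • q := by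
      conv_lhs => rw [e1]
      rw [map_add, map_add, map_smul, map_smul, hp, hq, smul_smul, smul_smul]
    have e3 : act z₀ (act z₀ (act z₀ w)) = act z₀ (act z₀ w) + (A w * c * c) • p + (B w * d * d) • q := by
      conv_lhs => rw [e2]
      rw [map_add, map_add, map_smul, map_smul, hp, hq, smul_smul, smul_smul]
    rw [e3, e2, e1]
    simp only [Pi.add_apply, Pi.smul_apply, smul_eq_mul]
    linear_combination (-(A w * p r) - B w * q r) * hcd
  have hdc : d ≠ c := by
    intro h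
    apply hc2
    rw [← hcd, h]
  by_cases hfixall : ∀ m, π m = m
  · -- diagonal case
    have hT : ∀ (v : J → F) r, act z₀ v r = μ r * v r := by
      intro v r
      rw [act_sum, Finset.sum_apply, Finset.sum_eq_single r]
      · rw [Pi.smul_apply, hz, hfixall, Pi.smul_apply, ee_self]
        simp
        ring
      · intro j _ hj
        rw [Pi.smul_apply, hz, hfixall, Pi.smul_apply, ee_ne (Ne.symm hj)]
        simp
      · simp
    obtain ⟨a, ha⟩ : ∃ a, p a ≠ 0 := by
      by_contra hcon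
      push Not at hcon
      exact hp0 (funext hcon)
    obtain ⟨b, hb⟩ : ∃ b, q b ≠ 0 := by
      by_contra hcon
      push Not at hcon
      exact hq0 (funext hcon)
    have hμa : μ a = c := by
      have := hT p a
      rw [hp] at this
      simp only [Pi.smul_apply, smul_eq_mul] at this
      exact (mul_right_cancel₀ ha this).symm
    have hμb : μ b = d := by
      have := hT q b
      rw [hq] at this
      simp only [Pi.smul_apply, smul_eq_mul] at this
      exact (mul_right_cancel₀ hb this).symm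
    have hab : a ≠ b := by
      rintro rfl
      exact hdc (hμb.symm.trans hμa)
    have hd1 : d ≠ 1 := by
      intro h
      apply hc1
      rw [← hcd, h, mul_one]
    refine ⟨a, b, hab, fun r hra hrb => ?_⟩
    refine two_solve (v₁ := (c - 1) • ee F a) (v₂ := (d - 1) • ee F b) (A₁ := A (ee F a)) (B₁ := B (ee F a))
      (A₂ := A (ee F b)) (B₂ := B (ee F b)) ?_ ?_ ?_ (by simp [ee_ne hra]) (by simp [ee_ne hrb])
    · have h3 := hform (ee F a)
      rw [hz, hfixall, hμa] at h3
      funext r'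
      have h4 := congrFun h3 r'
      simp only [Pi.add_apply, Pi.smul_apply, smul_eq_mul] at h4 ⊢
      linear_combination h4
    · have h3 := hform (ee F b)
      rw [hz, hfixall, hμb] at h3
      funext r'
      have h4 := congrFun h3 r'
      simp only [Pi.add_apply, Pi.smul_apply, smul_eq_mul] at h4 ⊢
      linear_combination h4
    · intro ξ η h
      have e1 := congrFun h a
      have e2 := congrFun h b
      simp only [Pi.add_apply, Pi.smul_apply, smul_eq_mul, ee_self, ee_ne hab, ee_ne hab.symm, Pi.zero_apply,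
        mul_one, mul_zero, add_zero, zero_add] at e1 e2
      exact ⟨(mul_eq_zero.1 e1).resolve_right (sub_ne_zero.2 hc1), (mul_eq_zero.1 e2).resolve_right (sub_ne_zero.2 hd1)⟩
  · push Not at hfixall
    obtain ⟨m, hm1⟩ := hfixall
    have hm1' : π m ≠ m := hm1
    set n₁ := π m with hn₁
    set n₂ := π n₁ with hn₂
    set n₃ := π n₂ with hn₃
    have h21 : n₂ ≠ n₁ := fun h => hm1' (π.injective h)
    have hT1 : act z₀ (ee F m) = μ m • ee F n₁ := hz m
    have hT1' : act z₀ (ee F n₁) = μ n₁ • ee F n₂ := hz n₁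
    have hT1'' : act z₀ (ee F n₂) = μ n₂ • ee F n₃ := hz n₂
    have hT3 : act z₀ (act z₀ (act z₀ (ee F m))) = (μ m * μ n₁ * μ n₂) • ee F n₃ := by
      rw [hT1, map_smul, hT1', map_smul, map_smul, hT1'', smul_smul, smul_smul]
    have hT2 : act z₀ (act z₀ (ee F m)) = (μ m * μ n₁) • ee F n₂ := by
      rw [hT1, map_smul, hT1', smul_smul]
    have hE : ∀ r, (μ m * μ n₁ * μ n₂) * ee F n₃ r - (1 + c + d) * ((μ m * μ n₁) * ee F n₂ r) +
        (1 + c + d) * (μ m * ee F n₁ r) - ee F m r = 0 := by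
      intro r
      have := hcub (ee F m) r
      rw [hT3, hT2, hT1] at this
      simpa using this
    have hcc : 1 + c + d ≠ 0 := by
      intro h
      apply hc3
      have h3 : c * c + c + 1 = 0 := by linear_combination c * h - hcd
      linear_combination (c - 1) * h3
    have hn2m : n₂ = m := by
      by_contra hn
      have e1 := hE m
      rw [ee_ne (Ne.symm hn), ee_ne (Ne.symm hm1'), ee_self] at e1
      have hn3 : n₃ = m := by
        by_contra hn3
        rw [ee_ne (Ne.symm hn3)] at e1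
        simp at e1
      have e2 := hE n₁
      rw [ee_ne (Ne.symm h21), ee_self, ee_ne hm1', hn3, ee_ne hm1'] at e2
      simp only [mul_zero, mul_one, sub_zero, zero_sub, zero_add, neg_zero] at e2
      exact (mul_ne_zero hcc (hμ m)) e2
    have hn3 : n₃ = n₁ := by
      rw [hn₃, hn2m]
    have e1 := hE m
    have e2 := hE n₁
    rw [hn3, hn2m, ee_ne (Ne.symm hm1'), ee_self] at e1
    rw [hn3, hn2m, ee_self, ee_ne hm1'] at e2
    simp only [mul_zero, mul_one, sub_zero, zero_add] at e1 e2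
    have hΛ : μ m * μ n₁ = - (1 + c + d) := by
      apply mul_left_cancel₀ (hμ m)
      linear_combination e2
    have h4 : (c + d) * (c + d + 2) = 0 := by
      have h5 : (1 + c + d) * (μ m * μ n₁) = -1 := by linear_combination (-1 : F) * e1
      rw [hΛ] at h5
      linear_combination (-1 : F) * h5
    have hcd2 : c + d + 2 ≠ 0 := by
      intro h
      apply hc2
      have h5 : (c + 1) * (c + 1) = 0 := by linear_combination c * h - hcd
      have h6 : c + 1 = 0 := by simpa using h5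
      linear_combination (c - 1) * h6
    have hκ : c + d = 0 := (mul_eq_zero.1 h4).resolve_right hcd2
    have hΛ' : μ m * μ n₁ = -1 := by
      rw [hΛ]
      linear_combination (-1 : F) * hκ
    have hne11 : (-1 : F) ≠ 1 := by
      intro h
      apply hc2
      rw [← h]
      linear_combination c * hκ - hcd
    have hm1n : m ≠ n₁ := Ne.symm hm1'
    refine ⟨m, n₁, hm1n, fun r hra hrb => ?_⟩
    refine two_solve (v₁ := μ m • ee F n₁ - ee F m) (v₂ := μ n₁ • ee F m - ee F n₁) (A₁ := A (ee F m)) (B₁ := B (ee F m))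
      (A₂ := A (ee F n₁)) (B₂ := B (ee F n₁)) ?_ ?_ ?_ (by simp [ee_ne hra, ee_ne hrb]) (by simp [ee_ne hra, ee_ne hrb])
    · have h3 := hform (ee F m)
      rw [hT1] at h3
      funext r'
      have h4 := congrFun h3 r'
      simp only [Pi.add_apply, Pi.smul_apply, Pi.sub_apply, smul_eq_mul] at h4 ⊢
      linear_combination h4
    · have h3 := hform (ee F n₁)
      rw [hT1', hn2m] at h3
      funext r'
      have h4 := congrFun h3 r'
      simp only [Pi.add_apply, Pi.smul_apply, Pi.sub_apply, smul_eq_mul] at h4 ⊢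
      linear_combination h4
    · intro ξ η h
      have e3 := congrFun h m
      have e4 := congrFun h n₁
      simp only [Pi.add_apply, Pi.smul_apply, Pi.sub_apply, smul_eq_mul, ee_self, ee_ne hm1n, ee_ne hm1n.symm, Pi.zero_apply,
        mul_one, mul_zero, add_zero, zero_add, sub_zero, zero_sub] at e3 e4
      have h5 : ξ * (μ m * μ n₁ - 1) = 0 := by linear_combination e3 + μ n₁ * e4
      rw [hΛ'] at h5
      have h6 : (-1 - 1 : F) ≠ 0 := fun h => hne11 (by linear_combination h)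
      have hξ : ξ = 0 := (mul_eq_zero.1 h5).resolve_right h6
      refine ⟨hξ, ?_⟩
      rw [hξ] at e4
      simpa using e4

theorem exists_c [Fintype F] (hq : 5 ≤ Fintype.card F) : ∃ c : F, c ≠ 0 ∧ c ≠ 1 ∧ c * c ≠ 1 ∧ c * c * c ≠ 1 := by
  classical
  obtain ⟨g, hg⟩ := IsCyclic.exists_generator (α := Fˣ)
  have h1 : orderOf g = Fintype.card Fˣ := orderOf_eq_card_of_forall_mem_zpowers hg |>.trans Nat.card_eq_fintype_card
  rw [Fintype.card_units] at h1
  have hk : ∀ k, 0 < k → k < 4 → ((g : F)) ^ k ≠ 1 := by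
    intro k hk0 hk4 h
    have h2 : g ^ k = 1 := by
      apply Units.ext
      simpa using h
    have h3 := orderOf_le_of_pow_eq_one hk0 h2
    omega
  refine ⟨g, Units.ne_zero g, ?_, ?_, ?_⟩
  · simpa using hk 1 (by norm_num) (by norm_num)
  · have := hk 2 (by norm_num) (by norm_num)
    rwa [pow_two] at this
  · have := hk 3 (by norm_num) (by norm_num)
    rwa [pow_three, ← mul_assoc] at this

theorem exists_perm2 {a b c d : J} (hab : a ≠ b) (hcd : c ≠ d) : ∃ π : Equiv.Perm J, π a = c ∧ π b = d := by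
  have h2 : Equiv.swap a c b ≠ c := by
    intro h
    apply hab
    apply (Equiv.swap a c).injective
    rw [h, Equiv.swap_apply_left]
  refine ⟨Equiv.swap (Equiv.swap a c b) d * Equiv.swap a c, ?_, ?_⟩
  · rw [Equiv.Perm.mul_apply, Equiv.swap_apply_left]
    exact Equiv.swap_apply_of_ne_of_ne h2.symm hcd
  · rw [Equiv.Perm.mul_apply, Equiv.swap_apply_left]

/-- a non-monomial element stabilizing a coordinate line or plane -/
theorem LemA [Fintype F] (hq : 5 ≤ Fintype.card F) (hJ : 13 ≤ Fintype.card J)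
    (hM : ∀ g, g ∈ Cfsg.Geo.specialLinear J F → MonoQ g → g ∈ M)
    {G : GL J F} (hG : G ∈ M) (hnm : ¬ MonoQ G) {i z z' : J} (hzz : z ≠ z')
    (h1 : act G⁻¹ (ee F i) z = 0) (h2 : act G⁻¹ (ee F i) z' = 0) :
    ∃ y ∈ M, ¬ MonoQ y ∧ ∃ A : Finset J, (A.card = 1 ∨ A.card = 2) ∧ ∀ j ∈ A, ∀ r, r ∉ A → act y (ee F j) r = 0 := by
  classical
  obtain ⟨c, hc0, hc1, hc2, hc3⟩ := exists_c hq
  set z₀ := G * d2 z z' c hc0 * G⁻¹ with hz₀
  have hz₀M : z₀ ∈ M := M.mul_mem (M.mul_mem hG (d2_memM hM _ _ _ _)) (M.inv_mem hG)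
  by_cases hm : MonoQ z₀
  · set p := act G (ee F z) with hp
    set q := act G (ee F z') with hq'
    have hform : ∀ w, act z₀ w = w + ((c - 1) • cf G⁻¹ z) w • p + ((c⁻¹ - 1) • cf G⁻¹ z') w • q := by
      intro w
      rw [hz₀, map_mul, map_mul, LinearEquiv.mul_apply, LinearEquiv.mul_apply, act_d2 hzz]
      simp only [map_add, map_smul, aj, LinearMap.smul_apply, cf_apply, smul_eq_mul]
      rfl
    have hpe : act z₀ p = c • p := by
      rw [hz₀, hp, map_mul, map_mul, LinearEquiv.mul_apply, LinearEquiv.mul_apply, ai, act_d2_self hzz, map_smul]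
    have hqe : act z₀ q = c⁻¹ • q := by
      rw [hz₀, hq', map_mul, map_mul, LinearEquiv.mul_apply, LinearEquiv.mul_apply, ai, act_d2 hzz, ee_ne hzz, ee_self]
      simp only [mul_zero, zero_smul, add_zero, mul_one]
      rw [map_add, map_smul, ← one_smul F (act G (ee F z')), smul_smul, ← add_smul]
      simp
    have hp0 : p ≠ 0 := act_ne_zero G (ee_ne_zero z)
    have hq0 : q ≠ 0 := act_ne_zero G (ee_ne_zero z')
    obtain ⟨a, b, hab, hr⟩ := mono_pair hm hc0 hc1 hc2 hc3 hform hpe hqe hp0 hq0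
    obtain ⟨τ, hτ1, hτ2⟩ := exists_perm2 hab hzz
    obtain ⟨m₀, hm₀⟩ := exists_avoid {a, b} (lt_of_le_of_lt Finset.card_le_two (by omega))
    simp only [Finset.mem_insert, Finset.mem_singleton, not_or] at hm₀
    have hfM : fix1 (pm τ : GL J F) m₀ ∈ M := hM _ (fix1_mem _ _) (fix1_mono (pm_mono τ) m₀)
    refine ⟨G * fix1 (pm τ : GL J F) m₀, M.mul_mem hG hfM, fun h3 => hnm ?_, {a, b}, Or.inr (Finset.card_pair hab), ?_⟩
    · have h4 := h3.mul (fix1_mono (pm_mono τ) m₀).inv
      simpa using h4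
    · intro j hj r hrn
      simp only [Finset.mem_insert, Finset.mem_singleton, not_or] at hj hrn
      rw [map_mul, LinearEquiv.mul_apply]
      rcases hj with rfl | rfl
      · rw [act_fix1_ee (Ne.symm hm₀.1), act_pm_ee, hτ1]
        exact (hr r hrn.1 hrn.2).1
      · rw [act_fix1_ee (Ne.symm hm₀.2), act_pm_ee, hτ2]
        exact (hr r hrn.1 hrn.2).2
  · refine ⟨z₀, hz₀M, hm, {i}, Or.inl (Finset.card_singleton i), ?_⟩
    intro j hj r hrn
    simp only [Finset.mem_singleton] at hj hrn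
    subst hj
    have : act z₀ (ee F j) = ee F j := by
      rw [hz₀, map_mul, map_mul, LinearEquiv.mul_apply, LinearEquiv.mul_apply, act_d2_fix hzz _ _ h1 h2, aj]
    rw [this, ee_ne hrn]

end Cfsg.Agent.Lib.Geo.MN
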