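import Mathlib
import Cfsg.Agent.Lib.Geo.MonoSL2

set_option autoImplicit false

/-! Overgroups of the monomial subgroup of `SL_n`: the action on the quotient by a coordinate
subspace, and the reduction to `gl_elem`. -/

namespace Cfsg.Agent.Lib.Geo.MN

open scoped MatrixGroups Matrix
open Module
open Cfsg.Agent.Lib.Geo

variable {J : Type} [Fintype J] [DecidableEq J] {F : Type*} [Field F]

/-- vectors supported on `A` -/
def SIn (A : Finset J) (x : J → F) : Prop := ∀ r, r ∉ A → x r = 0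

/-- the coordinate subspace -/
def WA (F : Type*) [Field F] (A : Finset J) : Submodule F (J → F) where
  carrier := {x | SIn A x}
  add_mem' := by
    intro a b ha hb r hr
    simp [ha r hr, hb r hr]
  zero_mem' := by
    intro r _
    rfl
  smul_mem' := by
    intro c a ha r hr
    simp [ha r hr]

theorem sin_of_col {y : GL J F} {A : Finset J} (h : ∀ j ∈ A, ∀ r, r ∉ A → act y (ee F j) r = 0)
    {x : J → F} (hx : SIn A x) : SIn A (act y x) := by
  intro r hr
  rw [act_sum, Finset.sum_apply]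
  refine Finset.sum_eq_zero fun j _ => ?_
  by_cases hj : j ∈ A
  · simp [h j hj r hr]
  · simp [hx j hj]

theorem sin_inv {g : GL J F} {A : Finset J} (h : ∀ x, SIn A x → SIn A (act g x)) {x : J → F}
    (hx : SIn A x) : SIn A (act g⁻¹ x) := by
  let f : (WA F A) →ₗ[F] (WA F A) :=
    ((act g : (J → F) ≃ₗ[F] (J → F)) : (J → F) →ₗ[F] (J → F)).restrict (fun v hv => h v hv)
  have hinj : Function.Injective f := by
    intro a b hab
    apply Subtype.ext
    apply (act g).injective
    exact congrArg Subtype.val hab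
  obtain ⟨v, hv⟩ := (LinearMap.injective_iff_surjective.1 hinj) ⟨x, hx⟩
  have hv' : act g (v : J → F) = x := congrArg Subtype.val hv
  rw [← hv', ai]
  exact v.2

/-- the stabilizer of a coordinate subspace -/
def Stb (F : Type*) [Field F] (A : Finset J) : Subgroup (GL J F) where
  carrier := {g | ∀ x, SIn A x → SIn A (act g x)}
  mul_mem' := by
    intro a b ha hb x hx
    rw [map_mul, LinearEquiv.mul_apply]
    exact ha _ (hb _ hx)
  one_mem' := by
    intro x hx
    simpa using hx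
  inv_mem' := by
    intro g hg x hx
    exact sin_inv hg hx

/-- complement of `A` -/
abbrev Jc (A : Finset J) : Type := {j // j ∉ A}

/-- restriction to the complement -/
noncomputable def resL (F : Type*) [Field F] (A : Finset J) : (J → F) →ₗ[F] (Jc A → F) where
  toFun x j := x j.1
  map_add' _ _ := rfl
  map_smul' _ _ := rfl

/-- extension by zero -/
noncomputable def extL (F : Type*) [Field F] (A : Finset J) : (Jc A → F) →ₗ[F] (J → F) where
  toFun x j := if h : j ∉ A then x ⟨j, h⟩ else 0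
  map_add' a b := by
    funext j
    by_cases h : j ∈ A <;> simp [h]
  map_smul' c a := by
    funext j
    by_cases h : j ∈ A <;> simp [h]

theorem res_apply (A : Finset J) (x : J → F) (r : Jc A) : resL F A x r = x r.1 := rfl

theorem ext_apply (A : Finset J) (x : Jc A → F) (r : Jc A) : extL F A x r.1 = x r := by
  simp [extL, r.2]

theorem ext_mem (A : Finset J) (x : Jc A → F) {a : J} (ha : a ∈ A) : extL F A x a = 0 := by
  simp [extL, ha]

theorem res_ext (A : Finset J) (x : Jc A → F) : resL F A (extL F A x) = x := by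
  funext r
  rw [res_apply, ext_apply]

theorem sin_sub_ext (A : Finset J) (x : J → F) : SIn A (x - extL F A (resL F A x)) := by
  intro r hr
  have := ext_apply (F := F) A (resL F A x) ⟨r, hr⟩
  simp only [Pi.sub_apply]
  rw [this, res_apply, sub_self]

/-- the induced map on the quotient -/
noncomputable def rb (A : Finset J) (g : Stb F A) : (Jc A → F) →ₗ[F] (Jc A → F) :=
  resL F A ∘ₗ ((act g.1 : (J → F) ≃ₗ[F] (J → F)) : (J → F) →ₗ[F] (J → F)) ∘ₗ extL F A

theorem rb_apply (A : Finset J) (g : Stb F A) (x : Jc A → F) :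
    rb A g x = resL F A (act g.1 (extL F A x)) := rfl

theorem res_act (A : Finset J) (g : Stb F A) (x : J → F) :
    resL F A (act g.1 x) = rb A g (resL F A x) := by
  rw [rb_apply]
  have h1 : SIn A (act g.1 (x - extL F A (resL F A x))) := g.2 _ (sin_sub_ext A x)
  rw [map_sub] at h1
  funext r
  have h2 := h1 r.1 r.2
  simp only [Pi.sub_apply] at h2
  rw [res_apply, res_apply]
  exact sub_eq_zero.1 h2

theorem rb_mul (A : Finset J) (g h : Stb F A) (x : Jc A → F) :
    rb A (g * h) x = rb A g (rb A h x) := by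
  rw [rb_apply, Subgroup.coe_mul, map_mul, LinearEquiv.mul_apply, res_act, ← rb_apply]

theorem rb_one (A : Finset J) (x : Jc A → F) : rb A (1 : Stb F A) x = x := by
  rw [rb_apply]
  simp [res_ext]

/-- the induced equivalence -/
noncomputable def rhoE (A : Finset J) (g : Stb F A) : (Jc A → F) ≃ₗ[F] (Jc A → F) :=
  LinearEquiv.ofLinear (rb A g) (rb A g⁻¹)
    (by
      ext1 i
      apply LinearMap.ext
      intro c
      show rb A g (rb A g⁻¹ _) = _
      rw [← rb_mul, mul_inv_cancel, rb_one]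
      rfl)
    (by
      ext1 i
      apply LinearMap.ext
      intro c
      show rb A g⁻¹ (rb A g _) = _
      rw [← rb_mul, inv_mul_cancel, rb_one]
      rfl)

/-- the induced homomorphism on the quotient -/
noncomputable def rho (A : Finset J) : Stb F A →* GL (Jc A) F :=
  MonoidHom.mk' (fun g => act.symm (rhoE A g)) (by
    intro a b
    apply act.injective
    rw [map_mul, MulEquiv.apply_symm_apply, MulEquiv.apply_symm_apply, MulEquiv.apply_symm_apply]
    ext1 x
    exact rb_mul A a b x)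

theorem act_rho (A : Finset J) (g : Stb F A) (x : Jc A → F) :
    act (rho A g) x = resL F A (act g.1 (extL F A x)) := by
  show act (act.symm (rhoE A g)) x = _
  rw [MulEquiv.apply_symm_apply]
  rfl

/-- the coordinates outside `A` in terms of `rho` -/
theorem act_rho_res (A : Finset J) (g : Stb F A) (x : J → F) (r : Jc A) :
    act g.1 x r.1 = act (rho A g) (resL F A x) r := by
  rw [act_rho, ← rb_apply, ← res_act, res_apply]

theorem res_ee (A : Finset J) (j : Jc A) : resL F A (ee F j.1) = ee F j := by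
  funext r
  rw [res_apply, ee_coord, ee_coord]
  simp [Subtype.ext_iff]

theorem res_ee_mem (A : Finset J) {j : J} (hj : j ∈ A) : resL F A (ee F j) = 0 := by
  funext r
  rw [res_apply, ee_coord]
  have : r.1 ≠ j := fun h => r.2 (h ▸ hj)
  simp [this]

theorem ext_sin (A : Finset J) (x : J → F) (hx : SIn A x) : resL F A x = 0 := by
  funext r
  exact hx r.1 r.2

variable {M : Subgroup (GL J F)}

theorem lift_dg (hM : ∀ g, g ∈ Cfsg.Geo.specialLinear J F → MonoQ g → g ∈ M) {A : Finset J} {a₀ : J} (ha₀ : a₀ ∈ A)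
    (s : Jc A → F) (hs : ∀ j, s j ≠ 0) : ∃ h : Stb F A, h.1 ∈ M ∧ MonoQ h.1 ∧ rho A h = dg s hs := by
  let ss : J → F := fun j => if h : j ∉ A then s ⟨j, h⟩ else 1
  have hss : ∀ j, ss j ≠ 0 := by
    intro j
    by_cases h : j ∈ A <;> simp [ss, h, hs]
  have hst : fix1 (dg ss hss) a₀ ∈ Stb F A := by
    intro x hx r hr
    rw [fix1, map_mul, LinearEquiv.mul_apply, act_dg, act_d1]
    have : r ≠ a₀ := fun h => hr (h ▸ ha₀)
    simp [hx r hr, ee_ne this]
  refine ⟨⟨_, hst⟩, hM _ (fix1_mem _ _) (fix1_mono (dg_mono _ _) a₀), fix1_mono (dg_mono _ _) a₀, ?_⟩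
  apply act.injective
  ext1 x
  rw [act_rho]
  funext r
  rw [res_apply, act_fix1 (j := a₀) (ext_mem A x ha₀), act_dg, ext_apply, act_dg]
  simp [ss, r.2]

theorem lift_pm (hM : ∀ g, g ∈ Cfsg.Geo.specialLinear J F → MonoQ g → g ∈ M) {A : Finset J} {a₀ : J} (ha₀ : a₀ ∈ A)
    (π : Equiv.Perm (Jc A)) : ∃ h : Stb F A, h.1 ∈ M ∧ MonoQ h.1 ∧ rho A h = pm π := by
  let pp : Equiv.Perm J := Equiv.Perm.ofSubtype π
  have h1 : ∀ r : Jc A, pp.symm r.1 = (π.symm r).1 := by
    intro r
    have : pp (π.symm r).1 = r.1 := by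
      show Equiv.Perm.ofSubtype π (π.symm r).1 = r.1
      rw [Equiv.Perm.ofSubtype_apply_coe]
      simp
    rw [Equiv.symm_apply_eq, this]
  have hst : fix1 (pm pp) a₀ ∈ Stb F A := by
    intro x hx r hr
    rw [fix1, map_mul, LinearEquiv.mul_apply, act_pm, h1 ⟨r, hr⟩, act_d1]
    have h2 : (π.symm ⟨r, hr⟩).1 ∉ A := (π.symm ⟨r, hr⟩).2
    have : (π.symm ⟨r, hr⟩).1 ≠ a₀ := fun h => h2 (h ▸ ha₀)
    simp [hx _ h2, ee_ne this]
  refine ⟨⟨_, hst⟩, hM _ (fix1_mem _ _) (fix1_mono (pm_mono _) a₀), fix1_mono (pm_mono _) a₀, ?_⟩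
  apply act.injective
  ext1 x
  rw [act_rho]
  funext r
  rw [res_apply, act_fix1 (j := a₀) (ext_mem A x ha₀), act_pm, h1, ext_apply, act_pm]

/-- the image of `M ∩ Stb` on the quotient -/
noncomputable def Pbar (M : Subgroup (GL J F)) (A : Finset J) : Subgroup (GL (Jc A) F) :=
  (M.subgroupOf (Stb F A)).map (rho A)

theorem mem_Pbar {A : Finset J} {g : Stb F A} (hg : g.1 ∈ M) : rho A g ∈ Pbar M A :=
  ⟨g, Subgroup.mem_subgroupOf.2 hg, rfl⟩

/-- `gl_elem` on the quotient -/
theorem exists_E [Fintype F] (hq : 5 ≤ Fintype.card F) (hM : ∀ g, g ∈ Cfsg.Geo.specialLinear J F → MonoQ g → g ∈ M)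
    {A : Finset J} {a₀ : J} (ha₀ : a₀ ∈ A) (hA : A.card + 3 ≤ Fintype.card J)
    {y : GL J F} (hy : y ∈ M) (hst : y ∈ Stb F A) {j i k : J} (hj : j ∉ A) (hi : i ∉ A) (hk : k ∉ A) (hik : i ≠ k)
    (h1 : act y (ee F j) i ≠ 0) (h2 : act y (ee F j) k ≠ 0) :
    ∃ u : GL J F, u ∈ M ∧ u ∈ Stb F A ∧ ∃ (l k' : J) (c : F), l ∉ A ∧ k' ∉ A ∧ l ≠ k' ∧ c ≠ 0 ∧
      ∀ x r, r ∉ A → act u x r = x r + (c * x k') * ee F l r := by
  have hcard : 3 ≤ Fintype.card (Jc A) := by
    rw [Fintype.card_subtype_compl]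
    simp only [Fintype.card_coe]
    omega
  have hE : Elem (Pbar M A) := by
    refine gl_elem (P := Pbar M A) ?_ hq hcard ?_ (mem_Pbar (g := ⟨y, hst⟩) hy) (j := ⟨j, hj⟩) (i := ⟨i, hi⟩)
      (k := ⟨k, hk⟩) (by simpa [Subtype.ext_iff] using hik) ?_ ?_
    · intro s hs
      obtain ⟨h, hh, -, he⟩ := lift_dg hM ha₀ s hs
      rw [← he]
      exact mem_Pbar hh
    · intro π
      obtain ⟨h, hh, -, he⟩ := lift_pm hM ha₀ π
      rw [← he]
      exact mem_Pbar hh
    · rw [← res_ee, ← act_rho_res]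
      exact h1
    · rw [← res_ee, ← act_rho_res]
      exact h2
  obtain ⟨l, k', c, hlk, hc, hφ, hT⟩ := hE
  obtain ⟨u, hu, hue⟩ := hT
  refine ⟨u.1, Subgroup.mem_subgroupOf.1 hu, u.2, l.1, k'.1, c, l.2, k'.2, ?_, hc, ?_⟩
  · simpa [Subtype.ext_iff] using hlk
  · intro x r hr
    have := act_rho_res A u x ⟨r, hr⟩
    rw [this, hue, act_tv_apply]
    simp only [Pi.add_apply, Pi.smul_apply, smul_eq_mul, res_apply, LinearMap.smul_apply, LinearMap.proj_apply,
      ee_coord, Subtype.ext_iff]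

end Cfsg.Agent.Lib.Geo.MN
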