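import Mathlib
import Cfsg.Agent.Lib.Geo.MonoSL3

set_option autoImplicit false

/-! Overgroups of the monomial subgroup of `SL_n`: from a non-monomial element stabilizing a small
coordinate subspace to an elementary transvection. -/

namespace Cfsg.Agent.Lib.Geo.MN

open scoped MatrixGroups Matrix
open Module
open Cfsg.Agent.Lib.Geo

variable {J : Type} [Fintype J] [DecidableEq J] {F : Type*} [Field F]

variable {M : Subgroup (GL J F)}

/-- diagonal elements -/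
def IsDg (t : GL J F) (f : J → F) : Prop := (∀ r, f r ≠ 0) ∧ ∀ x r, act t x r = f r * x r

theorem IsDg.inv {t : GL J F} {f : J → F} (h : IsDg t f) (x : J → F) (r : J) : act t⁻¹ x r = (f r)⁻¹ * x r := by
  have := h.2 (act t⁻¹ x) r
  rw [aj] at this
  rw [this, inv_mul_cancel_left₀ (h.1 r)]

theorem d2_isDg {i x : J} (hix : i ≠ x) (b : F) (hb : b ≠ 0) :
    IsDg (d2 i x b hb) (fun r => if r = i then b else if r = x then b⁻¹ else 1) := by
  constructor
  · intro r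
    dsimp only
    split_ifs <;> simp [hb]
  · intro v r
    rw [act_d2 hix]
    simp only [Pi.add_apply, Pi.smul_apply, smul_eq_mul]
    by_cases h1 : r = i
    · subst h1
      simp only [ee_self, ee_ne hix, if_true]
      ring
    · by_cases h2 : r = x
      · subst h2
        simp only [ee_self, ee_ne h1, if_neg h1, if_true]
        ring
      · simp [ee_ne h1, ee_ne h2, h1, h2]

/-- the action outside `A` -/
def OffE (A : Finset J) (u : GL J F) (c : F) (k l : J) : Prop :=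
  ∀ x r, r ∉ A → act u x r = x r + (c * x k) * ee F l r

theorem comm_off {A : Finset J} {u t : GL J F} {f : J → F} {c : F} {k l : J} (hu : OffE A u c k l)
    (ht : IsDg t f) (hk : k ∉ A) (hlk : l ≠ k) :
    OffE A (t * u * t⁻¹ * u⁻¹) ((f l * (f k)⁻¹ - 1) * c) k l := by
  intro x r hr
  obtain ⟨y, hy⟩ : ∃ y, y = act u⁻¹ x := ⟨_, rfl⟩
  have h1 : ∀ s, s ∉ A → x s = y s + (c * y k) * ee F l s := by
    intro s hs
    rw [← hu y s hs, hy, aj]
  have h2 : y k = x k := by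
    have := h1 k hk
    rw [ee_ne hlk.symm] at this
    simpa using this.symm
  rw [map_mul, map_mul, map_mul, LinearEquiv.mul_apply, LinearEquiv.mul_apply, LinearEquiv.mul_apply, ← hy,
    ht.2, hu _ r hr, ht.inv, ht.inv, h2, h1 r hr, h2]
  have h3 := ht.1 r
  have h4 := ht.1 k
  by_cases hrl : r = l
  · subst hrl
    rw [ee_self]
    field_simp
    ring
  · rw [ee_ne hrl]
    field_simp
    ring

theorem fix_inv {A : Finset J} {t : GL J F} (ht : ∀ v, SIn A v → act t v = v) {v : J → F} (hv : SIn A v) :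
    act t⁻¹ v = v := by
  conv_lhs => rw [← ht v hv]
  rw [ai]

theorem comm_fix1 {A : Finset J} {u t : GL J F} (hu : u ∈ Stb F A) (ht : ∀ v, SIn A v → act t v = v)
    {v : J → F} (hv : SIn A v) : act (t * u * t⁻¹ * u⁻¹) v = v := by
  have h1 : SIn A (act u⁻¹ v) := (Stb F A).inv_mem hu _ hv
  rw [map_mul, map_mul, map_mul, LinearEquiv.mul_apply, LinearEquiv.mul_apply, LinearEquiv.mul_apply,
    fix_inv ht h1, aj, ht v hv]

theorem comm_fix2 {A : Finset J} {u t : GL J F} (ht : t ∈ Stb F A) (hu : ∀ v, SIn A v → act u v = v)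
    {v : J → F} (hv : SIn A v) : act (t * u * t⁻¹ * u⁻¹) v = v := by
  have h1 : SIn A (act t⁻¹ v) := (Stb F A).inv_mem ht _ hv
  rw [map_mul, map_mul, map_mul, LinearEquiv.mul_apply, LinearEquiv.mul_apply, LinearEquiv.mul_apply,
    fix_inv hu hv, hu _ h1, aj]

/-- elements acting trivially on the subspace and on the quotient -/
structure NA (A : Finset J) (w : GL J F) : Prop where
  fix : ∀ v, SIn A v → act w v = v
  off : ∀ x, SIn A (act w x - x)

theorem na_inv {A : Finset J} {w : GL J F} (h : NA A w) (x : J → F) : act w⁻¹ x = x - (act w x - x) := by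
  apply (act w).injective
  rw [aj, map_sub, h.fix _ (h.off x)]
  abel

theorem na_comm {A : Finset J} {w t : GL J F} (h : NA A w) (ht : ∀ v, SIn A v → act t v = v) (x : J → F) :
    act (t * w * t⁻¹ * w⁻¹) x = x + ((act w (act t⁻¹ x) - act t⁻¹ x) - (act w x - x)) := by
  have h1 : act t⁻¹ (act w x - x) = act w x - x := fix_inv ht (h.off x)
  have h2 : act t (act w (act t⁻¹ x) - act t⁻¹ x) = act w (act t⁻¹ x) - act t⁻¹ x := ht _ (h.off _)
  have h3 : act t (act w (act t⁻¹ x)) = x + (act w (act t⁻¹ x) - act t⁻¹ x) := by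
    rw [map_sub, aj] at h2
    rw [sub_eq_iff_eq_add.1 h2]
    abel
  rw [map_mul, map_mul, map_mul, LinearEquiv.mul_apply, LinearEquiv.mul_apply, LinearEquiv.mul_apply, na_inv h,
    map_sub, h1, map_sub, h.fix _ (h.off x), map_sub, h3, ht _ (h.off x)]
  abel

theorem na_of_comm {A : Finset J} {w t : GL J F} (h : NA A w) (ht : ∀ v, SIn A v → act t v = v) :
    NA A (t * w * t⁻¹ * w⁻¹) := by
  have hst : t ∈ Stb F A := by
    intro v hv
    rw [ht v hv]
    exact hv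
  refine ⟨fun v hv => comm_fix2 hst h.fix hv, fun x => ?_⟩
  rw [na_comm h ht]
  intro r hr
  have h1 := h.off (act t⁻¹ x) r hr
  have h2 := h.off x r hr
  simp only [Pi.sub_apply, Pi.add_apply] at h1 h2 ⊢
  rw [h1, h2]
  ring

theorem sin_ee {A : Finset J} {a : J} (ha : a ∈ A) : SIn A (ee F a) := by
  intro r hr
  exact ee_ne (fun h => hr (h ▸ ha))

theorem d2_fix_sin {A : Finset J} {i x : J} (hi : i ∉ A) (hx : x ∉ A) (hix : i ≠ x) (b : F) (hb : b ≠ 0) :
    ∀ v, SIn A v → act (d2 i x b hb) v = v := fun v hv => act_d2_fix hix b hb (hv i hi) (hv x hx)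

/-- a nontrivial element of `NA` gives an elementary transvection -/
theorem elem_of_NA (hM : ∀ g, g ∈ Cfsg.Geo.specialLinear J F → MonoQ g → g ∈ M) {A : Finset J}
    (hA : A.card + 4 ≤ Fintype.card J) {b : F} (hb0 : b ≠ 0) (hb1 : b ≠ 1) {w : GL J F} (hw : w ∈ M) (hN : NA A w)
    (hne : w ≠ 1) : Elem M := by
  have hb2 : b⁻¹ - 1 ≠ 0 := by
    intro h
    apply hb1
    have : b⁻¹ = 1 := sub_eq_zero.1 h
    rw [← inv_inv b, this, inv_one]
  have hb3 : b - 1 ≠ 0 := sub_ne_zero.2 hb1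
  -- a moved coordinate vector
  obtain ⟨m₁, hm₁, hQ⟩ : ∃ m₁, m₁ ∉ A ∧ act w (ee F m₁) - ee F m₁ ≠ 0 := by
    by_contra hcon
    push Not at hcon
    apply hne
    apply ext_ee
    intro j
    rw [map_one]
    by_cases hj : j ∈ A
    · rw [hN.fix _ (sin_ee hj)]
      rfl
    · rw [sub_eq_zero.1 (hcon j hj)]
      rfl
  obtain ⟨Q, hQd⟩ : ∃ Q, Q = act w (ee F m₁) - ee F m₁ := ⟨_, rfl⟩
  rw [← hQd] at hQ
  have hQs : SIn A Q := hQd ▸ hN.off _
  obtain ⟨x₁, hx₁⟩ := exists_avoid (insert m₁ A) (lt_of_le_of_lt (Finset.card_insert_le _ _) (by omega))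
  rw [Finset.mem_insert, not_or] at hx₁
  obtain ⟨x₂, hx₂⟩ := exists_avoid (insert x₁ (insert m₁ A)) (lt_of_le_of_lt
    ((Finset.card_insert_le _ _).trans (Nat.succ_le_succ (Finset.card_insert_le _ _))) (by omega))
  rw [Finset.mem_insert, Finset.mem_insert, not_or, not_or] at hx₂
  have h1m : m₁ ≠ x₁ := Ne.symm hx₁.1
  have h2m : m₁ ≠ x₂ := Ne.symm hx₂.2.1
  have h12 : x₁ ≠ x₂ := Ne.symm hx₂.1
  -- the first commutator
  obtain ⟨w₁, hw₁⟩ : ∃ w₁, w₁ = d2 m₁ x₁ b hb0 * w * (d2 m₁ x₁ b hb0)⁻¹ * w⁻¹ := ⟨_, rfl⟩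
  have hw₁M : w₁ ∈ M := by
    rw [hw₁]
    exact M.mul_mem (M.mul_mem (M.mul_mem (d2_memM hM _ _ _ _) hw) (M.inv_mem (d2_memM hM _ _ _ _))) (M.inv_mem hw)
  have hN₁ : NA A w₁ := hw₁ ▸ na_of_comm hN (d2_fix_sin hm₁ hx₁.2 h1m b hb0)
  have hD₁ := d2_isDg h1m b hb0
  have hf₁ : ∀ x, act w₁ x = x + (((b⁻¹ - 1) * x m₁) • Q + ((b - 1) * x x₁) • (act w (ee F x₁) - ee F x₁)) := by
    intro x
    rw [hw₁, na_comm hN (d2_fix_sin hm₁ hx₁.2 h1m b hb0), act_d2_inv h1m, hQd]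
    simp only [map_add, map_smul]
    (module)
  -- the second commutator
  obtain ⟨w₂, hw₂⟩ : ∃ w₂, w₂ = d2 m₁ x₂ b hb0 * w₁ * (d2 m₁ x₂ b hb0)⁻¹ * w₁⁻¹ := ⟨_, rfl⟩
  have hw₂M : w₂ ∈ M := by
    rw [hw₂]
    exact M.mul_mem (M.mul_mem (M.mul_mem (d2_memM hM _ _ _ _) hw₁M) (M.inv_mem (d2_memM hM _ _ _ _))) (M.inv_mem hw₁M)
  have hD₂ := d2_isDg h2m b hb0
  have hf₂ : ∀ x, act w₂ x = x + ((b⁻¹ - 1) ^ 2 * x m₁) • Q := by
    intro x
    have h3 : act (d2 m₁ x₂ b hb0)⁻¹ x m₁ = b⁻¹ * x m₁ := by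
      rw [hD₂.inv]
      simp
    have h4 : act (d2 m₁ x₂ b hb0)⁻¹ x x₁ = x x₁ := by
      rw [hD₂.inv]
      simp [h1m.symm, h12]
    rw [hw₂, na_comm hN₁ (d2_fix_sin hm₁ hx₂.2.2 h2m b hb0), hf₁, hf₁, h3, h4]
    have : (b⁻¹ - 1) ^ 2 * x m₁ = (b⁻¹ - 1) * (b⁻¹ * x m₁) - (b⁻¹ - 1) * x m₁ := by ring
    rw [this]
    (module)
  -- a transvection
  have hκ : (b⁻¹ - 1) ^ 2 ≠ 0 := pow_ne_zero _ hb2
  have hφ : ((b⁻¹ - 1) ^ 2 • (LinearMap.proj m₁ : Dual F (J → F))) Q = 0 := by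
    simp [hQs m₁ hm₁]
  have hT : TvIn M ((b⁻¹ - 1) ^ 2 • (LinearMap.proj m₁ : Dual F (J → F))) Q := by
    refine ⟨hφ, ?_⟩
    have : tv hφ = w₂ := by
      apply act.injective
      ext1 x
      rw [act_tv_apply, hf₂]
      simp
    rw [this]
    exact hw₂M
  -- isolating a coordinate
  obtain ⟨r, hr⟩ : ∃ r, Q r ≠ 0 := by
    by_contra hcon
    push Not at hcon
    exact hQ (funext hcon)
  have hrA : r ∈ A := by
    by_contra h
    exact hr (hQs r h)
  obtain ⟨x₃, hx₃⟩ := exists_avoid (insert m₁ A) (lt_of_le_of_lt (Finset.card_insert_le _ _) (by omega))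
  rw [Finset.mem_insert, not_or] at hx₃
  have hrx : r ≠ x₃ := fun h => hx₃.2 (h ▸ hrA)
  have hrm : r ≠ m₁ := fun h => hm₁ (h ▸ hrA)
  have hD₃ := d2_isDg hrx b hb0
  have h5 := Cfsg.Agent.Lib.Geo.TvIn.conj hT (d2_memM hM r x₃ b hb0)
  have e1 : (((b⁻¹ - 1) ^ 2 • (LinearMap.proj m₁ : Dual F (J → F))) ∘ₗ
      ((act (d2 r x₃ b hb0)⁻¹ : (J → F) ≃ₗ[F] (J → F)) : (J → F) →ₗ[F] (J → F))) =
      (b⁻¹ - 1) ^ 2 • (LinearMap.proj m₁ : Dual F (J → F)) := by
    refine LinearMap.ext fun x => ?_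
    have : act (d2 r x₃ b hb0)⁻¹ x m₁ = x m₁ := by
      rw [hD₃.inv]
      simp [hrm.symm, Ne.symm hx₃.1]
    show ((b⁻¹ - 1) ^ 2 • (LinearMap.proj m₁ : Dual F (J → F))) (act (d2 r x₃ b hb0)⁻¹ x) = _
    simp only [LinearMap.smul_apply, LinearMap.proj_apply, this]
  rw [e1] at h5
  have h6 := TvIn.sub_center h5 hT
  have e2 : act (d2 r x₃ b hb0) Q - Q = ((b - 1) * Q r) • ee F r := by
    rw [act_d2 hrx, hQs x₃ hx₃.2]
    simp
  rw [e2] at h6
  have h7 := h6.smul_form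
  rw [smul_smul] at h7
  exact ⟨r, m₁, _, hrm, mul_ne_zero (mul_ne_zero hb3 hr) hκ, h7⟩

/-- from a quotient transvection to an elementary transvection -/
theorem elem_of_E (hM : ∀ g, g ∈ Cfsg.Geo.specialLinear J F → MonoQ g → g ∈ M) {A : Finset J}
    (hA : A.card + 6 ≤ Fintype.card J) {b : F} (hb0 : b ≠ 0) (hb1 : b ≠ 1) {u : GL J F} (hu : u ∈ M)
    (hst : u ∈ Stb F A) {l k : J} {c : F} (hl : l ∉ A) (hk : k ∉ A) (hlk : l ≠ k) (hc : c ≠ 0)
    (hoff : OffE A u c k l) : Elem M := by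
  have hb3 : b - 1 ≠ 0 := sub_ne_zero.2 hb1
  obtain ⟨m, hm⟩ := exists_avoid (insert l (insert k A)) (lt_of_le_of_lt
    ((Finset.card_insert_le _ _).trans (Nat.succ_le_succ (Finset.card_insert_le _ _))) (by omega))
  rw [Finset.mem_insert, Finset.mem_insert, not_or, not_or] at hm
  have hlm : l ≠ m := Ne.symm hm.1
  have hD := d2_isDg hlm b hb0
  obtain ⟨u₁, hu₁⟩ : ∃ u₁, u₁ = d2 l m b hb0 * u * (d2 l m b hb0)⁻¹ * u⁻¹ := ⟨_, rfl⟩
  have hu₁M : u₁ ∈ M := by
    rw [hu₁]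
    exact M.mul_mem (M.mul_mem (M.mul_mem (d2_memM hM _ _ _ _) hu) (M.inv_mem (d2_memM hM _ _ _ _))) (M.inv_mem hu)
  have hfix : ∀ v, SIn A v → act u₁ v = v := by
    intro v hv
    rw [hu₁]
    exact comm_fix1 hst (d2_fix_sin hl hm.2.2 hlm b hb0) hv
  have hoff₁ : OffE A u₁ ((b - 1) * c) k l := by
    have := comm_off hoff hD hk hlk
    rw [← hu₁] at this
    simpa [hlk.symm, Ne.symm hm.2.1] using this
  have hc₁ : (b - 1) * c ≠ 0 := mul_ne_zero hb3 hc
  by_cases hz : ∀ m₀, m₀ ∉ A → ∀ r, r ∈ A → act u₁ (ee F m₀) r = 0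
  · have hφ : (((b - 1) * c) • (LinearMap.proj k : Dual F (J → F))) (ee F l) = 0 := by
      simp [ee_ne hlk.symm]
    refine ⟨l, k, (b - 1) * c, hlk, hc₁, hφ, ?_⟩
    have : tv hφ = u₁ := by
      apply ext_ee
      intro j
      rw [act_tv_apply]
      by_cases hj : j ∈ A
      · rw [hfix _ (sin_ee hj)]
        have : j ≠ k := fun h => hk (h ▸ hj)
        simp [ee_ne this.symm]
      · funext r
        by_cases hr : r ∈ A
        · rw [hz j hj r hr]
          have h1 : r ≠ j := fun h => hj (h ▸ hr)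
          have h2 : r ≠ l := fun h => hl (h ▸ hr)
          simp [ee_ne h1, ee_ne h2]
        · rw [hoff₁ _ r hr]
          simp
    rw [this]
    exact hu₁M
  · push Not at hz
    obtain ⟨m₀, hm₀, r, hr, hne⟩ := hz
    obtain ⟨x', hx'⟩ := exists_avoid (insert l (insert k (insert m₀ A))) (lt_of_le_of_lt
      ((Finset.card_insert_le _ _).trans (Nat.succ_le_succ ((Finset.card_insert_le _ _).trans
        (Nat.succ_le_succ (Finset.card_insert_le _ _))))) (by omega))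
    simp only [Finset.mem_insert, not_or] at hx'
    have hrx : r ≠ x' := fun h => hx'.2.2.2 (h ▸ hr)
    have hD' := d2_isDg hrx b hb0
    obtain ⟨u₂, hu₂⟩ : ∃ u₂, u₂ = d2 r x' b hb0 * u₁ * (d2 r x' b hb0)⁻¹ * u₁⁻¹ := ⟨_, rfl⟩
    have hu₂M : u₂ ∈ M := by
      rw [hu₂]
      exact M.mul_mem (M.mul_mem (M.mul_mem (d2_memM hM _ _ _ _) hu₁M) (M.inv_mem (d2_memM hM _ _ _ _)))
        (M.inv_mem hu₁M)
    have hst' : d2 r x' b hb0 ∈ Stb F A := by
      intro v hv s hs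
      rw [hD'.2, hv s hs, mul_zero]
    have hrl : l ≠ r := fun h => hl (h ▸ hr)
    have hrk : k ≠ r := fun h => hk (h ▸ hr)
    have hoff₂ : OffE A u₂ 0 k l := by
      have := comm_off hoff₁ hD' hk hlk
      rw [← hu₂] at this
      simpa [hrl, hrk, Ne.symm hx'.1, Ne.symm hx'.2.1] using this
    refine elem_of_NA (A := A) hM (by omega) hb0 hb1 hu₂M ⟨fun v hv => ?_, fun x s hs => ?_⟩ ?_
    · rw [hu₂]
      exact comm_fix2 hst' hfix hv
    · simp only [Pi.sub_apply]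
      rw [hoff₂ x s hs]
      simp
    · intro h1
      rw [hu₂] at h1
      have h2 : d2 r x' b hb0 * u₁ = u₁ * d2 r x' b hb0 := by
        have := mul_eq_one_iff_eq_inv.1 h1
        rw [inv_inv] at this
        rw [mul_inv_eq_iff_eq_mul] at this
        exact this
      have h3 := congrArg (fun g : GL J F => act g (ee F m₀) r) h2
      simp only [map_mul, LinearEquiv.mul_apply] at h3
      have hm₀r : m₀ ≠ r := fun h => hm₀ (h ▸ hr)
      have h4 : act (d2 r x' b hb0) (ee F m₀) = ee F m₀ :=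
        act_d2_other hrx b hb0 hm₀r (Ne.symm hx'.2.2.1)
      rw [h4, hD'.2] at h3
      simp only [if_true] at h3
      apply hne
      have : (b - 1) * act u₁ (ee F m₀) r = 0 := by linear_combination h3
      exact (mul_eq_zero.1 this).resolve_left hb3

end Cfsg.Agent.Lib.Geo.MN
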