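import Mathlib
import Cfsg.Agent.Lib.Geo.MonoSL4

set_option autoImplicit false

/-! The monomial subgroup of `SL_n` is maximal: the final steps. -/

namespace Cfsg.Agent.Lib.Geo.MN

open scoped MatrixGroups Matrix
open Module
open Cfsg.Agent.Lib.Geo

variable {J : Type} [Fintype J] [DecidableEq J] {F : Type*} [Field F]

variable {M : Subgroup (GL J F)}

theorem elem_of_col [Fintype F] (hq : 5 ≤ Fintype.card F) (hM : ∀ g, g ∈ Cfsg.Geo.specialLinear J F → MonoQ g → g ∈ M)
    {A : Finset J} {a₀ : J} (ha₀ : a₀ ∈ A) (hA : A.card + 6 ≤ Fintype.card J)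
    {y : GL J F} (hy : y ∈ M) (hst : y ∈ Stb F A) {j i k : J} (hj : j ∉ A) (hi : i ∉ A) (hk : k ∉ A) (hik : i ≠ k)
    (h1 : act y (ee F j) i ≠ 0) (h2 : act y (ee F j) k ≠ 0) : Elem M := by
  obtain ⟨b, hb0, hb1⟩ := exists_b (F := F) (by omega : 3 ≤ Fintype.card F)
  obtain ⟨u, huM, hust, l, k', c, hl, hk', hlk, hc, hoff⟩ :=
    exists_E hq hM ha₀ (by omega) hy hst hj hi hk hik h1 h2
  exact elem_of_E hM hA hb0 hb1 huM hust hl hk' hlk hc hoff

/-- the key lemma on stabilizers of small coordinate subspaces -/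
theorem lemB [Fintype F] (hq : 5 ≤ Fintype.card F) (hJ : 13 ≤ Fintype.card J)
    (hM : ∀ g, g ∈ Cfsg.Geo.specialLinear J F → MonoQ g → g ∈ M) {y : GL J F} (hy : y ∈ M) (hnm : ¬ MonoQ y)
    {A : Finset J} (hA : A.card = 1 ∨ A.card = 2) (hcol : ∀ j ∈ A, ∀ r, r ∉ A → act y (ee F j) r = 0) : Elem M := by
  obtain ⟨b, hb0, hb1⟩ := exists_b (F := F) (by omega : 3 ≤ Fintype.card F)
  have hst : y ∈ Stb F A := fun x hx => sin_of_col hcol hx
  have hAc : A.card ≤ 2 := by omega
  obtain ⟨a₀, ha₀⟩ : A.Nonempty := by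
    rw [← Finset.card_pos]
    omega
  by_cases hC : ∃ j i k, j ∉ A ∧ i ∉ A ∧ k ∉ A ∧ i ≠ k ∧ act y (ee F j) i ≠ 0 ∧ act y (ee F j) k ≠ 0
  · obtain ⟨j, i, k, hj, hi, hk, hik, h1, h2⟩ := hC
    exact elem_of_col hq hM ha₀ (by omega) hy hst hj hi hk hik h1 h2
  push Not at hC
  -- the induced element is monomial
  have hmono : MonoQ (rho A ⟨y, hst⟩) := by
    by_contra hcon
    obtain ⟨j, i, k, hik, h1, h2⟩ := nm_two hcon
    rw [← res_ee, ← act_rho_res] at h1 h2
    exact h2 (hC j.1 i.1 k.1 j.2 i.2 k.2 (by simpa [Subtype.ext_iff] using hik) h1)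
  obtain ⟨π, c, hc, hdec⟩ := hmono.decomp
  obtain ⟨h₁, hh₁, hm₁, he₁⟩ := lift_pm hM ha₀ π
  obtain ⟨h₂, hh₂, hm₂, he₂⟩ := lift_dg hM ha₀ c hc
  have hrho : rho A (h₁ * h₂) = rho A ⟨y, hst⟩ := by
    rw [map_mul, he₁, he₂]
    apply ext_ee
    intro j
    rw [map_mul, LinearEquiv.mul_apply, hdec]
    have : act (dg c hc) (ee F j) = c j • ee F j := by
      funext r
      rw [act_dg]
      by_cases h : r = j
      · subst h
        simp [ee_self]
      · simp [ee_ne h]
    rw [this, map_smul, act_pm_ee]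
  -- the corrected element
  obtain ⟨z, hz⟩ : ∃ z : Stb F A, z = (h₁ * h₂)⁻¹ * ⟨y, hst⟩ := ⟨_, rfl⟩
  have hzM : z.1 ∈ M := by
    rw [hz]
    exact M.mul_mem (M.inv_mem (M.mul_mem hh₁ hh₂)) hy
  have hzr : rho A z = 1 := by
    rw [hz, map_mul, map_inv, hrho, inv_mul_cancel]
  have hznm : ¬ MonoQ z.1 := by
    intro hz'
    apply hnm
    have h3 : (⟨y, hst⟩ : Stb F A) = (h₁ * h₂) * z := by
      rw [hz, mul_inv_cancel_left]
    have : y = (h₁ * h₂).1 * z.1 := congrArg Subtype.val h3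
    rw [this]
    exact (hm₁.mul hm₂).mul hz'
  have hzoff : ∀ x r, r ∉ A → act z.1 x r = x r := by
    intro x r hr
    have := act_rho_res A z x ⟨r, hr⟩
    rw [this, hzr, map_one]
    rfl
  by_cases hmv : ∃ m, m ∉ A ∧ act z.1 (ee F m) ≠ ee F m
  · obtain ⟨m, hm, hne⟩ := hmv
    obtain ⟨x, hx⟩ := exists_avoid (insert m A) (lt_of_le_of_lt (Finset.card_insert_le _ _) (by omega))
    rw [Finset.mem_insert, not_or] at hx
    have hmx : m ≠ x := Ne.symm hx.1
    have hD := d2_isDg hmx b hb0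
    obtain ⟨w, hw⟩ : ∃ w, w = d2 m x b hb0 * z.1 * (d2 m x b hb0)⁻¹ * z.1⁻¹ := ⟨_, rfl⟩
    have hwM : w ∈ M := by
      rw [hw]
      exact M.mul_mem (M.mul_mem (M.mul_mem (d2_memM hM _ _ _ _) hzM) (M.inv_mem (d2_memM hM _ _ _ _))) (M.inv_mem hzM)
    have hoff : OffE A z.1 0 m x := by
      intro v r hr
      rw [hzoff v r hr]
      simp
    obtain ⟨c', hoff₂⟩ : ∃ c', OffE A w (c' * 0) m x := by
      have := comm_off hoff hD hm (Ne.symm hmx)
      rw [← hw] at this
      exact ⟨_, this⟩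
    refine elem_of_NA (A := A) hM (by omega) hb0 hb1 hwM ⟨fun v hv => ?_, fun v s hs => ?_⟩ ?_
    · rw [hw]
      exact comm_fix1 z.2 (d2_fix_sin hm hx.2 hmx b hb0) hv
    · simp only [Pi.sub_apply]
      rw [hoff₂ v s hs]
      simp
    · intro h1
      rw [hw] at h1
      have h2 : d2 m x b hb0 * z.1 = z.1 * d2 m x b hb0 := by
        have := mul_eq_one_iff_eq_inv.1 h1
        rw [inv_inv] at this
        rw [mul_inv_eq_iff_eq_mul] at this
        exact this
      obtain ⟨r, hr⟩ : ∃ r, act z.1 (ee F m) r - ee F m r ≠ 0 := by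
        by_contra hcon
        push Not at hcon
        exact hne (funext fun r => sub_eq_zero.1 (hcon r))
      have hrA : r ∈ A := by
        by_contra h
        apply hr
        rw [hzoff _ r h, sub_self]
      have hrm : r ≠ m := fun h => hm (h ▸ hrA)
      have hrx : r ≠ x := fun h => hx.2 (h ▸ hrA)
      rw [ee_ne hrm, sub_zero] at hr
      have h3 := congrArg (fun g : GL J F => act g (ee F m) r) h2
      simp only [map_mul, LinearEquiv.mul_apply] at h3
      rw [act_d2_self hmx, map_smul, hD.2] at h3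
      simp only [if_neg hrm, if_neg hrx, one_mul, Pi.smul_apply, smul_eq_mul] at h3
      have h4 : (b - 1) * act z.1 (ee F m) r = 0 := by linear_combination -h3
      exact hr ((mul_eq_zero.1 h4).resolve_left (sub_ne_zero.2 hb1))
  · push Not at hmv
    obtain ⟨j, i, k, hik, h1, h2⟩ := nm_two hznm
    have hjA : j ∈ A := by
      by_contra hj
      rw [hmv j hj] at h1 h2
      have e1 : i = j := by
        by_contra h
        exact h1 (ee_ne h)
      have e2 : k = j := by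
        by_contra h
        exact h2 (ee_ne h)
      exact hik (e1.trans e2.symm)
    have hiA : i ∈ A := by
      by_contra h
      exact h1 (z.2 _ (sin_ee hjA) i h)
    have hkA : k ∈ A := by
      by_contra h
      exact h2 (z.2 _ (sin_ee hjA) k h)
    obtain ⟨x, hx⟩ := exists_avoid A (by omega)
    have hst2 : z.1 ∈ Stb F ({x} : Finset J) := by
      intro v hv
      apply sin_of_col _ hv
      intro j' hj' r hr
      rw [Finset.mem_singleton] at hj' hr
      rw [hj', hmv x hx]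
      exact ee_ne hr
    have hne : ∀ s, s ∈ A → s ∉ ({x} : Finset J) := by
      intro s hs h
      rw [Finset.mem_singleton] at h
      exact hx (h ▸ hs)
    exact elem_of_col hq hM (a₀ := x) (A := {x}) (Finset.mem_singleton_self x) (by simp; omega) hzM hst2
      (hne _ hjA) (hne _ hiA) (hne _ hkA) hik h1 h2

/-- The monomial subgroup of `SL_n` is maximal, in the form of an overgroup statement. -/
theorem sl_le_of_nonmono [Fintype F] (hq : 5 ≤ Fintype.card F) (hJ : 13 ≤ Fintype.card J)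
    (hM : ∀ g, g ∈ Cfsg.Geo.specialLinear J F → MonoQ g → g ∈ M) {g : GL J F} (hg : g ∈ M) (hnm : ¬ MonoQ g) :
    Cfsg.Geo.specialLinear J F ≤ M := by
  obtain ⟨G, hG, hGnm, i, z, hz⟩ := Z1 hJ hM hg hnm
  obtain ⟨G', hG', hG'nm, i', z₁, z₂, hzz, h1, h2⟩ := Z2 hq hJ hM hG hGnm hz
  obtain ⟨y, hy, hynm, A, hA, hcol⟩ := LemA hq hJ hM hG' hG'nm hzz h1 h2
  exact sl_le_of_Elem hM (by omega) (lemB hq hJ hM hy hynm hA hcol)

end Cfsg.Agent.Lib.Geo.MN
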