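import Mathlib
import Cfsg.Agent.Lib.Geo.OmegaGen
import Cfsg.Agent.Lib.Geo.SympMax
import Cfsg.Agent.Lib.Geo.SUMax

set_option autoImplicit false

/-! Good vectors for subgroups of `Ω`, and maximality of stabilizers of totally singular subspaces. -/

namespace Cfsg.Agent.Lib.Geo

open scoped MatrixGroups Matrix commutatorElement
open Module

variable {ι : Type} [Fintype ι] [DecidableEq ι] {F : Type*} [Field F]

local notation "V" => (ι → F)

variable {Q : (ι → F) → F} (hQ : Cfsg.Geo.IsNondegenerateQuadraticForm Q)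

local notation "f" => QuadraticMap.polar Q

variable [Fintype F]

/-- all Siegel elements with this centre lie in `M`. -/
def GoodV (M : Subgroup (GL ι F)) (a : V) : Prop :=
  Q a = 0 ∧ ∀ w, f a w = 0 → sg hQ a w ∈ M

variable {hQ} {M : Subgroup (GL ι F)}

theorem GoodV.act (hM : M ≤ Cfsg.isometryGroup F Q) {h : GL ι F} (hh : h ∈ M) {a : V}
    (ha : GoodV hQ M a) : GoodV hQ M (act h a) := by
  have hiso := hM hh
  refine ⟨by rw [mem_iso.1 hiso, ha.1], fun w hw => ?_⟩
  have h1 : f a (Cfsg.Agent.Lib.Geo.act h⁻¹ w) = 0 := by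
    have := iso_polar hiso a (Cfsg.Agent.Lib.Geo.act h⁻¹ w)
    rw [act_act_inv] at this
    rw [← this, hw]
  have h2 := conj_sg hQ hiso ha.1 h1
  rw [act_act_inv] at h2
  rw [← h2]
  exact M.mul_mem (M.mul_mem hh (ha.2 _ h1)) (M.inv_mem hh)

theorem GoodV.smul {a : V} (ha : GoodV hQ M a) (c : F) : GoodV hQ M (c • a) := by
  refine ⟨by rw [Q_smul' hQ, ha.1, mul_zero], fun w hw => ?_⟩
  by_cases hc : c = 0
  · subst hc
    rw [zero_smul]
    have : sg hQ (0 : V) w = 1 := by
      apply Cfsg.Agent.Lib.Geo.act.injective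
      ext1 x
      rw [act_sg hQ (Q_zero' hQ) (pol_zero_left hQ w), pol_zero_right hQ, map_one]
      simp
    rw [this]
    exact M.one_mem
  have h1 : f a w = 0 := by
    rw [pol_smul_left hQ] at hw
    exact (mul_eq_zero.1 hw).resolve_left hc
  rw [sg_smul_left hQ ha.1 c h1]
  exact ha.2 _ (by rw [pol_smul_right hQ, h1, mul_zero])

theorem GoodV_zero : GoodV hQ M (0 : V) := by
  refine ⟨Q_zero' hQ, fun w _ => ?_⟩
  have : sg hQ (0 : V) w = 1 := by
    apply Cfsg.Agent.Lib.Geo.act.injective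
    ext1 x
    rw [act_sg hQ (Q_zero' hQ) (pol_zero_left hQ w), pol_zero_right hQ, map_one]
    simp
  rw [this]
  exact M.one_mem

theorem good_spread (hM : M ≤ Cfsg.isometryGroup F Q) {a u₀ u : V} (ha : GoodV hQ M a)
    (hu₀ : GoodV hQ M u₀) (h₀ : f u₀ a ≠ 0) (hu : Q u = 0) (h₁ : f u a ≠ 0) : GoodV hQ M u := by
  set κ := f u₀ a with hκ
  set u' : V := (κ / f u a) • u with hu'
  have h2 : f u' a = κ := by
    rw [hu', pol_smul_left hQ]
    field_simp
  set w : V := κ⁻¹ • (u' - u₀) with hw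
  have h3 : f a w = 0 := by
    rw [hw, pol_smul_right hQ, pol_comm', pol_sub_left hQ, pol_comm' u' a, pol_comm' u₀ a, pol_comm' a u',
      pol_comm' a u₀, h2, ← hκ, sub_self, mul_zero]
  have h4 : κ • w = u' - u₀ := by
    rw [hw, smul_smul, mul_inv_cancel₀ h₀, one_smul]
  have hQu' : Q u' = 0 := by rw [hu', Q_smul' hQ, hu, mul_zero]
  have h5 : f u₀ w + Q w * κ = 0 := by
    have e : u' = u₀ + κ • w := by rw [h4]; abel
    have h6 := hQu'
    rw [e, Q_add' (Q := Q), hu₀.1, Q_smul' hQ, pol_smul_right hQ] at h6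
    apply mul_left_cancel₀ h₀
    linear_combination h6
  have h7 : act (sg hQ a w) u₀ = u' := by
    rw [act_sg hQ ha.1 h3, ← hκ, h4, sub_sub, ← add_smul, h5, zero_smul]
    abel
  have h8 := hu₀.act hM (ha.2 w h3)
  rw [h7] at h8
  have h9 : u = (f u a / κ) • u' := by
    rw [hu', smul_smul]
    have hc : f u a / κ * (κ / f u a) = 1 := by
      field_simp
    rw [hc, one_smul]
  rw [h9]
  exact h8.smul _

theorem good_all_of_spread (hn : 9 ≤ Fintype.card ι) (hM : M ≤ Cfsg.isometryGroup F Q) {a : V} (ha0 : a ≠ 0)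
    (hS : ∀ u, Q u = 0 → f u a ≠ 0 → GoodV hQ M u) {z : V} (hz : Q z = 0) : GoodV hQ M z := by
  by_cases hz0 : z = 0
  · rw [hz0]
    exact GoodV_zero
  obtain ⟨u, hu, hua, huz⟩ := exists_singular_nonorth hQ hn ha0 hz0
  have hu0 : u ≠ 0 := by
    rintro rfl
    exact hua (pol_zero_left hQ a)
  obtain ⟨u₀, hu₀, hu₀a, hu₀u⟩ := exists_singular_nonorth hQ hn ha0 hu0
  exact good_spread hM (hS u hu hua) (hS u₀ hu₀ hu₀a) hu₀u hz (by rw [pol_comm']; exact huz)

theorem omega_le_of_good (hn : 9 ≤ Fintype.card ι) (h : ∀ z, Q z = 0 → GoodV hQ M z) :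
    Cfsg.Geo.omegaGL Q ≤ M := by
  refine (omega_le_EG hQ hn).trans ?_
  rw [EG, Subgroup.closure_le]
  rintro _ ⟨a, w, ha, haw, rfl⟩
  exact (h a ha).2 w haw

/-- Two non-orthogonal good vectors force all of `Ω`. -/
theorem omega_le_of_two_good (hn : 9 ≤ Fintype.card ι) (hM : M ≤ Cfsg.isometryGroup F Q) {a b : V}
    (ha : GoodV hQ M a) (hb : GoodV hQ M b) (h : f b a ≠ 0) : Cfsg.Geo.omegaGL Q ≤ M := by
  have ha0 : a ≠ 0 := by
    rintro rfl
    exact h (pol_zero_right hQ b)
  refine omega_le_of_good (hQ := hQ) hn fun z hz => good_all_of_spread hn hM ha0 (fun u hu hua => ?_) hz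
  exact good_spread hM ha hb h hu hua

theorem omega_le_iso : Cfsg.Geo.omegaGL Q ≤ Cfsg.isometryGroup F Q := by
  rw [omegaGL_eq, Subgroup.commutator_le]
  intro g₁ h₁ g₂ h₂
  rw [commutatorElement_def]
  exact mul_mem (mul_mem (mul_mem h₁ h₂) (inv_mem h₁)) (inv_mem h₂)

/-- Non-degeneracy bound for totally singular subspaces. -/
theorem ts_bound (hQ : Cfsg.Geo.IsNondegenerateQuadraticForm Q) {U : Submodule F V}
    (hU : ∀ u ∈ U, Q u = 0) : 2 * finrank F U ≤ Fintype.card ι := by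
  set hf := sform_of_quad hQ with hhf
  have h1 := hf.finrank_lperp U
  have h2 : U ≤ hf.lperp U := by
    intro x hx y hy
    have := hU _ (U.add_mem hx hy)
    rw [Q_add' (Q := Q), hU x hx, hU y hy] at this
    simpa using this
  have h3 := Submodule.finrank_mono h2
  omega

theorem exists_aniso_in (hQ : Cfsg.Geo.IsNondegenerateQuadraticForm Q) {Y : Submodule F V}
    (hY : Fintype.card ι < 2 * finrank F Y) : ∃ d ∈ Y, Q d ≠ 0 := by
  by_contra hcon
  push Not at hcon
  have := ts_bound hQ hcon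
  omega

/-- the basic pairing of a Siegel image. -/
theorem polar_act_sg {c d u : V} (hc : Q c = 0) (hcd : f c d = 0) :
    f (act (sg hQ c d) u) u = f u u - Q d * (f u c * f u c) := by
  rw [act_sg hQ hc hcd]
  simp only [pol_sub_left hQ, pol_add_left hQ, pol_smul_left hQ]
  rw [pol_comm' d u, pol_comm' c u]
  ring

theorem sg_fix {c d x : V} (hc : Q c = 0) (hcd : f c d = 0) (h1 : f x c = 0) (h2 : f x d = 0) :
    act (sg hQ c d) x = x := by
  rw [act_sg_orth hQ hc hcd h1, h2, zero_smul, sub_zero]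

/-- The stabilizer in `Ω` of a totally singular subspace is maximal. -/
theorem isMaximalIn_omega_stab_ts (hQ : Cfsg.Geo.IsNondegenerateQuadraticForm Q) (hn : 13 ≤ Fintype.card ι)
    {W : Submodule F V} (hW0 : W ≠ ⊥) (hW : ∀ w ∈ W, Q w = 0)
    (hgap : ∀ u, u ∉ W → Q u = 0 → (∀ a ∈ W, f u a = 0) → 2 * finrank F W + 3 ≤ Fintype.card ι) :
    Cfsg.Geo.IsMaximalIn (Cfsg.Geo.omegaGL Q) (Cfsg.Geo.subspaceStabilizer W ⊓ Cfsg.Geo.omegaGL Q) := by
  set hf := sform_of_quad hQ with hhf
  have hn9 : 9 ≤ Fintype.card ι := by omega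
  have hWperp : ∀ a ∈ W, ∀ b ∈ W, f a b = 0 := by
    intro a ha b hb
    have := hW _ (W.add_mem ha hb)
    rw [Q_add' (Q := Q), hW a ha, hW b hb] at this
    simpa using this
  refine ⟨lt_of_le_of_ne inf_le_right ?_, ?_⟩
  · intro heq
    obtain ⟨a, ha, ha0⟩ := Submodule.exists_mem_ne_zero_of_ne_bot hW0
    obtain ⟨c, hc, hca, -⟩ := exists_singular_nonorth hQ hn9 ha0 ha0
    obtain ⟨d, hd, hd0⟩ := exists_aniso_in hQ (Y := cutL [hf.lf c]) (by
      have := finrank_cutL [hf.lf c]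
      simp only [List.length_cons, List.length_nil] at this
      omega)
    rw [mem_cutL] at hd
    have hdc : f d c = 0 := hd (hf.lf c) (by simp)
    have hcd : f c d = 0 := by rw [pol_comm']; exact hdc
    have h1 := sg_mem_omega hQ hn9 hc hcd
    rw [← heq] at h1
    have h2 : act (sg hQ c d) a ∈ W := (mem_stab_iff.1 h1.1 a).1 ha
    have h3 := hWperp _ h2 _ ha
    rw [polar_act_sg hc hcd, hWperp a ha a ha, pol_comm' a c] at h3
    simp only [zero_sub, neg_eq_zero, mul_eq_zero, hd0, hca, or_self] at h3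
  · intro M hHM hMO
    by_cases hMH : M = Cfsg.Geo.subspaceStabilizer W ⊓ Cfsg.Geo.omegaGL Q
    · exact Or.inl hMH
    right
    have hMiso : M ≤ Cfsg.isometryGroup F Q := hMO.trans omega_le_iso
    obtain ⟨g, hgM, hgH⟩ : ∃ g ∈ M, g ∉ Cfsg.Geo.subspaceStabilizer W ⊓ Cfsg.Geo.omegaGL Q := by
      by_contra hcon
      push Not at hcon
      exact hMH (le_antisymm hcon hHM)
    have hgS : g ∉ Cfsg.Geo.subspaceStabilizer W := fun h => hgH ⟨h, hMO hgM⟩
    obtain ⟨w₀, hw₀, hgw⟩ : ∃ w₀ ∈ W, act g w₀ ∉ W := by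
      by_contra hcon
      push Not at hcon
      exact hgS (mem_stab_of_forall hcon)
    have hgood : ∀ a ∈ W, GoodV hQ M a := by
      intro a ha
      refine ⟨hW a ha, fun w hw => hHM ⟨?_, sg_mem_omega hQ hn9 (hW a ha) hw⟩⟩
      refine mem_stab_of_forall fun x hx => ?_
      rw [act_sg_orth hQ (hW a ha) hw (hWperp x hx a ha)]
      exact W.sub_mem hx (W.smul_mem _ ha)
    set u := act g w₀ with hu
    have hugood : GoodV hQ M u := (hgood w₀ hw₀).act hMiso hgM
    refine le_antisymm hMO ?_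
    by_cases hua : ∃ a ∈ W, f u a ≠ 0
    · obtain ⟨a, ha, hua⟩ := hua
      exact omega_le_of_two_good hn9 hMiso (hgood a ha) hugood hua
    push Not at hua
    have hk := hgap u hgw hugood.1 hua
    -- a Siegel element fixing `W` and moving `u` off its perpendicular
    have hul : u ∉ hf.lperp (hf.lperp W) := by
      rwa [hf.lperp_lperp]
    rw [hf.mem_lperp] at hul
    push Not at hul
    obtain ⟨y₀, hy₀, hy₀u⟩ := hul
    obtain ⟨y, hy1, hyW⟩ : ∃ y, f u y = 1 ∧ ∀ a ∈ W, f y a = 0 := by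
      refine ⟨(f u y₀)⁻¹ • y₀, ?_, fun a ha => ?_⟩
      · rw [pol_smul_right hQ]
        exact inv_mul_cancel₀ hy₀u
      · rw [pol_smul_left hQ, (hf.mem_lperp.1 hy₀) a ha, mul_zero]
    set c := y - Q y • u with hc
    have hQc : Q c = 0 := by
      rw [hc, Q_sub hQ, Q_smul' hQ, hugood.1, pol_smul_right hQ, pol_comm', hy1]
      ring
    have huu : f u u = 0 := pol_self_of hQ hugood.1
    have huc : f u c = 1 := by
      rw [hc, pol_sub_right hQ, pol_smul_right hQ, huu, hy1]
      ring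
    have hcW : ∀ a ∈ W, f c a = 0 := by
      intro a ha
      rw [hc, pol_sub_left hQ, pol_smul_left hQ, hyW a ha, hua a ha]
      ring
    -- the space of candidates for the second parameter
    obtain ⟨d, hd, hd0⟩ := exists_aniso_in hQ (Y := hf.lperp (W ⊔ Submodule.span F {c})) (by
      have h1 := hf.finrank_lperp (W ⊔ Submodule.span F {c})
      have h2 := Submodule.finrank_add_le_finrank_add_finrank W (Submodule.span F {c})
      have h3 : finrank F (Submodule.span F {c}) ≤ 1 :=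
        (finrank_span_le_card ({c} : Set V)).trans (by simp)
      omega)
    rw [hf.mem_lperp] at hd
    have hdW : ∀ a ∈ W, f a d = 0 := by
      intro a ha
      rw [pol_comm']
      exact hd a (Submodule.mem_sup_left ha)
    have hdc : f d c = 0 := hd c (Submodule.mem_sup_right (Submodule.mem_span_singleton_self c))
    have hcd : f c d = 0 := by rw [pol_comm']; exact hdc
    have hS : sg hQ c d ∈ Cfsg.Geo.subspaceStabilizer W ⊓ Cfsg.Geo.omegaGL Q := by
      refine ⟨mem_stab_of_forall fun x hx => ?_, sg_mem_omega hQ hn9 hQc hcd⟩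
      rw [sg_fix hQc hcd (by rw [pol_comm']; exact hcW x hx) (hdW x hx)]
      exact hx
    have h5 := hugood.act hMiso (hHM hS)
    refine omega_le_of_two_good hn9 hMiso hugood h5 ?_
    rw [polar_act_sg hQc hcd, huu, huc]
    simpa using hd0

end Cfsg.Agent.Lib.Geo
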