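import Mathlib
import Cfsg.Agent.Lib.Geo.OmegaMax

set_option autoImplicit false

/-! Tools for quadratic forms: solving inside a nondegenerate subspace, Witt's step, and lifting
isometries to `Ω` by reflections in a prescribed set. -/

namespace Cfsg.Agent.Lib.Geo

open scoped MatrixGroups Matrix commutatorElement
open Module

variable {ι : Type} [Fintype ι] [DecidableEq ι] {F : Type*} [Field F]

local notation "V" => (ι → F)

variable {Q : (ι → F) → F} (hQ : Cfsg.Geo.IsNondegenerateQuadraticForm Q)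

local notation "f" => QuadraticMap.polar Q

include hQ

/-- the restriction of a quadratic form to a nondegenerate subspace, in coordinates -/
theorem exists_model_Q (Y : Submodule F V) (hY : ∀ y ∈ Y, y ≠ 0 → ∃ x ∈ Y, f x y ≠ 0) :
    ∃ e : (Fin (finrank F Y) → F) ≃ₗ[F] Y,
      Cfsg.Geo.IsNondegenerateQuadraticForm (fun a : Fin (finrank F Y) → F => Q (e a : V)) := by
  haveI : FiniteDimensional F Y := inferInstance
  let e : (Fin (finrank F Y) → F) ≃ₗ[F] Y := (Module.finBasis F Y).equivFun.symm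
  have hp : ∀ a b, QuadraticMap.polar (fun a : Fin (finrank F Y) → F => Q (e a : V)) a b
      = f (e a : V) (e b : V) := by
    intro a b
    simp only [QuadraticMap.polar, map_add, Submodule.coe_add]
  refine ⟨e, ⟨fun c v => ?_, ⟨fun x y v => ?_, fun c x v => ?_, fun v x y => ?_, fun c v x => ?_⟩, fun v hv => ?_⟩⟩
  · simp only [map_smul, Submodule.coe_smul, hQ.smul]
  · simp only [hp, map_add, Submodule.coe_add, pol_add_left hQ]
  · simp only [hp, map_smul, Submodule.coe_smul, pol_smul_left hQ]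
  · simp only [hp, map_add, Submodule.coe_add, pol_add_right hQ]
  · simp only [hp, map_smul, Submodule.coe_smul, pol_smul_right hQ]
  · have h0 : (e v : V) ≠ 0 := by
      intro h
      apply hv
      have : e v = 0 := Subtype.ext h
      exact (e.map_eq_zero_iff).1 this
    obtain ⟨x, hx, hx'⟩ := hY _ (e v).2 h0
    refine ⟨⟨e.symm ⟨x, hx⟩, ?_⟩, ⟨e.symm ⟨x, hx⟩, ?_⟩⟩
    · rw [hp]
      simpa using hx'
    · rw [hp, pol_comm']
      simpa using hx'

theorem solve_Q_in [Fintype F] (Y : Submodule F V) (hY : ∀ y ∈ Y, y ≠ 0 → ∃ x ∈ Y, f x y ≠ 0)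
    (Λ : List (Dual F V)) (hΛ : 2 * Λ.length + 3 ≤ finrank F Y) {y₀ : V} (hy₀ : y₀ ∈ Y) (c : F) :
    ∃ z ∈ Y, (∀ l ∈ Λ, l z = l y₀) ∧ Q z = c := by
  obtain ⟨e, he⟩ := exists_model_Q hQ Y hY
  let ρ : (Fin (finrank F Y) → F) →ₗ[F] V := Y.subtype ∘ₗ (e : (Fin (finrank F Y) → F) →ₗ[F] Y)
  have hρ : ∀ a, ρ a = (e a : V) := fun _ => rfl
  obtain ⟨z, hz1, hz2⟩ := affine_Q he (Λ.map fun l => l ∘ₗ ρ)
    (by simpa using hΛ) (e.symm ⟨y₀, hy₀⟩) c
  refine ⟨(e z : V), (e z).2, fun l hl => ?_, hz2⟩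
  have := hz1 (l ∘ₗ ρ) (List.mem_map.2 ⟨l, hl, rfl⟩)
  simpa [hρ] using this

omit hQ in
theorem finrank_inf_cut (Y : Submodule F V) (Λ : List (Dual F V)) :
    finrank F Y ≤ finrank F ↥(Y ⊓ cutL Λ) + Λ.length := by
  have h1 := Submodule.finrank_sup_add_finrank_inf_eq Y (cutL Λ)
  have h2 := finrank_cutL Λ
  have h3 : finrank F ↥(Y ⊔ cutL Λ) ≤ finrank F V := Submodule.finrank_le _
  have hV : finrank F V = Fintype.card ι := by simp
  omega

/-- two independent vectors of a nondegenerate subspace: prescribing the pairings within it -/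
theorem two_values_in [Fintype F] (Y : Submodule F V) (hY : ∀ y ∈ Y, y ≠ 0 → ∃ x ∈ Y, f x y ≠ 0)
    {a b : V} (haY : a ∈ Y) (hbY : b ∈ Y) (ha : a ≠ 0) (hb : ∀ c : F, b ≠ c • a) (e₁ e₂ : F) :
    ∃ y ∈ Y, f y a = e₁ ∧ f y b = e₂ := by
  obtain ⟨e, he⟩ := exists_model_Q hQ Y hY
  have hp : ∀ a b, QuadraticMap.polar (fun a : Fin (finrank F Y) → F => Q (e a : V)) a b
      = f (e a : V) (e b : V) := by
    intro a b
    simp only [QuadraticMap.polar, map_add, Submodule.coe_add]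
  set a' := e.symm ⟨a, haY⟩ with ha'
  set b' := e.symm ⟨b, hbY⟩ with hb'
  have hea : (e a' : V) = a := by simp [ha']
  have heb : (e b' : V) = b := by simp [hb']
  obtain ⟨y, h1, h2⟩ := exists_two_values he (a := a') (b := b') (by
      intro h
      apply ha
      rw [← hea, h]
      simp) (by
      intro c h
      apply hb c
      rw [← heb, h]
      simp [hea]) e₁ e₂
  rw [hp, hea] at h1
  rw [hp, heb] at h2
  exact ⟨(e y : V), (e y).2, h1, h2⟩

/-- every vector of a nondegenerate subspace is a sum of two singular vectors -/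
theorem iso_decomp_Q_in [Fintype F] (Y : Submodule F V) (hY : ∀ y ∈ Y, y ≠ 0 → ∃ x ∈ Y, f x y ≠ 0)
    (hdim : 5 ≤ finrank F Y) {x : V} (hx : x ∈ Y) : ∃ p ∈ Y, Q p = 0 ∧ Q (x - p) = 0 := by
  by_cases hx0 : x = 0
  · subst hx0
    exact ⟨0, Y.zero_mem, Q_zero' hQ, by simpa using Q_zero' hQ⟩
  set hf := sform_of_quad hQ with hhf
  obtain ⟨v, hv, hvx⟩ := hY x hx hx0
  obtain ⟨p, hp, hp1, hp2⟩ := solve_Q_in hQ Y hY [hf.lf x] (by simp only [List.length_cons, List.length_nil]; omega)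
    (y₀ := (Q x / f v x) • v) (Y.smul_mem _ hv) 0
  refine ⟨p, hp, hp2, ?_⟩
  have h3 := hp1 (hf.lf x) (by simp)
  simp only [SForm.lf_apply] at h3
  rw [pol_smul_left hQ, div_mul_cancel₀ _ hvx] at h3
  rw [Q_sub hQ, hp2, pol_comm', h3]
  ring

/-- a singular vector of a nondegenerate subspace non-orthogonal to two given vectors -/
theorem singular_nonorth_in [Fintype F] (Y : Submodule F V) (hY : ∀ y ∈ Y, y ≠ 0 → ∃ x ∈ Y, f x y ≠ 0)
    (hdim : 7 ≤ finrank F Y) {a z : V} (ha : a ∈ Y) (hz : z ∈ Y) (ha0 : a ≠ 0) (hz0 : z ≠ 0) :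
    ∃ u ∈ Y, Q u = 0 ∧ f u a ≠ 0 ∧ f u z ≠ 0 := by
  set hf := sform_of_quad hQ with hhf
  obtain ⟨y₁, hy₁Y, hy₁⟩ := hY a ha ha0
  obtain ⟨y₂, hy₂Y, hy₂⟩ := hY z hz hz0
  obtain ⟨y, hyY, h1, h2⟩ : ∃ y ∈ Y, f y a ≠ 0 ∧ f y z ≠ 0 := by
    by_cases h3 : f y₁ z = 0
    · by_cases h4 : f y₂ a = 0
      · refine ⟨y₁ + y₂, Y.add_mem hy₁Y hy₂Y, ?_, ?_⟩
        · rw [pol_add_left hQ, h4, add_zero]
          exact hy₁
        · rw [pol_add_left hQ, h3, zero_add]
          exact hy₂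
      · exact ⟨y₂, hy₂Y, h4, hy₂⟩
    · exact ⟨y₁, hy₁Y, hy₁, h3⟩
  obtain ⟨u, huY, hu, hu0⟩ := solve_Q_in hQ Y hY [hf.lf a, hf.lf z] (by simp only [List.length_cons, List.length_nil]; omega) hyY 0
  refine ⟨u, huY, hu0, ?_, ?_⟩
  · have := hu (hf.lf a) (by simp)
    simp only [SForm.lf_apply] at this
    rwa [this]
  · have := hu (hf.lf z) (by simp)
    simp only [SForm.lf_apply] at this
    rwa [this]

/-- Witt's step for quadratic forms -/
theorem witt_step_Q (X₀ : Submodule F V) {x y : V} (hx : x ∉ X₀) (hy : y ∉ X₀) (hxy : Q x = Q y)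
    (hz : ∀ z ∈ X₀, f z x = f z y) :
    ∃ g ∈ Cfsg.isometryGroup F Q, (∀ z ∈ X₀, act g z = z) ∧ act g x = y := by
  obtain ⟨g, h1, h2, h3⟩ := Cfsg.Agent.Lib.Classical.Witt.core_quad (bundleQ hQ) (bundleQ_nondeg hQ)
    X₀ x y hx hy (by
      intro a ha s
      show Q _ = Q _
      rw [Q_add' (Q := Q), Q_add' (Q := Q), Q_smul' hQ, Q_smul' hQ, pol_smul_right hQ, pol_smul_right hQ,
        hxy, hz a ha])
  refine ⟨act.symm g, ?_, fun z hz' => ?_, ?_⟩
  · rw [mem_iso]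
    intro v
    rw [MulEquiv.apply_symm_apply]
    exact h1 v
  · rw [MulEquiv.apply_symm_apply]
    exact h2 z hz'
  · rw [MulEquiv.apply_symm_apply]
    exact h3

variable [Finite F]

theorem rf_sq {a : V} (ha : Q a ≠ 0) : rf hQ a * rf hQ a = 1 := by
  apply act.injective
  ext1 x
  rw [map_mul, LinearEquiv.mul_apply, act_rf hQ ha, act_rf hQ ha, map_one]
  show _ = x
  simp only [pol_sub_left hQ, pol_smul_left hQ]
  rw [polar_self' hQ]
  have : (f x a - f x a / Q a * (2 * Q a)) / Q a = - (f x a / Q a) := by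
    field_simp
    ring
  rw [this]
  (module)

/-- Every isometry can be corrected into `EG` by reflections in a set representing all nonzero
values. -/
theorem levi_lift [Fintype F] (hn : 9 ≤ Fintype.card ι) (B : Set V) (hB0 : ∀ b ∈ B, Q b ≠ 0)
    (hB : ∀ c, c ≠ 0 → ∃ b ∈ B, Q b = c) {g : GL ι F} (hg : g ∈ Cfsg.isometryGroup F Q) :
    ∃ k : GL ι F, k ∈ Cfsg.isometryGroup F Q ∧ (∀ x, (∀ b ∈ B, f x b = 0) → act k x = x) ∧ g * k ∈ EG hQ := by
  let R : Subgroup (GL ι F) := Subgroup.closure (rf hQ '' B)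
  have hR : ∀ k ∈ R, k ∈ Cfsg.isometryGroup F Q ∧ (∀ x, (∀ b ∈ B, f x b = 0) → act k x = x) := by
    intro k hk
    induction hk using Subgroup.closure_induction with
    | mem k hk =>
      obtain ⟨b, hb, rfl⟩ := hk
      refine ⟨rf_mem_iso hQ b, fun x hx => ?_⟩
      rw [act_rf hQ (hB0 b hb), hx b hb]
      simp
    | one =>
      refine ⟨one_mem _, fun x _ => ?_⟩
      rw [map_one]
      rfl
    | mul a b _ _ ih1 ih2 =>
      refine ⟨mul_mem ih1.1 ih2.1, fun x hx => ?_⟩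
      rw [map_mul, LinearEquiv.mul_apply, ih2.2 x hx, ih1.2 x hx]
    | inv a _ ih =>
      refine ⟨inv_mem ih.1, fun x hx => ?_⟩
      have := ih.2 x hx
      rw [← this, act_inv_act, this]
  have hV : finrank F V = Fintype.card ι := by simp
  have hmem : g ∈ Subgroup.closure (GenS hQ) := iso_mem_closure hQ (Fintype.card ι) g hg (by omega)
  suffices h : ∃ k ∈ R, g * k ∈ EG hQ by
    obtain ⟨k, hk, hgk⟩ := h
    exact ⟨k, (hR k hk).1, (hR k hk).2, hgk⟩
  clear hg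
  induction hmem using Subgroup.closure_induction with
  | mem g hg =>
    rcases hg with ⟨a, ha, rfl⟩ | ⟨a, w, ha, haw, rfl⟩
    · obtain ⟨b, hb, hba⟩ := hB (Q a) ha
      have hb0 := hB0 b hb
      obtain ⟨h, hh, hha⟩ := exists_EG_trans hQ hn hba hb0
      refine ⟨rf hQ b, Subgroup.subset_closure ⟨b, hb, rfl⟩, ?_⟩
      have hiso := EG_le_iso hQ hh
      have e : rf hQ a = h * rf hQ b * h⁻¹ := by
        rw [conj_rf hQ hiso hb0, hha]
      have e2 : rf hQ a * rf hQ b = h * (rf hQ b * h⁻¹ * (rf hQ b)⁻¹) := by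
        rw [e]
        have hs := rf_sq hQ hb0
        have hinv : (rf hQ b)⁻¹ = rf hQ b := inv_eq_of_mul_eq_one_left hs
        rw [hinv]
        group
      rw [e2]
      exact mul_mem hh (EG_conj hQ (rf_mem_iso hQ b) (inv_mem hh))
    · refine ⟨1, one_mem _, ?_⟩
      rw [mul_one]
      exact sg_mem_EG hQ ha haw
  | one =>
    exact ⟨1, one_mem _, by simp [one_mem]⟩
  | mul a b ha' hb' ih1 ih2 =>
    obtain ⟨k₁, hk₁, h1⟩ := ih1
    obtain ⟨k₂, hk₂, h2⟩ := ih2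
    refine ⟨k₂ * k₁, mul_mem hk₂ hk₁, ?_⟩
    have e : a * b * (k₂ * k₁) = (a * (b * k₂) * a⁻¹) * (a * k₁) := by group
    rw [e]
    exact mul_mem (EG_conj hQ (GenS_le_iso hQ ha') h2) h1
  | inv a ha' ih =>
    obtain ⟨k, hk, h1⟩ := ih
    refine ⟨k⁻¹, inv_mem hk, ?_⟩
    have e : a⁻¹ * k⁻¹ = (k * (a * k) * k⁻¹)⁻¹ := by group
    rw [e]
    exact inv_mem (EG_conj hQ (hR k hk).1 h1)

end Cfsg.Agent.Lib.Geo
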