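import Mathlib
import Cfsg.Agent.Lib.Geo.OmegaTools

set_option autoImplicit false

/-! Level sets of a quadratic form span a nondegenerate subspace. -/

namespace Cfsg.Agent.Lib.Geo

open scoped MatrixGroups Matrix commutatorElement
open Module

variable {ι : Type} [Fintype ι] [DecidableEq ι] {F : Type*} [Field F] [Fintype F]

local notation "V" => (ι → F)

variable {Q : (ι → F) → F} (hQ : Cfsg.Geo.IsNondegenerateQuadraticForm Q)

local notation "f" => QuadraticMap.polar Q

/-- in a field with at most three elements and two equal to zero every nonzero element is one -/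
theorem eq_one_of_small (h2 : (2 : F) = 0) (hq : Fintype.card F ≤ 3) {x : F} (hx : x ≠ 0) : x = 1 := by
  classical
  by_contra h1
  have h3 : ({0, 1, x, x + 1} : Finset F).card = 4 := by
    have e1 : (x + 1) ≠ 0 := by
      intro h
      apply h1
      linear_combination h - h2
    have e2 : (x + 1) ≠ 1 := fun h => hx (add_eq_right.1 h)
    have e3 : (x + 1) ≠ x := fun h => one_ne_zero (add_eq_left.1 h)
    rw [Finset.card_insert_of_notMem, Finset.card_insert_of_notMem, Finset.card_insert_of_notMem,
      Finset.card_singleton]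
    · simp [e3.symm]
    · simp [Ne.symm h1, e2.symm]
    · simp [hx.symm, e1.symm]
  have := Finset.card_le_univ ({0, 1, x, x + 1} : Finset F)
  omega

include hQ in
theorem level_span {W Z : Submodule F V} (hW : ∀ w ∈ W, w ≠ 0 → ∃ x ∈ W, f x w ≠ 0) {z : V}
    (hzW : z ∈ W) (hz0 : z ≠ 0) (hzZ : z ∈ Z) (hZ : ∀ x ∈ W, x ≠ 0 → Q x = Q z → x ∈ Z)
    (hex : ¬ (Fintype.card F ≤ 3 ∧ finrank F W = 2 ∧ ∃ s ∈ W, s ≠ 0 ∧ Q s = 0)) : W ≤ Z := by
  classical
  set hf := sform_of_quad hQ with hhf
  have refl : ∀ a ∈ W, Q a ≠ 0 → f z a ≠ 0 → a ∈ Z := by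
    intro a ha ha0 hza
    have h1 : act (rf hQ a) z = z - (f z a / Q a) • a := act_rf hQ ha0 z
    have h2 : act (rf hQ a) z ∈ Z := by
      apply hZ
      · rw [h1]
        exact W.sub_mem hzW (W.smul_mem _ ha)
      · exact fun h => hz0 ((act _).map_eq_zero_iff.1 h)
      · exact mem_iso.1 (rf_mem_iso hQ a) z
    have h3 : (f z a / Q a) • a ∈ Z := by
      have := Z.sub_mem hzZ h2
      rwa [h1, sub_sub_cancel] at this
    exact (Z.smul_mem_iff (div_ne_zero hza ha0)).1 h3
  have key : ∀ y ∈ W, f z y ≠ 0 → y ∈ Z := by
    intro y hy hzy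
    by_cases hQy : Q y = 0
    swap
    · exact refl y hy hQy hzy
    have hyz : f y z = f z y := pol_comm' _ _
    by_cases hQz : Q z = 0
    · have h1 : y + z ∈ Z := by
        refine refl _ (W.add_mem hy hzW) ?_ ?_
        · rw [Q_add' (Q := Q), hQy, hQz, hyz]
          simpa using hzy
        · rw [pol_add_right hQ, pol_self_of hQ hQz, add_zero]
          exact hzy
      have := Z.sub_mem h1 hzZ
      rwa [add_sub_cancel_right] at this
    by_cases hq : 4 ≤ Fintype.card F
    · -- a suitable multiple of `z`
      obtain ⟨t, ht⟩ : ∃ t : F, t ∉ ({0, - f y z / Q z, - f y z / (2 * Q z)} : Finset F) := by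
        by_contra hcon
        push Not at hcon
        have h1 : (Finset.univ : Finset F) ⊆ {0, - f y z / Q z, - f y z / (2 * Q z)} :=
          fun x _ => hcon x
        have h2 := Finset.card_le_card h1
        have h3 : ({0, - f y z / Q z, - f y z / (2 * Q z)} : Finset F).card ≤ 3 := Finset.card_le_three
        rw [Finset.card_univ] at h2
        omega
      simp only [Finset.mem_insert, Finset.mem_singleton, not_or] at ht
      obtain ⟨ht0, ht1, ht2⟩ := ht
      have hyz0 : f y z ≠ 0 := by rw [hyz]; exact hzy
      have h1 : y + t • z ∈ Z := by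
        refine refl _ (W.add_mem hy (W.smul_mem _ hzW)) ?_ ?_
        · rw [Q_add' (Q := Q), Q_smul' hQ, hQy, pol_smul_right hQ]
          have e : 0 + t * t * Q z + t * f y z = t * (f y z + t * Q z) := by ring
          rw [e]
          refine mul_ne_zero ht0 fun h => ht1 ?_
          field_simp
          linear_combination h
        · rw [pol_add_right hQ, pol_smul_right hQ, polar_self' hQ, ← hyz]
          intro h
          by_cases h2 : (2 : F) = 0
          · rw [h2] at h
            apply hyz0
            linear_combination h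
          · apply ht2
            field_simp
            linear_combination h
      have := Z.sub_mem h1 (Z.smul_mem t hzZ)
      rwa [add_sub_cancel_right] at this
    -- small fields
    have hq3 : Fintype.card F ≤ 3 := by omega
    have hy0 : y ≠ 0 := by
      rintro rfl
      exact hzy (pol_zero_right hQ z)
    have hdim : finrank F W ≠ 2 := fun h => hex ⟨hq3, h, y, hy, hy0, hQy⟩
    have hind : ∀ c : F, y ≠ c • z := by
      rintro c rfl
      rw [Q_smul' hQ] at hQy
      have hc : c = 0 := by
        by_contra hc
        exact (mul_ne_zero (mul_ne_zero hc hc) hQz) hQy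
      rw [hc, zero_smul] at hy0
      exact hy0 rfl
    -- the orthogonal complement of the plane inside `W`
    have hdim3 : 3 ≤ finrank F W := by
      have h1 : LinearIndependent F ![z, y] := by
        rw [LinearIndependent.pair_iff]
        intro s t hst
        have ht : t = 0 := by
          by_contra ht
          apply hind (-s / t)
          have : t • y = - (s • z) := by
            rw [add_comm] at hst
            exact eq_neg_of_add_eq_zero_left hst
          rw [div_eq_inv_mul, mul_smul, neg_smul, ← this, smul_smul, inv_mul_cancel₀ ht, one_smul]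
        refine ⟨?_, ht⟩
        rw [ht, zero_smul, add_zero] at hst
        exact (smul_eq_zero.1 hst).resolve_right hz0
      have h2 : finrank F (Submodule.span F (Set.range ![z, y])) = 2 := by
        rw [finrank_span_eq_card h1]
        simp
      have h3 : Submodule.span F (Set.range ![z, y]) ≤ W := by
        rw [Submodule.span_le]
        rintro _ ⟨i, rfl⟩
        fin_cases i
        · exact hzW
        · exact hy
      have h4 := Submodule.finrank_mono h3
      omega
    set C := W ⊓ cutL [hf.lf y, hf.lf z] with hC
    have hCdim := finrank_inf_cut W [hf.lf y, hf.lf z]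
    simp only [List.length_cons, List.length_nil] at hCdim
    have hCmem : ∀ {u : V}, u ∈ C → u ∈ W ∧ f u y = 0 ∧ f u z = 0 := by
      intro u hu
      have h1 := mem_cutL.1 hu.2
      exact ⟨hu.1, h1 (hf.lf y) (by simp), h1 (hf.lf z) (by simp)⟩
    have hCne : C ≠ ⊥ := by
      intro h0
      rw [← hC, h0, finrank_bot] at hCdim
      omega
    obtain ⟨u₀, hu₀, hu₀0⟩ := Submodule.exists_mem_ne_zero_of_ne_bot hCne
    -- some vector of `C` is not singular
    obtain ⟨u, hu, hQu⟩ : ∃ u ∈ C, Q u ≠ 0 := by
      by_contra hcon
      push Not at hcon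
      obtain ⟨v, hv, hvu⟩ := hW u₀ (hCmem hu₀).1 hu₀0
      set κ := f y z with hκ
      have hκ0 : κ ≠ 0 := by rw [hyz]; exact hzy
      set β := f v y / κ with hβ
      set α := (f v z - β * (2 * Q z)) / κ with hα
      set v' := v - α • y - β • z with hv'
      have hyy : f y y = 0 := pol_self_of hQ hQy
      have h1 : f v' y = 0 := by
        rw [hv', pol_sub_left hQ, pol_sub_left hQ, pol_smul_left hQ, pol_smul_left hQ, hyy, pol_comm' z y, hβ]
        field_simp
        ring
      have h2 : f v' z = 0 := by
        rw [hv', pol_sub_left hQ, pol_sub_left hQ, pol_smul_left hQ, pol_smul_left hQ, polar_self' hQ z, hα]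
        field_simp
        ring
      have hv'C : v' ∈ C := by
        refine ⟨W.sub_mem (W.sub_mem hv (W.smul_mem _ hy)) (W.smul_mem _ hzW), mem_cutL.2 ?_⟩
        intro l hl
        simp only [List.mem_cons, List.not_mem_nil, or_false] at hl
        rcases hl with rfl | rfl
        · exact h1
        · exact h2
      have h3 : f v' u₀ = f v u₀ := by
        have h4 := hCmem hu₀
        rw [hv', pol_sub_left hQ, pol_sub_left hQ, pol_smul_left hQ, pol_smul_left hQ, pol_comm' y u₀,
          pol_comm' z u₀, h4.2.1, h4.2.2]
        ring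
      apply hvu
      rw [← h3]
      have h5 := hcon _ (C.add_mem hv'C hu₀)
      rw [Q_add' (Q := Q), hcon _ hv'C, hcon _ hu₀] at h5
      simpa using h5
    have huC := hCmem hu
    have hzu : f z u = 0 := by rw [pol_comm']; exact huC.2.2
    have hyu : f y u = 0 := by rw [pol_comm']; exact huC.2.1
    have h1 : y + u ∈ Z := by
      refine refl _ (W.add_mem hy huC.1) ?_ ?_
      · rw [Q_add' (Q := Q), hQy, hyu]
        simpa using hQu
      · rw [pol_add_right hQ, hzu, add_zero]
        exact hzy
    by_cases h2 : (2 : F) = 0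
    · have h3 : Q u = Q z := by
        rw [eq_one_of_small h2 hq3 hQu, eq_one_of_small h2 hq3 hQz]
      have hu0 : u ≠ 0 := by
        rintro rfl
        exact hQu (Q_zero' hQ)
      have := Z.sub_mem h1 (hZ u huC.1 hu0 h3)
      rwa [add_sub_cancel_right] at this
    · have h3 : y - u ∈ Z := by
        refine refl _ (W.sub_mem hy huC.1) ?_ ?_
        · rw [Q_sub hQ, hQy, hyu]
          simpa using hQu
        · rw [pol_sub_right hQ, hzu, sub_zero]
          exact hzy
      have h4 := Z.add_mem h1 h3
      have h5 : y + u + (y - u) = (2 : F) • y := by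
        rw [two_smul]
        abel
      rw [h5] at h4
      exact (Z.smul_mem_iff h2).1 h4
  -- general vectors
  intro v hv
  obtain ⟨y₀, hy₀, hy₀z⟩ := hW z hzW hz0
  have hzy₀ : f z y₀ ≠ 0 := by rw [pol_comm']; exact hy₀z
  by_cases h1 : f z v = 0
  · have h2 : v + y₀ ∈ Z := key _ (W.add_mem hv hy₀) (by rw [pol_add_right hQ, h1, zero_add]; exact hzy₀)
    have := Z.sub_mem h2 (key y₀ hy₀ hzy₀)
    rwa [add_sub_cancel_right] at this
  · exact key v hv h1

end Cfsg.Agent.Lib.Geo
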