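import Mathlib
import Cfsg.Agent.Lib.Geo.OmegaLevel

set_option autoImplicit false

/-! The stabilizer in `Ω` of a nondegenerate subspace. -/

namespace Cfsg.Agent.Lib.Geo

open scoped MatrixGroups Matrix commutatorElement
open Module

variable {ι : Type} [Fintype ι] [DecidableEq ι] {F : Type*} [Field F] [Fintype F]

local notation "V" => (ι → F)

variable {Q : (ι → F) → F}

local notation "f" => QuadraticMap.polar Q

/-- the orthogonal complement with respect to the polar form -/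
noncomputable abbrev qperp (hQ : Cfsg.Geo.IsNondegenerateQuadraticForm Q) (W : Submodule F V) : Submodule F V :=
  (sform_of_quad hQ).lperp W

/-- The data of the situation. -/
structure OPair (hQ : Cfsg.Geo.IsNondegenerateQuadraticForm Q) (W : Submodule F (ι → F))
    (M : Subgroup (GL ι F)) : Prop where
  hc : 13 ≤ Fintype.card ι
  hW : ∀ w ∈ W, w ≠ 0 → ∃ x ∈ W, QuadraticMap.polar Q x w ≠ 0
  hdY : 7 ≤ finrank F (qperp hQ W)
  hMO : M ≤ Cfsg.Geo.omegaGL Q
  hPM : Cfsg.Geo.subspaceStabilizer W ⊓ Cfsg.Geo.omegaGL Q ≤ M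

namespace OPair

variable {hQ : Cfsg.Geo.IsNondegenerateQuadraticForm Q} {W : Submodule F (ι → F)} {M : Subgroup (GL ι F)}

theorem hn9 (P : OPair hQ W M) : 9 ≤ Fintype.card ι := by
  have := P.hc
  omega

theorem hMI (P : OPair hQ W M) : M ≤ Cfsg.isometryGroup F Q := P.hMO.trans omega_le_iso

theorem orth_YW (_ : OPair hQ W M) {w z : V} (h1 : w ∈ W) (h2 : z ∈ qperp hQ W) : f z w = 0 := h2 w h1

theorem orth_WY (_ : OPair hQ W M) {w z : V} (h1 : w ∈ W) (h2 : z ∈ qperp hQ W) : f w z = 0 := by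
  rw [pol_comm']
  exact h2 w h1

theorem inf_zero (P : OPair hQ W M) {x : V} (h1 : x ∈ W) (h2 : x ∈ qperp hQ W) : x = 0 := by
  by_contra h0
  obtain ⟨y, hy, hxy⟩ := P.hW x h1 h0
  apply hxy
  rw [pol_comm']
  exact h2 y hy

theorem compl (P : OPair hQ W M) (x : V) : ∃ w ∈ W, ∃ z ∈ qperp hQ W, x = w + z := by
  have hd : Disjoint W (qperp hQ W) := by
    rw [Submodule.disjoint_def]
    intro y h1 h2
    exact P.inf_zero h1 h2
  have h1 := Submodule.finrank_sup_add_finrank_inf_eq W (qperp hQ W)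
  have h2 : finrank F (qperp hQ W) + finrank F W = Fintype.card ι := (sform_of_quad hQ).finrank_lperp W
  rw [hd.eq_bot, finrank_bot, add_zero] at h1
  have h3 : W ⊔ qperp hQ W = ⊤ := by
    apply Submodule.eq_top_of_finrank_eq
    rw [h1]
    simp
    omega
  have : x ∈ W ⊔ qperp hQ W := by rw [h3]; trivial
  obtain ⟨w, hw, z, hz, rfl⟩ := Submodule.mem_sup.1 this
  exact ⟨w, hw, z, hz, rfl⟩

theorem hY (P : OPair hQ W M) : ∀ y ∈ qperp hQ W, y ≠ 0 → ∃ x ∈ qperp hQ W, f x y ≠ 0 := by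
  intro y hy h0
  obtain ⟨x, hx⟩ := (sform_of_quad hQ).nd y h0
  obtain ⟨w, hw, z, hz, rfl⟩ := P.compl x
  refine ⟨z, hz, fun h => hx ?_⟩
  rw [pol_add_left hQ, h, add_zero]
  exact P.orth_WY hw hy

theorem perp_perp (_ : OPair hQ W M) : qperp hQ (qperp hQ W) = W := (sform_of_quad hQ).lperp_lperp W

theorem mem_W_of (P : OPair hQ W M) {x : V} (h : ∀ y ∈ qperp hQ W, f x y = 0) : x ∈ W := by
  rw [← P.perp_perp]
  exact h

theorem sgY (P : OPair hQ W M) {d y : V} (hd : d ∈ qperp hQ W) (hy : y ∈ qperp hQ W) (hQd : Q d = 0)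
    (hdy : f d y = 0) : sg hQ d y ∈ M := by
  refine P.hPM ⟨mem_stab_of_forall fun x hx => ?_, sg_mem_omega hQ P.hn9 hQd hdy⟩
  rw [sg_fix hQd hdy (P.orth_WY hx hd) (P.orth_WY hx hy)]
  exact hx

theorem sgW (P : OPair hQ W M) {d y : V} (hd : d ∈ W) (hy : y ∈ W) (hQd : Q d = 0)
    (hdy : f d y = 0) : sg hQ d y ∈ M := by
  refine P.hPM ⟨mem_stab_of_forall fun x hx => ?_, sg_mem_omega hQ P.hn9 hQd hdy⟩
  rw [act_sg hQ hQd hdy]
  exact W.sub_mem (W.sub_mem (W.add_mem hx (W.smul_mem _ hy)) (W.smul_mem _ hd)) (W.smul_mem _ hd)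

/-- lifting an isometry stabilizing `W` to an element of the group `H` with the same effect on `W` and
on a singular vector of the complement. -/
theorem levi_H (P : OPair hQ W M) {d : V} (hd : d ∈ qperp hQ W) {g : GL ι F} (hg : g ∈ Cfsg.isometryGroup F Q)
    (hgW : ∀ w ∈ W, act g w ∈ W) :
    ∃ h ∈ Cfsg.Geo.subspaceStabilizer W ⊓ Cfsg.Geo.omegaGL Q, (∀ w ∈ W, act h w = act g w) ∧ act h d = act g d := by
  set hf := sform_of_quad hQ with hhf
  let B : Set V := {b | b ∈ qperp hQ W ∧ f b d = 0 ∧ Q b ≠ 0}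
  obtain ⟨k, hk, hk1, hk2⟩ := levi_lift hQ P.hn9 B (fun b hb => hb.2.2) (by
    intro c hc
    obtain ⟨b, hb, hb1, hb2⟩ := solve_Q_in hQ (qperp hQ W) P.hY [hf.lf d]
      (by simp only [List.length_cons, List.length_nil]; have := P.hdY; omega) (Submodule.zero_mem _) c
    have h1 := hb1 (hf.lf d) (by simp)
    simp only [SForm.lf_apply] at h1
    refine ⟨b, ⟨hb, ?_, by rwa [hb2]⟩, hb2⟩
    rw [h1, pol_zero_left hQ]) hg
  have hkW : ∀ w ∈ W, act k w = w := fun w hw => hk1 w fun b hb => P.orth_WY hw hb.1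
  have hkd : act k d = d := hk1 d fun b hb => by rw [pol_comm']; exact hb.2.1
  refine ⟨g * k, ⟨mem_stab_of_forall fun x hx => ?_, ?_⟩, fun w hw => ?_, ?_⟩
  · rw [map_mul, LinearEquiv.mul_apply, hkW x hx]
    exact hgW x hx
  · rw [omega_eq_EG hQ P.hn9]
    exact hk2
  · rw [map_mul, LinearEquiv.mul_apply, hkW w hw]
  · rw [map_mul, LinearEquiv.mul_apply, hkd]

/-- Once a mixed element exists with centre in the complement, all of them exist. -/
theorem lam_full (P : OPair hQ W M) {d z : V} (hd : d ∈ qperp hQ W) (hQd : Q d = 0) (hd0 : d ≠ 0)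
    (hz : z ∈ W) (hz0 : z ≠ 0) (hS : sg hQ d z ∈ M)
    (hex : ¬ (Fintype.card F ≤ 3 ∧ finrank F W = 2 ∧ ∃ s ∈ W, s ≠ 0 ∧ Q s = 0)) :
    ∀ w ∈ W, sg hQ d w ∈ M := by
  have hdW : ∀ w ∈ W, f d w = 0 := fun w hw => hd w hw
  have hdnW : d ∉ W := fun h => hd0 (P.inf_zero h hd)
  have hconj : ∀ {h : GL ι F} {w : V}, h ∈ Cfsg.Geo.subspaceStabilizer W ⊓ Cfsg.Geo.omegaGL Q → w ∈ W →
      sg hQ d w ∈ M → sg hQ (act h d) (act h w) ∈ M := by
    intro h w hh hw hm
    have hiso := omega_le_iso hh.2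
    rw [← conj_sg hQ hiso hQd (hdW w hw)]
    have hhM := P.hPM hh
    exact M.mul_mem (M.mul_mem hhM hm) (M.inv_mem hhM)
  let Z : Submodule F V :=
    { carrier := {w | w ∈ W ∧ sg hQ d w ∈ M}
      add_mem' := by
        rintro a b ⟨ha, ha'⟩ ⟨hb, hb'⟩
        refine ⟨W.add_mem ha hb, ?_⟩
        rw [← sg_add hQ hQd (hdW a ha) (hdW b hb)]
        exact M.mul_mem ha' hb'
      zero_mem' := by
        refine ⟨W.zero_mem, ?_⟩
        rw [sg_zero hQ hQd]
        exact M.one_mem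
      smul_mem' := by
        rintro c w ⟨hw, hw'⟩
        refine ⟨W.smul_mem _ hw, ?_⟩
        by_cases hc : c = 0
        · rw [hc, zero_smul, sg_zero hQ hQd]
          exact M.one_mem
        obtain ⟨g, hg, hg1, hg2⟩ := witt_step_Q hQ W (x := d) (y := c • d) hdnW
          (fun h => hdnW ((W.smul_mem_iff hc).1 h))
          (by rw [Q_smul' hQ, hQd, mul_zero])
          (fun a ha => by rw [pol_smul_right hQ, P.orth_WY ha hd, mul_zero])
        obtain ⟨h, hh, hh1, hh2⟩ := P.levi_H hd hg (fun a ha => by rw [hg1 a ha]; exact ha)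
        have h3 := hconj hh hw hw'
        rw [hh2, hh1 w hw, hg1 w hw, hg2, sg_smul_left hQ hQd c (hdW w hw)] at h3
        exact h3 }
  have hZ : W ≤ Z := by
    refine level_span hQ P.hW hz hz0 ⟨hz, hS⟩ (fun x hx hx0 hxz => ?_) hex
    refine ⟨hx, ?_⟩
    obtain ⟨g, hg, hg1, hg2⟩ := witt_step_Q hQ (qperp hQ W) (x := z) (y := x)
      (fun h => hz0 (P.inf_zero hz h)) (fun h => hx0 (P.inf_zero hx h)) hxz.symm
      (fun a ha => by rw [P.orth_YW hz ha, P.orth_YW hx ha])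
    have hgW : ∀ w ∈ W, act g w ∈ W := by
      intro w hw
      apply P.mem_W_of
      intro y hy
      have := iso_polar hg w y
      rw [hg1 y hy, P.orth_WY hw hy] at this
      exact this
    obtain ⟨h, hh, hh1, hh2⟩ := P.levi_H hd hg hgW
    have h3 := hconj hh hz hS
    rw [hh2, hh1 z hz, hg1 d hd, hg2] at h3
    exact h3
  exact fun w hw => (hZ hw).2

/-- a mixed element with centre in the complement yields all of `Ω`. -/
theorem omega_le_of_mixed (P : OPair hQ W M) {d z : V} (hd : d ∈ qperp hQ W) (hQd : Q d = 0) (hd0 : d ≠ 0)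
    (hz : z ∈ W) (hz0 : z ≠ 0) (hS : sg hQ d z ∈ M)
    (hex : ¬ (Fintype.card F ≤ 3 ∧ finrank F W = 2 ∧ ∃ s ∈ W, s ≠ 0 ∧ Q s = 0)) :
    Cfsg.Geo.omegaGL Q ≤ M := by
  set hf := sform_of_quad hQ with hhf
  have hall := P.lam_full hd hQd hd0 hz hz0 hS hex
  have hgood : GoodV hQ M d := by
    refine ⟨hQd, fun v hv => ?_⟩
    obtain ⟨w, hw, y, hy, rfl⟩ := P.compl v
    have h1 : f d w = 0 := hd w hw
    have h2 : f d y = 0 := by
      rw [pol_add_right hQ, h1, zero_add] at hv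
      exact hv
    rw [← sg_add hQ hQd h1 h2]
    exact M.mul_mem (hall w hw) (P.sgY hd hy hQd h2)
  -- a second good vector
  obtain ⟨c, hc, hQc, hcd, -⟩ := singular_nonorth_in hQ (qperp hQ W) P.hY P.hdY hd hd hd0 hd0
  obtain ⟨x, hx, hx1, hQx⟩ := solve_Q_in hQ (qperp hQ W) P.hY [hf.lf c]
    (by simp only [List.length_cons, List.length_nil]; have := P.hdY; omega) (Submodule.zero_mem _) 1
  have hxc : f x c = 0 := by
    have := hx1 (hf.lf c) (by simp)
    simp only [SForm.lf_apply] at this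
    rw [this, pol_zero_left hQ]
  have hcx : f c x = 0 := by rw [pol_comm']; exact hxc
  have hm := P.sgY hc hx hQc hcx
  have h5 := hgood.act P.hMI hm
  refine omega_le_of_two_good P.hn9 P.hMI hgood h5 ?_
  rw [polar_act_sg hQc hcx, pol_self_of hQ hQd, hQx, pol_comm' d c]
  simpa using hcd

/-- A mixed element with centre in `W` gives one with centre in the complement. -/
theorem mixed_of_W (P : OPair hQ W M) {d y : V} (hd : d ∈ W) (hQd : Q d = 0) (hd0 : d ≠ 0)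
    (hy : y ∈ qperp hQ W) (hy0 : y ≠ 0) (hS : sg hQ d y ∈ M) :
    ∃ e ∈ qperp hQ W, Q e = 0 ∧ e ≠ 0 ∧ ∃ z ∈ W, z ≠ 0 ∧ sg hQ e z ∈ M := by
  set hf := sform_of_quad hQ with hhf
  have hdy : f d y = 0 := P.orth_WY hd hy
  by_cases hQy : Q y = 0
  · refine ⟨y, hy, hQy, hy0, -d, W.neg_mem hd, neg_ne_zero.2 hd0, ?_⟩
    rw [← sg_swap hQ hQd hQy hdy]
    exact hS
  obtain ⟨e, he, he0, hQe⟩ := hiso_quad hQ (qperp hQ W ⊓ cutL [hf.lf y]) (by
    have := finrank_inf_cut (qperp hQ W) [hf.lf y]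
    simp only [List.length_cons, List.length_nil] at this
    have := P.hdY
    omega)
  have heY := he.1
  have hey : f e y = 0 := (mem_cutL.1 he.2) (hf.lf y) (by simp)
  have hye : f y e = 0 := by rw [pol_comm']; exact hey
  obtain ⟨v, hvY, hv1, hv2⟩ := two_values_in hQ (qperp hQ W) P.hY heY hy he0 (by
    rintro c rfl
    apply hQy
    rw [Q_smul' hQ, hQe, mul_zero]) 0 1
  have hev : f e v = 0 := by rw [pol_comm']; exact hv1
  have hm := P.sgY heY hvY hQe hev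
  have hiso := sg_mem_iso hQ e v
  have h1 := conj_sg hQ hiso hQd hdy
  have hfd : act (sg hQ e v) d = d := sg_fix hQe hev (P.orth_WY hd heY) (P.orth_WY hd hvY)
  have hyv : f y v = 1 := by rw [pol_comm']; exact hv2
  have hfy : act (sg hQ e v) y = y - e := by
    rw [act_sg_orth hQ hQe hev hye, hyv, one_smul]
  rw [hfd, hfy] at h1
  have h2 : sg hQ d (y - e) ∈ M := by
    rw [← h1]
    exact M.mul_mem (M.mul_mem hm hS) (M.inv_mem hm)
  have hde : f d (-e) = 0 := by rw [pol_neg_right hQ, P.orth_WY hd heY, neg_zero]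
  have h3 : sg hQ d y * sg hQ d (-e) = sg hQ d (y - e) := by
    rw [sg_add hQ hQd hdy hde, sub_eq_add_neg]
  have h4 : sg hQ d (-e) ∈ M := by
    have : sg hQ d (-e) = (sg hQ d y)⁻¹ * sg hQ d (y - e) := by
      rw [← h3]
      group
    rw [this]
    exact M.mul_mem (M.inv_mem hS) h2
  have hQe' : Q (-e) = 0 := by rw [Q_neg hQ, hQe]
  rw [sg_swap hQ hQd hQe' hde] at h4
  exact ⟨-e, Submodule.neg_mem _ heY, hQe', neg_ne_zero.2 he0, -d, W.neg_mem hd, neg_ne_zero.2 hd0, h4⟩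

/-- Producing a mixed element from a group element outside `H`. -/
theorem exists_mixed (P : OPair hQ W M) {g : GL ι F} (hgM : g ∈ M) (hgW : g ∉ Cfsg.Geo.subspaceStabilizer W)
    (hnoswap : ¬ ∃ g ∈ Cfsg.isometryGroup F Q, ∀ y ∈ qperp hQ W, act g y ∈ W) :
    ∃ e ∈ qperp hQ W, Q e = 0 ∧ e ≠ 0 ∧ ∃ z ∈ W, z ≠ 0 ∧ sg hQ e z ∈ M := by
  set hf := sform_of_quad hQ with hhf
  set Y := qperp hQ W with hYdef
  have hgI := P.hMI hgM
  have hdY : 7 ≤ finrank F Y := P.hdY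
  -- a mixed image of a singular vector
  have hex : ∃ d₀ ∈ Y, Q d₀ = 0 ∧ ∃ w₀ ∈ W, ∃ y₀ ∈ Y, w₀ ≠ 0 ∧ y₀ ≠ 0 ∧ act g d₀ = w₀ + y₀ := by
    by_contra hcon
    push Not at hcon
    have himg : ∀ z ∈ Y, Q z = 0 → act g z ∈ W ∨ act g z ∈ Y := by
      intro z hz hzz
      obtain ⟨w, hw, y, hy, he⟩ := P.compl (act g z)
      by_cases hw0 : w = 0
      · right
        rw [he, hw0, zero_add]
        exact hy
      · by_cases hy0 : y = 0
        · left
          rw [he, hy0, add_zero]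
          exact hw
        · exact absurd he (hcon z hz hzz w hw y hy hw0 hy0)
    have hspan : ∀ (T : Submodule F V), (∀ z ∈ Y, Q z = 0 → act g z ∈ T) → ∀ x ∈ Y, act g x ∈ T := by
      intro T hT x hx
      obtain ⟨p, hp, hp1, hp2⟩ := iso_decomp_Q_in hQ Y P.hY (by omega) hx
      have := T.add_mem (hT p hp hp1) (hT (x - p) (Y.sub_mem hx hp) hp2)
      rwa [← map_add, add_sub_cancel] at this
    by_cases hall : ∀ z ∈ Y, Q z = 0 → act g z ∈ Y
    · -- `g` stabilizes `Y`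
      have h1 := hspan Y hall
      have h2 : ∀ x ∈ Y, act g⁻¹ x ∈ Y := by
        intro x hx
        have hst := mem_stab_of_forall h1
        exact ((mem_stab_iff.1 (Subgroup.inv_mem _ hst)) x).1 hx
      apply hgW
      apply mem_stab_of_forall
      intro w hw
      apply P.mem_W_of
      intro y hy
      have := iso_polar hgI w (act g⁻¹ y)
      rw [act_act_inv, P.orth_WY hw (h2 y hy)] at this
      exact this
    · push Not at hall
      obtain ⟨z₁, hz₁, hz₁z, hz₁Y⟩ := hall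
      have hz₁W : act g z₁ ∈ W := (himg z₁ hz₁ hz₁z).resolve_right hz₁Y
      have hz₁0 : z₁ ≠ 0 := by
        rintro rfl
        apply hz₁Y
        rw [map_zero]
        exact Y.zero_mem
      have h1 : ∀ z ∈ Y, Q z = 0 → act g z ∈ W := by
        intro z hz hzz
        by_cases hz0 : z = 0
        · rw [hz0, map_zero]
          exact W.zero_mem
        by_contra hzW
        have hzY : act g z ∈ Y := (himg z hz hzz).resolve_left hzW
        obtain ⟨y', hy', ht, h7, h8⟩ := singular_nonorth_in hQ Y P.hY hdY hz₁ hz hz₁0 hz0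
        rcases himg y' hy' ht with h9 | h9
        · apply h8
          have := iso_polar hgI y' z
          rw [P.orth_WY h9 hzY] at this
          exact this.symm
        · apply h7
          have := iso_polar hgI y' z₁
          rw [P.orth_YW hz₁W h9] at this
          exact this.symm
      exact hnoswap ⟨g, hgI, hspan W h1⟩
  obtain ⟨d₀, hd₀, hQd₀, w₀, hw₀, y₀, hy₀, hw₀0, hy₀0, hu⟩ := hex
  have hd₀0 : d₀ ≠ 0 := by
    rintro rfl
    rw [map_zero] at hu
    have : y₀ = -w₀ := by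
      rw [eq_neg_iff_add_eq_zero, add_comm]
      exact hu.symm
    rw [this] at hy₀
    exact hw₀0 (P.inf_zero hw₀ (by simpa using hy₀))
  -- a second singular vector
  obtain ⟨y', hy', hy'd⟩ := P.hY d₀ hd₀ hd₀0
  obtain ⟨b, hb, hb0, hQb⟩ := hiso_quad hQ (Y ⊓ cutL [hf.lf d₀, hf.lf y']) (by
    have := finrank_inf_cut Y [hf.lf d₀, hf.lf y']
    simp only [List.length_cons, List.length_nil] at this
    omega)
  have hbY := hb.1
  have hbd₀ : f b d₀ = 0 := (mem_cutL.1 hb.2) (hf.lf d₀) (by simp)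
  have hby' : f b y' = 0 := (mem_cutL.1 hb.2) (hf.lf y') (by simp)
  have hd₀b : f d₀ b = 0 := by rw [pol_comm']; exact hbd₀
  have hbn : ∀ c : F, b ≠ c • d₀ ∨ c = 0 := by
    intro c
    by_cases hc : c = 0
    · exact Or.inr hc
    left
    rintro rfl
    rw [pol_smul_left hQ] at hby'
    rcases mul_eq_zero.1 hby' with h | h
    · exact hc h
    · apply hy'd
      rw [pol_comm']
      exact h
  obtain ⟨w₁, hw₁, y₁, hy₁, hx⟩ := P.compl (act g b)
  have hsb : sg hQ (act g b) (act g d₀) ∈ M := by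
    rw [← conj_sg hQ hgI hQb hbd₀]
    exact M.mul_mem (M.mul_mem hgM (P.sgY hbY hd₀ hQb hbd₀)) (M.inv_mem hgM)
  by_cases hcase : ∀ c : F, y₁ ≠ c • y₀
  · -- the first case: commute with Siegel elements of the complement
    obtain ⟨v, hv, hv1, hv2⟩ := two_values_in hQ Y P.hY hy₀ hy₁ hy₀0 hcase 0 1
    obtain ⟨e₂, he₂, he₂1, hQe₂⟩ := solve_Q_in hQ Y P.hY [hf.lf y₀, hf.lf y₁]
      (by simp only [List.length_cons, List.length_nil]; omega) hv 0
    have he₂y₀ : f e₂ y₀ = 0 := by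
      have := he₂1 (hf.lf y₀) (by simp)
      simp only [SForm.lf_apply] at this
      rw [this, hv1]
    have he₂y₁ : f e₂ y₁ = 1 := by
      have := he₂1 (hf.lf y₁) (by simp)
      simp only [SForm.lf_apply] at this
      rw [this, hv2]
    obtain ⟨e₁, he₁, he₁0, hQe₁⟩ := hiso_quad hQ (Y ⊓ cutL [hf.lf y₀, hf.lf y₁, hf.lf e₂]) (by
      have := finrank_inf_cut Y [hf.lf y₀, hf.lf y₁, hf.lf e₂]
      simp only [List.length_cons, List.length_nil] at this
      omega)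
    have he₁Y := he₁.1
    have he₁y₀ : f e₁ y₀ = 0 := (mem_cutL.1 he₁.2) (hf.lf y₀) (by simp)
    have he₁y₁ : f e₁ y₁ = 0 := (mem_cutL.1 he₁.2) (hf.lf y₁) (by simp)
    have he₁e₂ : f e₁ e₂ = 0 := (mem_cutL.1 he₁.2) (hf.lf e₂) (by simp)
    have hE1 : f e₁ (act g b) = 0 := by
      rw [hx, pol_add_right hQ, he₁y₁, P.orth_YW hw₁ he₁Y, add_zero]
    have hE2 : f e₁ (act g d₀) = 0 := by
      rw [hu, pol_add_right hQ, he₁y₀, P.orth_YW hw₀ he₁Y, add_zero]
    have hE3 : f e₂ (act g d₀) = 0 := by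
      rw [hu, pol_add_right hQ, he₂y₀, P.orth_YW hw₀ he₂, add_zero]
    have hE4 : f (act g b) (act g d₀) = 0 := by rw [iso_polar hgI, hbd₀]
    have hE5 : f e₂ (act g b) = 1 := by
      rw [hx, pol_add_right hQ, he₂y₁, P.orth_YW hw₁ he₂, zero_add]
    have hQx : Q (act g b) = 0 := by rw [mem_iso.1 hgI, hQb]
    have hQu : Q (act g d₀) = 0 := by rw [mem_iso.1 hgI, hQd₀]
    have hc := comm_sg hQ hQe₁ hQe₂ hQx hQu he₁e₂ hE4 hE1 hE2 hE3
    rw [hE5] at hc
    have hm : sg hQ e₁ ((-1 : F) • act g d₀) ∈ M := by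
      rw [← hc, commutatorElement_def]
      have h1 := P.sgY he₁Y he₂ hQe₁ he₁e₂
      exact M.mul_mem (M.mul_mem (M.mul_mem h1 hsb) (M.inv_mem h1)) (M.inv_mem hsb)
    have h3 : (-1 : F) • act g d₀ = (-1 : F) • y₀ + (-1 : F) • w₀ := by
      rw [hu, smul_add, add_comm]
    have h4 : f e₁ ((-1 : F) • y₀) = 0 := by rw [pol_smul_right hQ, he₁y₀, mul_zero]
    have h5 : f e₁ ((-1 : F) • w₀) = 0 := by rw [pol_smul_right hQ, P.orth_YW hw₀ he₁Y, mul_zero]
    rw [h3, ← sg_add hQ hQe₁ h4 h5] at hm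
    have h6 := P.sgY he₁Y (Y.smul_mem _ hy₀) hQe₁ h4
    have h7 : sg hQ e₁ ((-1 : F) • w₀) ∈ M := (M.mul_mem_cancel_left h6).1 hm
    exact ⟨e₁, he₁Y, hQe₁, he₁0, (-1 : F) • w₀, W.smul_mem _ hw₀, by simpa using hw₀0, h7⟩
  · -- the second case: a singular vector of the complement is mapped into `W`
    push Not at hcase
    obtain ⟨c, hc⟩ := hcase
    set b₁ := b - c • d₀ with hb₁
    have hb₁Y : b₁ ∈ Y := Y.sub_mem hbY (Y.smul_mem _ hd₀)
    have hQb₁ : Q b₁ = 0 := by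
      rw [hb₁, Q_sub hQ, Q_smul' hQ, hQb, hQd₀, pol_smul_right hQ, hbd₀]
      ring
    have hb₁0 : b₁ ≠ 0 := by
      intro h
      rcases hbn c with h2 | h2
      · exact h2 (sub_eq_zero.1 h)
      · rw [hb₁, h2, zero_smul, sub_zero] at h
        exact hb0 h
    have hu₁ : act g b₁ = w₁ - c • w₀ := by
      rw [hb₁, map_sub, map_smul, hu, hx, hc, smul_add]
      abel
    have hu₁W : act g b₁ ∈ W := by
      rw [hu₁]
      exact W.sub_mem hw₁ (W.smul_mem _ hw₀)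
    have hu₁0 : act g b₁ ≠ 0 := fun h => hb₁0 ((act g).map_eq_zero_iff.1 h)
    have hb₁d₀ : f b₁ d₀ = 0 := by
      rw [hb₁, pol_sub_left hQ, pol_smul_left hQ, pol_self_of hQ hQd₀, hbd₀]
      ring
    have hsb₁ : sg hQ (act g b₁) (act g d₀) ∈ M := by
      rw [← conj_sg hQ hgI hQb₁ hb₁d₀]
      exact M.mul_mem (M.mul_mem hgM (P.sgY hb₁Y hd₀ hQb₁ hb₁d₀)) (M.inv_mem hgM)
    have hQu₁ : Q (act g b₁) = 0 := by rw [mem_iso.1 hgI, hQb₁]
    have h1 : f (act g b₁) (act g d₀) = 0 := by rw [iso_polar hgI, hb₁d₀]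
    have h2 : f (act g b₁) y₀ = 0 := P.orth_WY hu₁W hy₀
    have h3 : f (act g b₁) w₀ = 0 := by
      rw [hu, pol_add_right hQ, h2, add_zero] at h1
      exact h1
    rw [hu, ← sg_add hQ hQu₁ h3 h2] at hsb₁
    have h4 := P.sgW hu₁W hw₀ hQu₁ h3
    have h5 : sg hQ (act g b₁) y₀ ∈ M := (M.mul_mem_cancel_left h4).1 hsb₁
    exact P.mixed_of_W hu₁W hQu₁ hu₁0 hy₀ hy₀0 h5

end OPair

open OPair in
/-- The stabilizer in `Ω` of a nondegenerate subspace is maximal. -/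
theorem isMaximalIn_omega_stab_nondeg (hQ : Cfsg.Geo.IsNondegenerateQuadraticForm Q)
    (hn : 13 ≤ Fintype.card ι) {W : Submodule F (ι → F)} (hW0 : W ≠ ⊥)
    (hW : ∀ w ∈ W, w ≠ 0 → ∃ x ∈ W, QuadraticMap.polar Q x w ≠ 0)
    (hdY : 7 ≤ finrank F (qperp hQ W))
    (hnoswap : ¬ ∃ g ∈ Cfsg.isometryGroup F Q, ∀ y ∈ qperp hQ W, act g y ∈ W)
    (hex : ¬ (Fintype.card F ≤ 3 ∧ finrank F W = 2 ∧ ∃ s ∈ W, s ≠ 0 ∧ Q s = 0)) :
    Cfsg.Geo.IsMaximalIn (Cfsg.Geo.omegaGL Q) (Cfsg.Geo.subspaceStabilizer W ⊓ Cfsg.Geo.omegaGL Q) := by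
  have P₀ : OPair hQ W (Cfsg.Geo.omegaGL Q) := ⟨hn, hW, hdY, le_rfl, inf_le_right⟩
  refine ⟨lt_of_le_of_ne inf_le_right ?_, ?_⟩
  · intro heq
    obtain ⟨d, hd, hd0, hQd⟩ := hiso_quad hQ (qperp hQ W) (by omega)
    obtain ⟨w, hw, hw0⟩ := Submodule.exists_mem_ne_zero_of_ne_bot hW0
    obtain ⟨x, hx, hxw⟩ := hW w hw hw0
    have hdw : QuadraticMap.polar Q d w = 0 := hd w hw
    have h1 := sg_mem_omega hQ (by omega) hQd hdw
    rw [← heq] at h1
    have h2 := (mem_stab_iff.1 h1.1 x).1 hx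
    rw [act_sg_orth hQ hQd hdw (P₀.orth_WY hx hd)] at h2
    have h3 : QuadraticMap.polar Q x w • d ∈ W := by
      have := W.sub_mem hx h2
      rwa [sub_sub_cancel] at this
    have h4 : d ∈ W := (W.smul_mem_iff hxw).1 h3
    exact hd0 (P₀.inf_zero h4 hd)
  · intro M hHM hMO
    by_cases hMH : M ≤ Cfsg.Geo.subspaceStabilizer W ⊓ Cfsg.Geo.omegaGL Q
    · exact Or.inl (le_antisymm hMH hHM)
    right
    obtain ⟨g, hgM, hgH⟩ := SetLike.not_le_iff_exists.1 hMH
    have hgS : g ∉ Cfsg.Geo.subspaceStabilizer W := fun h => hgH ⟨h, hMO hgM⟩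
    have P : OPair hQ W M := ⟨hn, hW, hdY, hMO, hHM⟩
    obtain ⟨e, he, hQe, he0, z, hz, hz0, hS⟩ := P.exists_mixed hgM hgS hnoswap
    exact le_antisymm hMO (P.omega_le_of_mixed he hQe he0 hz hz0 hS hex)

end Cfsg.Agent.Lib.Geo
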