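import Mathlib
import Cfsg.Agent.Lib.Geo.OmegaNondeg

set_option autoImplicit false

/-! Consequences of the maximality of stabilizers of nondegenerate subspaces in `Ω`. -/

namespace Cfsg.Agent.Lib.Geo

open scoped MatrixGroups Matrix commutatorElement
open Module

variable {ι : Type} [Fintype ι] [DecidableEq ι] {F : Type*} [Field F] [Fintype F]

local notation "V" => (ι → F)

variable {Q : (ι → F) → F}

local notation "f" => QuadraticMap.polar Q

theorem qperp_perp (hQ : Cfsg.Geo.IsNondegenerateQuadraticForm Q) (W : Submodule F V) :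
    qperp hQ (qperp hQ W) = W := (sform_of_quad hQ).lperp_lperp W

theorem finrank_qperp (hQ : Cfsg.Geo.IsNondegenerateQuadraticForm Q) (W : Submodule F V) :
    finrank F (qperp hQ W) + finrank F W = Fintype.card ι := (sform_of_quad hQ).finrank_lperp W

theorem compl_of_nondeg (hQ : Cfsg.Geo.IsNondegenerateQuadraticForm Q) {W : Submodule F V}
    (hW : ∀ w ∈ W, w ≠ 0 → ∃ x ∈ W, f x w ≠ 0) (x : V) : ∃ w ∈ W, ∃ z ∈ qperp hQ W, x = w + z := by
  have hd : Disjoint W (qperp hQ W) := by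
    rw [Submodule.disjoint_def]
    intro y h1 h2
    by_contra h0
    obtain ⟨a, ha, hay⟩ := hW y h1 h0
    apply hay
    rw [pol_comm']
    exact h2 a ha
  have h1 := Submodule.finrank_sup_add_finrank_inf_eq W (qperp hQ W)
  have h2 := finrank_qperp hQ W
  rw [hd.eq_bot, finrank_bot, add_zero] at h1
  have h3 : W ⊔ qperp hQ W = ⊤ := by
    apply Submodule.eq_top_of_finrank_eq
    rw [h1]
    simp
    omega
  have : x ∈ W ⊔ qperp hQ W := by rw [h3]; trivial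
  obtain ⟨w, hw, z, hz, rfl⟩ := Submodule.mem_sup.1 this
  exact ⟨w, hw, z, hz, rfl⟩

theorem perp_nondeg (hQ : Cfsg.Geo.IsNondegenerateQuadraticForm Q) {W : Submodule F V}
    (hW : ∀ w ∈ W, w ≠ 0 → ∃ x ∈ W, f x w ≠ 0) :
    ∀ y ∈ qperp hQ W, y ≠ 0 → ∃ x ∈ qperp hQ W, f x y ≠ 0 := by
  intro y hy h0
  obtain ⟨x, hx⟩ := (sform_of_quad hQ).nd y h0
  obtain ⟨w, hw, z, hz, rfl⟩ := compl_of_nondeg hQ hW x
  refine ⟨z, hz, fun h => hx ?_⟩
  rw [pol_add_left hQ, h, add_zero, pol_comm']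
  exact hy w hw

theorem stab_perp {g : GL ι F} (hQ : Cfsg.Geo.IsNondegenerateQuadraticForm Q) (hg : g ∈ Cfsg.isometryGroup F Q)
    {W : Submodule F V} (hgW : g ∈ Cfsg.Geo.subspaceStabilizer W) :
    g ∈ Cfsg.Geo.subspaceStabilizer (qperp hQ W) := by
  refine mem_stab_of_forall fun y hy w hw => ?_
  have h1 : act g⁻¹ w ∈ W := (mem_stab_iff.1 (inv_mem hgW) w).1 hw
  have h2 := iso_polar hg y (act g⁻¹ w)
  rw [act_act_inv] at h2
  rw [h2]
  exact hy _ h1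

theorem stab_inf_perp (hQ : Cfsg.Geo.IsNondegenerateQuadraticForm Q) (W : Submodule F V) :
    Cfsg.Geo.subspaceStabilizer (qperp hQ W) ⊓ Cfsg.Geo.omegaGL Q
      = Cfsg.Geo.subspaceStabilizer W ⊓ Cfsg.Geo.omegaGL Q := by
  apply le_antisymm
  · rintro g ⟨h1, h2⟩
    refine ⟨?_, h2⟩
    have := stab_perp hQ (omega_le_iso h2) h1
    rwa [qperp_perp] at this
  · rintro g ⟨h1, h2⟩
    exact ⟨stab_perp hQ (omega_le_iso h2) h1, h2⟩

/-- The maximality of stabilizers of nondegenerate subspaces, whichever side is the big one. -/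
theorem isMaximalIn_omega_nondeg_sym (hQ : Cfsg.Geo.IsNondegenerateQuadraticForm Q)
    (hn : 13 ≤ Fintype.card ι) {W : Submodule F (ι → F)} (hW0 : W ≠ ⊥) (hW1 : W ≠ ⊤)
    (hW : ∀ w ∈ W, w ≠ 0 → ∃ x ∈ W, f x w ≠ 0)
    (hsw : finrank F W = finrank F (qperp hQ W) → ¬ ∃ g ∈ Cfsg.isometryGroup F Q, ∀ y ∈ qperp hQ W, act g y ∈ W)
    (hex : ¬ (Fintype.card F ≤ 3 ∧ finrank F W = 2 ∧ ∃ s ∈ W, s ≠ 0 ∧ Q s = 0))
    (hex' : ¬ (Fintype.card F ≤ 3 ∧ finrank F (qperp hQ W) = 2 ∧ ∃ s ∈ qperp hQ W, s ≠ 0 ∧ Q s = 0)) :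
    Cfsg.Geo.IsMaximalIn (Cfsg.Geo.omegaGL Q) (Cfsg.Geo.subspaceStabilizer W ⊓ Cfsg.Geo.omegaGL Q) := by
  have hdim := finrank_qperp hQ W
  have hnot : ∀ (A B : Submodule F V), finrank F B < finrank F A →
      ¬ ∃ g ∈ Cfsg.isometryGroup F Q, ∀ y ∈ A, act g y ∈ B := by
    rintro A B hAB ⟨g, -, hg⟩
    have h1 : A.map ((act g : V ≃ₗ[F] V) : V →ₗ[F] V) ≤ B := by
      rintro _ ⟨x, hx, rfl⟩
      exact hg x hx
    have h2 := Submodule.finrank_mono h1
    rw [LinearEquiv.finrank_map_eq] at h2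
    omega
  by_cases hle : finrank F W ≤ finrank F (qperp hQ W)
  · refine isMaximalIn_omega_stab_nondeg hQ hn hW0 hW (by omega) ?_ hex
    rcases eq_or_lt_of_le hle with h | h
    · exact hsw h
    · exact hnot _ _ h
  · push Not at hle
    rw [← stab_inf_perp hQ W]
    have hne : qperp hQ W ≠ ⊥ := by
      intro h
      rw [h, finrank_bot] at hdim
      apply hW1
      apply Submodule.eq_top_of_finrank_eq
      simp
      omega
    refine isMaximalIn_omega_stab_nondeg hQ hn hne (perp_nondeg hQ hW) ?_ ?_ hex'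
    · rw [qperp_perp]
      omega
    · rw [qperp_perp]
      exact hnot _ _ hle

theorem plus_plane {W : Submodule F V} (h2 : finrank F W = 2) {s : V} (hs : s ∈ W) (hs0 : s ≠ 0) (hQs : Q s = 0)
    (hQ : Cfsg.Geo.IsNondegenerateQuadraticForm Q) : Cfsg.Geo.IsPlusTypeOn Q W := by
  refine ⟨Submodule.span F {s}, ?_, ?_, ?_⟩
  · rwa [Submodule.span_singleton_le_iff_mem]
  · intro w hw
    obtain ⟨c, rfl⟩ := Submodule.mem_span_singleton.1 hw
    rw [Q_smul' hQ, hQs, mul_zero]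
  · rw [finrank_span_singleton hs0, h2]

/-- The exceptional clause as it appears in the statements. -/
theorem hex_of_clause (hQ : Cfsg.Geo.IsNondegenerateQuadraticForm Q) {W : Submodule F V}
    (hW : Cfsg.Geo.IsNondegenerateOn (QuadraticMap.polar Q) W)
    (hex : ¬ (Fintype.card F ≤ 3 ∧ (∃ U : Submodule F (ι → F), Module.finrank F U = 2 ∧
      Cfsg.Geo.IsNondegenerateOn (QuadraticMap.polar Q) U ∧ Cfsg.Geo.IsPlusTypeOn Q U ∧
      (U = W ∨ (Cfsg.Geo.AreOrthogonalFor (QuadraticMap.polar Q) U W ∧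
        Module.finrank F U + Module.finrank F W = Fintype.card ι))))) :
    (¬ (Fintype.card F ≤ 3 ∧ finrank F W = 2 ∧ ∃ s ∈ W, s ≠ 0 ∧ Q s = 0)) ∧
    (¬ (Fintype.card F ≤ 3 ∧ finrank F (qperp hQ W) = 2 ∧ ∃ s ∈ qperp hQ W, s ≠ 0 ∧ Q s = 0)) := by
  constructor
  · rintro ⟨h3, h2, s, hs, hs0, hQs⟩
    exact hex ⟨h3, W, h2, hW, plus_plane h2 hs hs0 hQs hQ, Or.inl rfl⟩
  · rintro ⟨h3, h2, s, hs, hs0, hQs⟩
    have hY := perp_nondeg hQ (W := W) (fun w hw h0 => (hW w hw h0).1)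
    refine hex ⟨h3, qperp hQ W, h2, ?_, plus_plane h2 hs hs0 hQs hQ, Or.inr ⟨?_, ?_⟩⟩
    · intro y hy hy0
      obtain ⟨x, hx, hxy⟩ := hY y hy hy0
      exact ⟨⟨x, hx, hxy⟩, ⟨x, hx, by rwa [pol_comm']⟩⟩
    · intro u hu v hv
      exact hu v hv
    · exact finrank_qperp hQ W

/-- a nondegenerate subspace of a space of dimension at least thirteen, not of half the dimension -/
theorem isMaximalIn_omega_nondeg_clause (hQ : Cfsg.Geo.IsNondegenerateQuadraticForm Q)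
    (hn : 13 ≤ Fintype.card ι) {W : Submodule F (ι → F)} (hW0 : W ≠ ⊥) (hW1 : W ≠ ⊤)
    (hW : Cfsg.Geo.IsNondegenerateOn (QuadraticMap.polar Q) W)
    (hsw : finrank F W = finrank F (qperp hQ W) → ¬ ∃ g ∈ Cfsg.isometryGroup F Q, ∀ y ∈ qperp hQ W, act g y ∈ W)
    (hex : ¬ (Fintype.card F ≤ 3 ∧ (∃ U : Submodule F (ι → F), Module.finrank F U = 2 ∧
      Cfsg.Geo.IsNondegenerateOn (QuadraticMap.polar Q) U ∧ Cfsg.Geo.IsPlusTypeOn Q U ∧
      (U = W ∨ (Cfsg.Geo.AreOrthogonalFor (QuadraticMap.polar Q) U W ∧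
        Module.finrank F U + Module.finrank F W = Fintype.card ι))))) :
    Cfsg.Geo.IsMaximalIn (Cfsg.Geo.omegaGL Q) (Cfsg.Geo.subspaceStabilizer W ⊓ Cfsg.Geo.omegaGL Q) := by
  obtain ⟨h1, h2⟩ := hex_of_clause hQ hW hex
  exact isMaximalIn_omega_nondeg_sym hQ hn hW0 hW1 (fun w hw h0 => (hW w hw h0).1) hsw h1 h2

end Cfsg.Agent.Lib.Geo
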