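import Mathlib
import Cfsg.Agent.Lib.Geo.OmegaNondegApp

set_option autoImplicit false

/-! Decompositions into two nondegenerate pieces. -/

namespace Cfsg.Agent.Lib.Geo

open scoped MatrixGroups Matrix commutatorElement
open Module

variable {ι : Type} [Fintype ι] [DecidableEq ι] {F : Type*} [Field F] [Fintype F]

local notation "V" => (ι → F)

variable {Q : (ι → F) → F}

local notation "f" => QuadraticMap.polar Q

theorem toLin_eq_act (g : GL ι F) : Matrix.toLin' (g : Matrix ι ι F) = ((act g : V ≃ₗ[F] V) : V →ₗ[F] V) := by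
  apply LinearMap.ext
  intro x
  rfl

theorem areIsometric_of_map {A B : Submodule F V} (hd : finrank F A = finrank F B) {g : GL ι F}
    (hg : g ∈ Cfsg.isometryGroup F Q) (h : ∀ y ∈ A, act g y ∈ B) : Cfsg.Geo.AreIsometricFor Q A B := by
  let φ : A →ₗ[F] B := ((act g : V ≃ₗ[F] V) : V →ₗ[F] V).restrict h
  have hφ : Function.Injective φ := by
    intro x y hxy
    have h1 : ((φ x : B) : V) = ((φ y : B) : V) := by rw [hxy]
    have h2 : act g (x : V) = act g (y : V) := h1
    exact Subtype.ext ((act g).injective h2)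
  refine ⟨LinearMap.linearEquivOfInjective φ hφ hd, fun w => ?_⟩
  have h3 : ((LinearMap.linearEquivOfInjective φ hφ hd w : B) : V) = act g (w : V) := rfl
  rw [h3]
  exact mem_iso.1 hg _

theorem areIsometric_symm {A B : Submodule F V} (h : Cfsg.Geo.AreIsometricFor Q A B) :
    Cfsg.Geo.AreIsometricFor Q B A := by
  obtain ⟨e, he⟩ := h
  refine ⟨e.symm, fun w => ?_⟩
  have := he (e.symm w)
  rw [LinearEquiv.apply_symm_apply] at this
  exact this.symm

/-- In a nondegenerate decomposition into two pieces, the second is the perp of the first. -/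
theorem perp_of_pair (hQ : Cfsg.Geo.IsNondegenerateQuadraticForm Q) {k : ℕ} (hk : 2 * k = Fintype.card ι)
    {D : Fin 2 → Submodule F V}
    (hD : Cfsg.Geo.IsNondegenerateMDecomposition (QuadraticMap.polar Q) k D) :
    qperp hQ (D 0) = D 1 := by
  symm
  apply Submodule.eq_of_le_of_finrank_eq
  · intro y hy x hx
    exact hD.orthogonal 1 0 (by decide) y hy x hx
  · have h1 := finrank_qperp hQ (D 0)
    rw [hD.decomp.finrank_eq 0] at h1
    rw [hD.decomp.finrank_eq 1]
    omega

theorem mem_pair_iff {D : Fin 2 → Submodule F V} {g : GL ι F} :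
    g ∈ Cfsg.Geo.decompositionStabilizer D ↔
      (((D 0).map ((act g : V ≃ₗ[F] V) : V →ₗ[F] V) = D 0 ∧ (D 1).map ((act g : V ≃ₗ[F] V) : V →ₗ[F] V) = D 1) ∨
       ((D 0).map ((act g : V ≃ₗ[F] V) : V →ₗ[F] V) = D 1 ∧ (D 1).map ((act g : V ≃ₗ[F] V) : V →ₗ[F] V) = D 0)) := by
  constructor
  · rintro ⟨σ, hσ⟩
    simp only [toLin_eq_act] at hσ
    by_cases h0 : σ 0 = 0
    · left
      have h1 : σ 1 = 1 := by
        have : σ 1 ≠ 0 := fun h => by
          have := σ.injective (h.trans h0.symm)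
          simp at this
        omega
      have a := hσ 0
      have b := hσ 1
      rw [h0] at a
      rw [h1] at b
      exact ⟨a, b⟩
    · right
      have h0' : σ 0 = 1 := by omega
      have h1 : σ 1 = 0 := by
        have : σ 1 ≠ 1 := fun h => by
          have := σ.injective (h.trans h0'.symm)
          simp at this
        omega
      have a := hσ 0
      have b := hσ 1
      rw [h0'] at a
      rw [h1] at b
      exact ⟨a, b⟩
  · rintro (⟨a, b⟩ | ⟨a, b⟩)
    · refine ⟨1, fun i => ?_⟩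
      rw [toLin_eq_act]
      fin_cases i
      · exact a
      · exact b
    · refine ⟨Equiv.swap 0 1, fun i => ?_⟩
      rw [toLin_eq_act]
      fin_cases i
      · simpa using a
      · simpa using b

theorem map_eq_of_stab {W : Submodule F V} {g : GL ι F} (h : g ∈ Cfsg.Geo.subspaceStabilizer W) :
    W.map ((act g : V ≃ₗ[F] V) : V →ₗ[F] V) = W := by
  apply Submodule.eq_of_le_of_finrank_eq
  · rintro _ ⟨x, hx, rfl⟩
    exact (mem_stab_iff.1 h x).1 hx
  · exact LinearEquiv.finrank_map_eq (act g) W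

theorem stab_of_map_eq {W : Submodule F V} {g : GL ι F}
    (h : W.map ((act g : V ≃ₗ[F] V) : V →ₗ[F] V) = W) : g ∈ Cfsg.Geo.subspaceStabilizer W := by
  apply mem_stab_of_forall
  intro w hw
  rw [← h]
  exact ⟨w, hw, rfl⟩

/-- For non-isometric pieces, the stabilizer of the pair is the stabilizer of the first piece. -/
theorem pair_stab_eq_of_not_iso (hQ : Cfsg.Geo.IsNondegenerateQuadraticForm Q) {k : ℕ}
    (hk : 2 * k = Fintype.card ι) {D : Fin 2 → Submodule F V}
    (hD : Cfsg.Geo.IsNondegenerateMDecomposition (QuadraticMap.polar Q) k D)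
    (hni : ¬ Cfsg.Geo.AreIsometricFor Q (D 0) (D 1)) :
    Cfsg.Geo.decompositionStabilizer D ⊓ Cfsg.Geo.omegaGL Q
      = Cfsg.Geo.subspaceStabilizer (D 0) ⊓ Cfsg.Geo.omegaGL Q := by
  have hY := perp_of_pair hQ hk hD
  apply le_antisymm
  · rintro g ⟨h1, h2⟩
    refine ⟨?_, h2⟩
    rcases mem_pair_iff.1 h1 with ⟨a, -⟩ | ⟨a, b⟩
    · exact stab_of_map_eq a
    · exfalso
      apply hni
      refine areIsometric_of_map ?_ (omega_le_iso h2) (fun y hy => ?_)
      · rw [hD.decomp.finrank_eq, hD.decomp.finrank_eq]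
      · rw [← a]
        exact ⟨y, hy, rfl⟩
  · rintro g ⟨h1, h2⟩
    refine ⟨?_, h2⟩
    have h3 := stab_perp hQ (omega_le_iso h2) h1
    rw [hY] at h3
    exact mem_pair_iff.2 (Or.inl ⟨map_eq_of_stab h1, map_eq_of_stab h3⟩)

/-- maximality for a pair of non-isometric pieces -/
theorem isMaximalIn_omega_pair_not_iso (hQ : Cfsg.Geo.IsNondegenerateQuadraticForm Q)
    (hn : 13 ≤ Fintype.card ι) {k : ℕ} (hk : 2 * k = Fintype.card ι) {D : Fin 2 → Submodule F V}
    (hD : Cfsg.Geo.IsNondegenerateMDecomposition (QuadraticMap.polar Q) k D)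
    (hni : ¬ Cfsg.Geo.AreIsometricFor Q (D 0) (D 1)) :
    Cfsg.Geo.IsMaximalIn (Cfsg.Geo.omegaGL Q) (Cfsg.Geo.decompositionStabilizer D ⊓ Cfsg.Geo.omegaGL Q) := by
  rw [pair_stab_eq_of_not_iso hQ hk hD hni]
  have hY := perp_of_pair hQ hk hD
  have hd0 := hD.decomp.finrank_eq 0
  have hk7 : 7 ≤ k := by omega
  refine isMaximalIn_omega_nondeg_sym hQ hn ?_ ?_ (fun w hw h0 => (hD.nondegenerate 0 w hw h0).1) ?_ ?_ ?_
  · intro h
    rw [h, finrank_bot] at hd0
    omega
  · intro h
    rw [h, finrank_top] at hd0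
    simp at hd0
    omega
  · rintro - ⟨g, hg, h⟩
    rw [hY] at h
    apply hni
    apply areIsometric_symm
    refine areIsometric_of_map ?_ hg h
    rw [hD.decomp.finrank_eq, hD.decomp.finrank_eq]
  · rintro ⟨-, h, -⟩
    omega
  · rintro ⟨-, h, -⟩
    rw [hY, hD.decomp.finrank_eq] at h
    omega

end Cfsg.Agent.Lib.Geo
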