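import Mathlib
import Cfsg.Agent.Lib.Geo.SUMax
import Cfsg.Agent.Lib.Classical.WittHerm

set_option autoImplicit false

/-! Tools for overgroups in `SU`: solving inside a nondegenerate subspace and the Witt step. -/

namespace Cfsg.Agent.Lib.Geo

open scoped MatrixGroups Matrix
open Module

variable {ι : Type} [Fintype ι] [DecidableEq ι] {F : Type*} [Field F]

local notation "V" => (ι → F)

variable {σ : F →+* F} {f : (ι → F) → (ι → F) → F}

/-- Witt's step for hermitian forms -/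
theorem witt_step [Finite F] (hf : SForm σ f) (hσ : σ ≠ RingHom.id F) (X₀ : Submodule F V) {x y : V}
    (hx : x ∉ X₀) (hy : y ∉ X₀) (hxy : f x x = f y y) (hz : ∀ z ∈ X₀, f z x = f z y) :
    ∃ g ∈ uGroup f, (∀ z ∈ X₀, act g z = z) ∧ act g x = y := by
  let B : V →ₛₗ[σ] V →ₗ[F] F := LinearMap.mk₂'ₛₗ σ (RingHom.id F) (fun u v => f v u)
    (fun u u' v => hf.add_right v u u')
    (fun c u v => hf.smul_right c v u)
    (fun u v v' => hf.add_left v v' u)
    (fun c u v => hf.smul_left c v u)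
  have hB : ∀ u v, B u v = f v u := fun _ _ => rfl
  have hS : B.IsSymm := ⟨fun u v => (hf.herm u v).symm⟩
  have hnd : B.Nondegenerate := by
    constructor
    · intro u hu
      by_contra h0
      obtain ⟨w, hw⟩ := hf.nd u h0
      exact hw (hu w)
    · intro u hu
      by_contra h0
      obtain ⟨w, hw⟩ := hf.nd u h0
      exact hw (hf.eq_zero_flip (hu w))
  obtain ⟨g, h1, h2, h3⟩ := Cfsg.Agent.Lib.Classical.Witt.core_herm σ hσ hf.inv B hS hnd X₀ x y hx hy (by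
    intro a b ha hb s t
    simp only [hB, hf.add_left, hf.add_right, hf.smul_left, hf.smul_right]
    have e1 : f x a = f y a := by
      rw [hf.herm, hz a ha, ← hf.herm]
    rw [e1, hz b hb, hxy])
  refine ⟨act.symm g, fun u v => ?_, fun z hz' => ?_, ?_⟩
  · rw [MulEquiv.apply_symm_apply]
    exact h1 v u
  · rw [MulEquiv.apply_symm_apply]
    exact h2 z hz'
  · rw [MulEquiv.apply_symm_apply]
    exact h3

/-- the restriction of a form to a nondegenerate subspace, in coordinates -/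
theorem exists_model_sub (hf : SForm σ f) (Y : Submodule F V)
    (hY : ∀ y ∈ Y, y ≠ 0 → ∃ x ∈ Y, f x y ≠ 0) :
    ∃ e : (Fin (finrank F Y) → F) ≃ₗ[F] Y,
      SForm σ (fun a b : Fin (finrank F Y) → F => f (e a : V) (e b : V)) := by
  haveI : FiniteDimensional F Y := inferInstance
  let e : (Fin (finrank F Y) → F) ≃ₗ[F] Y := (Module.finBasis F Y).equivFun.symm
  refine ⟨e, ⟨hf.inv, fun x y v => ?_, fun c x v => ?_, fun v w => hf.herm _ _, fun v hv => ?_⟩⟩
  · simp only [map_add, Submodule.coe_add, hf.add_left]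
  · simp only [map_smul, Submodule.coe_smul, hf.smul_left]
  · have h0 : (e v : V) ≠ 0 := by
      intro h
      apply hv
      have : e v = 0 := Subtype.ext h
      exact (e.map_eq_zero_iff).1 this
    obtain ⟨x, hx, hx'⟩ := hY _ (e v).2 h0
    refine ⟨e.symm ⟨x, hx⟩, ?_⟩
    simpa using hx'

theorem solve_in [Finite F] (hf : SForm σ f) (hσ : σ ≠ RingHom.id F) (Y : Submodule F V)
    (hY : ∀ y ∈ Y, y ≠ 0 → ∃ x ∈ Y, f x y ≠ 0) (Λ : List (Dual F V))
    (hΛ : 2 * Λ.length + 5 ≤ finrank F Y) {y₀ : V} (hy₀ : y₀ ∈ Y) {c : F} (hc : σ c = c) :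
    ∃ z ∈ Y, (∀ l ∈ Λ, l z = l y₀) ∧ f z z = c := by
  obtain ⟨e, he⟩ := exists_model_sub hf Y hY
  let ρ : (Fin (finrank F Y) → F) →ₗ[F] V := Y.subtype ∘ₗ (e : (Fin (finrank F Y) → F) →ₗ[F] Y)
  have hρ : ∀ a, ρ a = (e a : V) := fun _ => rfl
  have hiso := fun W hW => hiso_herm he hσ W hW
  have htr : ∀ a, σ a = a → ∃ b, b + σ b = a := fun a ha => htr_herm hσ hf.inv a ha
  obtain ⟨z, hz1, hz2⟩ := affine_solve he hiso htr (Λ.map fun l => l ∘ₗ ρ)
    (by simpa using hΛ) (e.symm ⟨y₀, hy₀⟩) hc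
  refine ⟨(e z : V), (e z).2, fun l hl => ?_, hz2⟩
  have := hz1 (l ∘ₗ ρ) (List.mem_map.2 ⟨l, hl, rfl⟩)
  simpa [hρ] using this

theorem iso_decomp_in [Finite F] (hf : SForm σ f) (hσ : σ ≠ RingHom.id F) (Y : Submodule F V)
    (hY : ∀ y ∈ Y, y ≠ 0 → ∃ x ∈ Y, f x y ≠ 0) (Λ : List (Dual F V))
    (hΛ : 2 * Λ.length + 7 ≤ finrank F Y) {x : V} (hx : x ∈ Y) (hx' : ∀ l ∈ Λ, l x = 0) :
    ∃ p ∈ Y, (∀ l ∈ Λ, l p = 0) ∧ f p p = 0 ∧ f (x - p) (x - p) = 0 := by
  obtain ⟨e, he⟩ := exists_model_sub hf Y hY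
  let ρ : (Fin (finrank F Y) → F) →ₗ[F] V := Y.subtype ∘ₗ (e : (Fin (finrank F Y) → F) →ₗ[F] Y)
  have hρ : ∀ a, ρ a = (e a : V) := fun _ => rfl
  have hiso := fun W hW => hiso_herm he hσ W hW
  have htr : ∀ a, σ a = a → ∃ b, b + σ b = a := fun a ha => htr_herm hσ hf.inv a ha
  obtain ⟨p, hp1, hp2, hp3⟩ := exists_iso_decomp he hiso htr (Λ.map fun l => l ∘ₗ ρ)
    (by simpa using hΛ) (x := e.symm ⟨x, hx⟩) (by
      intro l hl
      obtain ⟨l', hl', rfl⟩ := List.mem_map.1 hl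
      have := hx' l' hl'
      simpa [hρ] using this)
  refine ⟨(e p : V), (e p).2, fun l hl => ?_, hp2, ?_⟩
  · have := hp1 (l ∘ₗ ρ) (List.mem_map.2 ⟨l, hl, rfl⟩)
    simpa [hρ] using this
  · have e1 : (e (e.symm ⟨x, hx⟩ - p) : V) = x - (e p : V) := by
      simp
    have := hp3
    simp only [e1] at this
    exact this

section

variable [Finite F]

/-- an isometry has a norm one determinant -/
theorem det_norm_one (hf : SForm σ f) (hσ : σ ≠ RingHom.id F) (hn : 13 ≤ Fintype.card ι)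
    {g : GL ι F} (hg : g ∈ uGroup f) :
    ((g : GL ι F) : Matrix ι ι F).det * σ ((g : GL ι F) : Matrix ι ι F).det = 1 := by
  have hiso := fun W hW => hiso_herm (f := f) hf hσ W hW
  have htr : ∀ a, σ a = a → ∃ b, b + σ b = a := fun a ha => htr_herm hσ hf.inv a ha
  obtain ⟨a₀, -, ha₀⟩ := affine_solve hf hiso htr [] (by simp; omega) (0 : V) (e := 1) (map_one σ)
  obtain ⟨e, he, ν, hν, r, hr, hgr⟩ := exists_UE_rho hf hσ hn ha₀ (Fintype.card ι) g hg (by omega)
  have h1 : ((e : GL ι F) : Matrix ι ι F).det = 1 := by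
    have := (mem_SL_iff.1 (UE_le_SL hf he))
    rwa [det_act] at this
  rw [hgr, Units.val_mul, Matrix.det_mul, h1, hr.det_eq, one_mul]
  exact hν

/-- correcting the determinant by a reflection fixing a hyperplane -/
theorem exists_det_fix (hf : SForm σ f) (hσ : σ ≠ RingHom.id F) (hn : 13 ≤ Fintype.card ι)
    {g : GL ι F} (hg : g ∈ uGroup f) {a : V} (ha : f a a = 1) :
    ∃ r ∈ uGroup f, (∀ x, f x a = 0 → act r x = x) ∧ (r * g) ∈ Cfsg.Geo.specialLinear ι F := by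
  have h1 := det_norm_one hf hσ hn hg
  set d := ((g : GL ι F) : Matrix ι ι F).det with hd
  have hd0 : d ≠ 0 := left_ne_zero_of_mul_eq_one h1
  have hd1 : σ d ≠ 0 := right_ne_zero_of_mul_eq_one h1
  obtain ⟨r, hr⟩ := exists_rho hf ha (ν := d⁻¹) (by
    rw [map_inv₀]
    field_simp
    linear_combination -h1)
  refine ⟨r, hr.mem, fun x hx => ?_, ?_⟩
  · rw [hr.act_eq, hx, mul_zero, zero_smul, add_zero]
  · rw [mem_SL_iff, det_act, Units.val_mul, Matrix.det_mul, hr.det_eq, ← hd, inv_mul_cancel₀ hd0]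

end

theorem exists_avoid2 {W : Type*} [AddCommGroup W] [Module F W] {A : Submodule F W} {α β : Dual F W}
    {p₁ p₂ : W} (hp₁ : p₁ ∈ A) (hp₂ : p₂ ∈ A) (h₁ : α p₁ ≠ 0) (h₂ : β p₂ ≠ 0) :
    ∃ a ∈ A, α a ≠ 0 ∧ β a ≠ 0 := by
  by_cases h3 : β p₁ = 0
  · by_cases h4 : α p₂ = 0
    · refine ⟨p₁ + p₂, A.add_mem hp₁ hp₂, ?_, ?_⟩ <;> simp [h3, h4, h₁, h₂]
    · exact ⟨p₂, hp₂, h4, h₂⟩
  · exact ⟨p₁, hp₁, h₁, h3⟩

/-- adjust a vector by a multiple of an isotropic vector to prescribe its norm -/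
theorem exists_adjust (hf : SForm σ f) (hσ : σ ≠ RingHom.id F) {y b : V} (hb : f b b = 0)
    (hyb : f y b ≠ 0) {c : F} (hc : σ c = c) : ∃ t : F, f (y + t • b) (y + t • b) = c := by
  obtain ⟨s, hs⟩ := htr_herm hσ hf.inv (c - f y y) (by rw [map_sub, hc, hf.self_fixed])
  have hby : f b y ≠ 0 := fun h => hyb (hf.eq_zero_flip h)
  refine ⟨s / f b y, ?_⟩
  have e1 : s / f b y * f b y = s := by field_simp
  have e2 : σ (s / f b y) * f y b = σ s := by
    have : σ (f b y) = f y b := (hf.herm y b).symm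
    calc σ (s / f b y) * f y b = σ (s / f b y * f b y) := by rw [map_mul, this]
      _ = σ s := by rw [e1]
  simp only [hf.add_left, hf.add_right, hf.smul_left, hf.smul_right, hb, mul_zero, add_zero]
  rw [e1, e2]
  linear_combination hs

end Cfsg.Agent.Lib.Geo
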