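import Mathlib
import Cfsg.Agent.Lib.Geo.SUTools
import Cfsg.Agent.Lib.Geo.Decomp

set_option autoImplicit false

/-! The stabilizer of a pair of complementary totally isotropic subspaces is maximal in `SU`. -/

namespace Cfsg.Agent.Lib.Geo

open scoped MatrixGroups Matrix
open Module

variable {ι : Type} [Fintype ι] [DecidableEq ι] {F : Type*} [Field F]

local notation "V" => (ι → F)

variable {σ : F →+* F} {f : (ι → F) → (ι → F) → F}

/-- Being an Eichler element -/
def IsE (f : (ι → F) → (ι → F) → F) (h : GL ι F) (a y : ι → F) : Prop :=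
  ∀ x, act h x = x + f x a • y - f x y • a

theorem IsE.conj (hf : SForm σ f) {g h : GL ι F} {a y : V} (hg : g ∈ uGroup f) (H : IsE f h a y) :
    IsE f (g * h * g⁻¹) (act g a) (act g y) := by
  intro x
  rw [map_mul, map_mul, LinearEquiv.mul_apply, LinearEquiv.mul_apply, H, map_sub, map_add, map_smul,
    map_smul, act_act_inv, u_inv_left hg, u_inv_left hg]

/-- first commutator relation -/
theorem IsE.comm1 (hf : SForm σ f) {h k e : GL ι F} {a b c d : V} (H : IsE f h a b) (K : IsE f k c d)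
    (hab : f a b = 0) (hcd : f c d = 0) (hac : f a c = 0) (had : f a d = 0) (hbd : f b d = 0)
    (haa : f a a = 0) (hbb : f b b = 0) (hcc : f c c = 0) (hdd : f d d = 0)
    (E : IsE f e a ((- f b c) • d)) : h * k * h⁻¹ * k⁻¹ = e := by
  rw [mul_inv_eq_iff_eq_mul, mul_inv_eq_iff_eq_mul]
  have hba := hf.eq_zero_flip hab
  have hdc := hf.eq_zero_flip hcd
  have hca := hf.eq_zero_flip hac
  have hda := hf.eq_zero_flip had
  have hdb := hf.eq_zero_flip hbd
  apply act.injective
  ext1 x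
  simp only [map_mul, LinearEquiv.mul_apply]
  rw [K x, H x, H (x + f x c • d - f x d • c), K (x + f x a • b - f x b • a), E]
  simp only [hf.sub_left, hf.add_left, hf.sub_right, hf.add_right, hf.smul_left, hf.smul_right, hab, hcd, hac,
    had, hbd, hba, hdc, hca, hda, hdb, haa, hbb, hcc, hdd, mul_zero, add_zero, zero_add, sub_zero, zero_sub]
  have e1 : σ (- f b c) = - f c b := by
    rw [map_neg]
    congr 1
    exact (hf.herm c b).symm
  simp only [map_neg, map_mul] at *
  have e2 : σ (f b c) = f c b := (hf.herm c b).symm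
  simp only [e2]
  (module)

/-- second commutator relation -/
theorem IsE.comm2 (hf : SForm σ f) {h k : GL ι F} {a y y' : V} (H : IsE f h a y) (K : IsE f k a y')
    (hy : f a y = 0) (hy' : f a y' = 0) (haa : f a a = 0) :
    h * k * h⁻¹ * k⁻¹ = ut hf haa (f y y' - f y' y) := by
  rw [mul_inv_eq_iff_eq_mul, mul_inv_eq_iff_eq_mul]
  have hya := hf.eq_zero_flip hy
  have hya' := hf.eq_zero_flip hy'
  apply act.injective
  ext1 x
  simp only [map_mul, LinearEquiv.mul_apply]
  rw [K x, H x, H (x + f x a • y' - f x y' • a), K (x + f x a • y - f x y • a), act_ut]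
  simp only [hf.sub_left, hf.add_left, hf.sub_right, hf.add_right, hf.smul_left, hf.smul_right, hy, hy', hya,
    hya', haa, mul_zero, add_zero, zero_add, sub_zero, zero_sub]
  (module)


section

variable [Finite F]

theorem exists_rep_on (hf : SForm σ f) {X Y : Submodule F V} (hX : ∀ u ∈ X, ∀ v ∈ X, f u v = 0)
    (π : V →ₗ[F] V) (hπX : ∀ v, π v ∈ X) (hπY : ∀ v, v - π v ∈ Y) (φ : Dual F V) :
    ∃ b ∈ Y, ∀ x ∈ X, f x b = φ x := by
  obtain ⟨y, hy⟩ := hf.lf_surjective φ
  refine ⟨y - π y, hπY y, fun x hx => ?_⟩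
  rw [hf.sub_right, hX x hx _ (hπX y), sub_zero, ← hy]
  rfl

/-- The key construction -/
theorem su_core_pair (hf : SForm σ f) (hσ : σ ≠ RingHom.id F) {M : Subgroup (GL ι F)}
    {X Y C E : Submodule F V}
    (hX : ∀ u ∈ X, ∀ v ∈ X, f u v = 0) (hY : ∀ u ∈ Y, ∀ v ∈ Y, f u v = 0)
    (hC : ∀ u ∈ C, ∀ v ∈ C, f u v = 0) (hE' : ∀ u ∈ E, ∀ v ∈ E, f u v = 0)
    (π : V →ₗ[F] V) (hπX : ∀ v, π v ∈ X) (hπY : ∀ v, v - π v ∈ Y)
    (hrXY : ∀ x ∈ X, ∀ y ∈ Y, f x y = 0 → ∃ h ∈ M, IsE f h x y)
    (hrCE : ∀ c ∈ C, ∀ e ∈ E, f c e = 0 → ∃ h ∈ M, IsE f h c e)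
    (hE : ¬ E ≤ Y) (hrank : 3 ≤ finrank F (C.map π)) (hdim : 5 ≤ finrank F X) :
    ∃ a ∈ X, a ≠ 0 ∧ UA hf M a := by
  classical
  -- the vector `d`
  obtain ⟨d, hdE, hdY⟩ := SetLike.not_le_iff_exists.1 hE
  have hdX0 : π d ≠ 0 := by
    intro h0
    apply hdY
    have := hπY d
    rwa [h0, sub_zero] at this
  have hfX : ∀ {x x' : V}, x ∈ X → f x x' = f x (x' - π x') := by
    intro x x' hx
    rw [hf.sub_right, hX x hx _ (hπX x'), sub_zero]
  have hfY : ∀ {y x' : V}, y ∈ Y → f x' y = f (π x') y := by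
    intro y x' hy
    have := hY _ (hπY x') y hy
    rw [hf.sub_left] at this
    exact sub_eq_zero.1 this
  -- the vector `c`
  obtain ⟨c, hcC, hcd, hcS⟩ : ∃ c ∈ C, f c d = 0 ∧ π c ∉ Submodule.span F {π d} := by
    by_contra hcon
    push Not at hcon
    have hS1 : finrank F (Submodule.span F {π d}) = 1 := finrank_span_singleton hdX0
    by_cases hall : ∀ c ∈ C, f c d = 0
    · have hle : C.map π ≤ Submodule.span F {π d} := by
        rintro _ ⟨c, hc, rfl⟩
        exact hcon c hc (hall c hc)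
      have := Submodule.finrank_mono hle
      omega
    · push Not at hall
      obtain ⟨c₀, hc₀, hc₀d⟩ := hall
      have hle : C.map π ≤ Submodule.span F {π d} ⊔ Submodule.span F {π c₀} := by
        rintro _ ⟨c, hc, rfl⟩
        have h5 : c - (f c d / f c₀ d) • c₀ ∈ C := C.sub_mem hc (C.smul_mem _ hc₀)
        have h6 := hcon _ h5 (by
          rw [hf.sub_left, hf.smul_left]
          field_simp
          ring)
        rw [map_sub, map_smul] at h6
        have e : π c = (π c - (f c d / f c₀ d) • π c₀) + (f c d / f c₀ d) • π c₀ := by abel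
        show π c ∈ _
        rw [e]
        exact Submodule.add_mem _ (Submodule.mem_sup_left h6)
          (Submodule.mem_sup_right (Submodule.smul_mem _ _ (Submodule.mem_span_singleton_self _)))
      have h7 := Submodule.finrank_mono hle
      have h8 := Submodule.finrank_add_le_finrank_add_finrank (Submodule.span F {π d}) (Submodule.span F {π c₀})
      have h9 : finrank F (Submodule.span F {π c₀}) ≤ 1 := finrank_span_le_card _ |>.trans (by simp)
      omega
  -- the vector `a`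
  set S : Submodule F V := Submodule.span F {π d} ⊔ Submodule.span F {π c} with hS
  have hSf : finrank F S ≤ 2 := by
    have h8 := Submodule.finrank_add_le_finrank_add_finrank (Submodule.span F {π d}) (Submodule.span F {π c})
    rw [← hS] at h8
    have h9 : finrank F (Submodule.span F {π c}) ≤ 1 := finrank_span_le_card _ |>.trans (by simp)
    have h10 : finrank F (Submodule.span F {π d}) ≤ 1 := finrank_span_le_card _ |>.trans (by simp)
    omega
  have hcutf : ∀ (Λ : List (Dual F V)), finrank F X ≤ finrank F ↥(X ⊓ cutL Λ) + Λ.length := by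
    intro Λ
    have h1 := finrank_cutL Λ
    have h2 := Submodule.finrank_sup_add_finrank_inf_eq X (cutL Λ)
    have h3 : finrank F ↥(X ⊔ cutL Λ) ≤ finrank F V := Submodule.finrank_le _
    have hV : finrank F V = Fintype.card ι := by simp
    omega
  obtain ⟨a, ha, haS⟩ : ∃ a ∈ X ⊓ cutL [hf.lf (d - π d), hf.lf (c - π c)], a ∉ S := by
    by_contra hcon
    push Not at hcon
    have hle : X ⊓ cutL [hf.lf (d - π d), hf.lf (c - π c)] ≤ S := hcon
    have h3 := Submodule.finrank_mono hle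
    have h4 := hcutf [hf.lf (d - π d), hf.lf (c - π c)]
    simp only [List.length_cons, List.length_nil] at h4
    omega
  have haX : a ∈ X := ha.1
  have hacut := mem_cutL.1 ha.2
  have had : f a d = 0 := by
    rw [hfX haX]
    exact hacut (hf.lf (d - π d)) (by simp)
  have hac : f a c = 0 := by
    rw [hfX haX]
    exact hacut (hf.lf (c - π c)) (by simp)
  have ha0 : a ≠ 0 := by
    rintro rfl
    exact haS S.zero_mem
  have hcS' : π c ∉ Submodule.span F {a} ⊔ Submodule.span F {π d} := by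
    intro hin
    obtain ⟨p, hp, q, hq, hpq⟩ := Submodule.mem_sup.1 hin
    obtain ⟨α, rfl⟩ := Submodule.mem_span_singleton.1 hp
    by_cases hα : α = 0
    · apply hcS
      rw [hα, zero_smul, zero_add] at hpq
      rwa [← hpq]
    · apply haS
      have e : a = α⁻¹ • (π c + (-1 : F) • q) := by
        rw [← hpq]
        simp [smul_smul, hα]
      rw [e]
      refine S.smul_mem _ (S.add_mem (Submodule.mem_sup_right (Submodule.mem_span_singleton_self _))
        (S.smul_mem _ (Submodule.mem_sup_left hq)))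
  obtain ⟨φ, hφ1, hφ2⟩ := exists_dual_of_notMem hcS'
  obtain ⟨b, hbY, hb⟩ := exists_rep_on hf hX π hπX hπY φ
  have hab : f a b = 0 := by
    rw [hb a haX]
    exact hφ2 a (Submodule.mem_sup_left (Submodule.mem_span_singleton_self _))
  have hdb : f (π d) b = 0 := by
    rw [hb _ (hπX d)]
    exact hφ2 _ (Submodule.mem_sup_right (Submodule.mem_span_singleton_self _))
  have hcb : f c b = 1 := by
    rw [hfY hbY, hb _ (hπX c), hφ1]
  have hbc : f b c = 1 := by
    rw [hf.herm, hcb, map_one]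
  have hbd : f b d = 0 := by
    apply hf.eq_zero_flip
    rw [hfY hbY]
    exact hdb
  have haa : f a a = 0 := hX a haX a haX
  have hbb : f b b = 0 := hY b hbY b hbY
  have hcc : f c c = 0 := hC c hcC c hcC
  have hdd : f d d = 0 := hE' d hdE d hdE
  -- first commutator
  obtain ⟨h, hh, H⟩ := hrXY a haX b hbY hab
  obtain ⟨k, hk, K⟩ := hrCE c hcC d hdE hcd
  set d' : V := (- f b c) • d with hd'
  have hd'1 : d' = (-1 : F) • d := by rw [hd', hbc]
  have hdd' : f d' d' = 0 := by
    rw [hd', hf.smul_left, hf.smul_right, hdd, mul_zero, mul_zero]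
  have had' : f a d' = 0 := by rw [hd', hf.smul_right, had, mul_zero]
  obtain ⟨e, he, E⟩ := exists_eich hf hσ haa hdd' had'
  have hcomm := IsE.comm1 hf H K hab hcd hac had hbd haa hbb hcc hdd E
  have heM : e ∈ M := by
    rw [← hcomm]
    exact M.mul_mem (M.mul_mem (M.mul_mem hh hk) (M.inv_mem hh)) (M.inv_mem hk)
  have hda : π d ∉ Submodule.span F {a} := by
    intro hin
    obtain ⟨α, hα⟩ := Submodule.mem_span_singleton.1 hin
    have hα0 : α ≠ 0 := by
      rintro rfl
      rw [zero_smul] at hα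
      exact hdX0 hα.symm
    apply haS
    have e : a = α⁻¹ • π d := by
      rw [← hα, smul_smul, inv_mul_cancel₀ hα0, one_smul]
    rw [e]
    exact S.smul_mem _ (Submodule.mem_sup_left (Submodule.mem_span_singleton_self _))
  obtain ⟨ψ, hψ1, hψ2⟩ := exists_dual_of_notMem hda
  obtain ⟨b₂, hb₂Y, hb₂⟩ := exists_rep_on hf hX π hπX hπY ψ
  have hab₂ : f a b₂ = 0 := by
    rw [hb₂ a haX]
    exact hψ2 a (Submodule.mem_span_singleton_self _)
  have hdb₂ : f d b₂ = 1 := by
    rw [hfY hb₂Y, hb₂ _ (hπX d), hψ1]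
  have hb₂d : f b₂ d = 1 := by
    rw [hf.herm, hdb₂, map_one]
  obtain ⟨δ₀, hδ₀⟩ := htr_herm hσ hf.inv 1 (map_one σ)
  refine ⟨a, haX, ha0, haa, fun c₀ hc₀ => ?_⟩
  set μ := -(c₀ * δ₀) with hμ
  have hab₁ : f a (μ • b₂) = 0 := by rw [hf.smul_right, hab₂, mul_zero]
  obtain ⟨h₂, hh₂, H₂⟩ := hrXY a haX (μ • b₂) (Y.smul_mem _ hb₂Y) hab₁
  have h5 := IsE.comm2 hf H₂ E hab₁ had' haa
  have e5 : f (μ • b₂) d' - f d' (μ • b₂) = c₀ := by
    rw [hd'1]
    simp only [hf.smul_left, hf.smul_right, hb₂d, hdb₂, map_neg, map_one, hμ, map_mul]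
    have hσc : σ c₀ = -c₀ := by linear_combination hc₀
    rw [hσc]
    linear_combination c₀ * hδ₀
  rw [e5] at h5
  rw [← h5]
  exact M.mul_mem (M.mul_mem (M.mul_mem hh₂ heM) (M.inv_mem hh₂)) (M.inv_mem heM)

/-- adjoints -/
theorem exists_adjoint (hf : SForm σ f) (A : V →ₗ[F] V) :
    ∃ B : V →ₗ[F] V, ∀ x y, f (A x) y = f x (B y) := by
  classical
  -- the linear form attached to `y`
  let Φ : V → Dual F V := fun y => hf.lf y ∘ₗ A
  choose T hT using fun y => hf.lf_surjective (Φ y)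
  have hT' : ∀ x y, f x (T y) = f (A x) y := fun x y => LinearMap.congr_fun (hT y) x
  refine ⟨{ toFun := T, map_add' := fun u v => ?_, map_smul' := fun c u => ?_ }, fun x y => (hT' x y).symm⟩
  · apply hf.lf_injective
    refine LinearMap.ext fun x => ?_
    simp only [SForm.lf_apply, hT', hf.add_right]
  · apply hf.lf_injective
    refine LinearMap.ext fun x => ?_
    simp only [SForm.lf_apply, hT', hf.smul_right, RingHom.id_apply]

/-- elements acting by scalars on a hyperbolic pair -/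
theorem exists_diag (hf : SForm σ f) {a b : V} (haa : f a a = 0) (hbb : f b b = 0) (hab : f a b = 1)
    {μ : F} (hμ : μ ≠ 0) : ∃ d ∈ uGroup f, (∀ x, act d x = x + ((μ - 1) * f x b) • a +
      ((σ μ⁻¹ - 1) * f x a) • b) ∧ ((d : GL ι F) : Matrix ι ι F).det = μ * σ μ⁻¹ := by
  have hba : f b a = 1 := by rw [hf.herm, hab, map_one]
  have hσμ : σ μ ≠ 0 := fun h => hμ ((map_eq_zero σ).1 h)
  let T₁ : V →ₗ[F] V := LinearMap.transvection ((μ - 1) • hf.lf b) a
  let T₂ : V →ₗ[F] V := LinearMap.transvection ((σ μ⁻¹ - 1) • hf.lf a) b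
  have hT₁ : ∀ x, T₁ x = x + ((μ - 1) * f x b) • a := fun x => by
    simp [T₁, LinearMap.transvection.apply]
  have hT₂ : ∀ x, T₂ x = x + ((σ μ⁻¹ - 1) * f x a) • b := fun x => by
    simp [T₂, LinearMap.transvection.apply]
  have hT : ∀ x, (T₁ ∘ₗ T₂) x = x + ((μ - 1) * f x b) • a + ((σ μ⁻¹ - 1) * f x a) • b := by
    intro x
    rw [LinearMap.comp_apply, hT₁, hT₂, hf.add_left, hf.smul_left, hbb, mul_zero, add_zero]
    abel
  have hiso : ∀ x y, f ((T₁ ∘ₗ T₂) x) ((T₁ ∘ₗ T₂) y) = f x y := by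
    intro x y
    rw [hT, hT]
    simp only [hf.add_left, hf.add_right, hf.smul_left, hf.smul_right, haa, hbb, hab, hba, map_mul, map_sub,
      map_one, hf.inv, mul_zero, add_zero, zero_add, mul_one]
    have e1 : f a y = σ (f y a) := hf.herm _ _
    have e2 : f b y = σ (f y b) := hf.herm _ _
    rw [e1, e2, map_inv₀]
    field_simp
    ring
  obtain ⟨d, hd⟩ := exists_gl_of_iso hf _ hiso
  refine ⟨d, fun x y => ?_, fun x => ?_, ?_⟩
  · rw [hd, hd, hiso]
  · rw [hd, hT]
  · have : ((act d : V ≃ₗ[F] V) : V →ₗ[F] V) = T₁ ∘ₗ T₂ := LinearMap.ext hd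
    rw [← det_act, this, LinearMap.det_comp, LinearMap.transvection.det, LinearMap.transvection.det]
    simp only [LinearMap.smul_apply, SForm.lf_apply, hab, hba, smul_eq_mul, mul_one]
    ring

include σ in
theorem exists_hilbert90 (hf : SForm σ f) (hσ : σ ≠ RingHom.id F) {ν : F} (hν : ν * σ ν = 1) :
    ∃ μ : F, μ ≠ 0 ∧ μ * σ μ⁻¹ = ν := by
  by_cases h : 1 + ν = 0
  · obtain ⟨δ, hδ0, hδ⟩ := exists_trace_zero hσ hf
    have hσδ : σ δ = -δ := by linear_combination hδ
    refine ⟨δ, hδ0, ?_⟩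
    rw [map_inv₀, hσδ]
    have : ν = -1 := by linear_combination h
    rw [this]
    field_simp
  · refine ⟨1 + ν, h, ?_⟩
    have h1 : σ (1 + ν) ≠ 0 := fun h2 => h ((map_eq_zero σ).1 h2)
    rw [map_inv₀]
    rw [map_add, map_one] at h1 ⊢
    field_simp
    linear_combination -hν

variable {k : ℕ}

/-- the element interchanging the two members -/
theorem exists_swap_su (hf : SForm σ f) (hσ : σ ≠ RingHom.id F) (hn : 13 ≤ Fintype.card ι)
    {D : Fin 2 → Submodule F V} (hD : Cfsg.Geo.IsMDecomposition k D) (hk : 2 * k = Fintype.card ι)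
    (hts : ∀ i, Cfsg.Geo.IsTotallySingularFor f (D i)) :
    ∃ ξ ∈ Cfsg.Geo.decompositionStabilizer D ⊓ (uGroup f ⊓ Cfsg.Geo.specialLinear ι F),
      (∀ x ∈ D 0, act ξ x ∈ D 1) ∧ (∀ x ∈ D 1, act ξ x ∈ D 0) := by
  classical
  obtain ⟨π, h1, h2, h3, h4⟩ := exists_proj hD.indep hD.iSup_eq_top
  have hsum : ∀ x, π 0 x + π 1 x = x := fun x => by
    have := h4 x
    rwa [Fin.sum_univ_two] at this
  let θ₀ : D 0 ≃ₗ[F] D 1 := LinearEquiv.ofFinrankEq _ _ (by rw [hD.finrank_eq, hD.finrank_eq])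
  let c0 : V →ₗ[F] D 0 := (π 0).codRestrict (D 0) (h1 0)
  let c1 : V →ₗ[F] D 1 := (π 1).codRestrict (D 1) (h1 1)
  let A : V →ₗ[F] V := (D 1).subtype ∘ₗ (θ₀ : D 0 →ₗ[F] D 1) ∘ₗ c0
  let B' : V →ₗ[F] V := (D 0).subtype ∘ₗ (θ₀.symm : D 1 →ₗ[F] D 0) ∘ₗ c1
  obtain ⟨C, hC⟩ := exists_adjoint hf B'
  have hA1 : ∀ x, A x ∈ D 1 := fun x => (θ₀ (c0 x)).2
  have hB0 : ∀ x, B' x ∈ D 0 := fun x => (θ₀.symm (c1 x)).2
  have hBA : ∀ x, B' (A x) = π 0 x := by
    intro x
    show ((θ₀.symm (c1 (A x)) : D 0) : V) = _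
    have : c1 (A x) = θ₀ (c0 x) := Subtype.ext (h2 1 _ (hA1 x))
    rw [this, LinearEquiv.symm_apply_apply]
    rfl
  have hAD1 : ∀ x ∈ D 1, A x = 0 := by
    intro x hx
    have : c0 x = 0 := Subtype.ext (h3 0 1 (by decide) x hx)
    show ((θ₀ (c0 x) : D 1) : V) = 0
    rw [this, map_zero]
    rfl
  have hBD0 : ∀ x ∈ D 0, B' x = 0 := by
    intro x hx
    have : c1 x = 0 := Subtype.ext (h3 1 0 (by decide) x hx)
    show ((θ₀.symm (c1 x) : D 0) : V) = 0
    rw [this, map_zero]
    rfl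
  have hperp0 : hf.lperp (D 0) = D 0 := by
    symm
    apply Submodule.eq_of_le_of_finrank_eq
    · intro x hx y hy
      exact hts 0 x hx y hy
    · have := hf.finrank_lperp (D 0)
      rw [hD.finrank_eq 0] at this ⊢
      omega
  have hC0 : ∀ y, C y ∈ D 0 := by
    intro y
    rw [← hperp0]
    intro x hx
    apply hf.eq_zero_flip
    rw [← hC, hBD0 x hx, hf.zero_left]
  have hCD0 : ∀ y ∈ D 0, C y = 0 := by
    intro y hy
    by_contra h0
    obtain ⟨x, hx⟩ := hf.nd _ h0
    apply hx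
    rw [← hC]
    exact hts 0 _ (hB0 x) _ hy
  let T : V →ₗ[F] V := A + C
  have hTa : ∀ x, T x = A x + C x := fun _ => rfl
  have hT : ∀ x y, f (T x) (T y) = f x y := by
    intro x y
    have e1 : f (A x) (C y) = f (π 0 x) y := by
      rw [← hC, hBA]
    have e2 : f (C x) (A y) = f x (π 0 y) := by
      rw [hf.herm, ← hC, hBA, ← hf.herm]
    rw [hTa, hTa, hf.add_left, hf.add_right, hf.add_right, e1, e2, hts 1 _ (hA1 x) _ (hA1 y),
      hts 0 _ (hC0 x) _ (hC0 y)]
    have e3 : f (π 0 x) y = f (π 0 x) (π 1 y) := by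
      conv_lhs => rw [← hsum y]
      rw [hf.add_right, hts 0 _ (h1 0 x) _ (h1 0 y), zero_add]
    have e4 : f x (π 0 y) = f (π 1 x) (π 0 y) := by
      conv_lhs => rw [← hsum x]
      rw [hf.add_left, hts 0 _ (h1 0 x) _ (h1 0 y), zero_add]
    have e5 : f x y = f (π 0 x) (π 1 y) + f (π 1 x) (π 0 y) := by
      conv_lhs => rw [← hsum x, ← hsum y]
      rw [hf.add_left, hf.add_right, hf.add_right, hts 0 _ (h1 0 x) _ (h1 0 y), hts 1 _ (h1 1 x) _ (h1 1 y)]
      simp
    rw [e3, e4, e5]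
    simp
  obtain ⟨g, hg⟩ := exists_gl_of_iso hf T hT
  have hgU : g ∈ uGroup f := fun x y => by rw [hg, hg, hT]
  have hg0 : ∀ x ∈ D 0, act g x ∈ D 1 := by
    intro x hx
    rw [hg, hTa, hCD0 x hx, add_zero]
    exact hA1 x
  have hg1 : ∀ x ∈ D 1, act g x ∈ D 0 := by
    intro x hx
    rw [hg, hTa, hAD1 x hx, zero_add]
    exact hC0 x
  -- the hyperbolic pair
  obtain ⟨a, ha, ha0⟩ : ∃ a ∈ D 0, a ≠ 0 := by
    have : D 0 ≠ ⊥ := by
      intro h0
      have h5 := hD.finrank_eq 0
      rw [h0, finrank_bot] at h5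
      have := hD.pos
      omega
    exact Submodule.exists_mem_ne_zero_of_ne_bot this
  obtain ⟨φ, hφ, -⟩ := exists_dual_of_notMem (S := (⊥ : Submodule F V)) (u := a) (by simpa using ha0)
  have hπ1 : ∀ v, v - π 0 v ∈ D 1 := by
    intro v
    have : v - π 0 v = π 1 v := by
      rw [sub_eq_iff_eq_add, add_comm, hsum]
    rw [this]
    exact h1 1 v
  obtain ⟨b, hb, hbφ⟩ := exists_rep_on hf (hts 0) (π 0) (h1 0) hπ1 φ
  have hab : f a b = 1 := by rw [hbφ a ha, hφ]
  have hdet := det_norm_one hf hσ hn hgU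
  set ν := ((g : GL ι F) : Matrix ι ι F).det with hν
  have hν0 : ν ≠ 0 := left_ne_zero_of_mul_eq_one hdet
  have hσν0 : σ ν ≠ 0 := right_ne_zero_of_mul_eq_one hdet
  obtain ⟨μ, hμ0, hμ⟩ := exists_hilbert90 hf hσ (ν := ν⁻¹) (by
    rw [map_inv₀]
    field_simp
    linear_combination -hdet)
  obtain ⟨d, hdU, hd1, hd2⟩ := exists_diag hf (hts 0 a ha a ha) (hts 1 b hb b hb) hab hμ0
  have hd0 : ∀ x ∈ D 0, act d x ∈ D 0 := by
    intro x hx
    rw [hd1, hts 0 x hx a ha, mul_zero, zero_smul, add_zero]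
    exact (D 0).add_mem hx ((D 0).smul_mem _ ha)
  have hd1' : ∀ x ∈ D 1, act d x ∈ D 1 := by
    intro x hx
    rw [hd1, hts 1 x hx b hb, mul_zero, zero_smul, add_zero]
    exact (D 1).add_mem hx ((D 1).smul_mem _ hb)
  have hξ0 : ∀ x ∈ D 0, act (d * g) x ∈ D 1 := by
    intro x hx
    rw [map_mul, LinearEquiv.mul_apply]
    exact hd1' _ (hg0 x hx)
  have hξ1 : ∀ x ∈ D 1, act (d * g) x ∈ D 0 := by
    intro x hx
    rw [map_mul, LinearEquiv.mul_apply]
    exact hd0 _ (hg1 x hx)
  refine ⟨d * g, ⟨mem_stabD_of hD.finrank_eq (Equiv.swap 0 1) fun l x hx => ?_, Subgroup.mul_mem _ hdU hgU, ?_⟩,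
    hξ0, hξ1⟩
  · fin_cases l
    · simpa using hξ0 x hx
    · simpa using hξ1 x hx
  · show d * g ∈ Cfsg.Geo.specialLinear ι F
    rw [mem_SL_iff, det_act, Units.val_mul, Matrix.det_mul, hd2, hμ, ← hν, inv_mul_cancel₀ hν0]

theorem isMaximalIn_su_pair (hf : SForm σ f) (hσ : σ ≠ RingHom.id F) (hn : 13 ≤ Fintype.card ι)
    {D : Fin 2 → Submodule F V} (hD : Cfsg.Geo.IsMDecomposition k D) (hk2 : 2 * k = Fintype.card ι)
    (hts : ∀ i, Cfsg.Geo.IsTotallySingularFor f (D i)) :
    Cfsg.Geo.IsMaximalIn (uGroup f ⊓ Cfsg.Geo.specialLinear ι F)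
      (Cfsg.Geo.decompositionStabilizer D ⊓ (uGroup f ⊓ Cfsg.Geo.specialLinear ι F)) := by
  classical
  obtain ⟨π, h1, h2, h3, h4⟩ := exists_proj hD.indep hD.iSup_eq_top
  obtain ⟨δ, hδ0, hδ⟩ := exists_trace_zero hσ hf
  have hsum : ∀ x, π 0 x + π 1 x = x := fun x => by
    have := h4 x
    rwa [Fin.sum_univ_two] at this
  have hk := hD.finrank_eq
  have hother : ∀ l l' : Fin 2, l ≠ l' → ∀ p : Fin 2, p ≠ l → p = l' := by decide
  have hπ' : ∀ l l' : Fin 2, l ≠ l' → ∀ x, π l x + π l' x = x := by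
    intro l l' hll' x
    have := hsum x
    fin_cases l <;> fin_cases l' <;> first | exact absurd rfl hll' | simpa [add_comm] using this
  have hπY : ∀ l l' : Fin 2, l ≠ l' → ∀ x, x - π l x ∈ D l' := by
    intro l l' hll' x
    have : x - π l x = π l' x := by
      rw [sub_eq_iff_eq_add, add_comm, hπ' l l' hll' x]
    rw [this]
    exact h1 l' x
  have hrep : ∀ l l' : Fin 2, l ≠ l' → ∀ φ : Dual F V, ∃ b ∈ D l', ∀ x ∈ D l, f x b = φ x :=
    fun l l' hll' φ => exists_rep_on hf (hts l) (π l) (h1 l) (hπY l l' hll') φ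
  have hne : ∀ i, ∃ x ∈ D i, x ≠ 0 := by
    intro i
    have : D i ≠ ⊥ := by
      intro h0
      have := hk i
      rw [h0] at this
      simp at this
      omega
    exact Submodule.exists_mem_ne_zero_of_ne_bot this
  have hkge : 5 ≤ k := by omega
  have hrH : ∀ l l' : Fin 2, l ≠ l' → ∀ x ∈ D l, ∀ y ∈ D l', f x y = 0 →
      ∃ h ∈ Cfsg.Geo.decompositionStabilizer D ⊓ (uGroup f ⊓ Cfsg.Geo.specialLinear ι F), IsE f h x y := by
    intro l l' hll' x hx y hy hxy
    obtain ⟨h, hh, E⟩ := exists_eich hf hσ (hts l x hx x hx) (hts l' y hy y hy) hxy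
    refine ⟨h, ⟨mem_stabD_of hk 1 fun p z hz => ?_, UE_le_u hf hh, UE_le_SL hf hh⟩, E⟩
    rw [E]
    by_cases hp : p = l
    · subst hp
      rw [hts p z hz x hx, zero_smul, add_zero]
      exact (D p).sub_mem hz ((D p).smul_mem _ hx)
    · have hp' := hother l l' hll' p hp
      subst hp'
      rw [hts p z hz y hy, zero_smul, sub_zero]
      exact (D p).add_mem hz ((D p).smul_mem _ hy)
  constructor
  · rw [SetLike.lt_iff_le_and_exists]
    refine ⟨inf_le_right, ?_⟩
    obtain ⟨a, ha, ha0⟩ := hne 0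
    obtain ⟨φ, hφ1, hφ2⟩ := exists_dual_of_notMem (S := (⊥ : Submodule F V)) (u := a) (by simpa using ha0)
    obtain ⟨b, hb, hbφ⟩ := hrep 0 1 (by decide) φ
    have hab : f a b = 1 := by rw [hbφ a ha, hφ1]
    have hba : f b a = 1 := by rw [hf.herm, hab, map_one]
    have haa := hts 0 a ha a ha
    refine ⟨ut hf haa δ, ut_mem_SU hf haa hδ, fun hmem => ?_⟩
    obtain ⟨τ, hτ⟩ := act_mem_of_stabD hmem.1
    have h5 := hτ 1 b hb
    rw [act_ut, hba, mul_one] at h5
    have hb0 : b ≠ 0 := by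
      rintro rfl
      rw [hf.zero_right] at hab
      exact zero_ne_one hab
    by_cases hs : τ 1 = 0
    · rw [hs] at h5
      have h6 := h3 1 0 (by decide) _ h5
      rw [map_add, h2 1 b hb, map_smul, h3 1 0 (by decide) a ha, smul_zero, add_zero] at h6
      exact hb0 h6
    · have hs' : τ 1 = 1 := hother 0 1 (by decide) _ hs
      rw [hs'] at h5
      have h6 := h3 0 1 (by decide) _ h5
      rw [map_add, h3 0 1 (by decide) b hb, map_smul, h2 0 a ha, zero_add] at h6
      rcases smul_eq_zero.1 h6 with h7 | h7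
      · exact hδ0 h7
      · exact ha0 h7
  · intro M hM1 hM2
    by_cases hMH : M = Cfsg.Geo.decompositionStabilizer D ⊓ (uGroup f ⊓ Cfsg.Geo.specialLinear ι F)
    · exact Or.inl hMH
    right
    obtain ⟨g, hgM, hgH⟩ : ∃ g ∈ M, g ∉ Cfsg.Geo.decompositionStabilizer D ⊓ (uGroup f ⊓ Cfsg.Geo.specialLinear ι F) := by
      by_contra hcon
      push Not at hcon
      exact hMH (le_antisymm hcon hM1)
    have hgS : g ∉ Cfsg.Geo.decompositionStabilizer D := fun h => hgH ⟨h, hM2 hgM⟩
    have hMU : M ≤ uGroup f := fun x hx => (hM2 hx).1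
    have hrM : ∀ l l' : Fin 2, l ≠ l' → ∀ x ∈ D l, ∀ y ∈ D l', f x y = 0 → ∃ h ∈ M, IsE f h x y := by
      intro l l' hll' x hx y hy hxy
      obtain ⟨h, hh, E⟩ := hrH l l' hll' x hx y hy hxy
      exact ⟨h, hM1 hh, E⟩
    -- the images
    let G : V →ₗ[F] V := ((act g : V ≃ₗ[F] V) : V →ₗ[F] V)
    have hGg : ∀ x, G x = act g x := fun _ => rfl
    have hgu : ∀ x y, f (act g x) (act g y) = f x y := hMU hgM
    have hrG : ∀ l l' : Fin 2, l ≠ l' → ∀ c ∈ (D l).map G, ∀ e ∈ (D l').map G, f c e = 0 → ∃ h ∈ M, IsE f h c e := by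
      rintro l l' hll' _ ⟨u, hu, rfl⟩ _ ⟨w, hw, rfl⟩ hce
      rw [hGg, hGg] at hce ⊢
      rw [hgu] at hce
      obtain ⟨h, hh, E⟩ := hrM l l' hll' u hu w hw hce
      exact ⟨g * h * g⁻¹, M.mul_mem (M.mul_mem hgM hh) (M.inv_mem hgM), E.conj hf (hMU hgM)⟩
    have htsG : ∀ l, ∀ u ∈ (D l).map G, ∀ v ∈ (D l).map G, f u v = 0 := by
      rintro l _ ⟨u, hu, rfl⟩ _ ⟨w, hw, rfl⟩
      rw [hGg, hGg, hgu]
      exact hts l u hu w hw
    have hfrk : ∀ l, finrank F ((D l).map G) = k := by
      intro l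
      exact (LinearEquiv.finrank_map_eq (act g) (D l)).trans (hk l)
    have hsup : (D 0).map G ⊔ (D 1).map G = ⊤ := by
      rw [← Submodule.map_sup]
      have h5 : D 0 ⊔ D 1 = ⊤ := by
        rw [eq_top_iff]
        intro x _
        rw [← hsum x]
        exact Submodule.add_mem _ (Submodule.mem_sup_left (h1 0 x)) (Submodule.mem_sup_right (h1 1 x))
      rw [h5, Submodule.map_top]
      exact LinearMap.range_eq_top.2 (act g).surjective
    have hnot1 : ¬ ((D 0).map G = D 0 ∧ (D 1).map G = D 1) := by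
      rintro ⟨h5, h6⟩
      apply hgS
      refine mem_stabD_of hk 1 fun l x hx => ?_
      rw [← hGg]
      fin_cases l
      · show G x ∈ D 0
        rw [← h5]
        exact ⟨x, hx, rfl⟩
      · show G x ∈ D 1
        rw [← h6]
        exact ⟨x, hx, rfl⟩
    have hnot2 : ¬ ((D 0).map G = D 1 ∧ (D 1).map G = D 0) := by
      rintro ⟨h5, h6⟩
      apply hgS
      refine mem_stabD_of hk (Equiv.swap 0 1) fun l x hx => ?_
      rw [← hGg]
      fin_cases l
      · show G x ∈ D (Equiv.swap 0 1 0)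
        rw [Equiv.swap_apply_left, ← h5]
        exact ⟨x, hx, rfl⟩
      · show G x ∈ D (Equiv.swap 0 1 1)
        rw [Equiv.swap_apply_right, ← h6]
        exact ⟨x, hx, rfl⟩
    have hmaple : ∀ {A : Submodule F V} {l : Fin 2}, finrank F A = k → A ≤ D l → A = D l := by
      intro A l h5 h6
      exact Submodule.eq_of_le_of_finrank_eq h6 (by rw [h5, hk])
    have hmapid : ∀ l : Fin 2, finrank F ((D l).map (π l)) = k := by
      intro l
      have : (D l).map (π l) = D l := by
        apply le_antisymm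
        · rintro _ ⟨x, _, rfl⟩
          exact h1 l x
        · intro x hx
          exact ⟨x, hx, h2 l x hx⟩
      rw [this, hk]
    have step : ∀ (l l' : Fin 2) (hll' : l ≠ l') (p p' : Fin 2) (hpp' : p ≠ p'),
        ¬ ((D p').map G ≤ D l') → 3 ≤ finrank F (((D p).map G).map (π l)) →
        ∃ a ∈ D l, a ≠ 0 ∧ UA hf M a := by
      intro l l' hll' p p' hpp' hE hr
      exact su_core_pair hf hσ (hts l) (hts l') (htsG p) (htsG p') (π l) (h1 l) (hπY l l' hll') (hrM l l' hll')
        (hrG p p' hpp') hE hr (by rw [hk]; exact hkge)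
    have hfirst : ∃ l, ∃ a ∈ D l, a ≠ 0 ∧ UA hf M a := by
      have hdich : 3 ≤ finrank F (((D 0).map G).map (π 0)) ∨ 3 ≤ finrank F (((D 1).map G).map (π 0)) := by
        by_contra hcon
        push Not at hcon
        have h5 : D 0 ≤ ((D 0).map G).map (π 0) ⊔ ((D 1).map G).map (π 0) := by
          rw [← Submodule.map_sup, hsup, Submodule.map_top]
          intro x hx
          exact ⟨x, h2 0 x hx⟩
        have h6 := Submodule.finrank_mono h5
        have h7 := Submodule.finrank_add_le_finrank_add_finrank (((D 0).map G).map (π 0)) (((D 1).map G).map (π 0))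
        have h8 := hk 0
        omega
      rcases hdich with h5 | h5
      · by_cases hBW : (D 1).map G ≤ D 1
        · have h6 := hmaple (hfrk 1) hBW
          have h7 : ¬ (D 0).map G ≤ D 0 := by
            intro h8
            exact hnot1 ⟨hmaple (hfrk 0) h8, h6⟩
          refine ⟨1, step 1 0 (by decide) 1 0 (by decide) h7 ?_⟩
          rw [h6, hmapid]
          omega
        · exact ⟨0, step 0 1 (by decide) 0 1 (by decide) hBW h5⟩
      · by_cases hAW : (D 0).map G ≤ D 1
        · have h6 := hmaple (hfrk 0) hAW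
          have h7 : ¬ (D 1).map G ≤ D 0 := by
            intro h8
            exact hnot2 ⟨h6, hmaple (hfrk 1) h8⟩
          refine ⟨1, step 1 0 (by decide) 0 1 (by decide) h7 ?_⟩
          rw [h6, hmapid]
          omega
        · exact ⟨0, step 0 1 (by decide) 1 0 (by decide) hAW h5⟩
    -- transitivity on a member
    have htrans1 : ∀ (l l' : Fin 2), l ≠ l' → ∀ a ∈ D l, a ≠ 0 → ∀ a' ∈ D l, UA hf M a →
        a' ∉ Submodule.span F {a} → UA hf M a' := by
      intro l l' hll' a ha ha0 a' ha' hU hind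
      have ha0' : a ∉ Submodule.span F {a' - a} := by
        intro hin
        obtain ⟨α, hα⟩ := Submodule.mem_span_singleton.1 hin
        have hα0 : α ≠ 0 := by
          rintro rfl
          rw [zero_smul] at hα
          exact ha0 hα.symm
        apply hind
        rw [Submodule.mem_span_singleton]
        refine ⟨1 + α⁻¹, ?_⟩
        have h5 : a' - a = α⁻¹ • a := by
          conv_rhs => rw [← hα]
          rw [smul_smul, inv_mul_cancel₀ hα0, one_smul]
        rw [add_smul, one_smul, ← h5]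
        abel
      obtain ⟨φ, hφ1, hφ2⟩ := exists_dual_of_notMem ha0'
      obtain ⟨b, hb, hbφ⟩ := hrep l l' hll' ((-1 : F) • φ)
      have hp : a' - a ∈ D l := (D l).sub_mem ha' ha
      have hpb : f (a' - a) b = 0 := by
        rw [hbφ _ hp, LinearMap.smul_apply, hφ2 _ (Submodule.mem_span_singleton_self _), smul_zero]
      have hab : f a b = -1 := by
        rw [hbφ a ha, LinearMap.smul_apply, hφ1]
        simp
      obtain ⟨h, hh, E⟩ := hrM l l' hll' _ hp b hb hpb
      have h5 := UA_act hMU hh hU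
      rw [E, hab, hts l a ha _ hp, zero_smul, add_zero, neg_smul, one_smul, sub_neg_eq_add,
        add_sub_cancel] at h5
      exact h5
    have htrans : ∀ (l l' : Fin 2), l ≠ l' → ∀ a ∈ D l, a ≠ 0 → UA hf M a → ∀ a' ∈ D l, UA hf M a' := by
      intro l l' hll' a ha ha0 hU a' ha'
      by_cases ha'0 : a' = 0
      · subst ha'0
        exact UA_zero hf M
      by_cases hspan : a' ∈ Submodule.span F {a}
      · obtain ⟨a'', ha'', ha''S⟩ : ∃ a'' ∈ D l, a'' ∉ Submodule.span F {a} := by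
          by_contra hcon
          push Not at hcon
          have h5 : D l ≤ Submodule.span F {a} := hcon
          have h6 := Submodule.finrank_mono h5
          rw [hk, finrank_span_singleton ha0] at h6
          omega
        have h5 := htrans1 l l' hll' a ha ha0 a'' ha'' hU ha''S
        have ha''0 : a'' ≠ 0 := by
          rintro rfl
          exact ha''S (Submodule.zero_mem _)
        refine htrans1 l l' hll' a'' ha'' ha''0 a' ha' h5 ?_
        intro hin
        obtain ⟨β, hβ⟩ := Submodule.mem_span_singleton.1 hin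
        obtain ⟨α, hα⟩ := Submodule.mem_span_singleton.1 hspan
        have hβ0 : β ≠ 0 := by
          rintro rfl
          rw [zero_smul] at hβ
          exact ha'0 hβ.symm
        apply ha''S
        rw [Submodule.mem_span_singleton]
        refine ⟨β⁻¹ * α, ?_⟩
        rw [mul_smul, hα, ← hβ, smul_smul, inv_mul_cancel₀ hβ0, one_smul]
      · exact htrans1 l l' hll' a ha ha0 a' ha' hU hspan
    obtain ⟨ξ, hξ, hξ0, hξ1⟩ := exists_swap_su hf hσ hn hD hk2 hts
    have hmemboth : ∀ l, ∀ x ∈ D l, UA hf M x := by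
      obtain ⟨l, a, ha, ha0, hU⟩ := hfirst
      have hl' : ∃ l', l ≠ l' ∧ (∀ x ∈ D l, act ξ x ∈ D l') := by
        fin_cases l
        · exact ⟨1, by decide, hξ0⟩
        · exact ⟨0, by decide, hξ1⟩
      obtain ⟨l', hll', hξl⟩ := hl'
      have hl : ∀ x ∈ D l, UA hf M x := htrans l l' hll' a ha ha0 hU
      have hl'' : ∀ y ∈ D l', UA hf M y := by
        intro y hy
        have h5 := map_toLin_eq hξl (by rw [hk, hk])
        rw [← h5] at hy
        obtain ⟨x, hx, rfl⟩ := hy
        exact UA_act hMU (hM1 hξ) (hl x hx)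
      intro p
      by_cases hp : p = l
      · subst hp
        exact hl
      · rw [hother l l' hll' p hp]
        exact hl''
    -- spreading
    obtain ⟨a, ha, ha0⟩ := hne 0
    have haU := hmemboth 0 a ha
    have haa := haU.iso
    obtain ⟨φ, hφ1, hφ2⟩ := exists_dual_of_notMem (S := (⊥ : Submodule F V)) (u := a) (by simpa using ha0)
    obtain ⟨b, hb, hbφ⟩ := hrep 0 1 (by decide) φ
    have hab : f a b = 1 := by rw [hbφ a ha, hφ1]
    have hba : f b a = 1 := by rw [hf.herm, hab, map_one]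
    have hE : ∀ y, f y y = 0 → f a y = 0 → ∃ h ∈ M, ∀ x, act h x = x + f x a • y - f x y • a := by
      intro y hy hay
      set y₀ := π 0 y with hy₀
      set y₁ := π 1 y with hy₁
      have hsumy : y₀ + y₁ = y := hsum y
      have hy₀D : y₀ ∈ D 0 := h1 0 y
      have hy₁D : y₁ ∈ D 1 := h1 1 y
      have hay₀ : f a y₀ = 0 := hts 0 a ha y₀ hy₀D
      have hay₁ : f a y₁ = 0 := by
        have := hay
        rw [← hsumy, hf.add_right, hay₀, zero_add] at this
        exact this
      have hs : f y₁ y₀ + σ (f y₁ y₀) = 0 := by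
        have h5 := hy
        rw [← hsumy, hf.add_left, hf.add_right, hf.add_right, hts 0 _ hy₀D _ hy₀D, hts 1 _ hy₁D _ hy₁D,
          zero_add, add_zero] at h5
        rw [← hf.herm]
        linear_combination h5
      obtain ⟨h₀, hh₀, E₀⟩ := exists_eich_of hf hσ (M := M) haa (hts 0 _ hy₀D _ hy₀D) hay₀
        (fun s t => hmemboth 0 _ ((D 0).add_mem ((D 0).smul_mem _ ha) ((D 0).smul_mem _ hy₀D)))
      obtain ⟨h₁, hh₁, E₁⟩ := hrM 0 1 (by decide) a ha y₁ hy₁D hay₁
      refine ⟨ut hf haa (f y₁ y₀) * h₀ * h₁, M.mul_mem (M.mul_mem (haU.mem haa hs) hh₀) hh₁, fun x => ?_⟩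
      rw [map_mul, map_mul, LinearEquiv.mul_apply, LinearEquiv.mul_apply, act_ut, E₀, E₁]
      have hy₀a := hf.eq_zero_flip hay₀
      have hy₁a := hf.eq_zero_flip hay₁
      simp only [hf.sub_left, hf.add_left, hf.smul_left, hf.smul_right, haa, hay₀, hay₁, hy₀a, hy₁a, mul_zero,
        add_zero, sub_zero]
      rw [← hsumy, hf.add_right]
      (module)
    have hb0 : b ≠ 0 := by
      rintro rfl
      rw [hf.zero_left] at hba
      exact zero_ne_one hba
    have hbU := hmemboth 1 b hb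
    refine le_antisymm hM2 (su_le_of_UA hf hσ hn fun z hz => ?_)
    exact all_of_spread hf hσ hn hMU ha0 (fun u hu hua' => spread hf hσ hn hMU haU hE hbU
      (by rw [hba]; exact one_ne_zero) hu hua') hz

end

end Cfsg.Agent.Lib.Geo
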