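import Mathlib
import Cfsg.Agent.Lib.Geo.OmegaDecomp
import Cfsg.Agent.Lib.Geo.SUPair

set_option autoImplicit false

/-! The stabilizer of a pair of complementary totally singular subspaces of half the dimension. -/

namespace Cfsg.Agent.Lib.Geo

open scoped MatrixGroups Matrix commutatorElement
open Module

variable {ι : Type} [Fintype ι] [DecidableEq ι] {F : Type*} [Field F] [Fintype F]

local notation "V" => (ι → F)

variable {Q : (ι → F) → F}

local notation "f" => QuadraticMap.polar Q

/-- The product of two reflections with the same value lies in `Ω`. -/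
theorem rf_mul_rf_mem_omega (hQ : Cfsg.Geo.IsNondegenerateQuadraticForm Q) (hn : 9 ≤ Fintype.card ι)
    {a b : V} (h : Q a = Q b) (h0 : Q a ≠ 0) : rf hQ a * rf hQ b ∈ Cfsg.Geo.omegaGL Q := by
  obtain ⟨k, hk, hab⟩ := exists_EG_trans hQ hn h h0
  have hkO : k ∈ Cfsg.isometryGroup F Q := omega_le_iso (EG_le_omega hQ hn hk)
  have e : rf hQ b = k * rf hQ a * k⁻¹ := by rw [conj_rf hQ hkO h0, hab]
  have h2 : (rf hQ a)⁻¹ = rf hQ a := inv_eq_of_mul_eq_one_right (rf_sq hQ h0)
  have e2 : rf hQ a * (k * rf hQ a * k⁻¹) = ⁅rf hQ a, k⁆ := by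
    rw [commutatorElement_def, h2]
    group
  rw [e, e2, omegaGL_eq]
  exact Subgroup.commutator_mem_commutator (rf_mem_iso hQ a) hkO

/-- Products of an even number of pairwise orthogonal reflections with the same value. -/
theorem exists_refl_prod (hQ : Cfsg.Geo.IsNondegenerateQuadraticForm Q) (hn : 9 ≤ Fintype.card ι)
    {I : Type*} [DecidableEq I] {c : F} (hc : c ≠ 0) (v : I → V) (hv : ∀ i, Q (v i) = c)
    (horth : ∀ i j, i ≠ j → f (v i) (v j) = 0) :
    ∀ (m : ℕ) (s : Finset I), s.card = 2 * m →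
      ∃ ξ ∈ Cfsg.Geo.omegaGL Q, ∀ x, act ξ x = x - c⁻¹ • ∑ i ∈ s, f x (v i) • v i := by
  intro m
  induction m with
  | zero =>
    intro s hs
    have : s = ∅ := Finset.card_eq_zero.1 (by simpa using hs)
    subst this
    exact ⟨1, one_mem _, fun x => by simp⟩
  | succ m ih =>
    intro s hs
    obtain ⟨i, hi⟩ : s.Nonempty := by
      rw [← Finset.card_pos]
      omega
    have hs1 : (s.erase i).card = 2 * m + 1 := by
      rw [Finset.card_erase_of_mem hi]
      omega
    obtain ⟨j, hj⟩ : (s.erase i).Nonempty := by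
      rw [← Finset.card_pos]
      omega
    have hji : j ≠ i := (Finset.mem_erase.1 hj).1
    have hs2 : ((s.erase i).erase j).card = 2 * m := by
      rw [Finset.card_erase_of_mem hj]
      omega
    obtain ⟨ξ, hξ, hξx⟩ := ih _ hs2
    have hci : Q (v i) ≠ 0 := by rw [hv]; exact hc
    have hcj : Q (v j) ≠ 0 := by rw [hv]; exact hc
    refine ⟨ξ * (rf hQ (v i) * rf hQ (v j)), mul_mem hξ (rf_mul_rf_mem_omega hQ hn (by rw [hv, hv]) hci),
      fun x => ?_⟩
    rw [map_mul, map_mul, LinearEquiv.mul_apply, LinearEquiv.mul_apply, act_rf hQ hcj, act_rf hQ hci, hξx]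
    have hsum : ∑ l ∈ s, f x (v l) • v l
        = f x (v i) • v i + (f x (v j) • v j + ∑ l ∈ (s.erase i).erase j, f x (v l) • v l) := by
      rw [Finset.add_sum_erase _ (fun l => f x (v l) • v l) hj, Finset.add_sum_erase _ (fun l => f x (v l) • v l) hi]
    have hcong : ∑ l ∈ (s.erase i).erase j,
          f (x - (f x (v j) / Q (v j)) • v j - (f (x - (f x (v j) / Q (v j)) • v j) (v i) / Q (v i)) • v i) (v l) • v l
        = ∑ l ∈ (s.erase i).erase j, f x (v l) • v l := by
      refine Finset.sum_congr rfl fun l hl => ?_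
      have hlj : l ≠ j := (Finset.mem_erase.1 hl).1
      have hli : l ≠ i := (Finset.mem_erase.1 (Finset.mem_erase.1 hl).2).1
      rw [pol_sub_left hQ, pol_sub_left hQ, pol_smul_left hQ, pol_smul_left hQ, horth j l hlj.symm,
        horth i l hli.symm]
      simp
    rw [hcong, hsum]
    have h1 : f (x - (f x (v j) / Q (v j)) • v j) (v i) = f x (v i) := by
      rw [pol_sub_left hQ, pol_smul_left hQ, horth j i hji]
      simp
    rw [h1, hv, hv]
    generalize (∑ l ∈ (s.erase i).erase j, f x (v l) • v l) = S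
    simp only [div_eq_mul_inv]
    (module)

/-- The polar form vanishes on a totally singular subspace. -/
theorem ts_polar {W : Submodule F V} (h : ∀ u ∈ W, Q u = 0) : ∀ u ∈ W, ∀ v ∈ W, f u v = 0 := by
  intro u hu v hv
  rw [QuadraticMap.polar, h _ (W.add_mem hu hv), h u hu, h v hv]
  simp

/-- A swap in `Ω` of two complementary totally singular subspaces of even dimension. -/
theorem exists_swap_omega (hQ : Cfsg.Geo.IsNondegenerateQuadraticForm Q) (hn : 9 ≤ Fintype.card ι) {k : ℕ}
    {D : Fin 2 → Submodule F V} (hD : Cfsg.Geo.IsMDecomposition k D) (hk : 2 * k = Fintype.card ι)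
    (hke : Even k) (hts : ∀ i, ∀ u ∈ D i, Q u = 0) :
    ∃ ξ ∈ Cfsg.Geo.omegaGL Q, (∀ x ∈ D 0, act ξ x ∈ D 1) ∧ (∀ x ∈ D 1, act ξ x ∈ D 0) := by
  classical
  set hf := sform_of_quad hQ with hhf
  have hts2 : ∀ i, ∀ u ∈ D i, ∀ v ∈ D i, f u v = 0 := fun i => ts_polar (hts i)
  obtain ⟨π, h1, h2, h3, h4⟩ := exists_proj hD.indep hD.iSup_eq_top
  have hsum : ∀ x, π 0 x + π 1 x = x := fun x => by
    have := h4 x
    rwa [Fin.sum_univ_two] at this
  have hπ1 : ∀ v, v - π 0 v ∈ D 1 := by
    intro v
    have : v - π 0 v = π 1 v := by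
      rw [sub_eq_iff_eq_add, add_comm, hsum]
    rw [this]
    exact h1 1 v
  -- a basis of the first member and the coordinate forms
  let b : Basis (Fin k) F (D 0) := finBasisOfFinrankEq F (D 0) (hD.finrank_eq 0)
  let c0 : V →ₗ[F] D 0 := (π 0).codRestrict (D 0) (h1 0)
  let φ : Fin k → Dual F V := fun i => (b.coord i) ∘ₗ c0
  have hexp : ∀ x ∈ D 0, x = ∑ i, φ i x • (b i : V) := by
    intro x hx
    have h5 : c0 x = ⟨x, hx⟩ := Subtype.ext (h2 0 x hx)
    have h6 := b.sum_repr ⟨x, hx⟩
    have h7 := congrArg (Subtype.val) h6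
    simp only [AddSubmonoidClass.coe_finset_sum, SetLike.val_smul] at h7
    conv_lhs => rw [← h7]
    refine Finset.sum_congr rfl fun i _ => ?_
    simp only [φ, LinearMap.comp_apply, Basis.coord_apply, h5]
  have hφe : ∀ i j, φ i (b j : V) = if i = j then 1 else 0 := by
    intro i j
    have h5 : c0 (b j : V) = b j := Subtype.ext (h2 0 _ (b j).2)
    simp only [φ, LinearMap.comp_apply, Basis.coord_apply, h5, Basis.repr_self]
    rw [Finsupp.single_apply]
    simp only [eq_comm]
  choose e' he'D he' using fun i => exists_rep_on hf (hts2 0) (π 0) (h1 0) hπ1 (φ i)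
  let v : Fin k → V := fun i => (b i : V) - e' i
  have hfee : ∀ i j, f (b i : V) (e' j) = if j = i then 1 else 0 := by
    intro i j
    rw [he' j _ (b i).2, hφe]
  have hQv : ∀ i, Q (v i) = -1 := by
    intro i
    have h5 : v i = (b i : V) + (-1 : F) • e' i := by
      simp [v, sub_eq_add_neg]
    rw [h5, Q_add' (Q := Q), hts 0 _ (b i).2, Q_smul' hQ, hts 1 _ (he'D i), pol_smul_right hQ, hfee]
    simp
  have horth : ∀ i j, i ≠ j → f (v i) (v j) = 0 := by
    intro i j hij
    simp only [v]
    rw [pol_sub_left hQ, pol_sub_right hQ, pol_sub_right hQ, hts2 0 _ (b i).2 _ (b j).2,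
      hts2 1 _ (he'D i) _ (he'D j), hfee, pol_comm' (e' i) (b j : V), hfee, if_neg hij.symm, if_neg hij]
    simp
  have hc : (-1 : F) ≠ 0 := by simp
  obtain ⟨m, hm⟩ := hke
  obtain ⟨ξ, hξ, hξx⟩ := exists_refl_prod hQ hn hc v hQv horth m Finset.univ (by
    rw [Finset.card_univ, Fintype.card_fin]
    omega)
  have hξx' : ∀ x, act ξ x = x + ∑ i, f x (v i) • v i := by
    intro x
    rw [hξx]
    simp
  refine ⟨ξ, hξ, ?_, ?_⟩
  · intro x hx
    have h5 : ∀ i, f x (v i) = - φ i x := by
      intro i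
      simp only [v]
      rw [pol_sub_right hQ, hts2 0 x hx _ (b i).2, he' i x hx]
      ring
    have h6 : act ξ x = ∑ i, φ i x • e' i := by
      rw [hξx']
      simp only [h5, v, neg_smul, smul_sub, Finset.sum_neg_distrib, Finset.sum_sub_distrib]
      rw [← hexp x hx]
      abel
    rw [h6]
    exact Submodule.sum_mem _ fun i _ => (D 1).smul_mem _ (he'D i)
  · intro y hy
    have hperp0 : hf.lperp (D 0) = D 0 := by
      symm
      apply Submodule.eq_of_le_of_finrank_eq
      · intro x hx z hz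
        exact hts2 0 x hx z hz
      · have := hf.finrank_lperp (D 0)
        rw [hD.finrank_eq 0] at this ⊢
        omega
    rw [← hperp0]
    intro z hz
    show f (act ξ y) z = 0
    have h5 : ∀ i, f z (v i) = - φ i z := by
      intro i
      simp only [v]
      rw [pol_sub_right hQ, hts2 0 z hz _ (b i).2, he' i z hz]
      ring
    have h6 : ∀ i, f y (v i) = f y (b i : V) := by
      intro i
      simp only [v]
      rw [pol_sub_right hQ, hts2 1 y hy _ (he'D i), sub_zero]
    rw [pol_comm', hξx']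
    have h7 : f z (y + ∑ i, f y (v i) • v i) = hf.lf (y + ∑ i, f y (v i) • v i) z := rfl
    have h8 : ∀ (u : V), f z u = f u z := fun u => pol_comm' _ _
    have h9 : f z (∑ i, f y (v i) • v i) = ∑ i, f y (v i) * f z (v i) := by
      rw [h8]
      have : f (∑ i, f y (v i) • v i) z = hf.lf z (∑ i, f y (v i) • v i) := rfl
      rw [this, map_sum]
      refine Finset.sum_congr rfl fun i _ => ?_
      rw [map_smul, smul_eq_mul, hf.lf_apply, pol_comm' (v i) z]
    rw [pol_add_right hQ, h9]
    simp only [h5, h6]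
    have h10 : f y z = ∑ i, φ i z * f y (b i : V) := by
      conv_lhs => rw [hexp z hz]
      have : f y (∑ i, φ i z • (b i : V)) = hf.lf y (∑ i, φ i z • (b i : V)) := by
        rw [hf.lf_apply, pol_comm']
      rw [this, map_sum]
      refine Finset.sum_congr rfl fun i _ => ?_
      rw [map_smul, smul_eq_mul, hf.lf_apply, pol_comm' (b i : V) y]
    rw [pol_comm' z y, h10, ← Finset.sum_add_distrib]
    refine Finset.sum_eq_zero fun i _ => ?_
    ring

end Cfsg.Agent.Lib.Geo
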