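import Mathlib
import Cfsg.Agent.Lib.Geo.OmegaPair

set_option autoImplicit false

/-! If the space is the orthogonal sum of two isometric subspaces of even dimension, it is of plus type. -/

namespace Cfsg.Agent.Lib.Geo

open scoped MatrixGroups Matrix commutatorElement
open Module

variable {ι : Type} [Fintype ι] [DecidableEq ι] {F : Type*} [Field F] [Fintype F]

local notation "V" => (ι → F)

variable {Q : (ι → F) → F}

local notation "f" => QuadraticMap.polar Q

theorem Q_comb2 (hQ : Cfsg.Geo.IsNondegenerateQuadraticForm Q) (a a' : V) (p q : F) :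
    Q (p • a + q • a') = p * p * Q a + q * q * Q a' + p * q * f a a' := by
  rw [Q_add' (Q := Q), Q_smul' hQ, Q_smul' hQ, pol_smul_left hQ, pol_smul_right hQ]
  ring

/-- the similarity with factor `-1` of an anisotropic plane -/
theorem anti_plane (hQ : Cfsg.Geo.IsNondegenerateQuadraticForm Q) {a a' : V} {P R : F} (hα : Q a ≠ 0)
    (e : P * P * Q a + R * R * Q a' + P * R * f a a' = - Q a) :
    ∃ b b' : V, b ∈ Submodule.span F {a} ⊔ Submodule.span F {a'} ∧
      b' ∈ Submodule.span F {a} ⊔ Submodule.span F {a'} ∧ Q b = - Q a ∧ Q b' = - Q a' ∧ f b b' = - f a a' := by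
  refine ⟨P • a + R • a', (-(R * Q a' / Q a)) • a + (P + R * f a a' / Q a) • a',
    Submodule.add_mem _ (Submodule.mem_sup_left (Submodule.smul_mem _ _ (Submodule.mem_span_singleton_self _)))
      (Submodule.mem_sup_right (Submodule.smul_mem _ _ (Submodule.mem_span_singleton_self _))),
    Submodule.add_mem _ (Submodule.mem_sup_left (Submodule.smul_mem _ _ (Submodule.mem_span_singleton_self _)))
      (Submodule.mem_sup_right (Submodule.smul_mem _ _ (Submodule.mem_span_singleton_self _))), ?_, ?_, ?_⟩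
  · rw [Q_comb2 hQ]
    exact e
  · rw [Q_comb2 hQ]
    generalize f a a' = β at *
    generalize Q a = α at *
    generalize Q a' = γ at *
    field_simp
    linear_combination γ * α * e
  · simp only [pol_add_left hQ, pol_add_right hQ, pol_smul_left hQ, pol_smul_right hQ]
    rw [polar_self' hQ a, polar_self' hQ a', pol_comm' a' a]
    generalize f a a' = β at *
    generalize Q a = α at *
    generalize Q a' = γ at *
    field_simp
    linear_combination β * e

theorem disjoint_perp (hQ : Cfsg.Geo.IsNondegenerateQuadraticForm Q) {W : Submodule F V}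
    (hW : ∀ w ∈ W, w ≠ 0 → ∃ x ∈ W, f x w ≠ 0) {y : V} (h1 : y ∈ W) (h2 : y ∈ qperp hQ W) : y = 0 := by
  by_contra h0
  obtain ⟨a, ha, hay⟩ := hW y h1 h0
  apply hay
  rw [pol_comm']
  exact h2 a ha

/-- the orthogonal sum of two isometric subspaces of even dimension is of plus type -/
theorem plus_of_iso (hQ : Cfsg.Geo.IsNondegenerateQuadraticForm Q) {k : ℕ} (hk : 2 * k = Fintype.card ι)
    (hke : Even k) {W : Submodule F V} (hWk : finrank F W = k) (hW : ∀ w ∈ W, w ≠ 0 → ∃ x ∈ W, f x w ≠ 0)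
    {g : GL ι F} (hg : g ∈ Cfsg.isometryGroup F Q) (hgW : ∀ y ∈ qperp hQ W, act g y ∈ W) :
    Cfsg.Geo.IsPlusTypeOn Q ⊤ := by
  classical
  set hf := sform_of_quad hQ with hhf
  set Y := qperp hQ W with hY
  have hYk : finrank F Y = k := by
    have : finrank F Y + finrank F W = Fintype.card ι := finrank_qperp hQ W
    omega
  have hV : finrank F V = Fintype.card ι := by simp
  -- the inverse isometry
  have hginv : g⁻¹ ∈ Cfsg.isometryGroup F Q := inv_mem hg
  have hmap : Y.map ((act g : V ≃ₗ[F] V) : V →ₗ[F] V) = W := by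
    apply Submodule.eq_of_le_of_finrank_eq
    · rintro _ ⟨y, hy, rfl⟩
      exact hgW y hy
    · rw [LinearEquiv.finrank_map_eq, hYk, hWk]
  have hinv : ∀ w ∈ W, act g⁻¹ w ∈ Y := by
    intro w hw
    rw [← hmap] at hw
    obtain ⟨y, hy, rfl⟩ := hw
    have : act g⁻¹ (((act g : V ≃ₗ[F] V) : V →ₗ[F] V) y) = y := act_inv_act g y
    rw [this]
    exact hy
  set θ : V →ₗ[F] V := ((act g⁻¹ : V ≃ₗ[F] V) : V →ₗ[F] V) with hθ
  have hθa : ∀ x, θ x = act g⁻¹ x := fun _ => rfl
  have hQθ : ∀ x, Q (θ x) = Q x := fun x => mem_iso.1 hginv x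
  have hfθ : ∀ x y, f (θ x) (θ y) = f x y := fun x y => iso_polar hginv x y
  have horth : ∀ w ∈ W, ∀ y ∈ Y, f w y = 0 := by
    intro w hw y hy
    rw [pol_comm']
    exact hy w hw
  have hdisj : ∀ w ∈ W, ∀ y ∈ Y, w + y = 0 → w = 0 ∧ y = 0 := by
    intro w hw y hy h
    have h1 : w = -y := eq_neg_of_add_eq_zero_left h
    have h2 : w ∈ Y := by
      rw [h1]
      exact Y.neg_mem hy
    have h3 : w = 0 := disjoint_perp hQ hW hw h2
    refine ⟨h3, ?_⟩
    rwa [h3, zero_add] at h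
  -- a maximal totally singular subspace
  obtain ⟨U, ⟨hUW, hUts⟩, hUmax⟩ := Set.exists_max_image
    {U : Submodule F V | U ≤ W ∧ ∀ u ∈ U, Q u = 0} (fun U => finrank F U) (Set.toFinite _)
    ⟨⊥, bot_le, fun u hu => by
      rw [(Submodule.mem_bot F).1 hu]
      exact Q_zero' hQ⟩
  simp only [Set.mem_setOf_eq, and_imp] at hUmax
  have hUf := ts_polar hUts
  set r := finrank F U with hr
  -- its image
  set U' := U.map θ with hU'
  have hU'Y : U' ≤ Y := by
    rintro _ ⟨u, hu, rfl⟩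
    exact hinv u (hUW hu)
  have hU'r : finrank F U' = r := LinearEquiv.finrank_map_eq (act g⁻¹) U
  have hU'ts : ∀ u ∈ U', Q u = 0 := by
    rintro _ ⟨u, hu, rfl⟩
    rw [hQθ]
    exact hUts u hu
  have hU'f := ts_polar hU'ts
  -- the sum
  set S₀ := U ⊔ U' with hS₀
  have hS₀ts : ∀ u ∈ S₀, Q u = 0 := by
    intro z hz
    obtain ⟨u, hu, u', hu', rfl⟩ := Submodule.mem_sup.1 hz
    rw [Q_add' (Q := Q), hUts u hu, hU'ts u' hu', horth u (hUW hu) u' (hU'Y hu')]
    simp
  have hS₀r : finrank F S₀ = 2 * r := by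
    have h1 : finrank F S₀ + finrank F ↥(U ⊓ U') = r + finrank F U' := Submodule.finrank_sup_add_finrank_inf_eq U U'
    have h2 : U ⊓ U' = ⊥ := by
      rw [eq_bot_iff]
      rintro z ⟨hz1, hz2⟩
      rw [Submodule.mem_bot]
      exact disjoint_perp hQ hW (hUW hz1) (hU'Y hz2)
    rw [h2, finrank_bot, hU'r] at h1
    omega
  by_cases hcase : k ≤ 2 * r
  · have h1 := ts_bound hQ hS₀ts
    refine ⟨S₀, le_top, hS₀ts, ?_⟩
    rw [finrank_top, hV]
    omega
  -- the anisotropic part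
  obtain ⟨E', hE'⟩ := Submodule.exists_isCompl U
  have hE'r := Submodule.finrank_add_eq_of_isCompl hE'
  rw [hV] at hE'r
  set C : Submodule F V := W ⊓ qperp hQ U with hC
  have hCk : k ≤ finrank F C + r := by
    have h1 : finrank F ↥(W ⊔ qperp hQ U) + finrank F C = finrank F W + finrank F (qperp hQ U) :=
      Submodule.finrank_sup_add_finrank_inf_eq W (qperp hQ U)
    have h2 : finrank F (qperp hQ U) + r = Fintype.card ι := finrank_qperp hQ U
    have h3 : finrank F ↥(W ⊔ qperp hQ U) ≤ finrank F V := Submodule.finrank_le _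
    omega
  set E : Submodule F V := C ⊓ E' with hE
  have hEk : k ≤ finrank F E + 2 * r := by
    have h1 : finrank F ↥(C ⊔ E') + finrank F E = finrank F C + finrank F E' :=
      Submodule.finrank_sup_add_finrank_inf_eq C E'
    have h3 : finrank F ↥(C ⊔ E') ≤ finrank F V := Submodule.finrank_le _
    omega
  have hEU : ∀ z ∈ E, z ∈ U → z = 0 := by
    intro z hz hzU
    have : z ∈ U ⊓ E' := ⟨hzU, hz.2⟩
    rwa [hE'.inf_eq_bot] at this
  have haniso : ∀ z ∈ E, z ≠ 0 → Q z ≠ 0 := by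
    intro z hz hz0 hQz
    have hzU : z ∉ U := fun h => hz0 (hEU z hz h)
    have h1 := hUmax (U ⊔ Submodule.span F {z}) ?_ ?_
    · rw [Submodule.finrank_sup_span_singleton hzU] at h1
      omega
    · exact sup_le hUW ((Submodule.span_singleton_le_iff_mem _ _).2 hz.1.1)
    · intro x hx
      obtain ⟨u, hu, v, hv, rfl⟩ := Submodule.mem_sup.1 hx
      obtain ⟨c, rfl⟩ := Submodule.mem_span_singleton.1 hv
      rw [Q_add' (Q := Q), hUts u hu, Q_smul' hQ, hQz, pol_smul_right hQ, pol_comm']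
      have : f z u = 0 := hz.1.2 u hu
      rw [this]
      simp
  have hE3 : finrank F E < 3 := by
    by_contra h
    obtain ⟨x, hx, hx0, hxx⟩ := hiso_quad hQ E (by omega)
    exact haniso x hx hx0 hxx
  have h2r : 2 * r + 2 = k := by
    obtain ⟨m, hm⟩ := hke
    omega
  have hE2 : 2 ≤ finrank F E := by omega
  -- the two vectors
  have hE0 : E ≠ ⊥ := by
    intro h
    rw [h, finrank_bot] at hE2
    omega
  obtain ⟨a, ha, ha0⟩ := Submodule.exists_mem_ne_zero_of_ne_bot hE0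
  obtain ⟨a', ha', ha'S⟩ : ∃ a' ∈ E, a' ∉ Submodule.span F {a} := by
    by_contra hcon
    push Not at hcon
    have h5 : E ≤ Submodule.span F {a} := hcon
    have h6 := Submodule.finrank_mono h5
    rw [finrank_span_singleton ha0] at h6
    omega
  have haW : a ∈ W := ha.1.1
  have ha'W : a' ∈ W := ha'.1.1
  have hα : Q a ≠ 0 := haniso a ha ha0
  have hSE : Submodule.span F {a} ⊔ Submodule.span F {a'} ≤ E := by
    rw [sup_le_iff, Submodule.span_singleton_le_iff_mem, Submodule.span_singleton_le_iff_mem]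
    exact ⟨ha, ha'⟩
  have hSW : Submodule.span F {a} ⊔ Submodule.span F {a'} ≤ W := hSE.trans (inf_le_left.trans inf_le_left)
  -- Chevalley
  have hΘa : θ a ∈ Y := hinv a haW
  have hθa0 : θ a ≠ 0 := by
    intro h
    apply ha0
    exact (act g⁻¹).injective (by rw [← hθa, h, map_zero])
  have hθnot : θ a ∉ Submodule.span F {a} ⊔ Submodule.span F {a'} := by
    intro h
    exact hθa0 (disjoint_perp hQ hW (hSW h) hΘa)
  have haa'not : a' ∉ Submodule.span F {a} := ha'S
  have hT3 : 3 ≤ finrank F ↥((Submodule.span F {a} ⊔ Submodule.span F {a'}) ⊔ Submodule.span F {θ a}) := by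
    rw [Submodule.finrank_sup_span_singleton hθnot, Submodule.finrank_sup_span_singleton haa'not, finrank_span_singleton ha0]
  obtain ⟨z, hz, hz0, hQz⟩ := hiso_quad hQ _ hT3
  obtain ⟨z₁, hz₁, z₂, hz₂, rfl⟩ := Submodule.mem_sup.1 hz
  obtain ⟨t, rfl⟩ := Submodule.mem_span_singleton.1 hz₂
  have hz₁E : z₁ ∈ E := hSE hz₁
  have hz₁W : z₁ ∈ W := hSW hz₁
  have ht : t ≠ 0 := by
    rintro rfl
    rw [zero_smul, add_zero] at hz0 hQz
    exact haniso z₁ hz₁E hz0 hQz
  obtain ⟨u, hu, v, hv, rfl⟩ := Submodule.mem_sup.1 hz₁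
  obtain ⟨p, rfl⟩ := Submodule.mem_span_singleton.1 hu
  obtain ⟨q, rfl⟩ := Submodule.mem_span_singleton.1 hv
  have hfz : f (p • a + q • a') (θ a) = 0 := horth _ hz₁W _ hΘa
  rw [Q_add' (Q := Q), Q_comb2 hQ, Q_smul' hQ, hQθ, pol_smul_right hQ, hfz] at hQz
  obtain ⟨b, b', hb, hb', hQb, hQb', hfb⟩ := anti_plane hQ (a := a) (a' := a') (P := p / t) (R := q / t) hα (by
    field_simp
    linear_combination hQz)
  have hbW := hSW hb
  have hb'W := hSW hb'
  -- the subspace
  set x := a + θ b with hx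
  set x' := a' + θ b' with hx'
  have hθbY : θ b ∈ Y := hinv b hbW
  have hθb'Y : θ b' ∈ Y := hinv b' hb'W
  have hQx : Q x = 0 := by
    rw [hx, Q_add' (Q := Q), hQθ, hQb, horth a haW _ hθbY]
    ring
  have hQx' : Q x' = 0 := by
    rw [hx', Q_add' (Q := Q), hQθ, hQb', horth a' ha'W _ hθb'Y]
    ring
  have hfxx' : f x x' = 0 := by
    rw [hx, hx', pol_add_left hQ, pol_add_right hQ, pol_add_right hQ, horth a haW _ hθb'Y, hfθ, hfb,
      pol_comm' (θ b) a', horth a' ha'W _ hθbY]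
    ring
  have hxU : ∀ u ∈ U, f x u = 0 := by
    intro u hu
    rw [hx, pol_add_left hQ, pol_comm' (θ b) u, horth u (hUW hu) _ hθbY, add_zero]
    exact ha.1.2 u hu
  have hx'U : ∀ u ∈ U, f x' u = 0 := by
    intro u hu
    rw [hx', pol_add_left hQ, pol_comm' (θ b') u, horth u (hUW hu) _ hθb'Y, add_zero]
    exact ha'.1.2 u hu
  have hxU' : ∀ u ∈ U', f x u = 0 := by
    rintro _ ⟨u, hu, rfl⟩
    have hbE : b ∈ qperp hQ U := by
      intro v hv
      exact (hSE hb).1.2 v hv
    rw [hx, pol_add_left hQ, horth a haW _ (hU'Y ⟨u, hu, rfl⟩), zero_add, hfθ]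
    exact hbE u hu
  have hx'U' : ∀ u ∈ U', f x' u = 0 := by
    rintro _ ⟨u, hu, rfl⟩
    have hbE : b' ∈ qperp hQ U := by
      intro v hv
      exact (hSE hb').1.2 v hv
    rw [hx', pol_add_left hQ, horth a' ha'W _ (hU'Y ⟨u, hu, rfl⟩), zero_add, hfθ]
    exact hbE u hu
  have hxS₀ : ∀ u ∈ S₀, f x u = 0 := by
    intro z hz
    obtain ⟨u, hu, u', hu', rfl⟩ := Submodule.mem_sup.1 hz
    rw [pol_add_right hQ, hxU u hu, hxU' u' hu', add_zero]
  have hx'S₀ : ∀ u ∈ S₀, f x' u = 0 := by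
    intro z hz
    obtain ⟨u, hu, u', hu', rfl⟩ := Submodule.mem_sup.1 hz
    rw [pol_add_right hQ, hx'U u hu, hx'U' u' hu', add_zero]
  -- decomposition
  have hS₀dec : ∀ z ∈ S₀, ∃ u ∈ U, ∃ y ∈ Y, z = u + y := by
    intro z hz
    obtain ⟨u, hu, u', hu', rfl⟩ := Submodule.mem_sup.1 hz
    exact ⟨u, hu, u', hU'Y hu', rfl⟩
  have hxnot : x ∉ S₀ := by
    intro hin
    obtain ⟨u, hu, y, hy, e⟩ := hS₀dec x hin
    have h1 : (a - u) + (θ b - y) = 0 := by
      rw [hx] at e
      rw [sub_add_sub_comm, e]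
      abel
    have h2 := (hdisj _ (W.sub_mem haW (hUW hu)) _ (Y.sub_mem hθbY hy) h1).1
    have h3 : a = u := sub_eq_zero.1 h2
    exact ha0 (hEU a ha (h3 ▸ hu))
  have hx'not : x' ∉ S₀ ⊔ Submodule.span F {x} := by
    intro hin
    obtain ⟨z, hz, v, hv, e⟩ := Submodule.mem_sup.1 hin
    obtain ⟨c, rfl⟩ := Submodule.mem_span_singleton.1 hv
    obtain ⟨u, hu, y, hy, rfl⟩ := hS₀dec z hz
    have h1 : (a' - c • a - u) + (θ b' - c • θ b - y) = 0 := by
      rw [hx, hx'] at e
      have e2 : a' + θ b' = u + y + c • (a + θ b) := e.symm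
      have e3 : (a' - c • a - u) + (θ b' - c • θ b - y) = (a' + θ b') - (u + y + c • (a + θ b)) := by
        rw [smul_add]
        abel
      rw [e3, e2, sub_self]
    have h2 := (hdisj _ (W.sub_mem (W.sub_mem ha'W (W.smul_mem _ haW)) (hUW hu)) _
      (Y.sub_mem (Y.sub_mem hθb'Y (Y.smul_mem _ hθbY)) hy) h1).1
    -- a' - c a lies in U and in E
    have h3 : a' - c • a = u := by
      rw [sub_eq_zero] at h2
      exact h2
    have h4 : a' - c • a ∈ E := E.sub_mem ha' (E.smul_mem _ ha)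
    have h5 : a' - c • a = 0 := hEU _ h4 (h3 ▸ hu)
    apply ha'S
    rw [sub_eq_zero] at h5
    rw [h5]
    exact Submodule.smul_mem _ _ (Submodule.mem_span_singleton_self _)
  set S : Submodule F V := (S₀ ⊔ Submodule.span F {x}) ⊔ Submodule.span F {x'} with hS
  have hSr : finrank F S = 2 * r + 2 := by
    rw [hS, Submodule.finrank_sup_span_singleton hx'not, Submodule.finrank_sup_span_singleton hxnot, hS₀r]
  have hSts : ∀ u ∈ S, Q u = 0 := by
    intro z hz
    obtain ⟨z₁, hz₁, v, hv, rfl⟩ := Submodule.mem_sup.1 hz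
    obtain ⟨z₂, hz₂, w, hw, rfl⟩ := Submodule.mem_sup.1 hz₁
    obtain ⟨c, rfl⟩ := Submodule.mem_span_singleton.1 hv
    obtain ⟨d, rfl⟩ := Submodule.mem_span_singleton.1 hw
    rw [Q_add' (Q := Q), Q_add' (Q := Q), Q_smul' hQ, Q_smul' hQ, hS₀ts z₂ hz₂, hQx, hQx', pol_add_left hQ,
      pol_smul_right hQ, pol_smul_right hQ, pol_smul_left hQ, pol_smul_right hQ, pol_comm' z₂ x,
      pol_comm' z₂ x', hxS₀ z₂ hz₂, hx'S₀ z₂ hz₂, hfxx']
    ring
  refine ⟨S, le_top, hSts, ?_⟩
  rw [finrank_top, hV, hSr]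
  omega

end Cfsg.Agent.Lib.Geo
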