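import Mathlib
import Cfsg.Agent.Lib.Geo.OmegaIsoPlus

set_option autoImplicit false

/-! A hermitian structure on a quadratic space: the normalizer in `Ω` of a quadratic extension field
acting by similarities, in linear form. -/

namespace Cfsg.Agent.Lib.Geo

open scoped MatrixGroups Matrix commutatorElement
open Module

variable {ι : Type} [Fintype ι] [DecidableEq ι] {F : Type*} [Field F] [Fintype F]

local notation "V" => (ι → F)

variable {Q : (ι → F) → F}

local notation "f" => QuadraticMap.polar Q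

/-- The linear map `J` behaves as the generator of a quadratic extension field, with adjoint its conjugate,
scaling the form by its norm. -/
structure UQ (J : (ι → F) →ₗ[F] (ι → F)) (τ ν : F) (Q : (ι → F) → F) : Prop where
  sq : ∀ v, J (J v) = τ • J v - ν • v
  adj : ∀ u v, QuadraticMap.polar Q (J u) v = τ * QuadraticMap.polar Q u v - QuadraticMap.polar Q u (J v)
  QJ : ∀ v, Q (J v) = ν * Q v
  iso : ∀ v, Q v = 0 → QuadraticMap.polar Q v (J v) = 0
  irr : ∀ c : F, c * c - τ * c + ν ≠ 0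

/-- the line over the extension field through `v` -/
def Ks (J : (ι → F) →ₗ[F] (ι → F)) (v : ι → F) : Submodule F (ι → F) :=
  Submodule.span F {v} ⊔ Submodule.span F {J v}

variable {J : (ι → F) →ₗ[F] (ι → F)} {τ ν : F}

theorem mem_Ks {v x : V} : x ∈ Ks J v ↔ ∃ p r : F, x = p • v + r • J v := by
  constructor
  · intro h
    obtain ⟨a, ha, b, hb, rfl⟩ := Submodule.mem_sup.1 h
    obtain ⟨p, rfl⟩ := Submodule.mem_span_singleton.1 ha
    obtain ⟨r, rfl⟩ := Submodule.mem_span_singleton.1 hb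
    exact ⟨p, r, rfl⟩
  · rintro ⟨p, r, rfl⟩
    exact Submodule.add_mem _ (Submodule.mem_sup_left (Submodule.smul_mem _ _ (Submodule.mem_span_singleton_self _)))
      (Submodule.mem_sup_right (Submodule.smul_mem _ _ (Submodule.mem_span_singleton_self _)))

theorem self_mem_Ks (v : V) : v ∈ Ks J v :=
  Submodule.mem_sup_left (Submodule.mem_span_singleton_self _)

theorem J_mem_Ks (v : V) : J v ∈ Ks J v :=
  Submodule.mem_sup_right (Submodule.mem_span_singleton_self _)

theorem finrank_Ks_le (v : V) : finrank F (Ks J v) ≤ 2 := by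
  have h8 := Submodule.finrank_add_le_finrank_add_finrank (Submodule.span F {v}) (Submodule.span F {J v})
  have h9 : finrank F (Submodule.span F {v}) ≤ 1 := finrank_span_le_card _ |>.trans (by simp)
  have h10 : finrank F (Submodule.span F {J v}) ≤ 1 := finrank_span_le_card _ |>.trans (by simp)
  unfold Ks
  omega

theorem finrank_add_one_le (S : Submodule F V) (v : V) :
    finrank F ↥(S ⊔ Submodule.span F {v}) ≤ finrank F S + 1 := by
  have h8 := Submodule.finrank_add_le_finrank_add_finrank S (Submodule.span F {v})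
  have h9 : finrank F (Submodule.span F {v}) ≤ 1 := finrank_span_le_card _ |>.trans (by simp)
  omega

namespace UQ

variable (U : UQ J τ ν Q)

include U

theorem Ks_stable (v : V) : ∀ x ∈ Ks J v, J x ∈ Ks J v := by
  intro x hx
  obtain ⟨p, r, rfl⟩ := mem_Ks.1 hx
  rw [map_add, map_smul, map_smul, U.sq]
  rw [mem_Ks]
  refine ⟨-(r * ν), p + r * τ, ?_⟩
  (module)

theorem stable_cancel {S : Submodule F V} (hS : ∀ x ∈ S, J x ∈ S) {v : V} {γ : F} (h : J v - γ • v ∈ S) : v ∈ S := by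
  have h1 := hS _ h
  rw [map_sub, map_smul, U.sq] at h1
  have h2 : (τ - γ) • (J v - γ • v) ∈ S := S.smul_mem _ h
  have h3 := S.sub_mem h1 h2
  have e : τ • J v - ν • v - γ • J v - (τ - γ) • (J v - γ • v) = (-(γ * γ - τ * γ + ν)) • v := by
    (module)
  rw [e] at h3
  have h4 := S.smul_mem (-(γ * γ - τ * γ + ν))⁻¹ h3
  rwa [smul_smul, inv_mul_cancel₀ (neg_ne_zero.2 (U.irr γ)), one_smul] at h4

theorem norm_ne_zero {p r : F} (h : ¬ (p = 0 ∧ r = 0)) : p * p + p * r * τ + r * r * ν ≠ 0 := by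
  by_cases hr : r = 0
  · subst hr
    have hp : p ≠ 0 := fun hp => h ⟨hp, rfl⟩
    simpa using hp
  · have h1 := U.irr (-p / r)
    intro h0
    apply h1
    field_simp
    linear_combination h0

theorem indep {v : V} (hv : v ≠ 0) {p r : F} (h : p • v + r • J v = 0) : p = 0 ∧ r = 0 := by
  by_contra hc
  have hN := U.norm_ne_zero hc
  have h1 : J (p • v + r • J v) = 0 := by rw [h, map_zero]
  rw [map_add, map_smul, map_smul, U.sq] at h1
  have e : (p + r * τ) • (p • v + r • J v) - r • (p • J v + r • (τ • J v - ν • v))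
      = (p * p + p * r * τ + r * r * ν) • v := by
    (module)
  rw [h, h1, smul_zero, smul_zero, sub_zero] at e
  rcases smul_eq_zero.1 e.symm with h2 | h2
  · exact hN h2
  · exact hv h2

theorem Ks_le {x y : V} (h : x ∈ Ks J y) : Ks J x ≤ Ks J y := by
  unfold Ks
  rw [sup_le_iff, Submodule.span_singleton_le_iff_mem, Submodule.span_singleton_le_iff_mem]
  exact ⟨h, U.Ks_stable y x h⟩

theorem Ks_symm {x y : V} (hx : x ≠ 0) (h : x ∈ Ks J y) : y ∈ Ks J x := by
  obtain ⟨p, r, rfl⟩ := mem_Ks.1 h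
  have hpr : ¬ (p = 0 ∧ r = 0) := by
    rintro ⟨rfl, rfl⟩
    simp at hx
  have hN := U.norm_ne_zero hpr
  rw [mem_Ks]
  set N := p * p + p * r * τ + r * r * ν with hNdef
  refine ⟨N⁻¹ * (p + r * τ), N⁻¹ * (-r), ?_⟩
  rw [map_add, map_smul, map_smul, U.sq]
  have e : (N⁻¹ * (p + r * τ)) • (p • y + r • J y) + (N⁻¹ * -r) • (p • J y + r • (τ • J y - ν • y))
      = N⁻¹ • (N • y) := by
    rw [hNdef]
    (module)
  rw [e, smul_smul, inv_mul_cancel₀ hN, one_smul]

theorem Ks_inter {x y v : V} (hxy : x ∉ Ks J y) (hx : x ≠ 0) (h1 : v ∈ Ks J x) (h2 : v ∈ Ks J y) : v = 0 := by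
  by_contra h0
  exact hxy (U.Ks_le h2 (U.Ks_symm h0 h1))

theorem J_sing {v : V} (h : Q v = 0) : Q (J v) = 0 := by
  rw [U.QJ, h, mul_zero]

theorem adj0 {u v : V} (h1 : f u v = 0) (h2 : f u (J v) = 0) : f (J u) v = 0 := by
  rw [U.adj, h1, h2]
  ring

theorem adj0' {u v : V} (h1 : f u v = 0) (h2 : f (J u) v = 0) : f u (J v) = 0 := by
  have := U.adj u v
  rw [h1, h2] at this
  linear_combination this

/-- the values of the pairing on the line -/
theorem perp_Ks {u v x : V} (h1 : f u v = 0) (h2 : f u (J v) = 0) (hx : x ∈ Ks J v)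
    (hQ : Cfsg.Geo.IsNondegenerateQuadraticForm Q) : f u x = 0 := by
  obtain ⟨p, r, rfl⟩ := mem_Ks.1 hx
  rw [pol_add_right hQ, pol_smul_right hQ, pol_smul_right hQ, h1, h2]
  ring

theorem Q_Ks {v x : V} (hQ : Cfsg.Geo.IsNondegenerateQuadraticForm Q) (h : Q v = 0) (hx : x ∈ Ks J v) : Q x = 0 := by
  obtain ⟨p, r, rfl⟩ := mem_Ks.1 hx
  rw [Q_comb2 hQ, U.iso v h, U.J_sing h, h]
  ring

end UQ

/-- prescribing one value and killing a subspace -/
theorem exists_val (hQ : Cfsg.Geo.IsNondegenerateQuadraticForm Q) {S : Submodule F V} {u : V} (hu : u ∉ S) :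
    ∃ y, f u y = 1 ∧ ∀ s ∈ S, f s y = 0 := by
  obtain ⟨φ, hφ1, hφ2⟩ := exists_dual_of_notMem hu
  obtain ⟨y, hy⟩ := (sform_of_quad hQ).lf_surjective φ
  have h : ∀ x, f x y = φ x := fun x => by
    rw [← hy]
    rfl
  exact ⟨y, by rw [h, hφ1], fun s hs => by rw [h, hφ2 s hs]⟩

/-- five conditions -/
theorem solve5 (hQ : Cfsg.Geo.IsNondegenerateQuadraticForm Q) (hn : 13 ≤ Fintype.card ι) (v₁ v₂ v₃ v₄ v₅ y₀ : V) :
    ∃ z, Q z = 0 ∧ f z v₁ = f y₀ v₁ ∧ f z v₂ = f y₀ v₂ ∧ f z v₃ = f y₀ v₃ ∧ f z v₄ = f y₀ v₄ ∧ f z v₅ = f y₀ v₅ := by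
  set hf := sform_of_quad hQ with hhf
  obtain ⟨z, hz, hQz⟩ := affine_Q hQ [hf.lf v₁, hf.lf v₂, hf.lf v₃, hf.lf v₄, hf.lf v₅] (by simp; omega) y₀ 0
  refine ⟨z, hQz, hz (hf.lf v₁) (by simp), hz (hf.lf v₂) (by simp), hz (hf.lf v₃) (by simp),
    hz (hf.lf v₄) (by simp), hz (hf.lf v₅) (by simp)⟩

/-- a vector orthogonal to a small subspace outside another small subspace -/
theorem exists_perp_not (hQ : Cfsg.Geo.IsNondegenerateQuadraticForm Q) (A B : Submodule F V)
    (h : finrank F A + finrank F B < Fintype.card ι) : ∃ e, (∀ s ∈ A, f s e = 0) ∧ e ∉ B := by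
  set hf := sform_of_quad hQ with hhf
  by_contra hcon
  push Not at hcon
  have h1 : hf.lperp A ≤ B := by
    intro e he
    exact hcon e fun s hs => by
      rw [pol_comm']
      exact he s hs
  have h2 := Submodule.finrank_mono h1
  have h3 := hf.finrank_lperp A
  omega

end Cfsg.Agent.Lib.Geo
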