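import Mathlib
import Cfsg.Agent.Lib.Geo.Decomp
import Cfsg.Agent.Lib.Geo.SympMax
import Cfsg.Agent.Lib.Classical.SympStd

set_option autoImplicit false

/-! The stabilizer of an orthogonal decomposition into non-degenerate subspaces is maximal in the
symplectic group. -/

namespace Cfsg.Agent.Lib.Geo

open scoped MatrixGroups Matrix
open Module Cfsg.Agent.Lib.Classical

variable {m : ℕ} {F : Type*} [Field F] {t k : ℕ} {D : Fin t → Submodule F (Fin m ⊕ Fin m → F)}

local notation "Vv" => (Fin m ⊕ Fin m → F)
local notation "f" => Cfsg.sympForm m F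

/-- a non-degenerate subspace is isometric to the standard space. -/
theorem exists_model {W : Submodule F (Fin m ⊕ Fin m → F)}
    (hW : Cfsg.Geo.IsNondegenerateOn (Cfsg.sympForm m F) W) :
    ∃ r, finrank F W = 2 * r ∧ ∃ θ : W ≃ₗ[F] (Fin r ⊕ Fin r → F),
      ∀ u v, Cfsg.sympForm r F (θ u) (θ v) = f (u : Vv) (v : Vv) := by
  classical
  let B : LinearMap.BilinForm F W := (sympBilin m F).restrict W
  have hA : B.IsAlt := fun x => sympForm_self (x : Vv)
  have hB : B.Nondegenerate := by
    constructor
    · intro x hx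
      by_contra h0
      have hx0 : (x : Vv) ≠ 0 := fun h => h0 (Subtype.ext h)
      obtain ⟨y, hy, hy0⟩ := (hW x x.2 hx0).2
      exact hy0 (hx ⟨y, hy⟩)
    · intro x hx
      by_contra h0
      have hx0 : (x : Vv) ≠ 0 := fun h => h0 (Subtype.ext h)
      obtain ⟨y, hy, hy0⟩ := (hW x x.2 hx0).1
      exact hy0 (hx ⟨y, hy⟩)
  obtain ⟨r, k', b, -, -, -, h4⟩ := Cfsg.Agent.S0752.result B hA
  have hk : k' = 0 := by
    by_contra hk
    have hpos : 0 < k' := Nat.pos_of_ne_zero hk
    have h0 := hB.1 (b (Sum.inr ⟨0, hpos⟩)) (h4 ⟨0, hpos⟩)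
    exact b.ne_zero _ h0
  subst hk
  have hdim : finrank F W = 2 * r := by
    have := Module.finrank_eq_card_basis b
    simp at this
    omega
  obtain ⟨θ, hθ⟩ := exists_symp_isometry B hB hA r hdim
  exact ⟨r, hdim, θ, fun u v => hθ u v⟩

theorem sform_sum_left {κ : Type*} (s : Finset κ) (a : κ → Vv) (u : Vv) :
    f (∑ l ∈ s, a l) u = ∑ l ∈ s, f (a l) u := by
  have := LinearMap.sum_apply s (fun l => sympBilin m F (a l)) u
  simp only [← map_sum, sympBilin_apply] at this
  exact this

theorem sform_sum_right {κ : Type*} (s : Finset κ) (a : κ → Vv) (u : Vv) :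
    f u (∑ l ∈ s, a l) = ∑ l ∈ s, f u (a l) := by
  have := map_sum (sympBilin m F u) a s
  simp only [sympBilin_apply] at this
  exact this

variable (hD : Cfsg.Geo.IsNondegenerateMDecomposition (Cfsg.sympForm m F) k D)

include hD in
theorem sform_sum_diag {a b : Fin t → Vv} (ha : ∀ l, a l ∈ D l) (hb : ∀ l, b l ∈ D l) :
    f (∑ l, a l) (∑ l, b l) = ∑ l, f (a l) (b l) := by
  rw [sform_sum_left]
  refine Finset.sum_congr rfl fun l _ => ?_
  rw [sform_sum_right]
  rw [Finset.sum_eq_single l]
  · intro p _ hp
    exact hD.orthogonal l p (Ne.symm hp) _ (ha l) _ (hb p)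
  · simp

include hD in
theorem stv_mem_stabD {l : Fin t} {u : Vv} (hu : u ∈ D l) (c : F) :
    stv u c ∈ Cfsg.Geo.decompositionStabilizer D ⊓ Cfsg.spGL m F := by
  refine ⟨mem_stabD_of hD.decomp.finrank_eq 1 fun p x hx => ?_, stv_mem u c⟩
  rw [act_stv]
  by_cases hp : p = l
  · subst hp
    exact (D p).add_mem hx ((D p).smul_mem _ hu)
  · rw [hD.orthogonal p l hp x hx u hu]
    simpa using hx

include hD in
/-- the elements permuting the members of the decomposition. -/
theorem exists_perm_sp (σ : Equiv.Perm (Fin t)) :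
    ∃ h ∈ Cfsg.Geo.decompositionStabilizer D ⊓ Cfsg.spGL m F, ∀ l, ∀ x ∈ D l, act h x ∈ D (σ l) := by
  classical
  have hmodel := fun l => exists_model (hD.nondegenerate l)
  have hk := hD.decomp.finrank_eq
  -- all of the same rank
  obtain ⟨r, hr⟩ : ∃ r, k = 2 * r := by
    obtain ⟨r, h1, -⟩ := hmodel ⟨0, by have := hD.decomp.two_le; omega⟩
    exact ⟨r, by rw [← hk ⟨0, by have := hD.decomp.two_le; omega⟩, h1]⟩
  have hm : ∀ l, ∃ θ : D l ≃ₗ[F] (Fin r ⊕ Fin r → F),
      ∀ u v, Cfsg.sympForm r F (θ u) (θ v) = f (u : Vv) (v : Vv) := by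
    intro l
    obtain ⟨r', h1, θ, hθ⟩ := hmodel l
    have : r' = r := by
      have := hk l
      omega
    subst this
    exact ⟨θ, hθ⟩
  choose θ hθ using hm
  let ψ : ∀ l, D l →ₗ[F] D (σ l) := fun l => ((θ l).trans (θ (σ l)).symm : D l ≃ₗ[F] D (σ l))
  have hψ : ∀ l (u v : D l), f (ψ l u : Vv) (ψ l v : Vv) = f (u : Vv) (v : Vv) := by
    intro l u v
    rw [← hθ (σ l), ← hθ l]
    simp [ψ]
  obtain ⟨h, hh⟩ := exists_perm_elt hD.decomp.indep hD.decomp.iSup_eq_top σ ψ (fun l x => by
    refine ⟨(θ l).symm (θ (σ l) x), ?_⟩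
    simp [ψ])
  have hact : ∀ l, ∀ x ∈ D l, act h x ∈ D (σ l) := by
    intro l x hx
    rw [hh l ⟨x, hx⟩]
    exact (ψ l ⟨x, hx⟩).2
  refine ⟨h, ⟨mem_stabD_of hk σ hact, ?_⟩, hact⟩
  refine mem_spGL_iff.2 ?_
  obtain ⟨π, h1, h2, h3, h4⟩ := exists_proj hD.decomp.indep hD.decomp.iSup_eq_top
  intro u v
  have e1 : act h u = ∑ l, act h (π l u) := by
    rw [← map_sum, h4]
  have e2 : act h v = ∑ l, act h (π l v) := by
    rw [← map_sum, h4]
  rw [e1, e2, sform_sum_left]
  conv_rhs => rw [← h4 u, sform_sum_left]
  refine Finset.sum_congr rfl fun l _ => ?_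
  rw [sform_sum_right]
  conv_rhs => rw [← h4 v, sform_sum_right]
  refine Finset.sum_congr rfl fun p _ => ?_
  by_cases hlp : l = p
  · subst hlp
    rw [hh l ⟨_, h1 l u⟩, hh l ⟨_, h1 l v⟩, hψ]
  · rw [hD.orthogonal l p hlp _ (h1 l u) _ (h1 p v)]
    exact hD.orthogonal (σ l) (σ p) (fun h => hlp (σ.injective h)) _ (hact l _ (h1 l u)) _
      (hact p _ (h1 p v))

theorem exists_perm_map {i j p p' : Fin t} (hij : i ≠ j) (hpp : p ≠ p') :
    ∃ σ : Equiv.Perm (Fin t), σ i = p ∧ σ j = p' := by
  classical
  set j' := Equiv.swap i p j with hj'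
  have hj'p : j' ≠ p := by
    intro h
    have : Equiv.swap i p j = Equiv.swap i p i := by
      rw [Equiv.swap_apply_left, ← hj', h]
    exact hij ((Equiv.swap i p).injective this).symm
  refine ⟨(Equiv.swap i p).trans (Equiv.swap j' p'), ?_, ?_⟩
  · simp only [Equiv.trans_apply, Equiv.swap_apply_left]
    exact Equiv.swap_apply_of_ne_of_ne (Ne.symm hj'p) hpp
  · simp only [Equiv.trans_apply]
    rw [← hj', Equiv.swap_apply_left]

include hD in
theorem isMaximalIn_symp_decomp [Fintype F] (hex : ¬ (k = 2 ∧ Fintype.card F = 2)) :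
    Cfsg.Geo.IsMaximalIn (Cfsg.spGL m F) (Cfsg.Geo.decompositionStabilizer D ⊓ Cfsg.spGL m F) := by
  classical
  obtain ⟨π, h1, h2, h3, h4⟩ := exists_proj hD.decomp.indep hD.decomp.iSup_eq_top
  have hk := hD.decomp.finrank_eq
  have hk0 := hD.decomp.pos
  have ht := hD.decomp.two_le
  have hne : ∀ i, ∃ x ∈ D i, x ≠ 0 := by
    intro i
    have : D i ≠ ⊥ := by
      intro h0
      have := hk i
      rw [h0] at this
      simp at this
      omega
    exact Submodule.exists_mem_ne_zero_of_ne_bot this
  have hflip : ∀ {x y : Vv}, f x y = 0 → f y x = 0 := by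
    intro x y h
    rw [sympForm_flip x y, h, neg_zero]
  have hor := hD.orthogonal
  have hnd := hD.nondegenerate
  -- vectors with two nonzero components are in no member
  have htwo : ∀ {y : Vv} {i j l : Fin t}, i ≠ j → π i y ≠ 0 → π j y ≠ 0 → y ∉ D l := by
    intro y i j l hij hi hj hy
    by_cases hil : i = l
    · subst hil
      exact hj (h3 j i (Ne.symm hij) y hy)
    · exact hi (h3 i l hil y hy)
  constructor
  · refine lt_of_le_of_ne inf_le_right ?_
    intro heq
    let i₀ : Fin t := ⟨0, by omega⟩
    let i₁ : Fin t := ⟨1, by omega⟩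
    have h01 : i₀ ≠ i₁ := by
      intro h
      simpa [i₀, i₁] using congrArg Fin.val h
    obtain ⟨a, ha, ha0⟩ := hne i₀
    obtain ⟨b, hb, hb0⟩ := hne i₁
    obtain ⟨a', ha', haa'⟩ := (hnd i₀ a ha ha0).1
    have hmem : stv (a + b) (f a' a)⁻¹ ∈ Cfsg.Geo.decompositionStabilizer D ⊓ Cfsg.spGL m F := by
      rw [heq]
      exact stv_mem _ _
    obtain ⟨σ, hσ⟩ := act_mem_of_stabD hmem.1
    have h5 := hσ i₀ a' ha'
    have hab : f a' b = 0 := hor i₀ i₁ h01 _ ha' _ hb
    have e : act (stv (a + b) (f a' a)⁻¹) a' = a' + (a + b) := by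
      rw [act_stv, sympForm_add_right, hab, add_zero, inv_mul_cancel₀ haa', one_smul]
    rw [e] at h5
    refine htwo (i := i₀) (j := i₁) (l := σ i₀) h01 ?_ ?_ h5
    · simp only [map_add, h2 i₀ a' ha', h2 i₀ a ha, h3 i₀ i₁ h01 b hb, add_zero]
      intro h6
      apply haa'
      have h7 : a' = -a := eq_neg_of_add_eq_zero_left h6
      rw [h7, show -a = (-1 : F) • a by simp, sympForm_smul_left, sympForm_self, mul_zero]
    · simp only [map_add, h3 i₁ i₀ (Ne.symm h01) a' ha', h3 i₁ i₀ (Ne.symm h01) a ha, h2 i₁ b hb, zero_add]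
      exact hb0
  · intro M hM1 hM2
    by_cases hMH : M = Cfsg.Geo.decompositionStabilizer D ⊓ Cfsg.spGL m F
    · exact Or.inl hMH
    right
    obtain ⟨g, hgM, hgH⟩ : ∃ g ∈ M, g ∉ Cfsg.Geo.decompositionStabilizer D ⊓ Cfsg.spGL m F := by
      by_contra hcon
      push Not at hcon
      exact hMH (le_antisymm hcon hM1)
    have hgS : g ∉ Cfsg.Geo.decompositionStabilizer D := fun h => hgH ⟨h, hM2 hgM⟩
    have hUU : ∀ l, ∀ u ∈ D l, u ∈ UU M := fun l u hu c => hM1 (stv_mem_stabD hD hu c)
    -- changing one component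
    have repl1 : ∀ (l : Fin t) (y c₁ c₂ : Vv), (∀ u ∈ D l, f y u = 0) → c₁ ∈ D l → c₂ ∈ D l →
        f c₁ c₂ ≠ 0 → y + c₁ ∈ UU M → y + c₂ ∈ UU M := by
      intro l y c₁ c₂ hy hc₁ hc₂ h12 hv
      have hu : c₂ - c₁ ∈ D l := (D l).sub_mem hc₂ hc₁
      have h5 := UU_act hM2 (hUU l _ hu (f c₁ c₂)⁻¹) hv
      have e : act (stv (c₂ - c₁) (f c₁ c₂)⁻¹) (y + c₁) = y + c₂ := by
        rw [act_stv, sympForm_add_left, hy _ hu, zero_add]
        have h6 : f c₁ (c₂ - c₁) = f c₁ c₂ := by
          rw [sub_eq_add_neg, sympForm_add_right, show -c₁ = (-1 : F) • c₁ by simp, sympForm_smul_right,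
            sympForm_self, mul_zero, add_zero]
        rw [h6, inv_mul_cancel₀ h12, one_smul]
        abel
      rwa [e] at h5
    have repl : ∀ (l : Fin t) (y c₁ c₂ : Vv), (∀ u ∈ D l, f y u = 0) → c₁ ∈ D l → c₂ ∈ D l →
        c₁ ≠ 0 → c₂ ≠ 0 → y + c₁ ∈ UU M → y + c₂ ∈ UU M := by
      intro l y c₁ c₂ hy hc₁ hc₂ h10 h20 hv
      by_cases h12 : f c₁ c₂ = 0
      · obtain ⟨x₁, hx₁, hx₁0⟩ := (hnd l c₁ hc₁ h10).2
        obtain ⟨x₂, hx₂, hx₂0⟩ := (hnd l c₂ hc₂ h20).1
        -- a vector of the member with both forms nonzero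
        obtain ⟨c₃, hc₃, h13, h23⟩ : ∃ c₃ ∈ D l, f c₁ c₃ ≠ 0 ∧ f c₃ c₂ ≠ 0 := by
          by_cases h5 : f c₁ x₂ = 0
          · by_cases h6 : f x₁ c₂ = 0
            · refine ⟨x₁ + x₂, (D l).add_mem hx₁ hx₂, ?_, ?_⟩
              · rwa [sympForm_add_right, h5, add_zero]
              · rwa [sympForm_add_left, h6, zero_add]
            · exact ⟨x₁, hx₁, hx₁0, h6⟩
          · exact ⟨x₂, hx₂, h5, hx₂0⟩
        exact repl1 l y c₃ c₂ hy hc₃ hc₂ h23 (repl1 l y c₁ c₃ hy hc₁ hc₃ h13 hv)
      · exact repl1 l y c₁ c₂ hy hc₁ hc₂ h12 hv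
    -- same support
    have same : ∀ (s : Finset (Fin t)) (a b : Fin t → Vv), (∀ l, a l ∈ D l) → (∀ l, b l ∈ D l) →
        (∀ l ∈ s, (a l = 0 ↔ b l = 0)) → (∀ l, l ∉ s → b l = a l) → ∑ l, a l ∈ UU M →
        ∑ l, b l ∈ UU M := by
      intro s
      induction s using Finset.induction_on with
      | empty =>
        intro a b _ _ _ h5 hv
        have : b = a := funext fun l => h5 l (by simp)
        rwa [this]
      | insert j s hjs ih =>
        intro a b ha hb h5 h6 hv
        set b' : Fin t → Vv := Function.update b j (a j) with hb'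
        have hb'1 : ∀ l, l ≠ j → b' l = b l := fun l hl => Function.update_of_ne hl _ _
        have hb'2 : b' j = a j := Function.update_self _ _ _
        have h7 : ∑ l, b' l ∈ UU M := by
          refine ih a b' ha (fun l => ?_) (fun l hl => ?_) (fun l hl => ?_) hv
          · by_cases hlj : l = j
            · subst hlj
              rw [hb'2]
              exact ha l
            · rw [hb'1 l hlj]
              exact hb l
          · have hlj : l ≠ j := fun h => hjs (h ▸ hl)
            rw [hb'1 l hlj]
            exact h5 l (Finset.mem_insert_of_mem hl)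
          · by_cases hlj : l = j
            · subst hlj
              exact hb'2
            · rw [hb'1 l hlj]
              exact h6 l (by simp [hlj, hl])
        have e1 : ∑ l, b' l = (∑ l ∈ Finset.univ.erase j, b l) + a j := by
          rw [← Finset.add_sum_erase _ _ (Finset.mem_univ j), hb'2, add_comm]
          congr 1
          exact Finset.sum_congr rfl fun l hl => hb'1 l (Finset.ne_of_mem_erase hl)
        have e2 : ∑ l, b l = (∑ l ∈ Finset.univ.erase j, b l) + b j := by
          rw [← Finset.add_sum_erase _ _ (Finset.mem_univ j), add_comm]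
        rw [e1] at h7
        rw [e2]
        by_cases haj : a j = 0
        · have hbj : b j = 0 := (h5 j (Finset.mem_insert_self _ _)).1 haj
          rwa [hbj, ← haj]
        · have hbj : b j ≠ 0 := fun h => haj ((h5 j (Finset.mem_insert_self _ _)).2 h)
          refine repl j _ (a j) (b j) ?_ (ha j) (hb j) haj hbj h7
          intro u hu
          rw [sform_sum_left]
          exact Finset.sum_eq_zero fun l hl => hor l j (Finset.ne_of_mem_erase hl) _ (hb l) _ hu
    -- a vector with two nonzero components
    obtain ⟨v, hvU, i, j, hij, hvi, hvj⟩ : ∃ v ∈ UU M, ∃ i j, i ≠ j ∧ π i v ≠ 0 ∧ π j v ≠ 0 := by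
      by_contra hcon
      push Not at hcon
      apply hgS
      refine mem_stabD_of_union hk hk0 hD.decomp.indep hD.decomp.iSup_eq_top fun i x hx => ?_
      have hv := UU_act hM2 hgM (hUU i x hx)
      by_cases h0 : act g x = 0
      · exact ⟨i, by rw [h0]; exact (D i).zero_mem⟩
      · -- some component nonzero
        obtain ⟨l, hl⟩ : ∃ l, π l (act g x) ≠ 0 := by
          by_contra h5
          push Not at h5
          apply h0
          rw [← h4 (act g x)]
          exact Finset.sum_eq_zero fun l _ => h5 l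
        refine ⟨l, ?_⟩
        rw [← h4 (act g x), Finset.sum_eq_single l]
        · exact h1 l _
        · intro p _ hp
          by_contra h6
          exact hl (hcon _ hv p l hp h6)
        · simp
    have hvsum : ∑ l, π l v = v := h4 v
    -- the partner vectors
    obtain ⟨r, hr⟩ : ∃ r, k = 2 * r := by
      obtain ⟨r, h5, -⟩ := exists_model (hnd i)
      exact ⟨r, by rw [← hk i, h5]⟩
    obtain ⟨cᵢ, hcᵢ, hcᵢ1⟩ : ∃ c ∈ D i, f (π i v) c = 1 := by
      obtain ⟨x, hx, hx0⟩ := (hnd i _ (h1 i v) hvi).2
      refine ⟨(f (π i v) x)⁻¹ • x, (D i).smul_mem _ hx, ?_⟩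
      rw [sympForm_smul_right, inv_mul_cancel₀ hx0]
    obtain ⟨e, he, he0, he1, he2⟩ : ∃ e ∈ D j, e ≠ 0 ∧ π j v + e ≠ 0 ∧ f (π j v) e = 0 := by
      by_cases hq : Fintype.card F = 2
      · -- a vector in the orthogonal complement of `v_j`
        have hk2 : k ≠ 2 := fun h => hex ⟨h, hq⟩
        have hk4 : 4 ≤ k := by omega
        set W : Submodule F Vv := D j ⊓ LinearMap.ker ((sympBilin m F) (π j v)) with hW
        have hWf : 3 ≤ finrank F W := by
          have h5 := Submodule.finrank_sup_add_finrank_inf_eq (D j) (LinearMap.ker ((sympBilin m F) (π j v)))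
          rw [← hW] at h5
          have h6 := LinearMap.finrank_range_add_finrank_ker ((sympBilin m F) (π j v))
          have h7 : finrank F (LinearMap.range ((sympBilin m F) (π j v))) ≤ 1 :=
            (Submodule.finrank_le _).trans (by simp)
          have h8 : finrank F ↥(D j ⊔ LinearMap.ker ((sympBilin m F) (π j v))) ≤ finrank F Vv :=
            Submodule.finrank_le _
          have h9 := hk j
          omega
        obtain ⟨e, he, he0⟩ : ∃ e ∈ W, e ∉ Submodule.span F {π j v} := by
          by_contra hcon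
          push Not at hcon
          have h5 : W ≤ Submodule.span F {π j v} := hcon
          have h6 := Submodule.finrank_mono h5
          have h7 : finrank F (Submodule.span F {π j v}) = 1 := finrank_span_singleton hvj
          omega
        refine ⟨e, he.1, ?_, ?_, he.2⟩
        · rintro rfl
          exact he0 (Submodule.zero_mem _)
        · intro h5
          apply he0
          have h6 : e = (-1 : F) • π j v := by
            rw [neg_one_smul]
            exact eq_neg_of_add_eq_zero_right h5
          rw [h6]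
          exact Submodule.smul_mem _ _ (Submodule.mem_span_singleton_self _)
      · -- a scalar multiple
        obtain ⟨c, hc0, hc1⟩ : ∃ c : F, c ≠ 0 ∧ c ≠ -1 := by
          by_contra hcon
          push Not at hcon
          apply hq
          have h5 : (Finset.univ : Finset F) ⊆ {0, -1} := by
            intro c _
            by_cases h6 : c = 0
            · simp [h6]
            · simp [hcon c h6]
          have h6 : Fintype.card F ≤ 2 := by
            rw [← Finset.card_univ]
            exact (Finset.card_le_card h5).trans Finset.card_le_two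
          have h7 : 2 ≤ Fintype.card F := Fintype.one_lt_card
          omega
        refine ⟨c • π j v, (D j).smul_mem _ (h1 j v), smul_ne_zero hc0 hvj, ?_, ?_⟩
        · have : π j v + c • π j v = (1 + c) • π j v := by
            rw [add_smul, one_smul]
          rw [this]
          refine smul_ne_zero ?_ hvj
          intro h5
          exact hc1 (eq_neg_of_add_eq_zero_right h5)
        · rw [sympForm_smul_right, sympForm_self, mul_zero]
    -- the second vector
    let b : Fin t → Vv := fun l => if l = i then cᵢ else if l = j then e else - π l v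
    have hbm : ∀ l, b l ∈ D l := by
      intro l
      simp only [b]
      split_ifs with h5 h6
      · subst h5
        exact hcᵢ
      · subst h6
        exact he
      · exact (D l).neg_mem (h1 l v)
    have hcᵢ0 : cᵢ ≠ 0 := by
      rintro rfl
      have h5 := sympForm_smul_right (0 : F) (π i v) (0 : Vv)
      simp only [smul_zero, zero_mul] at h5
      rw [h5] at hcᵢ1
      exact zero_ne_one hcᵢ1
    have hsupp : ∀ l ∈ (Finset.univ : Finset (Fin t)), (π l v = 0 ↔ b l = 0) := by
      intro l _
      simp only [b]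
      split_ifs with h5 h6
      · subst h5
        simp [hvi, hcᵢ0]
      · subst h6
        simp [hvj, he0]
      · simp
    have hbU : ∑ l, b l ∈ UU M := same Finset.univ (fun l => π l v) b (fun l => h1 l v) hbm hsupp
      (fun l hl => absurd (Finset.mem_univ l) hl) (by rw [hvsum]; exact hvU)
    have hpair := UU_add hM2 (a := ∑ l, π l v) (b := ∑ l, b l) (by rw [hvsum]; exact hvU) hbU (by
      rw [sform_sum_diag hD (fun l => h1 l v) hbm, Finset.sum_eq_single i]
      · simp only [b, if_true, hcᵢ1]
        exact one_ne_zero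
      · intro l _ hl
        simp only [b, if_neg hl]
        split_ifs with h5
        · subst h5
          exact he2
        · rw [show - π l v = (-1 : F) • π l v by simp, sympForm_smul_right, sympForm_self, mul_zero]
      · simp)
    set xi := π i v + cᵢ with hxi
    set xj := π j v + e with hxj
    have hxi0 : xi ≠ 0 := by
      intro h5
      have h6 : f (π i v) xi = 1 := by
        rw [hxi, sympForm_add_right, sympForm_self, zero_add, hcᵢ1]
      rw [h5] at h6
      have h7 := sympForm_smul_right (0 : F) (π i v) (0 : Vv)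
      simp only [smul_zero, zero_mul] at h7
      rw [h7] at h6
      exact zero_ne_one h6
    have hsum : ∑ l, π l v + ∑ l, b l = xi + xj := by
      rw [← Finset.sum_add_distrib, Finset.sum_eq_add i j hij]
      · simp only [b, if_true]
        rw [if_neg (Ne.symm hij)]
      · intro l _ hl
        simp only [b, if_neg hl.1, if_neg hl.2]
        abel
      · simp
      · simp
    rw [hsum] at hpair
    have hxim : xi ∈ D i := (D i).add_mem (h1 i v) hcᵢ
    have hxjm : xj ∈ D j := (D j).add_mem (h1 j v) he
    -- all pairs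
    have pairs : ∀ p p', p ≠ p' → ∀ A ∈ D p, ∀ B ∈ D p', A ≠ 0 → B ≠ 0 → A + B ∈ UU M := by
      intro p p' hpp A hA B hB hA0 hB0
      obtain ⟨σ, hσ1, hσ2⟩ := exists_perm_map hij hpp
      obtain ⟨h, hh, hact⟩ := exists_perm_sp hD σ
      have h5 := UU_act hM2 (hM1 hh) hpair
      rw [map_add] at h5
      have h6 : act h xi ∈ D p := hσ1 ▸ hact i xi hxim
      have h7 : act h xj ∈ D p' := hσ2 ▸ hact j xj hxjm
      have h8 : act h xi ≠ 0 := fun h0 => hxi0 ((act h).map_eq_zero_iff.1 h0)
      have h9 : act h xj ≠ 0 := fun h0 => he1 ((act h).map_eq_zero_iff.1 h0)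
      -- replace the second component, then the first
      have h10 : act h xi + B ∈ UU M :=
        repl p' (act h xi) (act h xj) B (fun u hu => hor p p' hpp _ h6 u hu) h7 hB h9 hB0 h5
      have h11 : B + act h xi ∈ UU M := by rwa [add_comm]
      have h12 := repl p B (act h xi) A (fun u hu => hor p' p (Ne.symm hpp) _ hB u hu) h6 hA h8 hA0 h11
      rwa [add_comm] at h12
    -- all vectors
    have hall : ∀ (s : Finset (Fin t)) (a : Fin t → Vv), (∀ l, a l ∈ D l) → ∑ l ∈ s, a l ∈ UU M := by
      intro s
      induction s using Finset.induction_on with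
      | empty =>
        intro a _
        simp only [Finset.sum_empty]
        exact UU_zero
      | insert q s hqs ih =>
        intro a ha
        rw [Finset.sum_insert hqs]
        by_cases haq : a q = 0
        · rw [haq, zero_add]
          exact ih a ha
        by_cases hs0 : ∀ l ∈ s, a l = 0
        · rw [Finset.sum_eq_zero hs0, add_zero]
          exact hUU q _ (ha q)
        push Not at hs0
        obtain ⟨i', hi's, hi'0⟩ := hs0
        have hi'q : i' ≠ q := fun h => hqs (h ▸ hi's)
        obtain ⟨x, hx, hx0⟩ := (hnd i' _ (ha i') hi'0).2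
        have hx00 : x ≠ 0 := by
          rintro rfl
          apply hx0
          have h5 := sympForm_smul_right (0 : F) (a i') (0 : Vv)
          simpa using h5
        -- modify the `i'` component
        let a' : Fin t → Vv := Function.update a i' (a i' - x)
        have ha' : ∀ l, a' l ∈ D l := by
          intro l
          by_cases hl : l = i'
          · subst hl
            simp only [a', Function.update_self]
            exact (D l).sub_mem (ha l) hx
          · simp only [a', Function.update_of_ne hl]
            exact ha l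
        have e1 : ∑ l ∈ s, a' l = ∑ l ∈ s, a l - x := by
          rw [← Finset.add_sum_erase _ _ hi's, ← Finset.add_sum_erase _ a hi's]
          have : ∑ l ∈ s.erase i', a' l = ∑ l ∈ s.erase i', a l :=
            Finset.sum_congr rfl fun l hl => Function.update_of_ne (Finset.ne_of_mem_erase hl) _ _
          rw [this]
          simp only [a', Function.update_self]
          abel
        have h5 := ih a' ha'
        rw [e1] at h5
        have h6 := pairs i' q hi'q x hx (a q) (ha q) hx00 haq
        have h7 : f (∑ l ∈ s, a l - x) (x + a q) ≠ 0 := by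
          have h8 : f (∑ l ∈ s, a l) x = f (a i') x := by
            rw [sform_sum_left, Finset.sum_eq_single i']
            · intro l hl hli
              exact hor l i' hli _ (ha l) _ hx
            · intro h9
              exact absurd hi's h9
          have h9 : f (∑ l ∈ s, a l) (a q) = 0 := by
            rw [sform_sum_left]
            refine Finset.sum_eq_zero fun l hl => ?_
            exact hor l q (fun h => hqs (h ▸ hl)) _ (ha l) _ (ha q)
          have h10 : f x (a q) = 0 := hor i' q hi'q _ hx _ (ha q)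
          rw [sub_eq_add_neg, sympForm_add_left, sympForm_add_right, sympForm_add_right, h8, h9,
            show -x = (-1 : F) • x by simp, sympForm_smul_left, sympForm_smul_left, sympForm_self, h10]
          simpa using hx0
        have h8 := UU_add hM2 h5 h6 h7
        have e2 : ∑ l ∈ s, a l - x + (x + a q) = a q + ∑ l ∈ s, a l := by abel
        rwa [e2] at h8
    refine le_antisymm hM2 (spGL_le_of_stv M fun w c => ?_)
    have := hall Finset.univ (fun l => π l w) (fun l => h1 l w)
    rw [h4 w] at this
    exact this c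

end Cfsg.Agent.Lib.Geo
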