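import Mathlib
import Cfsg.Agent.Lib.Geo.SympDecomp

set_option autoImplicit false

/-! Over the field with two elements, the stabilizer in `Sp` of a decomposition into non-degenerate
planes is not maximal: it preserves the quadratic form counting the number of nonzero components. -/

namespace Cfsg.Agent.Lib.Geo

open scoped MatrixGroups Matrix
open Module Cfsg.Agent.Lib.Classical

/-- Dimension count for a decomposition. -/
theorem card_eq_of_decomp {ι : Type} [Fintype ι] [DecidableEq ι] {K : Type*} [Field K] {t k : ℕ}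
    {D : Fin t → Submodule K (ι → K)} (hind : iSupIndep D) (htop : iSup D = ⊤)
    (hk : ∀ i, finrank K (D i) = k) : t * k = Fintype.card ι := by
  classical
  have hint := DirectSum.isInternal_submodule_of_iSupIndep_of_iSup_eq_top hind htop
  let e : (DirectSum (Fin t) fun i => D i) ≃ₗ[K] (ι → K) :=
    LinearEquiv.ofBijective (DirectSum.coeLinearMap D) hint
  have h1 := e.finrank_eq
  rw [Module.finrank_directSum] at h1
  simp only [hk, Finset.sum_const, Finset.card_univ, Fintype.card_fin, smul_eq_mul, finrank_fintype_fun_eq_card] at h1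
  exact h1

theorem act_mul_apply {ι : Type} [Fintype ι] [DecidableEq ι] {K : Type*} [Field K] (a b : GL ι K) (x : ι → K) :
    act (a * b) x = act a (act b x) := by
  rw [map_mul]
  rfl

variable {F : Type*} [Field F] [Fintype F] {m t : ℕ}

local notation "Vv" => (Fin m ⊕ Fin m → F)

local notation "f" => Cfsg.sympForm m F

theorem eq_one_of_ne_zero_of_card_two (hq : Fintype.card F = 2) {c : F} (hc : c ≠ 0) : c = 1 := by
  have h1 : c ^ (Fintype.card F - 1) = 1 := FiniteField.pow_card_sub_one_eq_one c hc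
  rw [hq] at h1
  simpa using h1

theorem one_add_one_of_card_two (hq : Fintype.card F = 2) : (1 : F) + 1 = 0 := by
  by_contra h
  have := eq_one_of_ne_zero_of_card_two hq h
  simp at this

open _root_.Classical in
/-- one on nonzero vectors -/
noncomputable def qb (y : Fin m ⊕ Fin m → F) : F := if y = 0 then 0 else 1

theorem qb_zero : qb (0 : Fin m ⊕ Fin m → F) = 0 := by simp [qb]

theorem qb_of_ne {y : Fin m ⊕ Fin m → F} (hy : y ≠ 0) : qb y = 1 := by simp [qb, hy]

variable {D : Fin t → Submodule F (Fin m ⊕ Fin m → F)}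

theorem qb_add (hq : Fintype.card F = 2) (hD : Cfsg.Geo.IsNondegenerateMDecomposition (Cfsg.sympForm m F) 2 D)
    {l : Fin t} {a b : Vv} (ha : a ∈ D l) (hb : b ∈ D l) : qb (a + b) = qb a + qb b + f a b := by
  have h2 := one_add_one_of_card_two hq
  by_cases ha0 : a = 0
  · subst ha0
    rw [zero_add, qb_zero, zero_add]
    have : f 0 b = 0 := by
      have := sympForm_smul_left (m := m) (R := F) (0 : F) b b
      simpa using this
    rw [this, add_zero]
  by_cases hb0 : b = 0
  · subst hb0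
    rw [add_zero, qb_zero, add_zero]
    have : f a 0 = 0 := by
      have := sympForm_smul_right (m := m) (R := F) (0 : F) a a
      simpa using this
    rw [this, add_zero]
  have h2v : ∀ y : Vv, y + y = 0 := by
    intro y
    have : y + y = ((1 : F) + 1) • y := by rw [add_smul, one_smul]
    rw [this, h2, zero_smul]
  by_cases hab : a = b
  · subst hab
    rw [h2v, qb_zero, qb_of_ne ha0, h2, sympForm_self, add_zero]
  have hab0 : a + b ≠ 0 := by
    intro h
    apply hab
    have h3 : a + b = b + b := by rw [h, h2v]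
    exact add_right_cancel h3
  rw [qb_of_ne hab0, qb_of_ne ha0, qb_of_ne hb0, h2, zero_add]
  symm
  apply eq_one_of_ne_zero_of_card_two hq
  intro h0
  have hba : b ∉ Submodule.span F {a} := by
    intro h
    obtain ⟨c, rfl⟩ := Submodule.mem_span_singleton.1 h
    by_cases hc : c = 0
    · subst hc
      simp at hb0
    · rw [eq_one_of_ne_zero_of_card_two hq hc, one_smul] at hab
      exact hab rfl
  have hspan : Submodule.span F {a} ⊔ Submodule.span F {b} = D l := by
    apply Submodule.eq_of_le_of_finrank_eq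
    · apply sup_le
      · rwa [Submodule.span_singleton_le_iff_mem]
      · rwa [Submodule.span_singleton_le_iff_mem]
    · rw [hD.decomp.finrank_eq, Submodule.finrank_sup_span_singleton hba, finrank_span_singleton ha0]
  obtain ⟨⟨x, hx, hxa⟩, -⟩ := hD.nondegenerate l a ha ha0
  rw [← hspan] at hx
  obtain ⟨y, hy, z, hz, rfl⟩ := Submodule.mem_sup.1 hx
  obtain ⟨c, rfl⟩ := Submodule.mem_span_singleton.1 hy
  obtain ⟨d, rfl⟩ := Submodule.mem_span_singleton.1 hz
  apply hxa
  rw [sympForm_add_left, sympForm_smul_left, sympForm_smul_left, sympForm_self, sympForm_flip a b, h0]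
  simp

/-- The quadratic form counting components. -/
noncomputable def qD (π : Fin t → (Vv →ₗ[F] Vv)) (x : Vv) : F := ∑ l, qb (π l x)

theorem sympBlocks2_not_max (hq : Fintype.card F = 2) (hm : 7 ≤ m)
    (hD : Cfsg.Geo.IsNondegenerateMDecomposition (Cfsg.sympForm m F) 2 D) :
    ∃ K : Subgroup (GL (Fin m ⊕ Fin m) F), Cfsg.Geo.decompositionStabilizer D ⊓ Cfsg.spGL m F < K ∧
      K < Cfsg.spGL m F := by
  classical
  have h2 := one_add_one_of_card_two hq
  have h01 : ∀ {c : F}, c ≠ 0 → c = 1 := eq_one_of_ne_zero_of_card_two hq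
  obtain ⟨π, h1', h2', h3', h4'⟩ := exists_proj hD.decomp.indep hD.decomp.iSup_eq_top
  have hcard := card_eq_of_decomp hD.decomp.indep hD.decomp.iSup_eq_top hD.decomp.finrank_eq
  simp only [Fintype.card_sum, Fintype.card_fin] at hcard
  have ht : m = t := by omega
  -- polar identity
  have hQadd : ∀ x y : Vv, qD π (x + y) = qD π x + qD π y + f x y := by
    intro x y
    have e1 : f x y = ∑ l, f (π l x) (π l y) := by
      have := sform_sum_diag hD (a := fun l => π l x) (b := fun l => π l y) (fun l => h1' l x) (fun l => h1' l y)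
      simpa only [h4'] using this
    rw [e1, qD, qD, qD, ← Finset.sum_add_distrib, ← Finset.sum_add_distrib]
    refine Finset.sum_congr rfl fun l _ => ?_
    rw [map_add]
    exact qb_add hq hD (h1' l x) (h1' l y)
  have hQzero : qD π (0 : Vv) = 0 := by
    simp [qD, qb_zero]
  have hQblock : ∀ {l : Fin t} {a : Vv}, a ∈ D l → a ≠ 0 → qD π a = 1 := by
    intro l a ha ha0
    rw [qD, Finset.sum_eq_single l]
    · rw [h2' l a ha, qb_of_ne ha0]
    · intro p _ hp
      rw [h3' p l hp a ha, qb_zero]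
    · simp
  -- the group
  let K : Subgroup (GL (Fin m ⊕ Fin m) F) :=
    { carrier := {g | g ∈ Cfsg.spGL m F ∧ ∀ x, qD π (act g x) = qD π x}
      mul_mem' := by
        rintro a b ⟨ha, ha'⟩ ⟨hb, hb'⟩
        refine ⟨mul_mem ha hb, fun x => ?_⟩
        rw [act_mul_apply, ha', hb']
      one_mem' := by
        refine ⟨one_mem _, fun x => ?_⟩
        simp
      inv_mem' := by
        rintro a ⟨ha, ha'⟩
        refine ⟨inv_mem ha, fun x => ?_⟩
        have := ha' (act a⁻¹ x)
        rw [← act_mul_apply, mul_inv_cancel] at this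
        simpa using this.symm }
  have hKmem : ∀ g, g ∈ K ↔ g ∈ Cfsg.spGL m F ∧ ∀ x, qD π (act g x) = qD π x := fun g => Iff.rfl
  -- three blocks
  have ht3 : 3 ≤ t := by omega
  let l₁ : Fin t := ⟨0, by omega⟩
  let l₂ : Fin t := ⟨1, by omega⟩
  let l₃ : Fin t := ⟨2, by omega⟩
  have h12 : l₁ ≠ l₂ := by simp [l₁, l₂, Fin.ext_iff]
  have h13 : l₁ ≠ l₃ := by simp [l₁, l₃, Fin.ext_iff]
  have h23 : l₂ ≠ l₃ := by simp [l₂, l₃, Fin.ext_iff]
  have hne : ∀ l, ∃ a ∈ D l, a ≠ 0 := by
    intro l
    apply Submodule.exists_mem_ne_zero_of_ne_bot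
    intro h
    have := hD.decomp.finrank_eq l
    rw [h] at this
    simp at this
  obtain ⟨a₁, ha₁, ha₁0⟩ := hne l₁
  obtain ⟨a₂, ha₂, ha₂0⟩ := hne l₂
  obtain ⟨a₃, ha₃, ha₃0⟩ := hne l₃
  obtain ⟨⟨x, hx, hxa⟩, -⟩ := hD.nondegenerate l₁ a₁ ha₁ ha₁0
  have hxa1 : f x a₁ = 1 := h01 hxa
  have hx2 : f x a₂ = 0 := hD.orthogonal l₁ l₂ h12 x hx a₂ ha₂
  have hx3 : f x a₃ = 0 := hD.orthogonal l₁ l₃ h13 x hx a₃ ha₃
  have h1a2 : f a₁ a₂ = 0 := hD.orthogonal l₁ l₂ h12 a₁ ha₁ a₂ ha₂
  have h1a3 : f a₁ a₃ = 0 := hD.orthogonal l₁ l₃ h13 a₁ ha₁ a₃ ha₃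
  have h2a3 : f a₂ a₃ = 0 := hD.orthogonal l₂ l₃ h23 a₂ ha₂ a₃ ha₃
  have hQ12 : qD π (a₁ + a₂) = 0 := by
    rw [hQadd, hQblock ha₁ ha₁0, hQblock ha₂ ha₂0, h1a2, h2, add_zero]
  have hQ123 : qD π (a₁ + a₂ + a₃) = 1 := by
    rw [hQadd, hQ12, hQblock ha₃ ha₃0, sympForm_add_left, h1a3, h2a3]
    simp
  -- transvections
  have hstv1 : ∀ v : Vv, qD π v = 1 → stv v 1 ∈ K := by
    intro v hv
    rw [hKmem]
    refine ⟨stv_mem v 1, fun y => ?_⟩
    rw [act_stv, one_mul]
    by_cases h0 : f y v = 0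
    · rw [h0, zero_smul, add_zero]
    · rw [h01 h0, one_smul, hQadd, h01 h0, hv, add_assoc, h2, add_zero]
  refine ⟨K, ?_, ?_⟩
  · rw [SetLike.lt_iff_le_and_exists]
    constructor
    · rintro g ⟨hg1, hg2⟩
      rw [hKmem]
      refine ⟨hg2, fun y => ?_⟩
      obtain ⟨σ, hσ⟩ := act_mem_of_stabD hg1
      have hπ : ∀ l, π (σ l) (act g y) = act g (π l y) := by
        intro l
        have e : act g y = ∑ j, act g (π j y) := by
          conv_lhs => rw [← h4' y]
          rw [map_sum]
        rw [e, map_sum, Finset.sum_eq_single l]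
        · exact h2' _ _ (hσ l _ (h1' l y))
        · intro j _ hj
          exact h3' _ _ (fun h => hj (σ.injective h).symm) _ (hσ j _ (h1' j y))
        · simp
      rw [qD, qD, ← Equiv.sum_comp σ]
      refine Finset.sum_congr rfl fun l _ => ?_
      rw [hπ]
      by_cases h0 : π l y = 0
      · rw [h0, map_zero]
      · rw [qb_of_ne h0, qb_of_ne]
        intro h
        exact h0 ((act g).injective (by rw [h, map_zero]))
    · refine ⟨stv (a₁ + a₂ + a₃) 1, hstv1 _ hQ123, ?_⟩
      rintro ⟨hg, -⟩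
      obtain ⟨σ, hσ⟩ := act_mem_of_stabD hg
      have h3 := hσ l₁ x hx
      rw [act_stv, one_mul, sympForm_add_right, sympForm_add_right, hxa1, hx2, hx3, add_zero, add_zero, one_smul] at h3
      have e2 : π l₂ (x + (a₁ + a₂ + a₃)) = a₂ := by
        simp only [map_add]
        rw [h3' l₂ l₁ h12.symm x hx, h3' l₂ l₁ h12.symm a₁ ha₁, h2' l₂ a₂ ha₂, h3' l₂ l₃ h23 a₃ ha₃]
        simp
      have e3 : π l₃ (x + (a₁ + a₂ + a₃)) = a₃ := by
        simp only [map_add]
        rw [h3' l₃ l₁ h13.symm x hx, h3' l₃ l₁ h13.symm a₁ ha₁, h2' l₃ a₃ ha₃, h3' l₃ l₂ h23.symm a₂ ha₂]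
        simp
      have j2 : σ l₁ = l₂ := by
        by_contra h
        have := h3' l₂ (σ l₁) (Ne.symm h) _ h3
        rw [e2] at this
        exact ha₂0 this
      have j3 : σ l₁ = l₃ := by
        by_contra h
        have := h3' l₃ (σ l₁) (Ne.symm h) _ h3
        rw [e3] at this
        exact ha₃0 this
      exact h23 (j2.symm.trans j3)
  · rw [SetLike.lt_iff_le_and_exists]
    refine ⟨fun g hg => hg.1, stv (a₁ + a₂) 1, stv_mem _ 1, ?_⟩
    intro hg
    have h3 := ((hKmem _).1 hg).2 x
    rw [act_stv, one_mul, sympForm_add_right, hxa1, hx2, add_zero, one_smul, hQadd, hQ12, add_zero,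
      sympForm_add_right, hxa1, hx2, add_zero] at h3
    have : (1 : F) = 0 := by
      have h5 : qD π x + 1 - qD π x = 0 := by rw [h3]; ring
      linear_combination h5
    exact one_ne_zero this

end Cfsg.Agent.Lib.Geo
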