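import Mathlib
import Cfsg.Agent.Lib.Geo.OmegaNondegApp
import Cfsg.Agent.Lib.Geo.OmegaPair
import Cfsg.Agent.Lib.Geo.OmegaUnitary
import Cfsg.Agent.Lib.Geo.SympBlocks2

set_option autoImplicit false

/-! Non-maximal stabilizers in `Ω` of orthogonal decompositions: the stabilizer preserves a set of
vectors (a frame) which is not tied to the decomposition. -/

namespace Cfsg.Agent.Lib.Geo

open scoped MatrixGroups Matrix commutatorElement
open Module

variable {ι : Type} [Fintype ι] [DecidableEq ι] {F : Type*} [Field F] [Fintype F]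

local notation "V" => (ι → F)

variable {Q : (ι → F) → F}

local notation "f" => QuadraticMap.polar Q

variable {t k : ℕ} {D : Fin t → Submodule F (ι → F)}

/-- A generic construction of an intermediate group. -/
theorem not_max_of_set (hQ : Cfsg.Geo.IsNondegenerateQuadraticForm Q) (hn : 13 ≤ Fintype.card ι)
    (hD : Cfsg.Geo.IsNondegenerateMDecomposition (QuadraticMap.polar Q) k D) (X : Set V)
    (hinv : ∀ g ∈ Cfsg.Geo.decompositionStabilizer D ⊓ Cfsg.Geo.omegaGL Q, ∀ x ∈ X, act g x ∈ X)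
    (hXb : ∀ x ∈ X, ∃ i, x ∈ D i) {x₀ : V} (hx₀ : x₀ ∈ X) (hx₀0 : x₀ ≠ 0)
    (hwit : ∃ g ∈ Cfsg.Geo.omegaGL Q, (∀ x ∈ X, act g x ∈ X) ∧ g ∉ Cfsg.Geo.decompositionStabilizer D) :
    ∃ K : Subgroup (GL ι F), Cfsg.Geo.decompositionStabilizer D ⊓ Cfsg.Geo.omegaGL Q < K ∧
      K < Cfsg.Geo.omegaGL Q := by
  classical
  have hn9 : 9 ≤ Fintype.card ι := by omega
  let K₀ : Submonoid (GL ι F) :=
    { carrier := {g | g ∈ Cfsg.Geo.omegaGL Q ∧ ∀ x ∈ X, act g x ∈ X}
      mul_mem' := by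
        rintro a b ⟨ha, ha'⟩ ⟨hb, hb'⟩
        refine ⟨mul_mem ha hb, fun x hx => ?_⟩
        rw [act_mul_apply]
        exact ha' _ (hb' x hx)
      one_mem' := by
        refine ⟨one_mem _, fun x hx => ?_⟩
        simpa using hx }
  let K : Subgroup (GL ι F) :=
    { K₀ with
      inv_mem' := by
        intro a ha
        have h1 : a ^ (orderOf a - 1) * a = 1 := by
          rw [← pow_succ, Nat.sub_add_cancel (orderOf_pos a), pow_orderOf_eq_one]
        have h2 : a⁻¹ = a ^ (orderOf a - 1) := (eq_inv_of_mul_eq_one_left h1).symm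
        show a⁻¹ ∈ K₀
        rw [h2]
        exact pow_mem ha _ }
  have hKmem : ∀ g, g ∈ K ↔ g ∈ Cfsg.Geo.omegaGL Q ∧ ∀ x ∈ X, act g x ∈ X := fun g => Iff.rfl
  refine ⟨K, ?_, ?_⟩
  · rw [SetLike.lt_iff_le_and_exists]
    constructor
    · intro g hg
      exact (hKmem g).2 ⟨hg.2, hinv g hg⟩
    · obtain ⟨g, hg1, hg2, hg3⟩ := hwit
      exact ⟨g, (hKmem g).2 ⟨hg1, hg2⟩, fun h => hg3 h.1⟩
  · rw [SetLike.lt_iff_le_and_exists]
    refine ⟨fun g hg => ((hKmem g).1 hg).1, ?_⟩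
    obtain ⟨i, hi⟩ := hXb x₀ hx₀
    have hcard := card_eq_of_decomp hD.decomp.indep hD.decomp.iSup_eq_top hD.decomp.finrank_eq
    have h2t := hD.decomp.two_le
    have hkn : 2 * k ≤ Fintype.card ι := by
      rw [← hcard]
      exact Nat.mul_le_mul_right k h2t
    have h1 := finrank_qperp hQ (D i)
    rw [hD.decomp.finrank_eq] at h1
    obtain ⟨a, ha, ha0, hQa⟩ := hiso_quad hQ (qperp hQ (D i)) (by omega)
    have hay : ∀ y ∈ D i, f y a = 0 := fun y hy => by
      rw [pol_comm']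
      exact ha y hy
    have hx₀a : x₀ ∉ Submodule.span F {a} := by
      intro h
      obtain ⟨c, rfl⟩ := Submodule.mem_span_singleton.1 h
      obtain ⟨⟨y, hy, hyx⟩, -⟩ := hD.nondegenerate i _ hi hx₀0
      apply hyx
      rw [pol_smul_right hQ, hay y hy, mul_zero]
    obtain ⟨w, hw1, hw2⟩ := exists_val hQ hx₀a
    have haw : f a w = 0 := hw2 a (Submodule.mem_span_singleton_self a)
    refine ⟨sg hQ a w, sg_mem_omega hQ hn9 hQa haw, ?_⟩
    intro hg
    have h3 := ((hKmem _).1 hg).2 x₀ hx₀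
    rw [act_sg_orth hQ hQa haw (hay x₀ hi), hw1, one_smul] at h3
    obtain ⟨j, hj⟩ := hXb _ h3
    by_cases hij : j = i
    · subst hij
      have h4 : a ∈ D j := by
        have : a = x₀ - (x₀ - a) := by abel
        rw [this]
        exact (D j).sub_mem hi hj
      obtain ⟨⟨y, hy, hya⟩, -⟩ := hD.nondegenerate j _ h4 ha0
      exact hya (hay y hy)
    · obtain ⟨⟨y, hy, hyx⟩, -⟩ := hD.nondegenerate i _ hi hx₀0
      apply hyx
      have h5 : f y (x₀ - a) = 0 := hD.orthogonal i j (Ne.symm hij) y hy _ hj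
      rw [pol_sub_right hQ, hay y hy, sub_zero] at h5
      exact h5

theorem Q_sub_eq (hQ : Cfsg.Geo.IsNondegenerateQuadraticForm Q) (u v : V) : Q (u - v) = Q u + Q v - f u v := by
  have h1 : Q (u - v) = Q u + Q (-v) + f u (-v) := by
    rw [sub_eq_add_neg, Q_add' (Q := Q)]
  rw [h1, Q_neg hQ, pol_neg_right hQ]
  ring

/-- Two commuting "transpositions" of vectors of the same value lie in `Ω`. -/
theorem exists_double_swap (hQ : Cfsg.Geo.IsNondegenerateQuadraticForm Q) (hn9 : 9 ≤ Fintype.card ι)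
    (h2 : (2 : F) ≠ 0) {c : F} (hc : c ≠ 0) {b₁ b₂ b₃ b₄ : V} (h₁ : Q b₁ = c) (h₂ : Q b₂ = c) (h₃ : Q b₃ = c)
    (h₄ : Q b₄ = c) (h12 : f b₁ b₂ = 0) (h13 : f b₁ b₃ = 0) (h14 : f b₁ b₄ = 0) (h23 : f b₂ b₃ = 0)
    (h24 : f b₂ b₄ = 0) (h34 : f b₃ b₄ = 0) :
    ∃ g ∈ Cfsg.Geo.omegaGL Q, act g b₁ = b₂ ∧ act g b₂ = b₁ ∧ act g b₃ = b₄ ∧ act g b₄ = b₃ ∧
      ∀ x, f x b₁ = 0 → f x b₂ = 0 → f x b₃ = 0 → f x b₄ = 0 → act g x = x := by
  have h2c : 2 * c ≠ 0 := mul_ne_zero h2 hc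
  have flip : ∀ {u v : V}, f u v = 0 → f v u = 0 := fun {u v} h => by rw [pol_comm', h]
  have hQ1 : Q (b₁ - b₂) = 2 * c := by rw [Q_sub_eq hQ, h₁, h₂, h12]; ring
  have hQ2 : Q (b₃ - b₄) = 2 * c := by rw [Q_sub_eq hQ, h₃, h₄, h34]; ring
  have hne1 : Q (b₁ - b₂) ≠ 0 := by rwa [hQ1]
  have hne2 : Q (b₃ - b₄) ≠ 0 := by rwa [hQ2]
  have hself : ∀ {u : V}, Q u = c → f u u = 2 * c := fun {u} hu => by rw [polar_self' hQ, hu]
  have hfix1 : ∀ x, f x b₁ = 0 → f x b₂ = 0 → act (rf hQ (b₁ - b₂)) x = x := by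
    intro x h h'
    rw [act_rf hQ hne1, pol_sub_right hQ, h, h']
    simp
  have hfix2 : ∀ x, f x b₃ = 0 → f x b₄ = 0 → act (rf hQ (b₃ - b₄)) x = x := by
    intro x h h'
    rw [act_rf hQ hne2, pol_sub_right hQ, h, h']
    simp
  have hs1 : act (rf hQ (b₁ - b₂)) b₁ = b₂ := by
    rw [act_rf hQ hne1, hQ1, pol_sub_right hQ, hself h₁, h12, sub_zero, div_self h2c, one_smul]
    abel
  have hs2 : act (rf hQ (b₁ - b₂)) b₂ = b₁ := by
    rw [act_rf hQ hne1, hQ1, pol_sub_right hQ, hself h₂, flip h12, zero_sub, neg_div, div_self h2c, neg_smul,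
      one_smul]
    abel
  have hs3 : act (rf hQ (b₃ - b₄)) b₃ = b₄ := by
    rw [act_rf hQ hne2, hQ2, pol_sub_right hQ, hself h₃, h34, sub_zero, div_self h2c, one_smul]
    abel
  have hs4 : act (rf hQ (b₃ - b₄)) b₄ = b₃ := by
    rw [act_rf hQ hne2, hQ2, pol_sub_right hQ, hself h₄, flip h34, zero_sub, neg_div, div_self h2c, neg_smul,
      one_smul]
    abel
  refine ⟨rf hQ (b₁ - b₂) * rf hQ (b₃ - b₄), rf_mul_rf_mem_omega hQ hn9 (by rw [hQ1, hQ2]) hne1, ?_, ?_, ?_, ?_, ?_⟩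
  · rw [act_mul_apply, hfix2 _ h13 h14, hs1]
  · rw [act_mul_apply, hfix2 _ h23 h24, hs2]
  · rw [act_mul_apply, hs3, hfix1 _ (flip h14) (flip h24)]
  · rw [act_mul_apply, hs4, hfix1 _ (flip h13) (flip h23)]
  · intro x a1 a2 a3 a4
    rw [act_mul_apply, hfix2 _ a3 a4, hfix1 _ a1 a2]

/-- Reduction to a frame in one member of the decomposition. -/
theorem frame_not_max (hQ : Cfsg.Geo.IsNondegenerateQuadraticForm Q) (hn : 13 ≤ Fintype.card ι) (h2 : (2 : F) ≠ 0)
    (hD : Cfsg.Geo.IsOrthogonalMDecomposition Q k D) (hk : 2 ≤ k) (ht : 4 ≤ t) {S : Set F} {c : F} (hc : c ≠ 0)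
    (hcS : c ∈ S) {b : V} {l₀ : Fin t} (hb : b ∈ D l₀) (hQb : Q b = c)
    (hx : ∀ x ∈ D l₀, Q x ∈ S → (∃ ε : F, x = ε • b) ∨ f x b = 0) :
    ∃ K : Subgroup (GL ι F), Cfsg.Geo.decompositionStabilizer D ⊓ Cfsg.Geo.omegaGL Q < K ∧
      K < Cfsg.Geo.omegaGL Q := by
  classical
  have hn9 : 9 ≤ Fintype.card ι := by omega
  have hDD := hD.decomp
  -- transport
  have htr : ∀ i, ∃ b' ∈ D i, Q b' = c ∧ ∀ x ∈ D i, Q x ∈ S → (∃ ε : F, x = ε • b') ∨ f x b' = 0 := by
    intro i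
    obtain ⟨e, he⟩ := hD.isometric l₀ i
    refine ⟨(e ⟨b, hb⟩ : D i), (e ⟨b, hb⟩).2, by rw [he]; exact hQb, fun x hxi hxS => ?_⟩
    obtain ⟨y, hy⟩ : ∃ y, e y = ⟨x, hxi⟩ := e.surjective _
    have hQy : Q (y : V) = Q x := by
      have := he y
      rw [hy] at this
      exact this.symm
    rcases hx y y.2 (by rw [hQy]; exact hxS) with ⟨ε, hε⟩ | h0
    · left
      refine ⟨ε, ?_⟩
      have h3 : y = ε • (⟨b, hb⟩ : D l₀) := Subtype.ext hε
      have h4 := congrArg (fun z : D i => (z : V)) hy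
      simp only at h4
      rw [← h4, h3, map_smul]
      rfl
    · right
      have h3 := he (y + ⟨b, hb⟩)
      have h4 := he y
      have h5 := he ⟨b, hb⟩
      have h6 : f x (e ⟨b, hb⟩ : D i) = f (y : V) b := by
        rw [QuadraticMap.polar, QuadraticMap.polar]
        have h7 : (x + (e ⟨b, hb⟩ : D i) : V) = ((e (y + ⟨b, hb⟩) : D i) : V) := by
          rw [map_add, hy]
          rfl
        rw [h7, h3, h5]
        rw [hy] at h4
        simp only at h4
        rw [h4]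
        rfl
      rw [h6, h0]
  choose b' hb' hQb' hxb' using htr
  let l₁ : Fin t := ⟨0, by omega⟩
  let l₂ : Fin t := ⟨1, by omega⟩
  let l₃ : Fin t := ⟨2, by omega⟩
  let l₄ : Fin t := ⟨3, by omega⟩
  have n12 : l₁ ≠ l₂ := by simp [l₁, l₂, Fin.ext_iff]
  have n13 : l₁ ≠ l₃ := by simp [l₁, l₃, Fin.ext_iff]
  have n14 : l₁ ≠ l₄ := by simp [l₁, l₄, Fin.ext_iff]
  have n23 : l₂ ≠ l₃ := by simp [l₂, l₃, Fin.ext_iff]
  have n24 : l₂ ≠ l₄ := by simp [l₂, l₄, Fin.ext_iff]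
  have n34 : l₃ ≠ l₄ := by simp [l₃, l₄, Fin.ext_iff]
  have horth : ∀ {i j : Fin t} {x y : V}, i ≠ j → x ∈ D i → y ∈ D j → f x y = 0 :=
    fun {i j x y} hij hx hy => hDD.orthogonal i j hij x hx y hy
  have hob : ∀ {i j}, i ≠ j → f (b' i) (b' j) = 0 := fun hij => horth hij (hb' _) (hb' _)
  obtain ⟨g, hg, g1, g2, g3, g4, gfix⟩ := exists_double_swap hQ hn9 h2 hc (hQb' l₁) (hQb' l₂) (hQb' l₃) (hQb' l₄)
    (hob n12) (hob n13) (hob n14) (hob n23) (hob n24) (hob n34)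
  have hne : ∀ i, b' i ≠ 0 := by
    intro i h
    have := hQb' i
    rw [h, Q_zero' hQ] at this
    exact hc this.symm
  have huniq : ∀ {i j : Fin t} {y : V}, y ∈ D i → y ∈ D j → y ≠ 0 → i = j := by
    intro i j y hi hj h0
    by_contra hij
    have h3 := hDD.decomp.indep.pairwiseDisjoint hij
    exact h0 ((Submodule.disjoint_def.1 h3) y hi hj)
  apply not_max_of_set hQ hn hDD {x | (∃ i, x ∈ D i) ∧ Q x ∈ S} (x₀ := b' l₁)
  · rintro h ⟨hh1, hh2⟩ x ⟨⟨i, hi⟩, hxS⟩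
    obtain ⟨σ, hσ⟩ := act_mem_of_stabD hh1
    refine ⟨⟨σ i, hσ i x hi⟩, ?_⟩
    rw [mem_iso.1 (omega_le_iso hh2)]
    exact hxS
  · rintro x ⟨hi, -⟩
    exact hi
  · exact ⟨⟨l₁, hb' l₁⟩, by rw [hQb']; exact hcS⟩
  · exact hne l₁
  · refine ⟨g, hg, ?_, ?_⟩
    · rintro x ⟨⟨i, hi⟩, hxS⟩
      have hfixed : f x (b' i) = 0 → act g x = x := by
        intro h0
        have hany : ∀ j, f x (b' j) = 0 := by
          intro j
          by_cases hij : i = j
          · rw [← hij]; exact h0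
          · exact horth hij hi (hb' j)
        exact gfix x (hany _) (hany _) (hany _) (hany _)
      have hQs : ∀ (ε : F) (j : Fin t), Q (ε • b' j) = ε * ε * c := by
        intro ε j
        rw [Q_smul' hQ, hQb']
      rcases hxb' i x hi hxS with ⟨ε, rfl⟩ | h0
      · have hS' : ε * ε * c ∈ S := by
          have := hQs ε i
          rw [this] at hxS
          exact hxS
        by_cases e1 : i = l₁
        · subst e1
          rw [map_smul, g1]
          exact ⟨⟨l₂, Submodule.smul_mem _ _ (hb' _)⟩, by rw [hQs]; exact hS'⟩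
        by_cases e2 : i = l₂
        · subst e2
          rw [map_smul, g2]
          exact ⟨⟨l₁, Submodule.smul_mem _ _ (hb' _)⟩, by rw [hQs]; exact hS'⟩
        by_cases e3 : i = l₃
        · subst e3
          rw [map_smul, g3]
          exact ⟨⟨l₄, Submodule.smul_mem _ _ (hb' _)⟩, by rw [hQs]; exact hS'⟩
        by_cases e4 : i = l₄
        · subst e4
          rw [map_smul, g4]
          exact ⟨⟨l₃, Submodule.smul_mem _ _ (hb' _)⟩, by rw [hQs]; exact hS'⟩
        · have : act g (ε • b' i) = ε • b' i := by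
            apply gfix <;> rw [pol_smul_left hQ]
            · rw [hob e1, mul_zero]
            · rw [hob e2, mul_zero]
            · rw [hob e3, mul_zero]
            · rw [hob e4, mul_zero]
          rw [this]
          exact ⟨⟨i, hi⟩, hxS⟩
      · rw [hfixed h0]
        exact ⟨⟨i, hi⟩, hxS⟩
    · intro hh
      obtain ⟨σ, hσ⟩ := act_mem_of_stabD hh
      have e1 := hσ l₁ _ (hb' l₁)
      rw [g1] at e1
      have e2 := huniq e1 (hb' l₂) (hne _)
      -- a vector of the first block orthogonal to `b' l₁`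
      have hk2 : 2 ≤ finrank F (D l₁) := by rw [hDD.decomp.finrank_eq]; exact hk
      have hlt : Submodule.span F {b' l₁} < D l₁ := by
        refine lt_of_le_of_ne ((Submodule.span_singleton_le_iff_mem _ _).2 (hb' l₁)) ?_
        intro h
        rw [← h, finrank_span_singleton (hne _)] at hk2
        omega
      obtain ⟨y, hy, hyb⟩ := SetLike.exists_of_lt hlt
      obtain ⟨z, hz⟩ : ∃ z, z = y - (f y (b' l₁) / (2 * c)) • b' l₁ := ⟨_, rfl⟩
      have hzm : z ∈ D l₁ := hz ▸ (D l₁).sub_mem hy ((D l₁).smul_mem _ (hb' l₁))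
      have hzb : f z (b' l₁) = 0 := by
        rw [hz, pol_sub_left hQ, pol_smul_left hQ, polar_self' hQ, hQb', div_mul_cancel₀ _ (mul_ne_zero h2 hc), sub_self]
      have hz0 : z ≠ 0 := by
        intro h
        rw [h] at hz
        apply hyb
        have : y = (f y (b' l₁) / (2 * c)) • b' l₁ := sub_eq_zero.1 hz.symm
        rw [this]
        exact Submodule.smul_mem _ _ (Submodule.mem_span_singleton_self _)
      have hzfix : act g z = z := by
        apply gfix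
        · exact hzb
        · exact horth n12 hzm (hb' _)
        · exact horth n13 hzm (hb' _)
        · exact horth n14 hzm (hb' _)
      have e3 := hσ l₁ _ hzm
      rw [hzfix] at e3
      have e4 := huniq e3 hzm hz0
      exact n12 (e4.symm.trans e2)

end Cfsg.Agent.Lib.Geo
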