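import Mathlib
import Cfsg.Agent.Lib.Geo.OmegaMax

set_option autoImplicit false

/-! The standard odd dimensional quadratic form. -/

namespace Cfsg.Agent.Lib.Geo

open Module

variable {F : Type*} [Field F] (m : ℕ)

theorem two_ne_zero_of_odd_card [Fintype F] (hodd : Odd (Fintype.card F)) : (2 : F) ≠ 0 := by
  intro h
  haveI : CharP F 2 := CharTwo.of_one_ne_zero_of_two_eq_zero one_ne_zero h
  have h3 : ringChar F = 2 := ringChar.eq F 2
  have h4 := FiniteField.even_card_iff_char_two.1 h3
  exact (Nat.not_even_iff_odd.2 hodd) (Nat.even_iff.2 h4)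

theorem polar_odd (u v : Unit ⊕ (Fin m ⊕ Fin m) → F) :
    QuadraticMap.polar (Cfsg.quadFormOdd m F) u v =
      2 * (u (.inl ()) * v (.inl ())) +
        ∑ i : Fin m, (u (.inr (.inl i)) * v (.inr (.inr i)) + v (.inr (.inl i)) * u (.inr (.inr i))) := by
  simp only [QuadraticMap.polar, Cfsg.quadFormOdd, Pi.add_apply]
  have h : ∑ i : Fin m, (u (.inr (.inl i)) + v (.inr (.inl i))) * (u (.inr (.inr i)) + v (.inr (.inr i)))
      = ∑ i : Fin m, u (.inr (.inl i)) * u (.inr (.inr i)) + ∑ i : Fin m, v (.inr (.inl i)) * v (.inr (.inr i))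
        + ∑ i : Fin m, (u (.inr (.inl i)) * v (.inr (.inr i)) + v (.inr (.inl i)) * u (.inr (.inr i))) := by
    rw [← Finset.sum_add_distrib, ← Finset.sum_add_distrib]
    exact Finset.sum_congr rfl fun i _ => by ring
  rw [h]
  ring

theorem quadFormOdd_nondeg (h2 : (2 : F) ≠ 0) :
    Cfsg.Geo.IsNondegenerateQuadraticForm (Cfsg.quadFormOdd m F) where
  smul c v := by
    simp only [Cfsg.quadFormOdd, Pi.smul_apply, smul_eq_mul, Finset.mul_sum]
    rw [mul_add, Finset.mul_sum]
    congr 1
    · ring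
    · exact Finset.sum_congr rfl fun i _ => by ring
  polar_bilinear := by
    refine ⟨fun x y v => ?_, fun c x v => ?_, fun v x y => ?_, fun c v x => ?_⟩
    · simp only [polar_odd, Pi.add_apply]
      have hs : ∑ i : Fin m, ((x (.inr (.inl i)) + y (.inr (.inl i))) * v (.inr (.inr i)) +
            v (.inr (.inl i)) * (x (.inr (.inr i)) + y (.inr (.inr i))))
          = ∑ i : Fin m, (x (.inr (.inl i)) * v (.inr (.inr i)) + v (.inr (.inl i)) * x (.inr (.inr i)))
            + ∑ i : Fin m, (y (.inr (.inl i)) * v (.inr (.inr i)) + v (.inr (.inl i)) * y (.inr (.inr i))) := by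
        rw [← Finset.sum_add_distrib]
        exact Finset.sum_congr rfl fun i _ => by ring
      rw [hs]
      ring
    · simp only [polar_odd, Pi.smul_apply, smul_eq_mul]
      have hs : ∑ i : Fin m, (c * x (.inr (.inl i)) * v (.inr (.inr i)) +
            v (.inr (.inl i)) * (c * x (.inr (.inr i))))
          = c * ∑ i : Fin m, (x (.inr (.inl i)) * v (.inr (.inr i)) + v (.inr (.inl i)) * x (.inr (.inr i))) := by
        rw [Finset.mul_sum]
        exact Finset.sum_congr rfl fun i _ => by ring
      rw [hs]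
      ring
    · simp only [polar_odd, Pi.add_apply]
      have hs : ∑ i : Fin m, (v (.inr (.inl i)) * (x (.inr (.inr i)) + y (.inr (.inr i))) +
            (x (.inr (.inl i)) + y (.inr (.inl i))) * v (.inr (.inr i)))
          = ∑ i : Fin m, (v (.inr (.inl i)) * x (.inr (.inr i)) + x (.inr (.inl i)) * v (.inr (.inr i)))
            + ∑ i : Fin m, (v (.inr (.inl i)) * y (.inr (.inr i)) + y (.inr (.inl i)) * v (.inr (.inr i))) := by
        rw [← Finset.sum_add_distrib]
        exact Finset.sum_congr rfl fun i _ => by ring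
      rw [hs]
      ring
    · simp only [polar_odd, Pi.smul_apply, smul_eq_mul]
      have hs : ∑ i : Fin m, (v (.inr (.inl i)) * (c * x (.inr (.inr i))) +
            c * x (.inr (.inl i)) * v (.inr (.inr i)))
          = c * ∑ i : Fin m, (v (.inr (.inl i)) * x (.inr (.inr i)) + x (.inr (.inl i)) * v (.inr (.inr i))) := by
        rw [Finset.mul_sum]
        exact Finset.sum_congr rfl fun i _ => by ring
      rw [hs]
      ring
  nondegenerate := by
    intro v hv
    have key : ∃ x, QuadraticMap.polar (Cfsg.quadFormOdd m F) x v ≠ 0 := by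
      obtain ⟨s, hs⟩ := Function.ne_iff.1 hv
      rcases s with ⟨⟩ | ⟨i⟩ | ⟨i⟩
      · refine ⟨Pi.single (.inl ()) 1, ?_⟩
        rw [polar_odd]
        simpa [Pi.single_apply] using ⟨h2, hs⟩
      · refine ⟨Pi.single (.inr (.inr i)) 1, ?_⟩
        rw [polar_odd]
        simpa [Pi.single_apply] using hs
      · refine ⟨Pi.single (.inr (.inl i)) 1, ?_⟩
        rw [polar_odd]
        simpa [Pi.single_apply] using hs
    obtain ⟨x, hx⟩ := key
    exact ⟨⟨x, hx⟩, ⟨x, by rwa [QuadraticMap.polar_comm]⟩⟩

end Cfsg.Agent.Lib.Geo
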