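import Mathlib
import Cfsg.Agent.Lib.Geo.OmegaNondegApp
import Cfsg.Agent.Lib.Geo.OmegaUnitary

set_option autoImplicit false

/-! For `q ≤ 3`, the stabilizer in `Ω` of a hyperbolic plane is not maximal. -/

namespace Cfsg.Agent.Lib.Geo

open scoped MatrixGroups Matrix commutatorElement
open Module

variable {ι : Type} [Fintype ι] [DecidableEq ι] {F : Type*} [Field F] [Fintype F]

variable {Q : (ι → F) → F}

local notation "f" => QuadraticMap.polar Q

theorem sq_eq_one_of_card_le (hq : Fintype.card F ≤ 3) {c : F} (hc : c ≠ 0) : c * c = 1 := by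
  have h1 : c ^ (Fintype.card F - 1) = 1 := FiniteField.pow_card_sub_one_eq_one c hc
  have h2 : 2 ≤ Fintype.card F := Fintype.one_lt_card
  interval_cases h : Fintype.card F
  · simp only [Nat.reduceSub, pow_one] at h1
    rw [h1, mul_one]
  · simp only [Nat.reduceSub] at h1
    rw [← sq, h1]

theorem not_max_plus_plane (hn : 13 ≤ Fintype.card ι)
    (hQ : Cfsg.Geo.IsNondegenerateQuadraticForm Q) (hq : Fintype.card F ≤ 3)
    (W : Submodule F (ι → F)) (hdim : finrank F W = 2)
    (hW : Cfsg.Geo.IsNondegenerateOn (QuadraticMap.polar Q) W) (hWp : Cfsg.Geo.IsPlusTypeOn Q W) :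
    ∃ K : Subgroup (GL ι F), Cfsg.Geo.subspaceStabilizer W ⊓ Cfsg.Geo.omegaGL Q < K ∧
      K < Cfsg.Geo.omegaGL Q := by
  have hn9 : 9 ≤ Fintype.card ι := by omega
  obtain ⟨U, hUW, hU, hU2⟩ := hWp
  have hU1 : finrank F U = 1 := by omega
  have hUb : U ≠ ⊥ := by
    rintro rfl
    simp at hU1
  obtain ⟨e, heU, he0⟩ := Submodule.exists_mem_ne_zero_of_ne_bot hUb
  have heW := hUW heU
  have hQe : Q e = 0 := hU e heU
  obtain ⟨⟨x, hxW, hxe⟩, -⟩ := hW e heW he0
  obtain ⟨x', hx'⟩ : ∃ x', x' = (f x e)⁻¹ • x := ⟨_, rfl⟩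
  have hx'W : x' ∈ W := hx' ▸ W.smul_mem _ hxW
  have hx'e : f x' e = 1 := by
    rw [hx', pol_smul_left hQ, inv_mul_cancel₀ hxe]
  obtain ⟨e', he'⟩ : ∃ e', e' = x' - Q x' • e := ⟨_, rfl⟩
  have he'W : e' ∈ W := he' ▸ W.sub_mem hx'W (W.smul_mem _ heW)
  have hee : f e e = 0 := pol_self_of hQ hQe
  have he'e : f e' e = 1 := by
    rw [he', pol_sub_left hQ, pol_smul_left hQ, hx'e, hee, mul_zero, sub_zero]
  have hee' : f e e' = 1 := by rw [pol_comm', he'e]
  have hQe' : Q e' = 0 := by
    have : Q (x' + (- Q x') • e) = Q x' + Q ((- Q x') • e) + f x' ((- Q x') • e) := by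
      rw [QuadraticMap.polar]; ring
    rw [he', sub_eq_add_neg, ← neg_smul, this, Q_smul' hQ, hQe, pol_smul_right hQ, hx'e]
    ring
  have he'e' : f e' e' = 0 := pol_self_of hQ hQe'
  -- the plane is spanned by `e, e'`
  have hspan : ∀ v ∈ W, ∃ α β : F, v = α • e + β • e' := by
    have hli : Submodule.span F {e, e'} = W := by
      apply Submodule.eq_of_le_of_finrank_eq
      · rw [Submodule.span_le]
        rintro y (rfl | rfl)
        · exact heW
        · exact he'W
      · rw [hdim]
        have hne : e' ∉ Submodule.span F {e} := by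
          intro h
          obtain ⟨c, rfl⟩ := Submodule.mem_span_singleton.1 h
          rw [pol_smul_left hQ, hee, mul_zero] at he'e
          exact zero_ne_one he'e
        have : Submodule.span F {e, e'} = Submodule.span F {e} ⊔ Submodule.span F {e'} := by
          rw [Set.insert_eq, Submodule.span_union]
        rw [this, Submodule.finrank_sup_span_singleton hne, finrank_span_singleton he0]
    intro v hv
    rw [← hli] at hv
    obtain ⟨a, b, h⟩ := Submodule.mem_span_pair.1 hv
    exact ⟨a, b, h.symm⟩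
  obtain ⟨z, hz⟩ : ∃ z, z = e + e' := ⟨_, rfl⟩
  have hzW : z ∈ W := hz ▸ W.add_mem heW he'W
  have hQc : ∀ α β : F, Q (α • e + β • e') = α * β := by
    intro α β
    have : Q (α • e + β • e') = Q (α • e) + Q (β • e') + f (α • e) (β • e') := by
      rw [QuadraticMap.polar]; ring
    rw [this, Q_smul' hQ, Q_smul' hQ, hQe, hQe', pol_smul_left hQ, pol_smul_right hQ, hee']
    ring
  have hQz : Q z = 1 := by
    have := hQc 1 1
    rw [one_smul, one_smul, mul_one] at this
    rw [hz, this]
  have hz0 : z ≠ 0 := by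
    rintro rfl
    rw [Q_zero' hQ] at hQz
    exact zero_ne_one hQz
  have hfront : ∀ v ∈ W, Q v = 1 → v ∈ Submodule.span F {z} := by
    intro v hv hv1
    obtain ⟨α, β, rfl⟩ := hspan v hv
    rw [hQc] at hv1
    have hb : β ≠ 0 := by
      rintro rfl
      rw [mul_zero] at hv1
      exact zero_ne_one hv1
    have hβ := sq_eq_one_of_card_le hq hb
    have hab : α = β := by
      calc α = α * (β * β) := by rw [hβ, mul_one]
        _ = (α * β) * β := by ring
        _ = β := by rw [hv1, one_mul]
    rw [hab, ← smul_add, ← hz]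
    exact Submodule.smul_mem _ _ (Submodule.mem_span_singleton_self z)
  -- the intermediate group
  refine ⟨Cfsg.Geo.subspaceStabilizer (Submodule.span F {z}) ⊓ Cfsg.Geo.omegaGL Q, ?_, ?_⟩
  · rw [SetLike.lt_iff_le_and_exists]
    constructor
    · rintro g ⟨hgW, hgΩ⟩
      refine ⟨?_, hgΩ⟩
      apply mem_stab_of_forall
      intro w hw
      obtain ⟨c, rfl⟩ := Submodule.mem_span_singleton.1 hw
      rw [map_smul]
      apply Submodule.smul_mem
      apply hfront
      · exact (mem_stab_iff.1 hgW z).1 hzW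
      · rw [mem_iso.1 (omega_le_iso hgΩ), hQz]
    · -- the witness
      obtain ⟨a, hQa, hae, hae', -, -, -⟩ := solve5 hQ hn e e' 0 0 0 (e' - e)
      have hfea : f e a = 1 := by
        rw [pol_comm', hae, pol_sub_left hQ, hee, he'e, sub_zero]
      have hfe'a : f e' a = -1 := by
        rw [pol_comm', hae', pol_sub_left hQ, he'e', hee', zero_sub]
      have hza : f z a = 0 := by
        rw [hz, pol_add_left hQ, hfea, hfe'a, add_neg_cancel]
      obtain ⟨w, hw, hwB⟩ := exists_perp_not hQ (W ⊔ Submodule.span F {a}) (W ⊔ Submodule.span F {a}) (by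
        have h1 : finrank F ↥(W ⊔ Submodule.span F {a}) ≤ 3 := by
          have h2 := Submodule.finrank_add_le_finrank_add_finrank W (Submodule.span F {a})
          have h3 : finrank F (Submodule.span F {a}) ≤ 1 := finrank_span_le_card _ |>.trans (by simp)
          omega
        omega)
      have haw : f a w = 0 := hw a (Submodule.mem_sup_right (Submodule.mem_span_singleton_self a))
      have hzw : f z w = 0 := hw z (Submodule.mem_sup_left hzW)
      refine ⟨sg hQ a w, ⟨?_, sg_mem_omega hQ hn9 hQa haw⟩, ?_⟩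
      · apply mem_stab_of_forall
        intro y hy
        obtain ⟨c, rfl⟩ := Submodule.mem_span_singleton.1 hy
        rw [map_smul, act_sg_orth hQ hQa haw hza, hzw, zero_smul, sub_zero]
        exact Submodule.smul_mem _ _ (Submodule.mem_span_singleton_self z)
      · rintro ⟨hg, -⟩
        have h1 := (mem_stab_iff.1 hg e).1 heW
        rw [act_sg hQ hQa haw, hfea, one_smul, mul_one] at h1
        apply hwB
        have : w = (e + w - f e w • a - Q w • a) - e + (f e w + Q w) • a := by (module)
        rw [this]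
        apply Submodule.add_mem
        · exact Submodule.mem_sup_left (W.sub_mem h1 heW)
        · exact Submodule.mem_sup_right (Submodule.smul_mem _ _ (Submodule.mem_span_singleton_self a))
  · rw [SetLike.lt_iff_le_and_exists]
    refine ⟨inf_le_right, ?_⟩
    obtain ⟨w, hw, hwW⟩ := exists_perp_not hQ W W (by omega)
    have haw : f e w = 0 := hw e heW
    have hzw : f z w = 0 := hw z hzW
    have hze : f z e = 1 := by rw [hz, pol_add_left hQ, hee, he'e, zero_add]
    refine ⟨sg hQ e w, sg_mem_omega hQ hn9 hQe haw, ?_⟩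
    rintro ⟨hg, -⟩
    have h1 := (mem_stab_iff.1 hg z).1 (Submodule.mem_span_singleton_self z)
    rw [act_sg hQ hQe haw, hze, one_smul, mul_one, hzw, zero_smul, sub_zero] at h1
    apply hwW
    have h2 : z + w - Q w • e ∈ W := by
      obtain ⟨c, hc⟩ := Submodule.mem_span_singleton.1 h1
      rw [← hc]
      exact W.smul_mem _ hzW
    have : w = (z + w - Q w • e) - z + Q w • e := by (module)
    rw [this]
    exact W.add_mem (W.sub_mem h2 hzW) (W.smul_mem _ heW)

end Cfsg.Agent.Lib.Geo
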