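import Mathlib
import Cfsg.Agent.Lib.Geo.OmegaFrame
import Cfsg.Agent.Lib.Geo.OmegaPlane
import Cfsg.Agent.Lib.Geo.OmegaOdd

set_option autoImplicit false

/-! Frames in small non-degenerate quadratic spaces. -/

namespace Cfsg.Agent.Lib.Geo

open scoped MatrixGroups Matrix commutatorElement
open Module

variable {ι : Type} [Fintype ι] [DecidableEq ι] {F : Type*} [Field F] [Fintype F]

local notation "V" => (ι → F)

variable {Q : (ι → F) → F}

local notation "f" => QuadraticMap.polar Q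

theorem exists_aniso_block {W : Submodule F V} (hW0 : W ≠ ⊥)
    (hnd : ∀ w ∈ W, w ≠ 0 → ∃ x ∈ W, f x w ≠ 0) : ∃ u ∈ W, Q u ≠ 0 := by
  by_contra hcon
  push Not at hcon
  obtain ⟨a, ha, ha0⟩ := Submodule.exists_mem_ne_zero_of_ne_bot hW0
  obtain ⟨x, hx, hxa⟩ := hnd a ha ha0
  apply hxa
  rw [QuadraticMap.polar, hcon _ (W.add_mem hx ha), hcon x hx, hcon a ha]
  ring

theorem split_block (hQ : Cfsg.Geo.IsNondegenerateQuadraticForm Q) (h2 : (2 : F) ≠ 0) {W : Submodule F V}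
    (hnd : ∀ w ∈ W, w ≠ 0 → ∃ x ∈ W, f x w ≠ 0) {u : V} (hu : u ∈ W) (hQu : Q u ≠ 0) :
    ∃ W' : Submodule F V, W' ≤ W ∧ finrank F W' + 1 = finrank F W ∧ (∀ y ∈ W', f y u = 0) ∧
      (∀ w ∈ W', w ≠ 0 → ∃ x ∈ W', f x w ≠ 0) ∧ ∀ x ∈ W, ∃ α : F, ∃ y ∈ W', x = α • u + y := by
  have hf := sform_of_quad hQ
  have h2c : 2 * Q u ≠ 0 := mul_ne_zero h2 hQu
  have hu0 : u ≠ 0 := by
    rintro rfl
    exact hQu (Q_zero' hQ)
  obtain ⟨W', hW'⟩ : ∃ W' : Submodule F V, W' = W ⊓ LinearMap.ker (hf.lf u) := ⟨_, rfl⟩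
  have hmem : ∀ y, y ∈ W' ↔ y ∈ W ∧ f y u = 0 := by
    intro y
    rw [hW']
    rfl
  have hdec : ∀ x ∈ W, ∃ α : F, ∃ y ∈ W', x = α • u + y := by
    intro x hx
    refine ⟨f x u / (2 * Q u), x - (f x u / (2 * Q u)) • u, (hmem _).2 ⟨W.sub_mem hx (W.smul_mem _ hu), ?_⟩, by abel⟩
    rw [pol_sub_left hQ, pol_smul_left hQ, polar_self' hQ, div_mul_cancel₀ _ h2c, sub_self]
  have hdis : W' ⊓ Submodule.span F {u} = ⊥ := by
    rw [eq_bot_iff]
    rintro y ⟨hy1, hy2⟩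
    obtain ⟨c, rfl⟩ := Submodule.mem_span_singleton.1 hy2
    have h3 := ((hmem _).1 hy1).2
    rw [pol_smul_left hQ, polar_self' hQ] at h3
    have hc : c = 0 := by
      rcases mul_eq_zero.1 h3 with h | h
      · exact h
      · exact absurd h h2c
    simp [hc]
  have hsup : W' ⊔ Submodule.span F {u} = W := by
    apply le_antisymm
    · apply sup_le
      · intro y hy
        exact ((hmem y).1 hy).1
      · rwa [Submodule.span_singleton_le_iff_mem]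
    · intro x hx
      obtain ⟨α, y, hy, rfl⟩ := hdec x hx
      rw [add_comm]
      exact Submodule.add_mem _ (Submodule.mem_sup_left hy)
        (Submodule.mem_sup_right (Submodule.smul_mem _ _ (Submodule.mem_span_singleton_self u)))
  refine ⟨W', fun y hy => ((hmem y).1 hy).1, ?_, fun y hy => ((hmem y).1 hy).2, ?_, hdec⟩
  · have h3 := Submodule.finrank_sup_add_finrank_inf_eq W' (Submodule.span F {u})
    rw [hsup, hdis, finrank_bot, add_zero, finrank_span_singleton hu0] at h3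
    exact h3.symm
  · intro y hy hy0
    obtain ⟨hy1, hy2⟩ := (hmem y).1 hy
    obtain ⟨x, hx, hxy⟩ := hnd y hy1 hy0
    obtain ⟨α, z, hz, rfl⟩ := hdec x hx
    refine ⟨z, hz, ?_⟩
    rw [pol_add_left hQ, pol_smul_left hQ, pol_comm' u y, hy2, mul_zero, zero_add] at hxy
    exact hxy

/-- Orthogonal bases in dimension two. -/
theorem exists_frame2 (hQ : Cfsg.Geo.IsNondegenerateQuadraticForm Q) (h2 : (2 : F) ≠ 0) {W : Submodule F V}
    (hW : finrank F W = 2) (hnd : ∀ w ∈ W, w ≠ 0 → ∃ x ∈ W, f x w ≠ 0) :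
    ∃ u₁ ∈ W, ∃ u₂ ∈ W, Q u₁ ≠ 0 ∧ Q u₂ ≠ 0 ∧ f u₁ u₂ = 0 ∧ ∀ x ∈ W, ∃ α β : F, x = α • u₁ + β • u₂ := by
  have hbot : ∀ {A : Submodule F V}, finrank F A ≠ 0 → A ≠ ⊥ := by
    rintro A hA rfl
    simp at hA
  obtain ⟨u₁, hu₁, hQ₁⟩ := exists_aniso_block (hbot (by omega)) hnd
  obtain ⟨W₁, h1, h1d, h1u, h1n, h1s⟩ := split_block hQ h2 hnd hu₁ hQ₁
  obtain ⟨u₂, hu₂, hQ₂⟩ := exists_aniso_block (hbot (by omega)) h1n
  obtain ⟨W₂, h2', h2d, h2u, h2n, h2s⟩ := split_block hQ h2 h1n hu₂ hQ₂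
  have hW₂ : W₂ = ⊥ := by
    apply Submodule.finrank_eq_zero.1
    omega
  refine ⟨u₁, hu₁, u₂, h1 hu₂, hQ₁, hQ₂, by rw [pol_comm']; exact h1u _ hu₂, fun x hx => ?_⟩
  obtain ⟨α, y, hy, rfl⟩ := h1s x hx
  obtain ⟨β, z, hz, rfl⟩ := h2s y hy
  rw [hW₂, Submodule.mem_bot] at hz
  exact ⟨α, β, by rw [hz, add_zero]⟩

/-- Orthogonal bases in dimension three. -/
theorem exists_frame3 (hQ : Cfsg.Geo.IsNondegenerateQuadraticForm Q) (h2 : (2 : F) ≠ 0) {W : Submodule F V}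
    (hW : finrank F W = 3) (hnd : ∀ w ∈ W, w ≠ 0 → ∃ x ∈ W, f x w ≠ 0) :
    ∃ u₁ ∈ W, ∃ u₂ ∈ W, ∃ u₃ ∈ W, Q u₁ ≠ 0 ∧ Q u₂ ≠ 0 ∧ Q u₃ ≠ 0 ∧ f u₁ u₂ = 0 ∧ f u₁ u₃ = 0 ∧ f u₂ u₃ = 0 ∧
      ∀ x ∈ W, ∃ α β γ : F, x = α • u₁ + β • u₂ + γ • u₃ := by
  have hbot : ∀ {A : Submodule F V}, finrank F A ≠ 0 → A ≠ ⊥ := by
    rintro A hA rfl
    simp at hA
  obtain ⟨u₁, hu₁, hQ₁⟩ := exists_aniso_block (hbot (by omega)) hnd
  obtain ⟨W₁, h1, h1d, h1u, h1n, h1s⟩ := split_block hQ h2 hnd hu₁ hQ₁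
  obtain ⟨u₂, hu₂, hQ₂, u₃, hu₃, hQ₃, h23, h23s⟩ : ∃ u₂ ∈ W₁, Q u₂ ≠ 0 ∧ ∃ u₃ ∈ W₁, Q u₃ ≠ 0 ∧ f u₂ u₃ = 0 ∧
      ∀ x ∈ W₁, ∃ α β : F, x = α • u₂ + β • u₃ := by
    obtain ⟨a, ha, b, hb, h3, h4, h5, h6⟩ := exists_frame2 hQ h2 (W := W₁) (by omega) h1n
    exact ⟨a, ha, h3, b, hb, h4, h5, h6⟩
  refine ⟨u₁, hu₁, u₂, h1 hu₂, u₃, h1 hu₃, hQ₁, hQ₂, hQ₃, by rw [pol_comm']; exact h1u _ hu₂,
    by rw [pol_comm']; exact h1u _ hu₃, h23, fun x hx => ?_⟩
  obtain ⟨α, y, hy, rfl⟩ := h1s x hx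
  obtain ⟨β, γ, rfl⟩ := h23s y hy
  exact ⟨α, β, γ, by rw [add_assoc]⟩

section F3

variable (hq : Fintype.card F = 3)

include hq

theorem f3_sq {a : F} (ha : a ≠ 0) : a * a = 1 := sq_eq_one_of_card_le (by omega) ha

theorem f3_two : (2 : F) ≠ 0 := two_ne_zero_of_odd_card (by rw [hq]; decide)

theorem f3_three : (3 : F) = 0 := by
  have := f3_sq hq (f3_two hq)
  linear_combination this

theorem f3_pm {a b : F} (ha : a ≠ 0) (hb : b ≠ 0) : b = a ∨ b = -a := by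
  have e1 := f3_sq hq ha
  have e2 := f3_sq hq hb
  have : (b - a) * (b + a) = 0 := by linear_combination e2 - e1
  rcases mul_eq_zero.1 this with h | h
  · exact Or.inl (sub_eq_zero.1 h)
  · exact Or.inr (eq_neg_of_add_eq_zero_left h)

/-- In a three dimensional space over the field with three elements, a frame of the same value. -/
theorem f3_core3 (hQ : Cfsg.Geo.IsNondegenerateQuadraticForm Q) {c : F} (hc : c ≠ 0) {u₁ u₂ u₃ : V}
    (h₁ : Q u₁ = c) (h₂ : Q u₂ = c) (h₃ : Q u₃ = c) (h12 : f u₁ u₂ = 0) (h13 : f u₁ u₃ = 0) (h23 : f u₂ u₃ = 0)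
    {x : V} (α β γ : F) (hx : x = α • u₁ + β • u₂ + γ • u₃) (hQx : Q x = c) : (∃ ε : F, x = ε • u₁) ∨ f x u₁ = 0 := by
  have e1 : Q x = (α * α + β * β + γ * γ) * c := by
    rw [hx, Q_add' (Q := Q), Q_add' (Q := Q), Q_smul' hQ, Q_smul' hQ, Q_smul' hQ, pol_add_left hQ,
      pol_smul_left hQ, pol_smul_left hQ, pol_smul_left hQ, pol_smul_right hQ, pol_smul_right hQ,
      pol_smul_right hQ, h₁, h₂, h₃, h12, h13, h23]
    ring
  have e2 : α * α + β * β + γ * γ = 1 := by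
    have : (α * α + β * β + γ * γ - 1) * c = 0 := by rw [sub_mul, ← e1, hQx]; ring
    rcases mul_eq_zero.1 this with h | h
    · exact sub_eq_zero.1 h
    · exact absurd h hc
  have t0 : ∀ {a : F}, a * a = 0 → a = 0 := fun h => by simpa using h
  by_cases hα : α = 0
  · right
    rw [hx, hα, zero_smul, zero_add, pol_add_left hQ, pol_smul_left hQ, pol_smul_left hQ, pol_comm' u₂ u₁,
      pol_comm' u₃ u₁, h12, h13]
    ring
  · left
    have e3 := f3_sq hq hα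
    refine ⟨α, ?_⟩
    have e4 : β * β + γ * γ = 0 := by linear_combination e2 - e3
    have hβ : β = 0 := by
      by_contra hβ
      have e5 := f3_sq hq hβ
      have e6 : γ * γ = -1 := by linear_combination e4 - e5
      by_cases hγ : γ = 0
      · rw [hγ, mul_zero] at e6
        have : (1 : F) = 0 := by linear_combination e6
        exact one_ne_zero this
      · have e7 := f3_sq hq hγ
        have : (2 : F) = 0 := by linear_combination e6 - e7
        exact f3_two hq this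
    have hγ : γ = 0 := by
      rw [hβ, mul_zero, zero_add] at e4
      exact t0 e4
    rw [hx, hβ, hγ]
    simp

/-- The frame in dimension three. -/
theorem block3_f3 (hQ : Cfsg.Geo.IsNondegenerateQuadraticForm Q) {W : Submodule F V} (hW : finrank F W = 3)
    (hnd : ∀ w ∈ W, w ≠ 0 → ∃ x ∈ W, f x w ≠ 0) :
    ∃ c : F, c ≠ 0 ∧ ∃ b ∈ W, Q b = c ∧ ∀ x ∈ W, Q x = c → (∃ ε : F, x = ε • b) ∨ f x b = 0 := by
  have h2 := f3_two hq
  have h3 := f3_three hq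
  obtain ⟨u₁, hu₁, u₂, hu₂, u₃, hu₃, hQ₁, hQ₂, hQ₃, h12, h13, h23, hs⟩ := exists_frame3 hQ h2 hW hnd
  -- all values equal
  have good : ∀ {a b d : V} {c : F}, c ≠ 0 → a ∈ W → b ∈ W → d ∈ W → Q a = c → Q b = c → Q d = c → f a b = 0 → f a d = 0 →
      f b d = 0 → (∀ x ∈ W, ∃ α β γ : F, x = α • a + β • b + γ • d) →
      ∃ c : F, c ≠ 0 ∧ ∃ b ∈ W, Q b = c ∧ ∀ x ∈ W, Q x = c → (∃ ε : F, x = ε • b) ∨ f x b = 0 := by
    intro a b d c hc ha hb hd qa qb qd oab oad obd hspan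
    refine ⟨c, hc, a, ha, qa, fun x hx hQx => ?_⟩
    obtain ⟨α, β, γ, hxx⟩ := hspan x hx
    exact f3_core3 hq hQ hc qa qb qd oab oad obd α β γ hxx hQx
  -- the change of frame
  have swap : ∀ {a b d : V} {e : F}, e ≠ 0 → a ∈ W → b ∈ W → d ∈ W → Q a = e → Q b = e → Q d = -e → f a b = 0 → f a d = 0 →
      f b d = 0 → (∀ x ∈ W, ∃ α β γ : F, x = α • a + β • b + γ • d) →
      ∃ c : F, c ≠ 0 ∧ ∃ b ∈ W, Q b = c ∧ ∀ x ∈ W, Q x = c → (∃ ε : F, x = ε • b) ∨ f x b = 0 := by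
    intro a b d e he ha hb hd qa qb qd oab oad obd hspan
    have hne : -e ≠ 0 := neg_ne_zero.2 he
    have q1 : Q (a + b) = -e := by
      rw [Q_add' (Q := Q), qa, qb, oab]
      linear_combination e * h3
    have q2 : Q (a - b) = -e := by
      rw [Q_sub_eq hQ, qa, qb, oab]
      linear_combination e * h3
    have oba : f b a = 0 := by rw [pol_comm', oab]
    apply good hne (W.add_mem ha hb) (W.sub_mem ha hb) hd q1 q2 qd
    · rw [pol_sub_right hQ, pol_add_left hQ, pol_add_left hQ, polar_self' hQ, polar_self' hQ, oab, oba, qa, qb]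
      ring
    · rw [pol_add_left hQ, oad, obd, add_zero]
    · rw [pol_sub_left hQ, oad, obd, sub_zero]
    · intro x hx
      obtain ⟨α, β, γ, rfl⟩ := hspan x hx
      refine ⟨2 * (α + β), 2 * (α - β), γ, ?_⟩
      have e4 : (α : F) = 2 * (α + β) + 2 * (α - β) := by linear_combination (-α) * h3
      have e5 : (β : F) = 2 * (α + β) - 2 * (α - β) := by linear_combination (-β) * h3
      have : α • a + β • b = (2 * (α + β)) • (a + b) + (2 * (α - β)) • (a - b) := by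
        conv_lhs => rw [e4]
        conv_lhs =>
          arg 2
          rw [e5]
        (module)
      rw [this]
  obtain ⟨c₁, hc₁⟩ : ∃ c₁, c₁ = Q u₁ := ⟨_, rfl⟩
  have hc₁0 : c₁ ≠ 0 := by rw [hc₁]; exact hQ₁
  have o21 : f u₂ u₁ = 0 := by rw [pol_comm', h12]
  have o31 : f u₃ u₁ = 0 := by rw [pol_comm', h13]
  have o32 : f u₃ u₂ = 0 := by rw [pol_comm', h23]
  rcases f3_pm hq hc₁0 hQ₂ with e2 | e2 <;> rcases f3_pm hq hc₁0 hQ₃ with e3 | e3
  · exact good hc₁0 hu₁ hu₂ hu₃ hc₁.symm e2 e3 h12 h13 h23 hs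
  · exact swap hc₁0 hu₁ hu₂ hu₃ hc₁.symm e2 e3 h12 h13 h23 hs
  · refine swap hc₁0 hu₁ hu₃ hu₂ hc₁.symm e3 e2 h13 h12 o32 fun x hx => ?_
    obtain ⟨α, β, γ, rfl⟩ := hs x hx
    exact ⟨α, γ, β, by abel⟩
  · refine swap (neg_ne_zero.2 hc₁0) hu₂ hu₃ hu₁ e2 e3 (by rw [← hc₁, neg_neg]) h23 o21 o31 fun x hx => ?_
    obtain ⟨α, β, γ, rfl⟩ := hs x hx
    exact ⟨β, γ, α, by abel⟩

/-- The frame in dimension two. -/
theorem block2_f3 (hQ : Cfsg.Geo.IsNondegenerateQuadraticForm Q) {W : Submodule F V} (hW : finrank F W = 2)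
    (hnd : ∀ w ∈ W, w ≠ 0 → ∃ x ∈ W, f x w ≠ 0) :
    ∃ (S : Set F) (c : F), c ≠ 0 ∧ c ∈ S ∧ ∃ b ∈ W, Q b = c ∧ ∀ x ∈ W, Q x ∈ S → (∃ ε : F, x = ε • b) ∨ f x b = 0 := by
  have h2 := f3_two hq
  obtain ⟨u₁, hu₁, u₂, hu₂, hQ₁, hQ₂, h12, hs⟩ := exists_frame2 hQ h2 hW hnd
  obtain ⟨c, hc⟩ : ∃ c, c = Q u₁ := ⟨_, rfl⟩
  have hc0 : c ≠ 0 := by rw [hc]; exact hQ₁
  have o21 : f u₂ u₁ = 0 := by rw [pol_comm', h12]
  have hx0 : ∀ {x : V} {α β : F}, x = α • u₁ + β • u₂ → α = 0 → f x u₁ = 0 := by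
    intro x α β hx hα
    rw [hx, hα, zero_smul, zero_add, pol_smul_left hQ, o21, mul_zero]
  rcases f3_pm hq hc0 hQ₂ with e2 | e2
  · refine ⟨{c}, c, hc0, rfl, u₁, hu₁, hc.symm, fun x hx hxS => ?_⟩
    obtain ⟨α, β, hxx⟩ := hs x hx
    have e1 : Q x = (α * α + β * β) * c := by
      rw [hxx, Q_add' (Q := Q), Q_smul' hQ, Q_smul' hQ, pol_smul_left hQ, pol_smul_right hQ, ← hc, e2, h12]
      ring
    by_cases hα : α = 0
    · exact Or.inr (hx0 hxx hα)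
    · left
      have e3 := f3_sq hq hα
      have e4 : (α * α + β * β - 1) * c = 0 := by rw [sub_mul, ← e1, Set.mem_singleton_iff.1 hxS]; ring
      have e5 : α * α + β * β - 1 = 0 := (mul_eq_zero.1 e4).resolve_right hc0
      have e6 : β * β = 0 := by linear_combination e5 - e3
      have hβ : β = 0 := by simpa using e6
      exact ⟨α, by rw [hxx, hβ]; simp⟩
  · refine ⟨{c, -c}, c, hc0, Or.inl rfl, u₁, hu₁, hc.symm, fun x hx hxS => ?_⟩
    obtain ⟨α, β, hxx⟩ := hs x hx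
    have e1 : Q x = (α * α - β * β) * c := by
      rw [hxx, Q_add' (Q := Q), Q_smul' hQ, Q_smul' hQ, pol_smul_left hQ, pol_smul_right hQ, ← hc, e2, h12]
      ring
    by_cases hα : α = 0
    · exact Or.inr (hx0 hxx hα)
    · left
      have e3 := f3_sq hq hα
      have hβ : β = 0 := by
        by_contra hβ
        have e4 := f3_sq hq hβ
        have e5 : Q x = 0 := by rw [e1, e3, e4]; ring
        rcases hxS with h | h
        · rw [e5] at h
          exact hc0 h.symm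
        · rw [e5] at h
          exact hc0 (neg_eq_zero.1 (Set.mem_singleton_iff.1 h).symm)
      exact ⟨α, by rw [hxx, hβ]; simp⟩

end F3

/-- A hyperbolic basis of a hyperbolic plane. -/
theorem exists_hyp_basis (hQ : Cfsg.Geo.IsNondegenerateQuadraticForm Q) {W : Submodule F V} (hdim : finrank F W = 2)
    (hW : ∀ w ∈ W, w ≠ 0 → ∃ x ∈ W, f x w ≠ 0) (hWp : Cfsg.Geo.IsPlusTypeOn Q W) :
    ∃ e ∈ W, ∃ e' ∈ W, Q e = 0 ∧ Q e' = 0 ∧ f e e' = 1 ∧ ∀ v ∈ W, ∃ α β : F, v = α • e + β • e' := by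
  obtain ⟨U, hUW, hU, hU2⟩ := hWp
  have hU1 : finrank F U = 1 := by omega
  have hUb : U ≠ ⊥ := by
    rintro rfl
    simp at hU1
  obtain ⟨e, heU, he0⟩ := Submodule.exists_mem_ne_zero_of_ne_bot hUb
  have heW := hUW heU
  have hQe : Q e = 0 := hU e heU
  obtain ⟨x, hxW, hxe⟩ := hW e heW he0
  obtain ⟨x', hx'⟩ : ∃ x', x' = (f x e)⁻¹ • x := ⟨_, rfl⟩
  have hx'W : x' ∈ W := hx' ▸ W.smul_mem _ hxW
  have hx'e : f x' e = 1 := by
    rw [hx', pol_smul_left hQ, inv_mul_cancel₀ hxe]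
  obtain ⟨e', he'⟩ : ∃ e', e' = x' - Q x' • e := ⟨_, rfl⟩
  have he'W : e' ∈ W := he' ▸ W.sub_mem hx'W (W.smul_mem _ heW)
  have hee : f e e = 0 := pol_self_of hQ hQe
  have he'e : f e' e = 1 := by
    rw [he', pol_sub_left hQ, pol_smul_left hQ, hx'e, hee, mul_zero, sub_zero]
  have hee' : f e e' = 1 := by rw [pol_comm', he'e]
  have hQe' : Q e' = 0 := by
    have : Q (x' + (- Q x') • e) = Q x' + Q ((- Q x') • e) + f x' ((- Q x') • e) := by
      rw [QuadraticMap.polar]; ring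
    rw [he', sub_eq_add_neg, ← neg_smul, this, Q_smul' hQ, hQe, pol_smul_right hQ, hx'e]
    ring
  refine ⟨e, heW, e', he'W, hQe, hQe', hee', ?_⟩
  have hli : Submodule.span F {e, e'} = W := by
    apply Submodule.eq_of_le_of_finrank_eq
    · rw [Submodule.span_le]
      rintro y (rfl | rfl)
      · exact heW
      · exact he'W
    · rw [hdim]
      have hne : e' ∉ Submodule.span F {e} := by
        intro h
        obtain ⟨c, rfl⟩ := Submodule.mem_span_singleton.1 h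
        rw [pol_smul_left hQ, hee, mul_zero] at he'e
        exact zero_ne_one he'e
      have : Submodule.span F {e, e'} = Submodule.span F {e} ⊔ Submodule.span F {e'} := by
        rw [Set.insert_eq, Submodule.span_union]
      rw [this, Submodule.finrank_sup_span_singleton hne, finrank_span_singleton he0]
  intro v hv
  rw [← hli] at hv
  obtain ⟨a, b, h⟩ := Submodule.mem_span_pair.1 hv
  exact ⟨a, b, h.symm⟩

/-- The frame in a hyperbolic plane over the field with five elements. -/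
theorem block2_f5 (hq : Fintype.card F = 5) (hQ : Cfsg.Geo.IsNondegenerateQuadraticForm Q) {W : Submodule F V}
    (hW : finrank F W = 2) (hnd : ∀ w ∈ W, w ≠ 0 → ∃ x ∈ W, f x w ≠ 0) (hp : Cfsg.Geo.IsPlusTypeOn Q W) :
    ∃ (S : Set F) (c : F), c ≠ 0 ∧ c ∈ S ∧ ∃ b ∈ W, Q b = c ∧ ∀ x ∈ W, Q x ∈ S → (∃ ε : F, x = ε • b) ∨ f x b = 0 := by
  obtain ⟨e, he, e', he', hQe, hQe', hee', hs⟩ := exists_hyp_basis hQ hW hnd hp
  have h4 : ∀ {a : F}, a ≠ 0 → a * a * (a * a) = 1 := by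
    intro a ha
    have h1 : a ^ (Fintype.card F - 1) = 1 := FiniteField.pow_card_sub_one_eq_one a ha
    rw [hq] at h1
    linear_combination h1
  refine ⟨{1, -1}, 1, one_ne_zero, Or.inl rfl, e + e', W.add_mem he he', ?_, fun x hx hxS => ?_⟩
  · rw [Q_add' (Q := Q), hQe, hQe', hee']
    ring
  obtain ⟨α, β, rfl⟩ := hs x hx
  have e1 : Q (α • e + β • e') = α * β := by
    rw [Q_add' (Q := Q), Q_smul' hQ, Q_smul' hQ, pol_smul_left hQ, pol_smul_right hQ, hQe, hQe', hee']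
    ring
  rw [e1] at hxS
  have e2 : (α * β) * (α * β) = 1 := by
    rcases hxS with h | h
    · rw [h, one_mul]
    · rw [Set.mem_singleton_iff.1 h]; ring
  have hβ : β ≠ 0 := by
    rintro rfl
    rw [mul_zero, mul_zero] at e2
    exact zero_ne_one e2
  have e3 : α * α = β * β := by
    have e4 := h4 hβ
    calc α * α = α * α * (β * β * (β * β)) := by rw [e4, mul_one]
      _ = ((α * β) * (α * β)) * (β * β) := by ring
      _ = β * β := by rw [e2, one_mul]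
  have e5 : (α - β) * (α + β) = 0 := by linear_combination e3
  rcases mul_eq_zero.1 e5 with h | h
  · left
    have : α = β := sub_eq_zero.1 h
    exact ⟨α, by rw [smul_add, this]⟩
  · right
    have e6 : f e' e = 1 := by rw [pol_comm', hee']
    rw [pol_add_left hQ, pol_smul_left hQ, pol_smul_left hQ, pol_add_right hQ, pol_add_right hQ, hee', e6,
      pol_self_of hQ hQe, pol_self_of hQ hQe']
    linear_combination h

end Cfsg.Agent.Lib.Geo
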