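import Mathlib
import Cfsg.Agent.Lib.Geo.HermBridge
import Cfsg.Agent.Lib.Geo.SympBlocks2

set_option autoImplicit false

/-! The stabilizer in `SU_n(2)` of a decomposition into non-degenerate planes is not maximal:
it stabilizes the frame of non-isotropic lines in the planes. -/

namespace Cfsg.Agent.Lib.Geo

open scoped MatrixGroups Matrix
open Module

variable {ι : Type} [Fintype ι] [DecidableEq ι] {F : Type*} [Field F] [Fintype F]
  {σ : F →+* F} {f : (ι → F) → (ι → F) → F}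

local notation "V" => (ι → F)

section
variable (hF : Fintype.card F = 4) (hσ2 : ∀ x, σ x = x ^ 2)

include hF in
theorem f4_cube {c : F} (hc : c ≠ 0) : c ^ 3 = 1 := by
  have h1 : c ^ (Fintype.card F - 1) = 1 := FiniteField.pow_card_sub_one_eq_one c hc
  rwa [hF] at h1

include hF in
theorem f4_two : (1 : F) + 1 = 0 := by
  have h1 := f4_cube hF (neg_ne_zero.2 (one_ne_zero (α := F)))
  have h2 : (-1 : F) ^ 3 = -1 := by ring
  rw [h2] at h1
  linear_combination -h1

include hF in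
theorem f4_exists_ne : ∃ t : F, t ≠ 0 ∧ t ≠ 1 := by
  classical
  by_contra hcon
  push Not at hcon
  have : (Finset.univ : Finset F) ⊆ {0, 1} := by
    intro x _
    by_cases hx : x = 0
    · simp [hx]
    · simp [hcon x hx]
  have h2 := Finset.card_le_card this
  rw [Finset.card_univ, hF] at h2
  have h3 : ({0, 1} : Finset F).card ≤ 2 := Finset.card_le_two
  omega

include hF hσ2 in
theorem f4_mul_conj {c : F} (hc : c ≠ 0) : c * σ c = 1 := by
  rw [hσ2]
  have := f4_cube hF hc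
  linear_combination this

include hσ2 in
theorem f4_self (hf : SForm σ f) (x : V) : f x x = 0 ∨ f x x = 1 := by
  have h1 : f x x = σ (f x x) := hf.herm _ _
  rw [hσ2] at h1
  have h2 : f x x * (f x x - 1) = 0 := by linear_combination -h1
  rcases mul_eq_zero.1 h2 with h | h
  · exact Or.inl h
  · exact Or.inr (sub_eq_zero.1 h)

include hF hσ2 in
theorem f4_exists_aniso (hf : SForm σ f) {W : Submodule F V} (hW0 : W ≠ ⊥)
    (hnd : ∀ w ∈ W, w ≠ 0 → ∃ x ∈ W, f x w ≠ 0) : ∃ u ∈ W, f u u ≠ 0 := by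
  obtain ⟨a, ha, ha0⟩ := Submodule.exists_mem_ne_zero_of_ne_bot hW0
  by_cases haa : f a a ≠ 0
  · exact ⟨a, ha, haa⟩
  push Not at haa
  obtain ⟨b, hb, hba⟩ := hnd a ha ha0
  by_cases hbb : f b b ≠ 0
  · exact ⟨b, hb, hbb⟩
  push Not at hbb
  obtain ⟨t, ht0, ht1⟩ := f4_exists_ne hF
  refine ⟨b + σ (t * (f b a)⁻¹) • a, W.add_mem hb (W.smul_mem _ ha), ?_⟩
  obtain ⟨c, hc⟩ : ∃ c, c = σ (t * (f b a)⁻¹) := ⟨_, rfl⟩
  rw [← hc]
  have hσc : σ c = t * (f b a)⁻¹ := by rw [hc, hf.inv]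
  have hab : f a b = σ (f b a) := hf.herm _ _
  simp only [hf.add_left, hf.add_right, hf.smul_left, hf.smul_right, hbb, haa, mul_zero, add_zero, zero_add]
  rw [hσc, hab, inv_mul_cancel_right₀ hba]
  have h3 : c * σ (f b a) = σ t := by
    rw [hc, map_mul, map_inv₀, mul_assoc, inv_mul_cancel₀, mul_one]
    intro h
    exact hba ((map_eq_zero σ).1 h)
  rw [h3, hσ2]
  intro h
  have h4 : t * (t - 1) = 0 := by
    have h5 := f4_two hF
    linear_combination h - t * h5
  rcases mul_eq_zero.1 h4 with h6 | h6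
  · exact ht0 h6
  · exact ht1 (sub_eq_zero.1 h6)

include hF hσ2 in
/-- A non-degenerate plane has an orthonormal basis. -/
theorem f4_exists_frame (hf : SForm σ f) {W : Submodule F V} (hW : finrank F W = 2)
    (hnd : ∀ w ∈ W, w ≠ 0 → ∃ x ∈ W, f x w ≠ 0) :
    ∃ u ∈ W, ∃ v ∈ W, f u u = 1 ∧ f v v = 1 ∧ f u v = 0 ∧ f v u = 0 ∧ ∀ x ∈ W, ∃ α β : F, x = α • u + β • v := by
  have hW0 : W ≠ ⊥ := by
    rintro rfl
    simp at hW
  obtain ⟨u, hu, huu⟩ := f4_exists_aniso hF hσ2 hf hW0 hnd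
  have huu1 : f u u = 1 := (f4_self hσ2 hf u).resolve_left huu
  have hu0 : u ≠ 0 := by
    rintro rfl
    exact huu (hf.zero_left _)
  have hlt : Submodule.span F {u} < W := by
    refine lt_of_le_of_ne ((Submodule.span_singleton_le_iff_mem _ _).2 hu) ?_
    intro h
    rw [← h, finrank_span_singleton hu0] at hW
    omega
  obtain ⟨w, hw, hwu⟩ := SetLike.exists_of_lt hlt
  obtain ⟨v, hv⟩ : ∃ v, v = w - f w u • u := ⟨_, rfl⟩
  have hvW : v ∈ W := hv ▸ W.sub_mem hw (W.smul_mem _ hu)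
  have hvu : f v u = 0 := by
    rw [hv, hf.sub_left, hf.smul_left, huu1, mul_one, sub_self]
  have huv : f u v = 0 := by
    have : f u v = σ (f v u) := hf.herm _ _
    rw [this, hvu, map_zero]
  have hv0 : v ≠ 0 := by
    intro h
    apply hwu
    have : w = f w u • u := by
      rw [h] at hv
      exact sub_eq_zero.1 hv.symm
    rw [this]
    exact Submodule.smul_mem _ _ (Submodule.mem_span_singleton_self u)
  have hvn : v ∉ Submodule.span F {u} := by
    intro h
    obtain ⟨c, rfl⟩ := Submodule.mem_span_singleton.1 h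
    rw [hf.smul_left, huu1, mul_one] at hvu
    subst hvu
    simp at hv0
  have hspan : Submodule.span F {u} ⊔ Submodule.span F {v} = W := by
    apply Submodule.eq_of_le_of_finrank_eq
    · apply sup_le
      · rwa [Submodule.span_singleton_le_iff_mem]
      · rwa [Submodule.span_singleton_le_iff_mem]
    · rw [hW, Submodule.finrank_sup_span_singleton hvn, finrank_span_singleton hu0]
  have hdec : ∀ x ∈ W, ∃ α β : F, x = α • u + β • v := by
    intro x hx
    rw [← hspan] at hx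
    obtain ⟨y, hy, z, hz, rfl⟩ := Submodule.mem_sup.1 hx
    obtain ⟨c, rfl⟩ := Submodule.mem_span_singleton.1 hy
    obtain ⟨d, rfl⟩ := Submodule.mem_span_singleton.1 hz
    exact ⟨c, d, rfl⟩
  have hvv : f v v ≠ 0 := by
    intro h0
    obtain ⟨x, hx, hxv⟩ := hnd v hvW hv0
    obtain ⟨α, β, rfl⟩ := hdec x hx
    apply hxv
    rw [hf.add_left, hf.smul_left, hf.smul_left, huv, h0]
    ring
  exact ⟨u, hu, v, hvW, huu1, (f4_self hσ2 hf v).resolve_left hvv, huv, hvu, hdec⟩

end

variable {t : ℕ} {D : Fin t → Submodule F (ι → F)}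

theorem two_smul_aux (c : F) (y : V) : c • y + c • y = (c + c) • y := (add_smul c c y).symm

theorem su2_blocks_not_max (hF : Fintype.card F = 4) (hσ2 : ∀ x, σ x = x ^ 2) (hf : SForm σ f)
    (hn : 13 ≤ Fintype.card ι) (hD : Cfsg.Geo.IsNondegenerateMDecomposition f 2 D) :
    ∃ K : Subgroup (GL ι F), Cfsg.Geo.decompositionStabilizer D ⊓ (uGroup f ⊓ Cfsg.Geo.specialLinear ι F) < K ∧
      K < (uGroup f ⊓ Cfsg.Geo.specialLinear ι F) := by
  classical
  have h2 := f4_two hF
  have h2v : ∀ y : V, y + y = 0 := by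
    intro y
    have : y + y = ((1 : F) + 1) • y := by rw [add_smul, one_smul]
    rw [this, h2, zero_smul]
  have h2c : ∀ y : F, y + y = 0 := by
    intro y
    have : y + y = ((1 : F) + 1) * y := by ring
    rw [this, h2, zero_mul]
  have hσ1 : (1 : F) + σ 1 = 0 := by rw [map_one, h2]
  obtain ⟨π, h1', h2', h3', h4'⟩ := exists_proj hD.decomp.indep hD.decomp.iSup_eq_top
  have hcard := card_eq_of_decomp hD.decomp.indep hD.decomp.iSup_eq_top hD.decomp.finrank_eq
  have ht4 : 4 ≤ t := by omega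
  -- the frame
  have hframe : ∀ l, ∃ u ∈ D l, ∃ v ∈ D l, f u u = 1 ∧ f v v = 1 ∧ f u v = 0 ∧ f v u = 0 ∧
      ∀ x ∈ D l, ∃ α β : F, x = α • u + β • v := fun l =>
    f4_exists_frame hF hσ2 hf (hD.decomp.finrank_eq l) (fun w hw h0 => (hD.nondegenerate l w hw h0).1)
  choose u hu v hv huu hvv huv hvu hdec using hframe
  -- the set
  let X : Set V := {x | (∃ l, x ∈ D l) ∧ f x x ≠ 0}
  have hXmem : ∀ x, x ∈ X ↔ (∃ l, x ∈ D l) ∧ f x x ≠ 0 := fun x => Iff.rfl
  have hne0 : ∀ {x : V}, f x x = 1 → x ≠ 0 := by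
    rintro x hx rfl
    rw [hf.zero_left] at hx
    exact zero_ne_one hx
  have hu0 : ∀ l, u l ≠ 0 := fun l => hne0 (huu l)
  have hv0 : ∀ l, v l ≠ 0 := fun l => hne0 (hvv l)
  have huniq : ∀ {i j : Fin t} {y : V}, y ∈ D i → y ∈ D j → y ≠ 0 → i = j := by
    intro i j y hi hj h0
    by_contra hij
    apply h0
    rw [← h2' i y hi]
    exact h3' i j hij y hj
  have horth : ∀ {i j : Fin t} {x y : V}, i ≠ j → x ∈ D i → y ∈ D j → f x y = 0 :=
    fun {i j x y} hij hx hy => hD.orthogonal i j hij x hx y hy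
  -- elements of the frame
  have hXdec : ∀ {l x}, x ∈ D l → f x x ≠ 0 → (∃ α : F, α ≠ 0 ∧ x = α • u l) ∨ (∃ β : F, β ≠ 0 ∧ x = β • v l) := by
    intro l x hx hxx
    obtain ⟨α, β, rfl⟩ := hdec l x hx
    by_cases hα : α = 0
    · subst hα
      by_cases hβ : β = 0
      · subst hβ
        simp [hf.zero_left] at hxx
      · exact Or.inr ⟨β, hβ, by simp⟩
    · by_cases hβ : β = 0
      · subst hβ
        exact Or.inl ⟨α, hα, by simp⟩
      · exfalso
        apply hxx
        simp only [hf.add_left, hf.add_right, hf.smul_left, hf.smul_right, huu, hvv, huv, hvu]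
        have e1 := f4_mul_conj hF hσ2 hα
        have e2 := f4_mul_conj hF hσ2 hβ
        linear_combination e1 + e2 + h2 - e1 * 0
  have hsm : ∀ (α : F) (y : V), f y y = 1 → α ≠ 0 → f (α • y) (α • y) ≠ 0 := by
    intro α y hy hα
    rw [hf.smul_left, hf.smul_right, hy, mul_one, f4_mul_conj hF hσ2 hα]
    exact one_ne_zero
  -- the group
  let K : Subgroup (GL ι F) :=
    { carrier := {g | g ∈ uGroup f ⊓ Cfsg.Geo.specialLinear ι F ∧ ∀ x, x ∈ X ↔ act g x ∈ X}
      mul_mem' := by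
        rintro a b ⟨ha, ha'⟩ ⟨hb, hb'⟩
        refine ⟨mul_mem ha hb, fun x => ?_⟩
        rw [act_mul_apply, ← ha', ← hb']
      one_mem' := by
        refine ⟨one_mem _, fun x => ?_⟩
        simp
      inv_mem' := by
        rintro a ⟨ha, ha'⟩
        refine ⟨inv_mem ha, fun x => ?_⟩
        have := ha' (act a⁻¹ x)
        rw [← act_mul_apply, mul_inv_cancel] at this
        simpa using this.symm }
  have hKmem : ∀ g, g ∈ K ↔ g ∈ uGroup f ⊓ Cfsg.Geo.specialLinear ι F ∧ ∀ x, x ∈ X ↔ act g x ∈ X := fun g => Iff.rfl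
  let l₁ : Fin t := ⟨0, by omega⟩
  let l₂ : Fin t := ⟨1, by omega⟩
  let l₃ : Fin t := ⟨2, by omega⟩
  let l₄ : Fin t := ⟨3, by omega⟩
  have h12 : l₁ ≠ l₂ := by simp [l₁, l₂, Fin.ext_iff]
  have h13 : l₁ ≠ l₃ := by simp [l₁, l₃, Fin.ext_iff]
  have h14 : l₁ ≠ l₄ := by simp [l₁, l₄, Fin.ext_iff]
  have h23 : l₂ ≠ l₃ := by simp [l₂, l₃, Fin.ext_iff]
  have h24 : l₂ ≠ l₄ := by simp [l₂, l₄, Fin.ext_iff]
  have h34 : l₃ ≠ l₄ := by simp [l₃, l₄, Fin.ext_iff]
  have ouu : ∀ {i j}, i ≠ j → f (u i) (u j) = 0 := fun hij => horth hij (hu _) (hu _)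
  have ovu : ∀ {i j}, i ≠ j → f (v i) (u j) = 0 := fun hij => horth hij (hv _) (hu _)
  refine ⟨K, ?_, ?_⟩
  · rw [SetLike.lt_iff_le_and_exists]
    constructor
    · have hfwd : ∀ g ∈ Cfsg.Geo.decompositionStabilizer D ⊓ (uGroup f ⊓ Cfsg.Geo.specialLinear ι F),
          ∀ x ∈ X, act g x ∈ X := by
        rintro g ⟨hg1, hg2⟩ x ⟨⟨l, hl⟩, hxx⟩
        obtain ⟨σ', hσ'⟩ := act_mem_of_stabD hg1
        refine ⟨⟨σ' l, hσ' l x hl⟩, ?_⟩
        rw [mem_uGroup.1 hg2.1]
        exact hxx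
      intro g hg
      rw [hKmem]
      refine ⟨hg.2, fun x => ⟨hfwd g hg x, fun h => ?_⟩⟩
      have := hfwd g⁻¹ (inv_mem hg) _ h
      rw [← act_mul_apply, inv_mul_cancel] at this
      simpa using this
    · have haa : f (u l₁ + u l₂) (u l₁ + u l₂) = 0 := by
        simp only [hf.add_left, hf.add_right, huu, ouu h12, ouu h12.symm]
        simp [h2]
      have hact : ∀ x, act (ut hf haa 1) x = x + f x (u l₁ + u l₂) • (u l₁ + u l₂) := by
        intro x
        rw [act_ut, one_mul]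
      have hs1 : act (ut hf haa 1) (u l₁) = u l₂ := by
        rw [hact, hf.add_right, huu, ouu h12, add_zero, one_smul, ← add_assoc, h2v, zero_add]
      have hs2 : act (ut hf haa 1) (v l₁) = v l₁ := by
        rw [hact, hf.add_right, hvu, ovu h12, add_zero, zero_smul, add_zero]
      have hinv : ∀ x, act (ut hf haa 1) (act (ut hf haa 1) x) = x := by
        intro x
        rw [hact, hact, hf.add_left, hf.smul_left, haa, mul_zero, add_zero]
        rw [add_assoc, two_smul_aux (f x (u l₁ + u l₂)) (u l₁ + u l₂), h2c, zero_smul, add_zero]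
      have hfwd : ∀ x ∈ X, act (ut hf haa 1) x ∈ X := by
        rintro x ⟨⟨l, hl⟩, hxx⟩
        by_cases e1 : l = l₁
        · subst e1
          rcases hXdec hl hxx with ⟨α, hα, rfl⟩ | ⟨β, hβ, rfl⟩
          · have : act (ut hf haa 1) (α • u l₁) = α • u l₂ := by rw [map_smul, hs1]
            rw [this]
            exact ⟨⟨l₂, Submodule.smul_mem _ _ (hu _)⟩, hsm _ _ (huu _) hα⟩
          · have : act (ut hf haa 1) (β • v l₁) = β • v l₁ := by rw [map_smul, hs2]
            rw [this]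
            exact ⟨⟨l₁, hl⟩, hxx⟩
        by_cases e2 : l = l₂
        · subst e2
          rcases hXdec hl hxx with ⟨α, hα, rfl⟩ | ⟨β, hβ, rfl⟩
          · have : act (ut hf haa 1) (α • u l₂) = α • u l₁ := by
              rw [map_smul]
              congr 1
              have := hinv (u l₁)
              rwa [hs1] at this
            rw [this]
            exact ⟨⟨l₁, Submodule.smul_mem _ _ (hu _)⟩, hsm _ _ (huu _) hα⟩
          · have : act (ut hf haa 1) (β • v l₂) = β • v l₂ := by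
              rw [hact, hf.add_right, hf.smul_left, hf.smul_left, hvu, ovu h12.symm]
              simp
            rw [this]
            exact ⟨⟨l₂, hl⟩, hxx⟩
        · have : act (ut hf haa 1) x = x := by
            rw [hact, hf.add_right, horth e1 hl (hu _), horth e2 hl (hu _), add_zero, zero_smul, add_zero]
          rw [this]
          exact ⟨⟨l, hl⟩, hxx⟩
      refine ⟨ut hf haa 1, (hKmem _).2 ⟨ut_mem_SU hf haa hσ1, fun x => ⟨hfwd x, fun h => ?_⟩⟩, ?_⟩
      · have := hfwd _ h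
        rwa [hinv] at this
      · rintro ⟨hg, -⟩
        obtain ⟨σ', hσ'⟩ := act_mem_of_stabD hg
        have e1 := hσ' l₁ _ (hu l₁)
        rw [hs1] at e1
        have e2 := hσ' l₁ _ (hv l₁)
        rw [hs2] at e2
        have e3 := huniq e1 (hu l₂) (hu0 _)
        have e4 := huniq e2 (hv l₁) (hv0 _)
        exact h12 (e4.symm.trans e3)
  · rw [SetLike.lt_iff_le_and_exists]
    refine ⟨fun g hg => hg.1, ?_⟩
    have hbb : f (u l₁ + u l₂ + u l₃ + u l₄) (u l₁ + u l₂ + u l₃ + u l₄) = 0 := by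
      simp only [hf.add_left, hf.add_right, huu, ouu h12, ouu h12.symm, ouu h13, ouu h13.symm, ouu h14, ouu h14.symm,
        ouu h23, ouu h23.symm, ouu h24, ouu h24.symm, ouu h34, ouu h34.symm]
      simp only [add_zero, zero_add]
      linear_combination (1 + 1 : F) * h2
    refine ⟨ut hf hbb 1, ut_mem_SU hf hbb hσ1, ?_⟩
    intro hg
    have h1 := (((hKmem _).1 hg).2 (u l₁)).1 ⟨⟨l₁, hu _⟩, by rw [huu]; exact one_ne_zero⟩
    have h3 : act (ut hf hbb 1) (u l₁) = u l₂ + u l₃ + u l₄ := by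
      rw [act_ut, one_mul]
      simp only [hf.add_right, huu, ouu h12, ouu h13, ouu h14, add_zero, one_smul]
      rw [← add_assoc, ← add_assoc, ← add_assoc, h2v, zero_add]
    rw [h3] at h1
    obtain ⟨⟨j, hj⟩, -⟩ := h1
    have e2 : π l₂ (u l₂ + u l₃ + u l₄) = u l₂ := by
      simp only [map_add]
      rw [h2' l₂ _ (hu _), h3' l₂ l₃ h23 _ (hu _), h3' l₂ l₄ h24 _ (hu _)]
      simp
    have e3 : π l₃ (u l₂ + u l₃ + u l₄) = u l₃ := by
      simp only [map_add]
      rw [h2' l₃ _ (hu _), h3' l₃ l₂ h23.symm _ (hu _), h3' l₃ l₄ h34 _ (hu _)]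
      simp
    have j2 : j = l₂ := by
      by_contra h
      have := h3' l₂ j (Ne.symm h) _ hj
      rw [e2] at this
      exact hu0 _ this
    have j3 : j = l₃ := by
      by_contra h
      have := h3' l₃ j (Ne.symm h) _ hj
      rw [e3] at this
      exact hu0 _ this
    exact h23 (j2.symm.trans j3)

end Cfsg.Agent.Lib.Geo
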