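import Mathlib
import Cfsg.Agent.Lib.Geo.OmegaFrameBlocks
import Cfsg.Agent.Lib.Geo.SU2Blocks

set_option autoImplicit false

/-! Non-maximal stabilizers in `Ω` of orthogonal decompositions in characteristic two. -/

namespace Cfsg.Agent.Lib.Geo

open scoped MatrixGroups Matrix commutatorElement
open Module

variable {ι : Type} [Fintype ι] [DecidableEq ι] {F : Type*} [Field F] [Fintype F]

local notation "V" => (ι → F)

variable {Q : (ι → F) → F}

local notation "f" => QuadraticMap.polar Q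

variable {t k : ℕ} {D : Fin t → Submodule F (ι → F)}

/-- A generic construction of an intermediate group from a set of vectors. -/
theorem not_max_of_gen_set (X : Set V)
    (hinv : ∀ g ∈ Cfsg.Geo.decompositionStabilizer D ⊓ Cfsg.Geo.omegaGL Q, ∀ x ∈ X, act g x ∈ X)
    (hout : ∃ g ∈ Cfsg.Geo.omegaGL Q, ∃ x ∈ X, act g x ∉ X)
    (hwit : ∃ g ∈ Cfsg.Geo.omegaGL Q, (∀ x ∈ X, act g x ∈ X) ∧ g ∉ Cfsg.Geo.decompositionStabilizer D) :
    ∃ K : Subgroup (GL ι F), Cfsg.Geo.decompositionStabilizer D ⊓ Cfsg.Geo.omegaGL Q < K ∧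
      K < Cfsg.Geo.omegaGL Q := by
  classical
  let K₀ : Submonoid (GL ι F) :=
    { carrier := {g | g ∈ Cfsg.Geo.omegaGL Q ∧ ∀ x ∈ X, act g x ∈ X}
      mul_mem' := by
        rintro a b ⟨ha, ha'⟩ ⟨hb, hb'⟩
        refine ⟨mul_mem ha hb, fun x hx => ?_⟩
        rw [act_mul_apply]
        exact ha' _ (hb' x hx)
      one_mem' := by
        refine ⟨one_mem _, fun x hx => ?_⟩
        simpa using hx }
  let K : Subgroup (GL ι F) :=
    { K₀ with
      inv_mem' := by
        intro a ha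
        have h1 : a ^ (orderOf a - 1) * a = 1 := by
          rw [← pow_succ, Nat.sub_add_cancel (orderOf_pos a), pow_orderOf_eq_one]
        have h2 : a⁻¹ = a ^ (orderOf a - 1) := (eq_inv_of_mul_eq_one_left h1).symm
        show a⁻¹ ∈ K₀
        rw [h2]
        exact pow_mem ha _ }
  have hKmem : ∀ g, g ∈ K ↔ g ∈ Cfsg.Geo.omegaGL Q ∧ ∀ x ∈ X, act g x ∈ X := fun g => Iff.rfl
  refine ⟨K, ?_, ?_⟩
  · rw [SetLike.lt_iff_le_and_exists]
    constructor
    · intro g hg
      exact (hKmem g).2 ⟨hg.2, hinv g hg⟩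
    · obtain ⟨g, hg1, hg2, hg3⟩ := hwit
      exact ⟨g, (hKmem g).2 ⟨hg1, hg2⟩, fun h => hg3 h.1⟩
  · rw [SetLike.lt_iff_le_and_exists]
    refine ⟨fun g hg => ((hKmem g).1 hg).1, ?_⟩
    obtain ⟨g, hg, x, hx, hgx⟩ := hout
    exact ⟨g, hg, fun h => hgx (((hKmem g).1 h).2 x hx)⟩

theorem not_mem_block (hD : Cfsg.Geo.IsNondegenerateMDecomposition (QuadraticMap.polar Q) k D) {w₁ w₂ y : V} {a b : Fin t}
    (hab : a ≠ b) (h₁ : w₁ ∈ D a) (h₂ : w₂ ∈ D b) (h₃ : f w₁ y ≠ 0) (h₄ : f w₂ y ≠ 0) (j : Fin t) : y ∉ D j := by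
  intro hj
  by_cases h : a = j
  · subst h
    exact h₄ (hD.orthogonal b a hab.symm _ h₂ _ hj)
  · exact h₃ (hD.orthogonal a j h _ h₁ _ hj)

/-- Hyperbolic planes, two elements. -/
theorem plus2_f2_not_max (hQ : Cfsg.Geo.IsNondegenerateQuadraticForm Q) (hn : 13 ≤ Fintype.card ι)
    (hq : Fintype.card F = 2) (hD : Cfsg.Geo.IsNondegenerateMDecomposition (QuadraticMap.polar Q) 2 D)
    (hp : ∀ i, Cfsg.Geo.IsPlusTypeOn Q (D i)) :
    ∃ K : Subgroup (GL ι F), Cfsg.Geo.decompositionStabilizer D ⊓ Cfsg.Geo.omegaGL Q < K ∧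
      K < Cfsg.Geo.omegaGL Q := by
  classical
  have hn9 : 9 ≤ Fintype.card ι := by omega
  have h2 : (1 : F) + 1 = 0 := one_add_one_of_card_two hq
  have h01 : ∀ {c : F}, c ≠ 0 → c = 1 := eq_one_of_ne_zero_of_card_two hq
  have hcard := card_eq_of_decomp hD.decomp.indep hD.decomp.iSup_eq_top hD.decomp.finrank_eq
  have ht : 4 ≤ t := by omega
  have hb : ∀ i, ∃ e ∈ D i, ∃ e' ∈ D i, Q e = 0 ∧ Q e' = 0 ∧ f e e' = 1 ∧ ∀ v ∈ D i, ∃ α β : F, v = α • e + β • e' :=
    fun i => exists_hyp_basis hQ (hD.decomp.finrank_eq i) (fun w hw h0 => (hD.nondegenerate i w hw h0).1) (hp i)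
  choose e he e' he' hQe hQe' hee' hs using hb
  let z : Fin t → V := fun i => e i + e' i
  have hz : ∀ i, z i ∈ D i := fun i => (D i).add_mem (he i) (he' i)
  have hQz : ∀ i, Q (z i) = 1 := by
    intro i
    show Q (e i + e' i) = 1
    rw [Q_add' (Q := Q), hQe, hQe', hee']
    ring
  have horth : ∀ {i j : Fin t} {x y : V}, i ≠ j → x ∈ D i → y ∈ D j → f x y = 0 :=
    fun {i j x y} hij hx hy => hD.orthogonal i j hij x hx y hy
  have hzz : ∀ i j, f (z i) (z j) = 0 := by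
    intro i j
    by_cases hij : i = j
    · subst hij
      rw [polar_self' hQ, hQz, mul_one]
      linear_combination h2
    · exact horth hij (hz i) (hz j)
  have hXz : ∀ {i x}, x ∈ D i → Q x ≠ 0 → x = z i := by
    intro i x hx h0
    obtain ⟨α, β, rfl⟩ := hs i x hx
    rw [Q_add' (Q := Q), Q_smul' hQ, Q_smul' hQ, hQe, hQe', pol_smul_left hQ, pol_smul_right hQ, hee'] at h0
    have hα : α ≠ 0 := by
      rintro rfl
      simp at h0
    have hβ : β ≠ 0 := by
      rintro rfl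
      simp at h0
    rw [h01 hα, h01 hβ, one_smul, one_smul]
  let l₁ : Fin t := ⟨0, by omega⟩
  let l₂ : Fin t := ⟨1, by omega⟩
  let l₃ : Fin t := ⟨2, by omega⟩
  have n12 : l₁ ≠ l₂ := by simp [l₁, l₂, Fin.ext_iff]
  have n13 : l₁ ≠ l₃ := by simp [l₁, l₃, Fin.ext_iff]
  have n23 : l₂ ≠ l₃ := by simp [l₂, l₃, Fin.ext_iff]
  have hQa : Q (z l₁ + z l₂) = 0 := by
    rw [Q_add' (Q := Q), hQz, hQz, hzz]
    linear_combination h2
  have hab : f (z l₁ + z l₂) (z l₃) = 0 := by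
    rw [pol_add_left hQ, hzz, hzz, add_zero]
  apply not_max_of_set hQ hn hD {x | (∃ i, x ∈ D i) ∧ Q x ≠ 0} (x₀ := z l₁)
  · rintro h ⟨hh1, hh2⟩ x ⟨⟨i, hi⟩, hxS⟩
    obtain ⟨σ, hσ⟩ := act_mem_of_stabD hh1
    refine ⟨⟨σ i, hσ i x hi⟩, ?_⟩
    rw [mem_iso.1 (omega_le_iso hh2)]
    exact hxS
  · rintro x ⟨hi, -⟩
    exact hi
  · exact ⟨⟨l₁, hz l₁⟩, by rw [hQz]; exact one_ne_zero⟩
  · intro h
    have := hQz l₁
    rw [h, Q_zero' hQ] at this
    exact zero_ne_one this
  · refine ⟨sg hQ (z l₁ + z l₂) (z l₃), sg_mem_omega hQ hn9 hQa hab, ?_, ?_⟩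
    · rintro x ⟨⟨i, hi⟩, hxS⟩
      have hx := hXz hi hxS
      subst hx
      rw [act_sg hQ hQa hab, pol_add_right hQ, hzz, hzz, hzz]
      simpa using (⟨⟨i, hi⟩, hxS⟩ : (∃ i, z _ ∈ D i) ∧ Q (z _) ≠ 0)
    · intro hh
      obtain ⟨σ, hσ⟩ := act_mem_of_stabD hh
      have h3 := hσ l₁ _ (he l₁)
      rw [act_sg hQ hQa hab, hQz] at h3
      have e1 : f (e l₁) (z l₁ + z l₂) = 1 := by
        rw [pol_add_right hQ, horth n12 (he l₁) (hz l₂), add_zero]
        show f (e l₁) (e l₁ + e' l₁) = 1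
        rw [pol_add_right hQ, pol_self_of hQ (hQe _), hee', zero_add]
      have e2 : f (e l₁) (z l₃) = 0 := horth n13 (he l₁) (hz l₃)
      rw [e1, e2] at h3
      refine not_mem_block hD (a := l₂) (b := l₃) n23 (he l₂) (he l₃) ?_ ?_ _ h3
      · simp only [pol_add_right hQ, pol_sub_right hQ, pol_smul_right hQ]
        rw [pol_comm' (e l₂) (e l₁), horth n12 (he l₁) (he l₂), horth n23 (he l₂) (hz l₃),
          pol_comm' (e l₂) (z l₁), horth n12 (hz l₁) (he l₂)]
        have e3 : f (e l₂) (z l₂) = 1 := by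
          show f (e l₂) (e l₂ + e' l₂) = 1
          rw [pol_add_right hQ, pol_self_of hQ (hQe _), hee', zero_add]
        rw [e3]
        intro h
        have : (1 : F) = 0 := by linear_combination -h
        exact one_ne_zero this
      · simp only [pol_add_right hQ, pol_sub_right hQ, pol_smul_right hQ]
        rw [pol_comm' (e l₃) (e l₁), horth n13 (he l₁) (he l₃), pol_comm' (e l₃) (z l₁), horth n13 (hz l₁) (he l₃),
          pol_comm' (e l₃) (z l₂), horth n23 (hz l₂) (he l₃)]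
        have e3 : f (e l₃) (z l₃) = 1 := by
          show f (e l₃) (e l₃ + e' l₃) = 1
          rw [pol_add_right hQ, pol_self_of hQ (hQe _), hee', zero_add]
        rw [e3]
        intro h
        have : (1 : F) = 0 := by linear_combination h
        exact one_ne_zero this

/-- Hyperbolic planes, four elements. -/
theorem plus2_f4_not_max (hQ : Cfsg.Geo.IsNondegenerateQuadraticForm Q) (hn : 13 ≤ Fintype.card ι)
    (hq : Fintype.card F = 4) (hD : Cfsg.Geo.IsNondegenerateMDecomposition (QuadraticMap.polar Q) 2 D)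
    (hp : ∀ i, Cfsg.Geo.IsPlusTypeOn Q (D i)) :
    ∃ K : Subgroup (GL ι F), Cfsg.Geo.decompositionStabilizer D ⊓ Cfsg.Geo.omegaGL Q < K ∧
      K < Cfsg.Geo.omegaGL Q := by
  classical
  have hn9 : 9 ≤ Fintype.card ι := by omega
  have h2 : (1 : F) + 1 = 0 := f4_two hq
  have h2c : ∀ y : F, y + y = 0 := by
    intro y
    have : y + y = ((1 : F) + 1) * y := by ring
    rw [this, h2, zero_mul]
  have hneg : ∀ y : F, -y = y := fun y => by
    have := h2c y
    linear_combination -this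
  obtain ⟨ω, hω0, hω1⟩ := f4_exists_ne hq
  have hω3 := f4_cube hq hω0
  have hωω : ω * ω = ω + 1 := by
    have e1 : (ω - 1) * (ω * ω + ω + 1) = 0 := by linear_combination hω3
    have e2 : ω * ω + ω + 1 = 0 := (mul_eq_zero.1 e1).resolve_left (sub_ne_zero.2 hω1)
    have e3 := h2c (ω + 1)
    linear_combination e2 - e3
  have hcard := card_eq_of_decomp hD.decomp.indep hD.decomp.iSup_eq_top hD.decomp.finrank_eq
  have ht : 4 ≤ t := by omega
  have hb : ∀ i, ∃ e ∈ D i, ∃ e' ∈ D i, Q e = 0 ∧ Q e' = 0 ∧ f e e' = 1 ∧ ∀ v ∈ D i, ∃ α β : F, v = α • e + β • e' :=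
    fun i => exists_hyp_basis hQ (hD.decomp.finrank_eq i) (fun w hw h0 => (hD.nondegenerate i w hw h0).1) (hp i)
  choose e he e' he' hQe hQe' hee' hs using hb
  have hflip : ∀ i, f (e' i) (e i) = 1 := fun i => by rw [pol_comm', hee']
  have hee0 : ∀ i, f (e i) (e i) = 0 := fun i => pol_self_of hQ (hQe i)
  have he'0 : ∀ i, f (e' i) (e' i) = 0 := fun i => pol_self_of hQ (hQe' i)
  obtain ⟨z, hzv⟩ : ∃ z : Fin t → V, ∀ i, z i = e i + e' i := ⟨_, fun _ => rfl⟩
  obtain ⟨z', hz'v⟩ : ∃ z' : Fin t → V, ∀ i, z' i = ω • e i + (ω * ω) • e' i := ⟨_, fun _ => rfl⟩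
  have hz : ∀ i, z i ∈ D i := fun i => by rw [hzv]; exact (D i).add_mem (he i) (he' i)
  have hz' : ∀ i, z' i ∈ D i := fun i => by
    rw [hz'v]; exact (D i).add_mem ((D i).smul_mem _ (he i)) ((D i).smul_mem _ (he' i))
  have hQxy : ∀ i (α β : F), Q (α • e i + β • e' i) = α * β := by
    intro i α β
    rw [Q_add' (Q := Q), Q_smul' hQ, Q_smul' hQ, hQe, hQe', pol_smul_left hQ, pol_smul_right hQ, hee']
    ring
  have hQz : ∀ i, Q (z i) = 1 := by
    intro i
    have := hQxy i 1 1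
    rw [one_smul, one_smul, mul_one] at this
    rw [hzv]
    exact this
  have hQz' : ∀ i, Q (z' i) = 1 := by
    intro i
    rw [hz'v, hQxy]
    linear_combination hω3
  have horth : ∀ {i j : Fin t} {x y : V}, i ≠ j → x ∈ D i → y ∈ D j → f x y = 0 :=
    fun {i j x y} hij hx hy => hD.orthogonal i j hij x hx y hy
  have hzz' : ∀ i, f (z i) (z' i) = 1 := by
    intro i
    rw [hzv, hz'v]
    simp only [pol_add_left hQ, pol_add_right hQ, pol_smul_right hQ, hee0, he'0, hee', hflip]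
    linear_combination hωω + ω * h2
  have hz'z : ∀ i, f (z' i) (z i) = 1 := fun i => by rw [pol_comm', hzz']
  have hzz : ∀ i, f (z i) (z i) = 0 := by
    intro i
    rw [polar_self' hQ, hQz, mul_one]
    linear_combination h2
  -- the additive group
  let X₀ : Set V := {x | (∃ i, x ∈ D i) ∧ Q x = 1}
  let Λ : AddSubgroup V := AddSubgroup.closure X₀
  have hzΛ : ∀ i, z i ∈ Λ := fun i => AddSubgroup.subset_closure ⟨⟨i, hz i⟩, hQz i⟩
  have hz'Λ : ∀ i, z' i ∈ Λ := fun i => AddSubgroup.subset_closure ⟨⟨i, hz' i⟩, hQz' i⟩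
  -- values of the form on the generators
  have hgen : ∀ x ∈ X₀, ∀ y ∈ X₀, f x y = 0 ∨ f x y = 1 := by
    rintro x ⟨⟨i, hi⟩, hx⟩ y ⟨⟨j, hj⟩, hy⟩
    by_cases hij : i = j
    · subst hij
      obtain ⟨α, β, rfl⟩ := hs i x hi
      obtain ⟨γ, δ, rfl⟩ := hs i y hj
      rw [hQxy] at hx hy
      have e1 : f (α • e i + β • e' i) (γ • e i + δ • e' i) = α * δ + β * γ := by
        simp only [pol_add_left hQ, pol_add_right hQ, pol_smul_right hQ, pol_smul_left hQ, hee0, he'0, hee', hflip]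
        ring
      rw [e1]
      have hα : α ≠ 0 := by
        rintro rfl
        rw [zero_mul] at hx
        exact zero_ne_one hx
      have hδ : δ ≠ 0 := by
        rintro rfl
        rw [mul_zero] at hy
        exact zero_ne_one hy
      have hs3 := f4_cube hq (mul_ne_zero hα hδ)
      obtain ⟨s, hs'⟩ : ∃ s, s = α * δ := ⟨_, rfl⟩
      rw [← hs'] at hs3
      have e2 : β * γ = s * s := by
        have e3 : s * (β * γ) = 1 := by
          rw [hs']
          linear_combination (γ * δ) * hx + hy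
        calc β * γ = (s * s * s) * (β * γ) := by rw [show s * s * s = s ^ 3 by ring, hs3, one_mul]
          _ = s * s * (s * (β * γ)) := by ring
          _ = s * s := by rw [e3, mul_one]
      rw [← hs', e2]
      obtain ⟨u, hu⟩ : ∃ u, u = s + s * s := ⟨_, rfl⟩
      rw [← hu]
      have e4 : u * u = u := by
        rw [hu]
        have := h2c (s * s * s)
        linear_combination (s) * (hs3) + this
      have e5 : u * (u - 1) = 0 := by linear_combination e4
      rcases mul_eq_zero.1 e5 with h | h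
      · exact Or.inl h
      · exact Or.inr (sub_eq_zero.1 h)
    · exact Or.inl (horth hij hi hj)
  have hT01 : ∀ {a b : F}, (a = 0 ∨ a = 1) → (b = 0 ∨ b = 1) → (a + b = 0 ∨ a + b = 1) := by
    rintro a b (rfl | rfl) (rfl | rfl)
    · simp
    · simp
    · simp
    · exact Or.inl h2
  have hneg01 : ∀ {a : F}, (a = 0 ∨ a = 1) → (-a = 0 ∨ -a = 1) := by
    intro a ha
    rwa [hneg]
  have hval : ∀ x ∈ Λ, ∀ y ∈ Λ, f x y = 0 ∨ f x y = 1 := by
    intro x hx y hy
    have h1 : ∀ y₀ ∈ X₀, ∀ x ∈ Λ, f x y₀ = 0 ∨ f x y₀ = 1 := by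
      intro y₀ hy₀ x hx
      induction hx using AddSubgroup.closure_induction with
      | mem u hu => exact hgen u hu y₀ hy₀
      | zero => exact Or.inl (pol_zero_left hQ _)
      | add u v _ _ hu hv =>
        rw [pol_add_left hQ]
        exact hT01 hu hv
      | neg u _ hu =>
        rw [pol_neg_left hQ]
        exact hneg01 hu
    induction hy using AddSubgroup.closure_induction with
    | mem u hu => exact h1 u hu x hx
    | zero => exact Or.inl (pol_zero_right hQ _)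
    | add u v _ _ hu hv =>
      rw [pol_add_right hQ]
      exact hT01 hu hv
    | neg u _ hu =>
      rw [pol_neg_right hQ]
      exact hneg01 hu
  have hsmΛ : ∀ {c : F} {x : V}, (c = 0 ∨ c = 1) → x ∈ Λ → c • x ∈ Λ := by
    rintro c x (rfl | rfl) hx
    · rw [zero_smul]
      exact Λ.zero_mem
    · rwa [one_smul]
  let l₁ : Fin t := ⟨0, by omega⟩
  let l₂ : Fin t := ⟨1, by omega⟩
  let l₃ : Fin t := ⟨2, by omega⟩
  have n12 : l₁ ≠ l₂ := by simp [l₁, l₂, Fin.ext_iff]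
  have n13 : l₁ ≠ l₃ := by simp [l₁, l₃, Fin.ext_iff]
  have n23 : l₂ ≠ l₃ := by simp [l₂, l₃, Fin.ext_iff]
  have hQa : Q (z l₁ + z l₂) = 0 := by
    rw [Q_add' (Q := Q), hQz, hQz, horth n12 (hz _) (hz _)]
    linear_combination h2
  have hab : f (z l₁ + z l₂) (z l₃) = 0 := by
    rw [pol_add_left hQ, horth n13 (hz _) (hz _), horth n23 (hz _) (hz _), add_zero]
  apply not_max_of_gen_set (Λ : Set V)
  · rintro g ⟨hg1, hg2⟩ x hx
    obtain ⟨σ, hσ⟩ := act_mem_of_stabD hg1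
    have hx' : x ∈ Λ := hx
    show act g x ∈ Λ
    induction hx' using AddSubgroup.closure_induction with
    | mem u hu =>
      obtain ⟨⟨i, hi⟩, hu1⟩ := hu
      exact AddSubgroup.subset_closure ⟨⟨σ i, hσ i u hi⟩, by rw [mem_iso.1 (omega_le_iso hg2)]; exact hu1⟩
    | zero =>
      rw [map_zero]
      exact Λ.zero_mem
    | add u v hu' hv' hu hv =>
      rw [map_add]
      exact Λ.add_mem (hu hu') (hv hv')
    | neg u hu' hu =>
      rw [map_neg]
      exact Λ.neg_mem (hu hu')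
  · -- a Siegel element not preserving the additive group
    have hQa' : Q (ω • (z l₂ + z l₃)) = 0 := by
      rw [Q_smul' hQ, Q_add' (Q := Q), hQz, hQz, horth n23 (hz _) (hz _)]
      linear_combination (ω * ω) * h2
    have hza' : f (z l₁) (ω • (z l₂ + z l₃)) = 0 := by
      rw [pol_smul_right hQ, pol_add_right hQ, horth n12 (hz _) (hz _), horth n13 (hz _) (hz _)]
      ring
    have hnot : z l₁ ∉ Submodule.span F {ω • (z l₂ + z l₃)} := by
      intro h
      obtain ⟨c, hc⟩ := Submodule.mem_span_singleton.1 h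
      have e1 := hzz' l₁
      rw [← hc, pol_smul_left hQ, pol_smul_left hQ, pol_add_left hQ, horth n12.symm (hz _) (hz' _),
        horth n13.symm (hz _) (hz' _)] at e1
      simp at e1
    obtain ⟨w, hw1, hw2⟩ := exists_val hQ hnot
    have haw := hw2 _ (Submodule.mem_span_singleton_self (ω • (z l₂ + z l₃)))
    refine ⟨sg hQ _ w, sg_mem_omega hQ hn9 hQa' haw, z l₁, hzΛ l₁, ?_⟩
    intro hmem
    rw [act_sg_orth hQ hQa' haw hza', hw1, one_smul] at hmem
    have e1 := hval _ hmem (z' l₂) (hz'Λ l₂)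
    have e2 : f (z l₁ - ω • (z l₂ + z l₃)) (z' l₂) = -ω := by
      rw [pol_sub_left hQ, pol_smul_left hQ, pol_add_left hQ, horth n12 (hz _) (hz' _), hzz',
        horth n23.symm (hz _) (hz' _)]
      ring
    rw [e2, hneg] at e1
    rcases e1 with h | h
    · exact hω0 h
    · exact hω1 h
  · refine ⟨sg hQ (z l₁ + z l₂) (z l₃), sg_mem_omega hQ hn9 hQa hab, ?_, ?_⟩
    · intro x hx
      have hx' : x ∈ Λ := hx
      have haΛ : z l₁ + z l₂ ∈ Λ := Λ.add_mem (hzΛ _) (hzΛ _)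
      rw [act_sg hQ hQa hab, hQz, one_mul]
      show _ ∈ Λ
      exact Λ.sub_mem (Λ.sub_mem (Λ.add_mem hx' (hsmΛ (hval _ hx' _ haΛ) (hzΛ _)))
        (hsmΛ (hval _ hx' _ (hzΛ _)) haΛ)) (hsmΛ (hval _ hx' _ haΛ) haΛ)
    · intro hh
      obtain ⟨σ, hσ⟩ := act_mem_of_stabD hh
      have h3 := hσ l₁ _ (hz' l₁)
      rw [act_sg hQ hQa hab, hQz, pol_add_right hQ, hz'z, horth n12 (hz' _) (hz _), add_zero,
        horth n13 (hz' _) (hz _), one_mul, one_smul, zero_smul, sub_zero, one_smul] at h3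
      have hez : ∀ i, f (e i) (z i) = 1 := by
        intro i
        rw [hzv, pol_add_right hQ, hee0, hee', zero_add]
      refine not_mem_block hD (a := l₂) (b := l₃) n23 (he l₂) (he l₃) ?_ ?_ _ h3
      · simp only [pol_add_right hQ, pol_sub_right hQ]
        rw [pol_comm' (e l₂) (z' l₁), horth n12 (hz' _) (he _), horth n23 (he _) (hz _), pol_comm' (e l₂) (z l₁),
          horth n12 (hz _) (he _), hez]
        intro h
        have : (1 : F) = 0 := by linear_combination -h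
        exact one_ne_zero this
      · simp only [pol_add_right hQ, pol_sub_right hQ]
        rw [pol_comm' (e l₃) (z' l₁), horth n13 (hz' _) (he _), pol_comm' (e l₃) (z l₁), horth n13 (hz _) (he _),
          pol_comm' (e l₃) (z l₂), horth n23 (hz _) (he _), hez]
        intro h
        have : (1 : F) = 0 := by linear_combination h
        exact one_ne_zero this

/-- Splitting off a hyperbolic pair. -/
theorem hyp_split (hQ : Cfsg.Geo.IsNondegenerateQuadraticForm Q) {W : Submodule F V}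
    (hnd : ∀ w ∈ W, w ≠ 0 → ∃ x ∈ W, f x w ≠ 0) {e e' : V} (he : e ∈ W) (he' : e' ∈ W)
    (h1 : f e e' = 1) (h2 : f e e = 0) (h3 : f e' e' = 0) :
    ∃ W' : Submodule F V, W' ≤ W ∧ finrank F W' + 2 = finrank F W ∧ (∀ y ∈ W', f y e = 0 ∧ f y e' = 0) ∧
      (∀ w ∈ W', w ≠ 0 → ∃ x ∈ W', f x w ≠ 0) ∧ ∀ x ∈ W, ∃ α β : F, ∃ y ∈ W', x = α • e + β • e' + y := by
  have hf := sform_of_quad hQ
  have h1' : f e' e = 1 := by rw [pol_comm', h1]
  obtain ⟨W', hW'⟩ : ∃ W' : Submodule F V, W' = W ⊓ (LinearMap.ker (hf.lf e) ⊓ LinearMap.ker (hf.lf e')) := ⟨_, rfl⟩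
  have hmem : ∀ y, y ∈ W' ↔ y ∈ W ∧ f y e = 0 ∧ f y e' = 0 := by
    intro y
    rw [hW']
    rfl
  have hdec : ∀ x ∈ W, ∃ α β : F, ∃ y ∈ W', x = α • e + β • e' + y := by
    intro x hx
    refine ⟨f x e', f x e, x - f x e' • e - f x e • e', (hmem _).2 ⟨W.sub_mem (W.sub_mem hx (W.smul_mem _ he)) (W.smul_mem _ he'), ?_, ?_⟩, by abel⟩
    · rw [pol_sub_left hQ, pol_sub_left hQ, pol_smul_left hQ, pol_smul_left hQ, h2, h1']
      ring
    · rw [pol_sub_left hQ, pol_sub_left hQ, pol_smul_left hQ, pol_smul_left hQ, h1, h3]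
      ring
  have he0 : e ≠ 0 := by
    rintro rfl
    rw [pol_zero_left hQ] at h1
    exact zero_ne_one h1
  have hne : e' ∉ Submodule.span F {e} := by
    intro h
    obtain ⟨c, rfl⟩ := Submodule.mem_span_singleton.1 h
    rw [pol_smul_left hQ, h2, mul_zero] at h1'
    exact zero_ne_one h1'
  have hP : finrank F ↥(Submodule.span F {e} ⊔ Submodule.span F {e'}) = 2 := by
    rw [Submodule.finrank_sup_span_singleton hne, finrank_span_singleton he0]
  have hdis : W' ⊓ (Submodule.span F {e} ⊔ Submodule.span F {e'}) = ⊥ := by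
    rw [eq_bot_iff]
    rintro y ⟨hy1, hy2⟩
    obtain ⟨u, hu, v, hv, rfl⟩ := Submodule.mem_sup.1 hy2
    obtain ⟨a, rfl⟩ := Submodule.mem_span_singleton.1 hu
    obtain ⟨b, rfl⟩ := Submodule.mem_span_singleton.1 hv
    obtain ⟨-, h4, h5⟩ := (hmem _).1 hy1
    rw [pol_add_left hQ, pol_smul_left hQ, pol_smul_left hQ, h2, h1'] at h4
    rw [pol_add_left hQ, pol_smul_left hQ, pol_smul_left hQ, h1, h3] at h5
    have hb : b = 0 := by simpa using h4
    have ha : a = 0 := by simpa using h5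
    simp [ha, hb]
  have hsup : W' ⊔ (Submodule.span F {e} ⊔ Submodule.span F {e'}) = W := by
    apply le_antisymm
    · apply sup_le
      · intro y hy
        exact ((hmem y).1 hy).1
      · apply sup_le
        · rwa [Submodule.span_singleton_le_iff_mem]
        · rwa [Submodule.span_singleton_le_iff_mem]
    · intro x hx
      obtain ⟨α, β, y, hy, rfl⟩ := hdec x hx
      rw [add_comm]
      refine Submodule.add_mem _ (Submodule.mem_sup_left hy) (Submodule.mem_sup_right ?_)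
      exact Submodule.add_mem _ (Submodule.mem_sup_left (Submodule.smul_mem _ _ (Submodule.mem_span_singleton_self e)))
        (Submodule.mem_sup_right (Submodule.smul_mem _ _ (Submodule.mem_span_singleton_self e')))
  refine ⟨W', fun y hy => ((hmem y).1 hy).1, ?_, fun y hy => ((hmem y).1 hy).2, ?_, hdec⟩
  · have h4 := Submodule.finrank_sup_add_finrank_inf_eq W' (Submodule.span F {e} ⊔ Submodule.span F {e'})
    rw [hsup, hdis, finrank_bot, add_zero, hP] at h4
    exact h4.symm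
  · intro y hy hy0
    obtain ⟨hy1, hy2, hy3⟩ := (hmem y).1 hy
    obtain ⟨x, hx, hxy⟩ := hnd y hy1 hy0
    obtain ⟨α, β, z, hz, rfl⟩ := hdec x hx
    refine ⟨z, hz, ?_⟩
    rw [pol_add_left hQ, pol_add_left hQ, pol_smul_left hQ, pol_smul_left hQ, pol_comm' e y, pol_comm' e' y, hy2, hy3] at hxy
    simpa using hxy

/-- A four dimensional quadratic space of plus type over the field with two elements is the orthogonal
sum of two planes of minus type. -/
theorem exists_minus_pair (hQ : Cfsg.Geo.IsNondegenerateQuadraticForm Q) (hq : Fintype.card F = 2) {W : Submodule F V}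
    (hdim : finrank F W = 4) (hnd : ∀ w ∈ W, w ≠ 0 → ∃ x ∈ W, f x w ≠ 0) (hp : Cfsg.Geo.IsPlusTypeOn Q W) :
    ∃ p ∈ W, ∃ q ∈ W, ∃ r ∈ W, ∃ s ∈ W, Q p = 1 ∧ Q q = 1 ∧ Q r = 1 ∧ Q s = 1 ∧ f p q = 1 ∧ f r s = 1 ∧
      f p r = 0 ∧ f p s = 0 ∧ f q r = 0 ∧ f q s = 0 ∧ ∀ x ∈ W, ∃ α β γ δ : F, x = α • p + β • q + γ • r + δ • s := by
  have h2 : (1 : F) + 1 = 0 := one_add_one_of_card_two hq
  have h2v : ∀ y : V, y + y = 0 := by
    intro y
    have : y + y = ((1 : F) + 1) • y := by rw [add_smul, one_smul]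
    rw [this, h2, zero_smul]
  obtain ⟨U, hUW, hU, hU2⟩ := hp
  have hU1 : finrank F U = 2 := by omega
  have hUb : U ≠ ⊥ := by
    rintro rfl
    simp at hU1
  obtain ⟨e₁, he₁U, he₁0⟩ := Submodule.exists_mem_ne_zero_of_ne_bot hUb
  have he₁ := hUW he₁U
  have hQe₁ : Q e₁ = 0 := hU e₁ he₁U
  obtain ⟨x, hxW, hxe⟩ := hnd e₁ he₁ he₁0
  obtain ⟨x', hx'⟩ : ∃ x', x' = (f x e₁)⁻¹ • x := ⟨_, rfl⟩
  have hx'W : x' ∈ W := hx' ▸ W.smul_mem _ hxW
  have hx'e : f x' e₁ = 1 := by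
    rw [hx', pol_smul_left hQ, inv_mul_cancel₀ hxe]
  obtain ⟨f₁, hf₁d⟩ : ∃ f₁, f₁ = x' - Q x' • e₁ := ⟨_, rfl⟩
  have hf₁ : f₁ ∈ W := hf₁d ▸ W.sub_mem hx'W (W.smul_mem _ he₁)
  have hee : f e₁ e₁ = 0 := pol_self_of hQ hQe₁
  have hf₁e : f f₁ e₁ = 1 := by
    rw [hf₁d, pol_sub_left hQ, pol_smul_left hQ, hx'e, hee, mul_zero, sub_zero]
  have hef₁ : f e₁ f₁ = 1 := by rw [pol_comm', hf₁e]
  have hQf₁ : Q f₁ = 0 := by
    have : Q (x' + (- Q x') • e₁) = Q x' + Q ((- Q x') • e₁) + f x' ((- Q x') • e₁) := by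
      rw [QuadraticMap.polar]; ring
    rw [hf₁d, sub_eq_add_neg, ← neg_smul, this, Q_smul' hQ, hQe₁, pol_smul_right hQ, hx'e]
    ring
  have hff : f f₁ f₁ = 0 := pol_self_of hQ hQf₁
  obtain ⟨W', hW'W, hW'd, hW'o, hW'n, hW's⟩ := hyp_split hQ hnd he₁ hf₁ hef₁ hee hff
  -- a singular vector in the complement
  have hf := sform_of_quad hQ
  have h3 := finrank_inf_cut U [hf.lf f₁]
  simp only [List.length_cons, List.length_nil] at h3
  have h4 : U ⊓ cutL [hf.lf f₁] ≠ ⊥ := by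
    intro h
    rw [h] at h3
    simp at h3
    omega
  obtain ⟨e₂', he₂'a, he₂'0⟩ := Submodule.exists_mem_ne_zero_of_ne_bot h4
  have he₂'U : e₂' ∈ U := he₂'a.1
  have he₂'f : f e₂' f₁ = 0 := mem_cutL.1 he₂'a.2 (hf.lf f₁) (by simp)
  have he₂'e : f e₂' e₁ = 0 := by
    rw [QuadraticMap.polar, hU _ (U.add_mem he₂'U he₁U), hU _ he₂'U, hQe₁]
    ring
  have he₂'W' : e₂' ∈ W' := by
    obtain ⟨α, β, y, hy, hyy⟩ := hW's e₂' (hUW he₂'U)
    have e1 : f e₂' e₁ = β + f y e₁ := by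
      rw [hyy, pol_add_left hQ, pol_add_left hQ, pol_smul_left hQ, pol_smul_left hQ, hee, hf₁e]
      ring
    have e2 : f e₂' f₁ = α + f y f₁ := by
      rw [hyy, pol_add_left hQ, pol_add_left hQ, pol_smul_left hQ, pol_smul_left hQ, hff, hef₁]
      ring
    rw [(hW'o y hy).1, add_zero, he₂'e] at e1
    rw [(hW'o y hy).2, add_zero, he₂'f] at e2
    rw [hyy, ← e1, ← e2]
    simpa using hy
  have hW'2 : finrank F W' = 2 := by omega
  obtain ⟨e₂, he₂, f₂, hf₂, hQe₂, hQf₂, hef₂, hs₂⟩ := exists_hyp_basis hQ hW'2 hW'n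
    (plus_plane hW'2 he₂'W' he₂'0 (hU _ he₂'U) hQ)
  have he₂W := hW'W he₂
  have hf₂W := hW'W hf₂
  have o1 := hW'o e₂ he₂
  have o2 := hW'o f₂ hf₂
  have o1a : f e₁ e₂ = 0 := by rw [pol_comm', o1.1]
  have o1b : f f₁ e₂ = 0 := by rw [pol_comm', o1.2]
  have o2a : f e₁ f₂ = 0 := by rw [pol_comm', o2.1]
  have o2b : f f₁ f₂ = 0 := by rw [pol_comm', o2.2]
  have hee₂ : f e₂ e₂ = 0 := pol_self_of hQ hQe₂
  have hff₂ : f f₂ f₂ = 0 := pol_self_of hQ hQf₂
  have hf₂e₂ : f f₂ e₂ = 1 := by rw [pol_comm', hef₂]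
  obtain ⟨p, hpd⟩ : ∃ p, p = e₁ + f₁ := ⟨_, rfl⟩
  obtain ⟨s, hsd⟩ : ∃ s, s = e₂ + f₂ := ⟨_, rfl⟩
  obtain ⟨q, hqd⟩ : ∃ q, q = e₁ + s := ⟨_, rfl⟩
  obtain ⟨r, hrd⟩ : ∃ r, r = p + e₂ := ⟨_, rfl⟩
  have hpW : p ∈ W := hpd ▸ W.add_mem he₁ hf₁
  have hsW : s ∈ W := hsd ▸ W.add_mem he₂W hf₂W
  have hqW : q ∈ W := hqd ▸ W.add_mem he₁ hsW
  have hrW : r ∈ W := hrd ▸ W.add_mem hpW he₂W
  have hQp : Q p = 1 := by rw [hpd, Q_add' (Q := Q), hQe₁, hQf₁, hef₁]; ring
  have hQs : Q s = 1 := by rw [hsd, Q_add' (Q := Q), hQe₂, hQf₂, hef₂]; ring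
  have hps : f p s = 0 := by
    rw [hpd, hsd]
    simp only [pol_add_left hQ, pol_add_right hQ, o1a, o1b, o2a, o2b]
    ring
  have hes : f e₁ s = 0 := by rw [hsd, pol_add_right hQ, o1a, o2a, add_zero]
  have hpe₂ : f p e₂ = 0 := by rw [hpd, pol_add_left hQ, o1a, o1b, add_zero]
  have hse₂ : f s e₂ = 1 := by rw [hsd, pol_add_left hQ, hee₂, hf₂e₂, zero_add]
  have hpe : f p e₁ = 1 := by rw [hpd, pol_add_left hQ, hee, hf₁e, zero_add]
  have hpp : f p p = 0 := by
    rw [polar_self' hQ, hQp, mul_one]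
    linear_combination h2
  have hss : f s s = 0 := by
    rw [polar_self' hQ, hQs, mul_one]
    linear_combination h2
  have hQq : Q q = 1 := by rw [hqd, Q_add' (Q := Q), hQe₁, hQs, hes]; ring
  have hQr : Q r = 1 := by rw [hrd, Q_add' (Q := Q), hQp, hQe₂, hpe₂]; ring
  have hpq : f p q = 1 := by rw [hqd, pol_add_right hQ, hpe, hps, add_zero]
  have hrs : f r s = 1 := by rw [hrd, pol_add_left hQ, hps, pol_comm' e₂ s, hse₂, zero_add]
  have hpr : f p r = 0 := by rw [hrd, pol_add_right hQ, hpp, hpe₂, add_zero]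
  have hqr : f q r = 0 := by
    rw [hqd, hrd, pol_add_left hQ, pol_add_right hQ, pol_add_right hQ, pol_comm' e₁ p, hpe, pol_comm' s p, hps, hse₂,
      pol_comm' e₁ e₂, o1.1, add_zero, zero_add]
    linear_combination h2
  have hqs : f q s = 0 := by
    rw [hqd, pol_add_left hQ, hes, hss, add_zero]
  refine ⟨p, hpW, q, hqW, r, hrW, s, hsW, hQp, hQq, hQr, hQs, hpq, hrs, hpr, hps, hqr, hqs, fun x hx => ?_⟩
  obtain ⟨α, β, y, hy, rfl⟩ := hW's x hx
  obtain ⟨γ, δ, rfl⟩ := hs₂ y hy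
  have e1 : e₁ = q + s := by rw [hqd, add_assoc, h2v, add_zero]
  have e2 : f₁ = p + q + s := by
    rw [hqd, hpd]
    have : e₁ + f₁ + (e₁ + s) + s = f₁ + (e₁ + e₁) + (s + s) := by abel
    rw [this, h2v, h2v, add_zero, add_zero]
  have e3 : e₂ = r + p := by
    rw [hrd]
    have : p + e₂ + p = e₂ + (p + p) := by abel
    rw [this, h2v, add_zero]
  have e4 : f₂ = s + r + p := by
    rw [hsd, hrd]
    have : e₂ + f₂ + (p + e₂) + p = f₂ + (e₂ + e₂) + (p + p) := by abel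
    rw [this, h2v, h2v, add_zero, add_zero]
  refine ⟨β + γ + δ, α + β, γ + δ, α + β + δ, ?_⟩
  rw [e1, e2, e3, e4]
  (module)

/-- Plus type members of dimension four, two elements. -/
theorem plus4_f2_not_max (hQ : Cfsg.Geo.IsNondegenerateQuadraticForm Q) (hn : 13 ≤ Fintype.card ι)
    (hq : Fintype.card F = 2) (hD : Cfsg.Geo.IsNondegenerateMDecomposition (QuadraticMap.polar Q) 4 D)
    (hplus : ∀ i, Cfsg.Geo.IsPlusTypeOn Q (D i)) :
    ∃ K : Subgroup (GL ι F), Cfsg.Geo.decompositionStabilizer D ⊓ Cfsg.Geo.omegaGL Q < K ∧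
      K < Cfsg.Geo.omegaGL Q := by
  classical
  have hn9 : 9 ≤ Fintype.card ι := by omega
  have h2 : (1 : F) + 1 = 0 := one_add_one_of_card_two hq
  have h2c : ∀ y : F, y + y = 0 := by
    intro y
    have : y + y = ((1 : F) + 1) * y := by ring
    rw [this, h2, zero_mul]
  have h2v : ∀ y : V, y + y = 0 := by
    intro y
    have : y + y = ((1 : F) + 1) • y := by rw [add_smul, one_smul]
    rw [this, h2, zero_smul]
  have hvneg : ∀ y : V, -y = y := fun y => by
    have := h2v y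
    exact neg_eq_of_add_eq_zero_left this
  have hcneg : ∀ y : F, -y = y := fun y => neg_eq_of_add_eq_zero_left (h2c y)
  have h01 : ∀ c : F, c = 0 ∨ c = 1 := fun c => by
    by_cases hc : c = 0
    · exact Or.inl hc
    · exact Or.inr (eq_one_of_ne_zero_of_card_two hq hc)
  have hcard := card_eq_of_decomp hD.decomp.indep hD.decomp.iSup_eq_top hD.decomp.finrank_eq
  have ht : 2 ≤ t := hD.decomp.two_le
  have hb := fun i => exists_minus_pair hQ hq (hD.decomp.finrank_eq i) (fun w hw h0 => (hD.nondegenerate i w hw h0).1) (hplus i)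
  choose p hp q hq' r hr s hs hQp hQq hQr hQs hpq hrs hpr hps hqr hqs hspan using hb
  have horth : ∀ {i j : Fin t} {x y : V}, i ≠ j → x ∈ D i → y ∈ D j → f x y = 0 :=
    fun {i j x y} hij hx hy => hD.orthogonal i j hij x hx y hy
  have hself : ∀ {u : V}, Q u = 1 → f u u = 0 := fun {u} hu => by
    rw [polar_self' hQ, hu, mul_one]
    linear_combination h2
  let l₁ : Fin t := ⟨0, by omega⟩
  let l₂ : Fin t := ⟨1, by omega⟩
  have n12 : l₁ ≠ l₂ := by simp [l₁, l₂, Fin.ext_iff]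
  obtain ⟨a, had⟩ : ∃ a, a = p l₁ + p l₂ := ⟨_, rfl⟩
  obtain ⟨b, hbd⟩ : ∃ b, b = q l₁ + q l₂ := ⟨_, rfl⟩
  have hQa : Q a = 0 := by
    rw [had, Q_add' (Q := Q), hQp, hQp, horth n12 (hp _) (hp _)]
    linear_combination h2
  have hQb : Q b = 0 := by
    rw [hbd, Q_add' (Q := Q), hQq, hQq, horth n12 (hq' _) (hq' _)]
    linear_combination h2
  have hab : f a b = 0 := by
    rw [had, hbd, pol_add_left hQ, pol_add_right hQ, pol_add_right hQ, hpq, hpq, horth n12 (hp _) (hq' _),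
      horth n12.symm (hp _) (hq' _)]
    linear_combination h2
  have hact : ∀ x, act (sg hQ a b) x = x + f x a • b + f x b • a := by
    intro x
    rw [act_sg hQ hQa hab, hQb, zero_mul, zero_smul, sub_zero, sub_eq_add_neg, ← neg_smul, hcneg]
  -- the shape of a vector of value one
  have hshape : ∀ i x, x ∈ D i → Q x = 1 → ∃ α β γ δ : F, x = α • p i + β • q i + γ • r i + δ • s i ∧
      ((α = 0 ∧ β = 0) ∨ (γ = 0 ∧ δ = 0)) := by
    intro i x hx hQx
    obtain ⟨α, β, γ, δ, rfl⟩ := hspan i x hx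
    refine ⟨α, β, γ, δ, rfl, ?_⟩
    have e1 : Q (α • p i + β • q i + γ • r i + δ • s i) = (α * α + β * β + α * β) + (γ * γ + δ * δ + γ * δ) := by
      simp only [Q_add' (Q := Q), Q_smul' hQ, pol_add_left hQ, pol_smul_left hQ, pol_smul_right hQ, hQp, hQq, hQr, hQs,
        hpq, hrs, hpr, hps, hqr, hqs]
      ring
    rw [e1] at hQx
    by_contra hcon
    push Not at hcon
    have key : ∀ {u v : F}, (u = 0 → v ≠ 0) → u * u + v * v + u * v = 1 := by
      intro u v huv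
      rcases h01 u with rfl | rfl <;> rcases h01 v with rfl | rfl
      · exact absurd rfl (huv rfl)
      · simp
      · simp
      · simp only [mul_one, add_zero, h2, zero_add]
    have e2 := key (u := α) (v := β) hcon.1
    have e3 := key (u := γ) (v := δ) hcon.2
    rw [e2, e3, h2] at hQx
    exact zero_ne_one hQx
  have hQpq : ∀ i (α β : F), ¬ (α = 0 ∧ β = 0) → Q (α • p i + β • q i) = 1 := by
    intro i α β h
    rw [Q_add' (Q := Q), Q_smul' hQ, Q_smul' hQ, pol_smul_left hQ, pol_smul_right hQ, hQp, hQq, hpq]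
    rcases h01 α with rfl | rfl <;> rcases h01 β with rfl | rfl
    · exact absurd ⟨rfl, rfl⟩ h
    · simp
    · simp
    · simp only [mul_one, add_zero, h2, zero_add]
  -- pairing
  have ppa : ∀ i, f (p i) (p i) = 0 := fun i => hself (hQp i)
  have qqa : ∀ i, f (q i) (q i) = 0 := fun i => hself (hQq i)
  have qp : ∀ i, f (q i) (p i) = 1 := fun i => by rw [pol_comm', hpq]
  have rp : ∀ i, f (r i) (p i) = 0 := fun i => by rw [pol_comm', hpr]
  have sp : ∀ i, f (s i) (p i) = 0 := fun i => by rw [pol_comm', hps]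
  have rq : ∀ i, f (r i) (q i) = 0 := fun i => by rw [pol_comm', hqr]
  have sq : ∀ i, f (s i) (q i) = 0 := fun i => by rw [pol_comm', hqs]
  have hcoef : ∀ i (α β γ δ : F), f (α • p i + β • q i + γ • r i + δ • s i) (p i) = β ∧
      f (α • p i + β • q i + γ • r i + δ • s i) (q i) = α := by
    intro i α β γ δ
    constructor
    · simp only [pol_add_left hQ, pol_smul_left hQ, ppa, qp, rp, sp]
      ring
    · simp only [pol_add_left hQ, pol_smul_left hQ, qqa, hpq, rq, sq]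
      ring
  have hl1 : ∀ {x}, x ∈ D l₁ → f x (p l₂) = 0 ∧ f x (q l₂) = 0 := fun hx =>
    ⟨horth n12 hx (hp _), horth n12 hx (hq' _)⟩
  have hl2 : ∀ {x}, x ∈ D l₂ → f x (p l₁) = 0 ∧ f x (q l₁) = 0 := fun hx =>
    ⟨horth n12.symm hx (hp _), horth n12.symm hx (hq' _)⟩
  apply not_max_of_set hQ hn hD {x | (∃ i, x ∈ D i) ∧ Q x = 1} (x₀ := p l₁)
  · rintro h ⟨hh1, hh2⟩ x ⟨⟨i, hi⟩, hxS⟩
    obtain ⟨σ, hσ⟩ := act_mem_of_stabD hh1
    refine ⟨⟨σ i, hσ i x hi⟩, ?_⟩
    rw [mem_iso.1 (omega_le_iso hh2)]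
    exact hxS
  · rintro x ⟨hi, -⟩
    exact hi
  · exact ⟨⟨l₁, hp l₁⟩, hQp _⟩
  · intro h
    have := hQp l₁
    rw [h, Q_zero' hQ] at this
    exact zero_ne_one this
  · refine ⟨sg hQ a b, sg_mem_omega hQ hn9 hQa hab, ?_, ?_⟩
    · rintro x ⟨⟨i, hi⟩, hxS⟩
      rw [hact]
      by_cases e1 : i = l₁
      · subst e1
        obtain ⟨α, β, γ, δ, rfl, hcase⟩ := hshape _ x hi hxS
        obtain ⟨c1, c2⟩ := hcoef l₁ α β γ δ
        obtain ⟨c3, c4⟩ := hl1 hi
        rw [had, hbd, pol_add_right hQ, pol_add_right hQ, c1, c2, c3, c4, add_zero, add_zero]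
        rcases hcase with ⟨rfl, rfl⟩ | ⟨rfl, rfl⟩
        · simpa using (⟨⟨l₁, by simpa using hi⟩, by simpa using hxS⟩ : _ ∧ _)
        · have e2 : (α • p l₁ + β • q l₁ + (0 : F) • r l₁ + (0 : F) • s l₁) + β • (q l₁ + q l₂) + α • (p l₁ + p l₂)
              = α • p l₂ + β • q l₂ := by
            have e3 : (α • p l₁ + β • q l₁ + (0 : F) • r l₁ + (0 : F) • s l₁) + β • (q l₁ + q l₂) + α • (p l₁ + p l₂)
                = α • p l₂ + β • q l₂ + (α • p l₁ + α • p l₁) + (β • q l₁ + β • q l₁) := by (module)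
            rw [e3, h2v, h2v, add_zero, add_zero]
          rw [e2]
          refine ⟨⟨l₂, (D l₂).add_mem ((D l₂).smul_mem _ (hp _)) ((D l₂).smul_mem _ (hq' _))⟩, hQpq _ _ _ ?_⟩
          rintro ⟨rfl, rfl⟩
          simp [Q_zero' hQ] at hxS
      by_cases e2 : i = l₂
      · subst e2
        obtain ⟨α, β, γ, δ, rfl, hcase⟩ := hshape _ x hi hxS
        obtain ⟨c1, c2⟩ := hcoef l₂ α β γ δ
        obtain ⟨c3, c4⟩ := hl2 hi
        rw [had, hbd, pol_add_right hQ, pol_add_right hQ, c1, c2, c3, c4, zero_add, zero_add]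
        rcases hcase with ⟨rfl, rfl⟩ | ⟨rfl, rfl⟩
        · simpa using (⟨⟨l₂, by simpa using hi⟩, by simpa using hxS⟩ : _ ∧ _)
        · have e2 : (α • p l₂ + β • q l₂ + (0 : F) • r l₂ + (0 : F) • s l₂) + β • (q l₁ + q l₂) + α • (p l₁ + p l₂)
              = α • p l₁ + β • q l₁ := by
            have e3 : (α • p l₂ + β • q l₂ + (0 : F) • r l₂ + (0 : F) • s l₂) + β • (q l₁ + q l₂) + α • (p l₁ + p l₂)
                = α • p l₁ + β • q l₁ + (α • p l₂ + α • p l₂) + (β • q l₂ + β • q l₂) := by (module)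
            rw [e3, h2v, h2v, add_zero, add_zero]
          rw [e2]
          refine ⟨⟨l₁, (D l₁).add_mem ((D l₁).smul_mem _ (hp _)) ((D l₁).smul_mem _ (hq' _))⟩, hQpq _ _ _ ?_⟩
          rintro ⟨rfl, rfl⟩
          simp [Q_zero' hQ] at hxS
      · have e3 : f x a = 0 := by
          rw [had, pol_add_right hQ, horth e1 hi (hp _), horth e2 hi (hp _), add_zero]
        have e4 : f x b = 0 := by
          rw [hbd, pol_add_right hQ, horth e1 hi (hq' _), horth e2 hi (hq' _), add_zero]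
        rw [e3, e4]
        simpa using (⟨⟨i, hi⟩, hxS⟩ : _ ∧ _)
    · intro hh
      obtain ⟨σ, hσ⟩ := act_mem_of_stabD hh
      have huniq : ∀ {i j : Fin t} {y : V}, y ∈ D i → y ∈ D j → y ≠ 0 → i = j := by
        intro i j y hi hj h0
        by_contra hij
        have h3 := hD.decomp.indep.pairwiseDisjoint hij
        exact h0 ((Submodule.disjoint_def.1 h3) y hi hj)
      have e1 := hσ l₁ _ (hp l₁)
      have e2 := hσ l₁ _ (hr l₁)
      rw [hact] at e1 e2
      have v1 : f (p l₁) a = 0 := by rw [had, pol_add_right hQ, ppa, (hl1 (hp _)).1, add_zero]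
      have v2 : f (p l₁) b = 1 := by rw [hbd, pol_add_right hQ, hpq, (hl1 (hp _)).2, add_zero]
      have v3 : f (r l₁) a = 0 := by rw [had, pol_add_right hQ, rp, (hl1 (hr _)).1, add_zero]
      have v4 : f (r l₁) b = 0 := by rw [hbd, pol_add_right hQ, rq, (hl1 (hr _)).2, add_zero]
      rw [v1, v2, zero_smul, add_zero, one_smul, had, ← add_assoc, h2v, zero_add] at e1
      rw [v3, v4, zero_smul, zero_smul, add_zero, add_zero] at e2
      have hne : ∀ {u : V}, Q u = 1 → u ≠ 0 := fun {u} hu h => by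
        rw [h, Q_zero' hQ] at hu
        exact zero_ne_one hu
      have e3 := huniq e1 (hp l₂) (hne (hQp _))
      have e4 := huniq e2 (hr l₁) (hne (hQr _))
      exact n12 (e4.symm.trans e3)

end Cfsg.Agent.Lib.Geo
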