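import Mathlib
import Cfsg.Agent.Lib.Geo.OmegaTools

set_option autoImplicit false

/-! The stabilizer in `Ω` of a nonsingular line is maximal. -/

namespace Cfsg.Agent.Lib.Geo

open scoped MatrixGroups Matrix commutatorElement
open Module

variable {ι : Type} [Fintype ι] [DecidableEq ι] {F : Type*} [Field F] [Fintype F]

local notation "V" => (ι → F)

variable {Q : (ι → F) → F} (hQ : Cfsg.Geo.IsNondegenerateQuadraticForm Q)

local notation "f" => QuadraticMap.polar Q

include hQ in
theorem isMaximalIn_omega_stab_line (hn : 13 ≤ Fintype.card ι) {v : V} (hv : Q v ≠ 0) :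
    Cfsg.Geo.IsMaximalIn (Cfsg.Geo.omegaGL Q)
      (Cfsg.Geo.subspaceStabilizer (Submodule.span F {v}) ⊓ Cfsg.Geo.omegaGL Q) := by
  set hf := sform_of_quad hQ with hhf
  have hn9 : 9 ≤ Fintype.card ι := by omega
  have hv0 : v ≠ 0 := by
    rintro rfl
    exact hv (Q_zero' hQ)
  have hstab : ∀ {g : GL ι F}, act g v = v → g ∈ Cfsg.Geo.subspaceStabilizer (Submodule.span F {v}) := by
    intro g hg
    refine mem_stab_of_forall fun x hx => ?_
    obtain ⟨c, rfl⟩ := Submodule.mem_span_singleton.1 hx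
    rw [map_smul, hg]
    exact hx
  have hH : ∀ {a w : V}, Q a = 0 → f a w = 0 → f v a = 0 → f v w = 0 →
      sg hQ a w ∈ Cfsg.Geo.subspaceStabilizer (Submodule.span F {v}) ⊓ Cfsg.Geo.omegaGL Q := by
    intro a w ha haw h1 h2
    exact ⟨hstab (sg_fix ha haw h1 h2), sg_mem_omega hQ hn9 ha haw⟩
  refine ⟨lt_of_le_of_ne inf_le_right ?_, ?_⟩
  · intro heq
    obtain ⟨a, ha, hav, -⟩ := exists_singular_nonorth hQ hn9 hv0 hv0
    obtain ⟨w, hw, hw0, hQw⟩ := hiso_quad hQ (cutL [hf.lf a, hf.lf v]) (by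
      have := finrank_cutL [hf.lf a, hf.lf v]
      simp only [List.length_cons, List.length_nil] at this
      omega)
    rw [mem_cutL] at hw
    have h1 : f w a = 0 := hw (hf.lf a) (by simp)
    have h2 : f w v = 0 := hw (hf.lf v) (by simp)
    have haw : f a w = 0 := by rw [pol_comm']; exact h1
    have hmem := sg_mem_omega hQ hn9 ha haw
    rw [← heq] at hmem
    have h3 := (mem_stab_iff.1 hmem.1 v).1 (Submodule.mem_span_singleton_self v)
    rw [act_sg hQ ha haw, hQw, pol_comm' v w, h2, pol_comm' v a] at h3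
    simp only [zero_smul, sub_zero, zero_mul] at h3
    obtain ⟨c, hc⟩ := Submodule.mem_span_singleton.1 h3
    have h4 : w = ((c - 1) / f a v) • v := by
      have h5 : f a v • w = (c - 1) • v := by
        rw [sub_smul, hc, one_smul]
        abel
      rw [div_eq_inv_mul, mul_smul, ← h5, smul_smul, inv_mul_cancel₀ hav, one_smul]
    rw [h4, Q_smul' hQ] at hQw
    have h6 : (c - 1) / f a v = 0 := by
      by_contra hne
      exact (mul_ne_zero (mul_ne_zero hne hne) hv) hQw
    rw [h6, zero_smul] at h4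
    exact hw0 h4
  · intro M hHM hMO
    by_cases hMH : M = Cfsg.Geo.subspaceStabilizer (Submodule.span F {v}) ⊓ Cfsg.Geo.omegaGL Q
    · exact Or.inl hMH
    right
    have hMiso : M ≤ Cfsg.isometryGroup F Q := hMO.trans omega_le_iso
    obtain ⟨g, hgM, hgH⟩ : ∃ g ∈ M, g ∉ Cfsg.Geo.subspaceStabilizer (Submodule.span F {v}) ⊓ Cfsg.Geo.omegaGL Q := by
      by_contra hcon
      push Not at hcon
      exact hMH (le_antisymm hcon hHM)
    have hgS : g ∉ Cfsg.Geo.subspaceStabilizer (Submodule.span F {v}) := fun h => hgH ⟨h, hMO hgM⟩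
    have hgiso := hMiso hgM
    set v' := act g v with hv'
    have hv'n : v' ∉ Submodule.span F {v} := by
      intro h
      apply hgS
      refine mem_stab_of_forall fun x hx => ?_
      obtain ⟨c, rfl⟩ := Submodule.mem_span_singleton.1 hx
      rw [map_smul]
      exact Submodule.smul_mem _ _ h
    have hv'0 : v' ≠ 0 := by
      rw [hv']
      exact fun h => hv0 ((act g).map_eq_zero_iff.1 h)
    obtain ⟨y, hy1, hy2⟩ := exists_two_values hQ (a := v') (b := v) hv'0 (by
      intro c hc
      have hc0 : c ≠ 0 := by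
        rintro rfl
        rw [zero_smul] at hc
        exact hv0 hc
      apply hv'n
      rw [Submodule.mem_span_singleton]
      exact ⟨c⁻¹, by rw [hc, smul_smul, inv_mul_cancel₀ hc0, one_smul]⟩) 0 1
    obtain ⟨a₁, ha₁, a₂, ha₂, hQ₁, hQ₂, h12⟩ := exists_hyp_pair hQ (cutL [hf.lf v, hf.lf v']) (by
      have := finrank_cutL [hf.lf v, hf.lf v']
      simp only [List.length_cons, List.length_nil] at this
      omega)
    rw [mem_cutL] at ha₁ ha₂
    have key : ∀ a b : V, Q a = 0 → f a v = 0 → f a v' = 0 → f b a = 1 → f b v = 0 → f b v' = 0 →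
        GoodV hQ M a := by
      intro a b ha hav hav' hba hbv hbv'
      refine ⟨ha, fun w hw => ?_⟩
      set z := y - f y a • b with hz
      have hza : f z a = 0 := by
        rw [hz, pol_sub_left hQ, pol_smul_left hQ, hba]
        ring
      have hzv : f z v = 1 := by
        rw [hz, pol_sub_left hQ, pol_smul_left hQ, hbv, hy2]
        ring
      have hzv' : f z v' = 0 := by
        rw [hz, pol_sub_left hQ, pol_smul_left hQ, hbv', hy1]
        ring
      set w₂ := f w v • z with hw₂
      set w₁ := w - w₂ with hw₁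
      have haz : f a z = 0 := by rw [pol_comm']; exact hza
      have h1 : f a w₂ = 0 := by rw [hw₂, pol_smul_right hQ, haz, mul_zero]
      have h2 : f a w₁ = 0 := by rw [hw₁, pol_sub_right hQ, hw, h1, sub_zero]
      have h3 : f v w₁ = 0 := by
        rw [hw₁, pol_sub_right hQ, hw₂, pol_smul_right hQ, pol_comm' v z, hzv, pol_comm' v w]
        ring
      have h4 : sg hQ a w₁ ∈ M := hHM (hH ha h2 (by rw [pol_comm']; exact hav) h3)
      have h5 : f v' w₂ = 0 := by
        rw [hw₂, pol_smul_right hQ, pol_comm' v' z, hzv', mul_zero]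
      have h6 : sg hQ a w₂ ∈ M := by
        set a₀ := act g⁻¹ a with ha₀
        set w₀ := act g⁻¹ w₂ with hw₀
        have e1 : act g a₀ = a := act_act_inv g a
        have e2 : act g w₀ = w₂ := act_act_inv g w₂
        have hQa₀ : Q a₀ = 0 := by
          rw [← mem_iso.1 hgiso a₀, e1, ha]
        have h7 : f a₀ w₀ = 0 := by
          rw [← iso_polar hgiso a₀ w₀, e1, e2, h1]
        have h8 : f v a₀ = 0 := by
          rw [← iso_polar hgiso v a₀, e1, ← hv', pol_comm']
          exact hav'
        have h9 : f v w₀ = 0 := by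
          rw [← iso_polar hgiso v w₀, e2, ← hv']
          exact h5
        have h10 := conj_sg hQ hgiso hQa₀ h7
        rw [e1, e2] at h10
        rw [← h10]
        exact M.mul_mem (M.mul_mem hgM (hHM (hH hQa₀ h7 h8 h9))) (M.inv_mem hgM)
      have e : w = w₁ + w₂ := by rw [hw₁]; abel
      rw [e, ← sg_add hQ ha h2 h1]
      exact M.mul_mem h4 h6
    have g1 : f a₁ v = 0 := ha₁ (hf.lf v) (by simp)
    have g2 : f a₁ v' = 0 := ha₁ (hf.lf v') (by simp)
    have g3 : f a₂ v = 0 := ha₂ (hf.lf v) (by simp)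
    have g4 : f a₂ v' = 0 := ha₂ (hf.lf v') (by simp)
    have h21 : f a₂ a₁ = 1 := by rw [pol_comm']; exact h12
    have good₁ := key a₁ a₂ hQ₁ g1 g2 h21 g3 g4
    have good₂ := key a₂ a₁ hQ₂ g3 g4 h12 g1 g2
    refine le_antisymm hMO (omega_le_of_two_good hn9 hMiso good₁ good₂ ?_)
    rw [h21]
    exact one_ne_zero

end Cfsg.Agent.Lib.Geo
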