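import Mathlib
import Cfsg.Agent.Lib.Geo.OmegaPair

set_option autoImplicit false

/-! Maximality of the stabilizer of a pair of complementary totally singular subspaces of half the
dimension, when the dimension of the members is even. -/

namespace Cfsg.Agent.Lib.Geo

open scoped MatrixGroups Matrix commutatorElement
open Module

variable {ι : Type} [Fintype ι] [DecidableEq ι] {F : Type*} [Field F] [Fintype F]

local notation "V" => (ι → F)

variable {Q : (ι → F) → F}

local notation "f" => QuadraticMap.polar Q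

/-- The key construction -/
theorem omega_core_pair (hQ : Cfsg.Geo.IsNondegenerateQuadraticForm Q) {M : Subgroup (GL ι F)}
    {X Y C E : Submodule F V}
    (hX : ∀ u ∈ X, Q u = 0) (hY : ∀ u ∈ Y, Q u = 0) (hC : ∀ u ∈ C, Q u = 0) (hE' : ∀ u ∈ E, Q u = 0)
    (π : V →ₗ[F] V) (hπX : ∀ v, π v ∈ X) (hπY : ∀ v, v - π v ∈ Y)
    (hrXY : ∀ x ∈ X, ∀ y ∈ Y, f x y = 0 → sg hQ x y ∈ M)
    (hrCE : ∀ c ∈ C, ∀ e ∈ E, f c e = 0 → sg hQ c e ∈ M)
    (hE : ¬ E ≤ Y) (hrank : 3 ≤ finrank F (C.map π)) (hdim : 5 ≤ finrank F X) :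
    ∃ a ∈ X, a ≠ 0 ∧ ∃ d ∈ X, d ∉ Submodule.span F {a} ∧ sg hQ a d ∈ M := by
  classical
  set hf := sform_of_quad hQ with hhf
  have hX2 := ts_polar hX
  have hY2 := ts_polar hY
  -- the vector `d`
  obtain ⟨d, hdE, hdY⟩ := SetLike.not_le_iff_exists.1 hE
  have hdX0 : π d ≠ 0 := by
    intro h0
    apply hdY
    have := hπY d
    rwa [h0, sub_zero] at this
  have hfX : ∀ {x x' : V}, x ∈ X → f x x' = f x (x' - π x') := by
    intro x x' hx
    rw [pol_sub_right hQ, hX2 x hx _ (hπX x'), sub_zero]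
  have hfY : ∀ {y x' : V}, y ∈ Y → f x' y = f (π x') y := by
    intro y x' hy
    have := hY2 _ (hπY x') y hy
    rw [pol_sub_left hQ] at this
    exact sub_eq_zero.1 this
  -- the vector `c`
  obtain ⟨c, hcC, hcd, hcS⟩ : ∃ c ∈ C, f c d = 0 ∧ π c ∉ Submodule.span F {π d} := by
    by_contra hcon
    push Not at hcon
    have hS1 : finrank F (Submodule.span F {π d}) = 1 := finrank_span_singleton hdX0
    by_cases hall : ∀ c ∈ C, f c d = 0
    · have hle : C.map π ≤ Submodule.span F {π d} := by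
        rintro _ ⟨c, hc, rfl⟩
        exact hcon c hc (hall c hc)
      have := Submodule.finrank_mono hle
      omega
    · push Not at hall
      obtain ⟨c₀, hc₀, hc₀d⟩ := hall
      have hle : C.map π ≤ Submodule.span F {π d} ⊔ Submodule.span F {π c₀} := by
        rintro _ ⟨c, hc, rfl⟩
        have h5 : c - (f c d / f c₀ d) • c₀ ∈ C := C.sub_mem hc (C.smul_mem _ hc₀)
        have h6 := hcon _ h5 (by
          rw [pol_sub_left hQ, pol_smul_left hQ]
          field_simp
          ring)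
        rw [map_sub, map_smul] at h6
        have e : π c = (π c - (f c d / f c₀ d) • π c₀) + (f c d / f c₀ d) • π c₀ := by abel
        show π c ∈ _
        rw [e]
        exact Submodule.add_mem _ (Submodule.mem_sup_left h6)
          (Submodule.mem_sup_right (Submodule.smul_mem _ _ (Submodule.mem_span_singleton_self _)))
      have h7 := Submodule.finrank_mono hle
      have h8 := Submodule.finrank_add_le_finrank_add_finrank (Submodule.span F {π d}) (Submodule.span F {π c₀})
      have h9 : finrank F (Submodule.span F {π c₀}) ≤ 1 := finrank_span_le_card _ |>.trans (by simp)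
      omega
  -- the vector `a`
  set S : Submodule F V := Submodule.span F {π d} ⊔ Submodule.span F {π c} with hS
  have hSf : finrank F S ≤ 2 := by
    have h8 := Submodule.finrank_add_le_finrank_add_finrank (Submodule.span F {π d}) (Submodule.span F {π c})
    rw [← hS] at h8
    have h9 : finrank F (Submodule.span F {π c}) ≤ 1 := finrank_span_le_card _ |>.trans (by simp)
    have h10 : finrank F (Submodule.span F {π d}) ≤ 1 := finrank_span_le_card _ |>.trans (by simp)
    omega
  have hcutf : ∀ (Λ : List (Dual F V)), finrank F X ≤ finrank F ↥(X ⊓ cutL Λ) + Λ.length := by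
    intro Λ
    have h1 := finrank_cutL Λ
    have h2 := Submodule.finrank_sup_add_finrank_inf_eq X (cutL Λ)
    have h3 : finrank F ↥(X ⊔ cutL Λ) ≤ finrank F V := Submodule.finrank_le _
    have hV : finrank F V = Fintype.card ι := by simp
    omega
  obtain ⟨a, ha, haS⟩ : ∃ a ∈ X ⊓ cutL [hf.lf (d - π d), hf.lf (c - π c)], a ∉ S := by
    by_contra hcon
    push Not at hcon
    have hle : X ⊓ cutL [hf.lf (d - π d), hf.lf (c - π c)] ≤ S := hcon
    have h3 := Submodule.finrank_mono hle
    have h4 := hcutf [hf.lf (d - π d), hf.lf (c - π c)]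
    simp only [List.length_cons, List.length_nil] at h4
    omega
  have haX : a ∈ X := ha.1
  have hacut := mem_cutL.1 ha.2
  have had : f a d = 0 := by
    rw [hfX haX]
    exact hacut (hf.lf (d - π d)) (by simp)
  have hac : f a c = 0 := by
    rw [hfX haX]
    exact hacut (hf.lf (c - π c)) (by simp)
  have ha0 : a ≠ 0 := by
    rintro rfl
    exact haS S.zero_mem
  have hcS' : π c ∉ Submodule.span F {a} ⊔ Submodule.span F {π d} := by
    intro hin
    obtain ⟨p, hp, q, hq, hpq⟩ := Submodule.mem_sup.1 hin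
    obtain ⟨α, rfl⟩ := Submodule.mem_span_singleton.1 hp
    by_cases hα : α = 0
    · apply hcS
      rw [hα, zero_smul, zero_add] at hpq
      rwa [← hpq]
    · apply haS
      have e : a = α⁻¹ • (π c + (-1 : F) • q) := by
        rw [← hpq]
        simp [smul_smul, hα]
      rw [e]
      refine S.smul_mem _ (S.add_mem (Submodule.mem_sup_right (Submodule.mem_span_singleton_self _))
        (S.smul_mem _ (Submodule.mem_sup_left hq)))
  obtain ⟨φ, hφ1, hφ2⟩ := exists_dual_of_notMem hcS'
  obtain ⟨b, hbY, hb⟩ := exists_rep_on hf hX2 π hπX hπY φ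
  have hab : f a b = 0 := by
    rw [hb a haX]
    exact hφ2 a (Submodule.mem_sup_left (Submodule.mem_span_singleton_self _))
  have hdb : f (π d) b = 0 := by
    rw [hb _ (hπX d)]
    exact hφ2 _ (Submodule.mem_sup_right (Submodule.mem_span_singleton_self _))
  have hcb : f c b = 1 := by
    rw [hfY hbY, hb _ (hπX c), hφ1]
  have hbc : f b c = 1 := by
    rw [pol_comm', hcb]
  have hbd : f b d = 0 := by
    rw [pol_comm', hfY hbY]
    exact hdb
  -- first commutator
  have hh := hrXY a haX b hbY hab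
  have hk := hrCE c hcC d hdE hcd
  have hcomm := comm_sg hQ (hX a haX) (hY b hbY) (hC c hcC) (hE' d hdE) hab hcd hac had hbd
  have hmem : sg hQ a ((- f b c) • d) ∈ M := by
    rw [← hcomm, commutatorElement_def]
    exact M.mul_mem (M.mul_mem (M.mul_mem hh hk) (M.inv_mem hh)) (M.inv_mem hk)
  rw [hbc] at hmem
  have haa : Q a = 0 := hX a haX
  have hπd : π d ∉ Submodule.span F {a} := by
    intro hin
    obtain ⟨α, hα⟩ := Submodule.mem_span_singleton.1 hin
    have hα0 : α ≠ 0 := by
      rintro rfl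
      rw [zero_smul] at hα
      exact hdX0 hα.symm
    apply haS
    have e : a = α⁻¹ • π d := by
      rw [← hα, smul_smul, inv_mul_cancel₀ hα0, one_smul]
    rw [e]
    exact S.smul_mem _ (Submodule.mem_sup_left (Submodule.mem_span_singleton_self _))
  have h1 : f a (π d) = 0 := hX2 a haX _ (hπX d)
  have h2 : f a (d - π d) = 0 := by rw [pol_sub_right hQ, had, h1, sub_zero]
  refine ⟨a, haX, ha0, (-1 : F) • π d, X.smul_mem _ (hπX d), ?_, ?_⟩
  · intro hin
    apply hπd
    have e : π d = (-1 : F) • ((-1 : F) • π d) := by simp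
    rw [e]
    exact Submodule.smul_mem _ _ hin
  · have h3 : sg hQ a ((-1 : F) • π d) * sg hQ a ((-1 : F) • (d - π d)) = sg hQ a ((-1 : F) • d) := by
      rw [sg_add hQ haa (by rw [pol_smul_right hQ, h1, mul_zero]) (by rw [pol_smul_right hQ, h2, mul_zero])]
      congr 1
      (module)
    have h4 : sg hQ a ((-1 : F) • (d - π d)) ∈ M :=
      hrXY a haX _ (Y.smul_mem _ (hπY d)) (by rw [pol_smul_right hQ, h2, mul_zero])
    rw [eq_mul_inv_of_mul_eq h3]
    exact M.mul_mem hmem (M.inv_mem h4)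

section Trans

variable (hQ : Cfsg.Geo.IsNondegenerateQuadraticForm Q) {M : Subgroup (GL ι F)}

/-- The situation on one side: all Siegel elements `sg x y` with `x` in `X` and `y` in `Y`, orthogonal,
lie in `M`, which is made of isometries. -/
theorem good_of_one {X Y : Submodule F V} (hX : ∀ u ∈ X, Q u = 0) (hY : ∀ u ∈ Y, Q u = 0)
    (hM : M ≤ Cfsg.isometryGroup F Q)
    (hrep : ∀ φ : Dual F V, ∃ b ∈ Y, ∀ x ∈ X, f x b = φ x)
    (hr : ∀ x ∈ X, ∀ y ∈ Y, f x y = 0 → sg hQ x y ∈ M)
    (hdim : 3 ≤ finrank F X)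
    {u v : V} (hu : u ∈ X) (hv : v ∈ X) (huv : v ∉ Submodule.span F {u}) (hmem : sg hQ u v ∈ M) :
    ∀ w ∈ X, sg hQ u w ∈ M := by
  classical
  have hX2 := ts_polar hX
  have hY2 := ts_polar hY
  -- the basic step
  have step : ∀ v' ∈ X, sg hQ u v' ∈ M → ∀ c ∈ X, v' ∉ Submodule.span F {u} ⊔ Submodule.span F {c} →
      sg hQ u c ∈ M := by
    intro v' hv' hm c hc hnot
    obtain ⟨φ, hφ1, hφ2⟩ := exists_dual_of_notMem hnot
    obtain ⟨y, hy, hyφ⟩ := hrep ((-1 : F) • φ)
    have h1 : f u y = 0 := by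
      rw [hyφ u hu, LinearMap.smul_apply, hφ2 u (Submodule.mem_sup_left (Submodule.mem_span_singleton_self _)),
        smul_zero]
    have h2 : f c y = 0 := by
      rw [hyφ c hc, LinearMap.smul_apply, hφ2 c (Submodule.mem_sup_right (Submodule.mem_span_singleton_self _)),
        smul_zero]
    have h3 : f v' y = -1 := by
      rw [hyφ v' hv', LinearMap.smul_apply, hφ1]
      simp
    have hT := hr c hc y hy h2
    have hcq := hX c hc
    have hTu : act (sg hQ c y) u = u := by
      rw [act_sg_orth hQ hcq h2 (hX2 u hu c hc), h1]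
      simp
    have hTv : act (sg hQ c y) v' = v' + c := by
      rw [act_sg_orth hQ hcq h2 (hX2 v' hv' c hc), h3]
      simp
    have h4 := conj_sg hQ (hM hT) (hX u hu) (hX2 u hu v' hv')
    rw [hTu, hTv, ← sg_add hQ (hX u hu) (hX2 u hu v' hv') (hX2 u hu c hc)] at h4
    have h5 : sg hQ u v' * sg hQ u c ∈ M := by
      rw [← h4]
      exact M.mul_mem (M.mul_mem hT hm) (M.inv_mem hT)
    have := M.mul_mem (M.inv_mem hm) h5
    rwa [inv_mul_cancel_left] at this
  intro w hw
  by_cases hvw : v ∈ Submodule.span F {u} ⊔ Submodule.span F {w}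
  · -- use a third vector
    obtain ⟨c₁, hc₁, hc₁S⟩ : ∃ c₁ ∈ X, c₁ ∉ Submodule.span F {u} ⊔ Submodule.span F {w} := by
      by_contra hcon
      push Not at hcon
      have hle : X ≤ Submodule.span F {u} ⊔ Submodule.span F {w} := hcon
      have h7 := Submodule.finrank_mono hle
      have h8 := Submodule.finrank_add_le_finrank_add_finrank (Submodule.span F {u}) (Submodule.span F {w})
      have h9 : finrank F (Submodule.span F {w}) ≤ 1 := finrank_span_le_card _ |>.trans (by simp)
      have h10 : finrank F (Submodule.span F {u}) ≤ 1 := finrank_span_le_card _ |>.trans (by simp)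
      omega
    have hc₁' : v ∉ Submodule.span F {u} ⊔ Submodule.span F {c₁} := by
      intro hin
      obtain ⟨p, hp, q, hq, hpq⟩ := Submodule.mem_sup.1 hin
      obtain ⟨β, rfl⟩ := Submodule.mem_span_singleton.1 hq
      by_cases hβ : β = 0
      · apply huv
        rw [hβ, zero_smul, add_zero] at hpq
        rwa [← hpq]
      · apply hc₁S
        have e : c₁ = β⁻¹ • (v + (-1 : F) • p) := by
          rw [← hpq]
          simp [smul_smul, hβ]
        rw [e]
        exact Submodule.smul_mem _ _ (Submodule.add_mem _ hvw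
          (Submodule.smul_mem _ _ (Submodule.mem_sup_left hp)))
    have h1 := step v hv hmem c₁ hc₁ hc₁'
    refine step c₁ hc₁ h1 w hw ?_
    exact hc₁S
  · exact step v hv hmem w hw hvw

/-- Moving the centre around. -/
theorem good_trans1 {X Y : Submodule F V} (hX : ∀ u ∈ X, Q u = 0) (hY : ∀ u ∈ Y, Q u = 0)
    (hM : M ≤ Cfsg.isometryGroup F Q)
    (hrep : ∀ φ : Dual F V, ∃ b ∈ Y, ∀ x ∈ X, f x b = φ x)
    (hr : ∀ x ∈ X, ∀ y ∈ Y, f x y = 0 → sg hQ x y ∈ M)
    {a a' : V} (ha : a ∈ X) (ha' : a' ∈ X) (ha0 : a ≠ 0)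
    (hind : a' ∉ Submodule.span F {a}) (hG : ∀ w ∈ X, sg hQ a w ∈ M) : ∀ w ∈ X, sg hQ a' w ∈ M := by
  classical
  have hX2 := ts_polar hX
  have hY2 := ts_polar hY
  have ha0' : a ∉ Submodule.span F {a' - a} := by
    intro hin
    obtain ⟨α, hα⟩ := Submodule.mem_span_singleton.1 hin
    have hα0 : α ≠ 0 := by
      rintro rfl
      rw [zero_smul] at hα
      exact ha0 hα.symm
    apply hind
    rw [Submodule.mem_span_singleton]
    refine ⟨1 + α⁻¹, ?_⟩
    have h5 : a' - a = α⁻¹ • a := by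
      conv_rhs => rw [← hα]
      rw [smul_smul, inv_mul_cancel₀ hα0, one_smul]
    rw [add_smul, one_smul, ← h5]
    abel
  obtain ⟨φ, hφ1, hφ2⟩ := exists_dual_of_notMem ha0'
  obtain ⟨y, hy, hyφ⟩ := hrep ((-1 : F) • φ)
  have hp : a' - a ∈ X := X.sub_mem ha' ha
  have hpy : f (a' - a) y = 0 := by
    rw [hyφ _ hp, LinearMap.smul_apply, hφ2 _ (Submodule.mem_span_singleton_self _), smul_zero]
  have hay : f a y = -1 := by
    rw [hyφ a ha, LinearMap.smul_apply, hφ1]
    simp
  have hT := hr _ hp y hy hpy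
  have hqp := hX _ hp
  have hTa : act (sg hQ (a' - a) y) a = a' := by
    rw [act_sg_orth hQ hqp hpy (hX2 a ha _ hp), hay]
    simp
  intro w hw
  have hTinv : (sg hQ (a' - a) y)⁻¹ = sg hQ (a' - a) (-y) := sg_inv hQ hqp hpy
  have hw' : act (sg hQ (a' - a) y)⁻¹ w ∈ X := by
    rw [hTinv, act_sg_orth hQ hqp (by rw [pol_neg_right hQ, hpy, neg_zero]) (hX2 w hw _ hp)]
    exact X.sub_mem hw (X.smul_mem _ hp)
  have h4 := conj_sg hQ (hM hT) (hX a ha) (hX2 a ha _ hw')
  rw [hTa, act_act_inv] at h4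
  rw [← h4]
  exact M.mul_mem (M.mul_mem hT (hG _ hw')) (M.inv_mem hT)

theorem good_trans {X Y : Submodule F V} (hX : ∀ u ∈ X, Q u = 0) (hY : ∀ u ∈ Y, Q u = 0)
    (hM : M ≤ Cfsg.isometryGroup F Q)
    (hrep : ∀ φ : Dual F V, ∃ b ∈ Y, ∀ x ∈ X, f x b = φ x)
    (hr : ∀ x ∈ X, ∀ y ∈ Y, f x y = 0 → sg hQ x y ∈ M)
    (hdim : 2 ≤ finrank F X)
    {a a' : V} (ha : a ∈ X) (ha' : a' ∈ X) (ha0 : a ≠ 0)
    (hG : ∀ w ∈ X, sg hQ a w ∈ M) : ∀ w ∈ X, sg hQ a' w ∈ M := by
  classical
  by_cases ha'0 : a' = 0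
  · subst ha'0
    intro w _
    have : sg hQ (0 : V) w = 1 := by
      apply Cfsg.Agent.Lib.Geo.act.injective
      ext1 x
      rw [act_sg hQ (Q_zero' hQ) (pol_zero_left hQ w), pol_zero_right hQ, map_one]
      simp
    rw [this]
    exact M.one_mem
  by_cases hspan : a' ∈ Submodule.span F {a}
  · obtain ⟨a'', ha'', ha''S⟩ : ∃ a'' ∈ X, a'' ∉ Submodule.span F {a} := by
      by_contra hcon
      push Not at hcon
      have h5 : X ≤ Submodule.span F {a} := hcon
      have h6 := Submodule.finrank_mono h5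
      rw [finrank_span_singleton ha0] at h6
      omega
    have h5 := good_trans1 hQ hX hY hM hrep hr ha ha'' ha0 ha''S hG
    have ha''0 : a'' ≠ 0 := by
      rintro rfl
      exact ha''S (Submodule.zero_mem _)
    refine good_trans1 hQ hX hY hM hrep hr ha'' ha' ha''0 ?_ h5
    intro hin
    obtain ⟨β, hβ⟩ := Submodule.mem_span_singleton.1 hin
    obtain ⟨α, hα⟩ := Submodule.mem_span_singleton.1 hspan
    have hβ0 : β ≠ 0 := by
      rintro rfl
      rw [zero_smul] at hβ
      exact ha'0 hβ.symm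
    apply ha''S
    rw [Submodule.mem_span_singleton]
    refine ⟨β⁻¹ * α, ?_⟩
    rw [mul_smul, hα, ← hβ, smul_smul, inv_mul_cancel₀ hβ0, one_smul]
  · exact good_trans1 hQ hX hY hM hrep hr ha ha' ha0 hspan hG

end Trans

variable {k : ℕ}

/-- the group generated by `H` and anything else contains all of `Ω`; no swap yet. -/
theorem isMaximalIn_omega_pair_ts (hQ : Cfsg.Geo.IsNondegenerateQuadraticForm Q) (hn : 13 ≤ Fintype.card ι)
    {D : Fin 2 → Submodule F V} (hD : Cfsg.Geo.IsMDecomposition k D) (hk2 : 2 * k = Fintype.card ι)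
    (hke : Even k) (hts : ∀ i, ∀ u ∈ D i, Q u = 0) :
    Cfsg.Geo.IsMaximalIn (Cfsg.Geo.omegaGL Q) (Cfsg.Geo.decompositionStabilizer D ⊓ Cfsg.Geo.omegaGL Q) := by
  classical
  have hn9 : 9 ≤ Fintype.card ι := by omega
  set hf := sform_of_quad hQ with hhf
  have hts2 : ∀ i, ∀ u ∈ D i, ∀ v ∈ D i, f u v = 0 := fun i => ts_polar (hts i)
  obtain ⟨π, h1, h2, h3, h4⟩ := exists_proj hD.indep hD.iSup_eq_top
  have hsum : ∀ x, π 0 x + π 1 x = x := fun x => by
    have := h4 x
    rwa [Fin.sum_univ_two] at this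
  have hk := hD.finrank_eq
  have hother : ∀ l l' : Fin 2, l ≠ l' → ∀ p : Fin 2, p ≠ l → p = l' := by decide
  have hπ' : ∀ l l' : Fin 2, l ≠ l' → ∀ x, π l x + π l' x = x := by
    intro l l' hll' x
    have := hsum x
    fin_cases l <;> fin_cases l' <;> first | exact absurd rfl hll' | simpa [add_comm] using this
  have hπY : ∀ l l' : Fin 2, l ≠ l' → ∀ x, x - π l x ∈ D l' := by
    intro l l' hll' x
    have : x - π l x = π l' x := by
      rw [sub_eq_iff_eq_add, add_comm, hπ' l l' hll' x]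
    rw [this]
    exact h1 l' x
  have hrep : ∀ l l' : Fin 2, l ≠ l' → ∀ φ : Dual F V, ∃ b ∈ D l', ∀ x ∈ D l, f x b = φ x :=
    fun l l' hll' φ => exists_rep_on hf (hts2 l) (π l) (h1 l) (hπY l l' hll') φ
  have hne : ∀ i, ∃ x ∈ D i, x ≠ 0 := by
    intro i
    have : D i ≠ ⊥ := by
      intro h0
      have := hk i
      rw [h0] at this
      simp at this
      omega
    exact Submodule.exists_mem_ne_zero_of_ne_bot this
  have hkge : 7 ≤ k := by omega
  have hrH : ∀ l l' : Fin 2, l ≠ l' → ∀ x ∈ D l, ∀ y ∈ D l', f x y = 0 →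
      sg hQ x y ∈ Cfsg.Geo.decompositionStabilizer D ⊓ Cfsg.Geo.omegaGL Q := by
    intro l l' hll' x hx y hy hxy
    refine ⟨mem_stabD_of hk 1 fun p z hz => ?_, sg_mem_omega hQ hn9 (hts l x hx) hxy⟩
    rw [act_sg hQ (hts l x hx) hxy, hts l' y hy, zero_mul, zero_smul, sub_zero]
    by_cases hp : p = l
    · subst hp
      rw [hts2 p z hz x hx, zero_smul, add_zero]
      exact (D p).sub_mem hz ((D p).smul_mem _ hx)
    · have hp' := hother l l' hll' p hp
      subst hp'
      rw [hts2 p z hz y hy, zero_smul, sub_zero]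
      exact (D p).add_mem hz ((D p).smul_mem _ hy)
  constructor
  · rw [SetLike.lt_iff_le_and_exists]
    refine ⟨inf_le_right, ?_⟩
    obtain ⟨a, ha, ha0⟩ := hne 0
    obtain ⟨a', ha', ha'S⟩ : ∃ a' ∈ D 0, a' ∉ Submodule.span F {a} := by
      by_contra hcon
      push Not at hcon
      have h5 : D 0 ≤ Submodule.span F {a} := hcon
      have h6 := Submodule.finrank_mono h5
      rw [hk, finrank_span_singleton ha0] at h6
      omega
    have ha'0 : a' ≠ 0 := by
      rintro rfl
      exact ha'S (Submodule.zero_mem _)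
    have haS : a ∉ Submodule.span F {a'} := by
      intro hin
      obtain ⟨β, hβ⟩ := Submodule.mem_span_singleton.1 hin
      have hβ0 : β ≠ 0 := by
        rintro rfl
        rw [zero_smul] at hβ
        exact ha0 hβ.symm
      apply ha'S
      rw [Submodule.mem_span_singleton]
      refine ⟨β⁻¹, ?_⟩
      rw [← hβ, smul_smul, inv_mul_cancel₀ hβ0, one_smul]
    obtain ⟨φ, hφ1, hφ2⟩ := exists_dual_of_notMem haS
    obtain ⟨b, hb, hbφ⟩ := hrep 0 1 (by decide) φ
    have hab : f a b = 1 := by rw [hbφ a ha, hφ1]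
    have ha'b : f a' b = 0 := by
      rw [hbφ a' ha']
      exact hφ2 _ (Submodule.mem_span_singleton_self _)
    have haa' : f a a' = 0 := hts2 0 a ha a' ha'
    refine ⟨sg hQ a a', sg_mem_omega hQ hn9 (hts 0 a ha) haa', fun hmem => ?_⟩
    obtain ⟨τ, hτ⟩ := act_mem_of_stabD hmem.1
    have h5 := hτ 1 b hb
    rw [act_sg hQ (hts 0 a ha) haa', pol_comm' b a, hab, pol_comm' b a', ha'b, hts 0 a' ha'] at h5
    simp only [one_smul, zero_smul, zero_mul, sub_zero] at h5
    have hb0 : b ≠ 0 := by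
      rintro rfl
      rw [pol_zero_right hQ] at hab
      exact zero_ne_one hab
    by_cases hs : τ 1 = 0
    · rw [hs] at h5
      have h6 := h3 1 0 (by decide) _ h5
      rw [map_add, h2 1 b hb, h3 1 0 (by decide) a' ha', add_zero] at h6
      exact hb0 h6
    · have hs' : τ 1 = 1 := hother 0 1 (by decide) _ hs
      rw [hs'] at h5
      have h6 := h3 0 1 (by decide) _ h5
      rw [map_add, h3 0 1 (by decide) b hb, h2 0 a' ha', zero_add] at h6
      exact ha'0 h6
  · intro M hM1 hM2
    by_cases hMH : M = Cfsg.Geo.decompositionStabilizer D ⊓ Cfsg.Geo.omegaGL Q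
    · exact Or.inl hMH
    right
    obtain ⟨g, hgM, hgH⟩ : ∃ g ∈ M, g ∉ Cfsg.Geo.decompositionStabilizer D ⊓ Cfsg.Geo.omegaGL Q := by
      by_contra hcon
      push Not at hcon
      exact hMH (le_antisymm hcon hM1)
    have hgS : g ∉ Cfsg.Geo.decompositionStabilizer D := fun h => hgH ⟨h, hM2 hgM⟩
    have hMU : M ≤ Cfsg.isometryGroup F Q := hM2.trans omega_le_iso
    have hrM : ∀ l l' : Fin 2, l ≠ l' → ∀ x ∈ D l, ∀ y ∈ D l', f x y = 0 → sg hQ x y ∈ M :=
      fun l l' hll' x hx y hy hxy => hM1 (hrH l l' hll' x hx y hy hxy)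
    -- the images
    let G : V →ₗ[F] V := ((act g : V ≃ₗ[F] V) : V →ₗ[F] V)
    have hGg : ∀ x, G x = act g x := fun _ => rfl
    have hgu := hMU hgM
    have hrG : ∀ l l' : Fin 2, l ≠ l' → ∀ c ∈ (D l).map G, ∀ e ∈ (D l').map G, f c e = 0 → sg hQ c e ∈ M := by
      rintro l l' hll' _ ⟨u, hu, rfl⟩ _ ⟨w, hw, rfl⟩ hce
      rw [hGg, hGg] at hce ⊢
      rw [iso_polar hgu] at hce
      rw [← conj_sg hQ hgu (hts l u hu) hce]
      exact M.mul_mem (M.mul_mem hgM (hrM l l' hll' u hu w hw hce)) (M.inv_mem hgM)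
    have htsG : ∀ l, ∀ u ∈ (D l).map G, Q u = 0 := by
      rintro l _ ⟨u, hu, rfl⟩
      rw [hGg, mem_iso.1 hgu]
      exact hts l u hu
    have hfrk : ∀ l, finrank F ((D l).map G) = k := by
      intro l
      exact (LinearEquiv.finrank_map_eq (act g) (D l)).trans (hk l)
    have hsup : (D 0).map G ⊔ (D 1).map G = ⊤ := by
      rw [← Submodule.map_sup]
      have h5 : D 0 ⊔ D 1 = ⊤ := by
        rw [eq_top_iff]
        intro x _
        rw [← hsum x]
        exact Submodule.add_mem _ (Submodule.mem_sup_left (h1 0 x)) (Submodule.mem_sup_right (h1 1 x))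
      rw [h5, Submodule.map_top]
      exact LinearMap.range_eq_top.2 (act g).surjective
    have hnot1 : ¬ ((D 0).map G = D 0 ∧ (D 1).map G = D 1) := by
      rintro ⟨h5, h6⟩
      apply hgS
      refine mem_stabD_of hk 1 fun l x hx => ?_
      rw [← hGg]
      fin_cases l
      · show G x ∈ D 0
        rw [← h5]
        exact ⟨x, hx, rfl⟩
      · show G x ∈ D 1
        rw [← h6]
        exact ⟨x, hx, rfl⟩
    have hnot2 : ¬ ((D 0).map G = D 1 ∧ (D 1).map G = D 0) := by
      rintro ⟨h5, h6⟩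
      apply hgS
      refine mem_stabD_of hk (Equiv.swap 0 1) fun l x hx => ?_
      rw [← hGg]
      fin_cases l
      · show G x ∈ D (Equiv.swap 0 1 0)
        rw [Equiv.swap_apply_left, ← h5]
        exact ⟨x, hx, rfl⟩
      · show G x ∈ D (Equiv.swap 0 1 1)
        rw [Equiv.swap_apply_right, ← h6]
        exact ⟨x, hx, rfl⟩
    have hmaple : ∀ {A : Submodule F V} {l : Fin 2}, finrank F A = k → A ≤ D l → A = D l := by
      intro A l h5 h6
      exact Submodule.eq_of_le_of_finrank_eq h6 (by rw [h5, hk])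
    have hmapid : ∀ l : Fin 2, finrank F ((D l).map (π l)) = k := by
      intro l
      have : (D l).map (π l) = D l := by
        apply le_antisymm
        · rintro _ ⟨x, _, rfl⟩
          exact h1 l x
        · intro x hx
          exact ⟨x, hx, h2 l x hx⟩
      rw [this, hk]
    have step : ∀ (l l' : Fin 2) (hll' : l ≠ l') (p p' : Fin 2) (hpp' : p ≠ p'),
        ¬ ((D p').map G ≤ D l') → 3 ≤ finrank F (((D p).map G).map (π l)) →
        ∃ a ∈ D l, a ≠ 0 ∧ ∃ d ∈ D l, d ∉ Submodule.span F {a} ∧ sg hQ a d ∈ M := by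
      intro l l' hll' p p' hpp' hE hr
      exact omega_core_pair hQ (hts l) (hts l') (htsG p) (htsG p') (π l) (h1 l) (hπY l l' hll') (hrM l l' hll')
        (hrG p p' hpp') hE hr (by rw [hk]; omega)
    have hfirst : ∃ l, ∃ a ∈ D l, a ≠ 0 ∧ ∃ d ∈ D l, d ∉ Submodule.span F {a} ∧ sg hQ a d ∈ M := by
      have hdich : 3 ≤ finrank F (((D 0).map G).map (π 0)) ∨ 3 ≤ finrank F (((D 1).map G).map (π 0)) := by
        by_contra hcon
        push Not at hcon
        have h5 : D 0 ≤ ((D 0).map G).map (π 0) ⊔ ((D 1).map G).map (π 0) := by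
          rw [← Submodule.map_sup, hsup, Submodule.map_top]
          intro x hx
          exact ⟨x, h2 0 x hx⟩
        have h6 := Submodule.finrank_mono h5
        have h7 := Submodule.finrank_add_le_finrank_add_finrank (((D 0).map G).map (π 0)) (((D 1).map G).map (π 0))
        have h8 := hk 0
        omega
      rcases hdich with h5 | h5
      · by_cases hBW : (D 1).map G ≤ D 1
        · have h6 := hmaple (hfrk 1) hBW
          have h7 : ¬ (D 0).map G ≤ D 0 := by
            intro h8
            exact hnot1 ⟨hmaple (hfrk 0) h8, h6⟩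
          refine ⟨1, step 1 0 (by decide) 1 0 (by decide) h7 ?_⟩
          rw [h6, hmapid]
          omega
        · exact ⟨0, step 0 1 (by decide) 0 1 (by decide) hBW h5⟩
      · by_cases hAW : (D 0).map G ≤ D 1
        · have h6 := hmaple (hfrk 0) hAW
          have h7 : ¬ (D 1).map G ≤ D 0 := by
            intro h8
            exact hnot2 ⟨h6, hmaple (hfrk 1) h8⟩
          refine ⟨1, step 1 0 (by decide) 0 1 (by decide) h7 ?_⟩
          rw [h6, hmapid]
          omega
        · exact ⟨0, step 0 1 (by decide) 1 0 (by decide) hAW h5⟩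
    obtain ⟨ξ, hξ, hξ0, hξ1⟩ := exists_swap_omega hQ hn9 hD hk2 hke hts
    have hξM : ξ ∈ M := by
      apply hM1
      refine ⟨mem_stabD_of hk (Equiv.swap 0 1) fun l x hx => ?_, hξ⟩
      fin_cases l
      · simpa using hξ0 x hx
      · simpa using hξ1 x hx
    have hmemboth : ∀ l, ∀ x ∈ D l, ∀ w ∈ D l, sg hQ x w ∈ M := by
      obtain ⟨l, a, ha, ha0, d, hd, hda, hm⟩ := hfirst
      have hl' : ∃ l', l ≠ l' ∧ (∀ x ∈ D l, act ξ x ∈ D l') := by
        fin_cases l
        · exact ⟨1, by decide, hξ0⟩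
        · exact ⟨0, by decide, hξ1⟩
      obtain ⟨l', hll', hξl⟩ := hl'
      have hG1 := good_of_one hQ (hts l) (hts l') hMU (hrep l l' hll') (hrM l l' hll') (by rw [hk]; omega)
        ha hd hda hm
      have hl : ∀ x ∈ D l, ∀ w ∈ D l, sg hQ x w ∈ M := fun x hx =>
        good_trans hQ (hts l) (hts l') hMU (hrep l l' hll') (hrM l l' hll') (by rw [hk]; omega) ha hx ha0 hG1
      have hl'' : ∀ y ∈ D l', ∀ w ∈ D l', sg hQ y w ∈ M := by
        intro y hy w hw
        have h5 := map_toLin_eq hξl (by rw [hk, hk])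
        rw [← h5] at hy hw
        obtain ⟨x, hx, rfl⟩ := hy
        obtain ⟨x', hx', rfl⟩ := hw
        have hξO := hMU hξM
        have h6 := conj_sg hQ hξO (hts l x hx) (hts2 l x hx x' hx')
        have e1 : ∀ z, Matrix.toLin' (ξ : Matrix ι ι F) z = act ξ z := fun _ => rfl
        rw [e1, e1, ← h6]
        exact M.mul_mem (M.mul_mem hξM (hl x hx x' hx')) (M.inv_mem hξM)
      intro p
      by_cases hp : p = l
      · subst hp
        exact hl
      · rw [hother l l' hll' p hp]
        exact hl''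
    -- goodness
    have hgood : ∀ (l l' : Fin 2), l ≠ l' → ∀ a ∈ D l, GoodV hQ M a := by
      intro l l' hll' a ha
      refine ⟨hts l a ha, fun w hw => ?_⟩
      have h5 : f a (π l w) = 0 := hts2 l a ha _ (h1 l w)
      have h6 : f a (w - π l w) = 0 := by rw [pol_sub_right hQ, hw, h5, sub_zero]
      have h7 := sg_add hQ (hts l a ha) h5 h6
      have e : π l w + (w - π l w) = w := by abel
      rw [e] at h7
      rw [← h7]
      exact M.mul_mem (hmemboth l a ha _ (h1 l w)) (hrM l l' hll' a ha _ (hπY l l' hll' w) h6)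
    obtain ⟨a, ha, ha0⟩ := hne 0
    obtain ⟨φ, hφ1, hφ2⟩ := exists_dual_of_notMem (S := (⊥ : Submodule F V)) (u := a) (by simpa using ha0)
    obtain ⟨b, hb, hbφ⟩ := hrep 0 1 (by decide) φ
    have hab : f a b = 1 := by rw [hbφ a ha, hφ1]
    have hba : f b a = 1 := by rw [pol_comm', hab]
    refine le_antisymm hM2 (omega_le_of_two_good hn9 hMU (hgood 0 1 (by decide) a ha) (hgood 1 0 (by decide) b hb) ?_)
    rw [hba]
    exact one_ne_zero

end Cfsg.Agent.Lib.Geo
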