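import Mathlib
import Cfsg.Agent.Lib.Geo.OmegaDecomp
import Cfsg.Agent.Lib.Geo.OmegaUnitary
import Cfsg.Agent.Lib.Geo.QuadFn
import Cfsg.Agent.Lib.Classical.OrthTS

set_option autoImplicit false

/-! `Ω` preserves the two families of maximal totally singular subspaces, and two non-maximality
results that follow from it. -/

namespace Cfsg.Agent.Lib.Geo

open scoped MatrixGroups Matrix commutatorElement
open Module

variable {ι : Type} [Fintype ι] [DecidableEq ι] {F : Type*} [Field F] [Fintype F]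

local notation "V" => (ι → F)

variable {Q : (ι → F) → F}

local notation "f" => QuadraticMap.polar Q

/-- The image of a subspace under a matrix. -/
noncomputable abbrev md (g : GL ι F) (W : Submodule F (ι → F)) : Submodule F (ι → F) :=
  W.map ((act g : (ι → F) ≃ₗ[F] (ι → F)) : (ι → F) →ₗ[F] (ι → F))

theorem finrank_md (g : GL ι F) (W : Submodule F V) : finrank F (md g W) = finrank F W :=
  LinearEquiv.finrank_map_eq (act g) W

theorem md_mul (g h : GL ι F) (W : Submodule F V) : md (g * h) W = md g (md h W) := by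
  apply le_antisymm
  · rintro _ ⟨x, hx, rfl⟩
    exact ⟨_, ⟨x, hx, rfl⟩, by
      show act g (act h x) = act (g * h) x
      rw [map_mul]; rfl⟩
  · rintro _ ⟨_, ⟨x, hx, rfl⟩, rfl⟩
    exact ⟨x, hx, by
      show act (g * h) x = act g (act h x)
      rw [map_mul]; rfl⟩

theorem md_inf (g : GL ι F) (A B : Submodule F V) : md g (A ⊓ B) = md g A ⊓ md g B :=
  Submodule.map_inf _ (act g).injective

theorem md_one (W : Submodule F V) : md (1 : GL ι F) W = W := by
  apply Submodule.eq_of_le_of_finrank_eq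
  · rintro _ ⟨x, hx, rfl⟩
    simpa using hx
  · exact finrank_md 1 W

theorem ts_md {g : GL ι F} (hg : g ∈ Cfsg.isometryGroup F Q) {W : Submodule F V}
    (hW : ∀ x ∈ W, Q x = 0) : ∀ x ∈ md g W, Q x = 0 := by
  rintro _ ⟨x, hx, rfl⟩
  show Q (act g x) = 0
  rw [mem_iso.1 hg, hW x hx]

/-- The parity theorem for function-valued quadratic forms. -/
theorem parity3 (hQ : Cfsg.Geo.IsNondegenerateQuadraticForm Q) {k : ℕ} (hk : 2 * k = Fintype.card ι)
    {A B C : Submodule F V} (hA : finrank F A = k) (hB : finrank F B = k) (hC : finrank F C = k)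
    (tA : ∀ x ∈ A, Q x = 0) (tB : ∀ x ∈ B, Q x = 0) (tC : ∀ x ∈ C, Q x = 0) :
    Even ((k - finrank F ↥(A ⊓ B)) + (k - finrank F ↥(B ⊓ C)) + (k - finrank F ↥(A ⊓ C))) :=
  Cfsg.Agent.Lib.Classical.Orth.lagr_parity (Q := bundleQ hQ) (bundleQ_nondeg hQ)
    (by simp [hk]) ⟨hA, tA⟩ ⟨hB, tB⟩ ⟨hC, tC⟩

/-- The subgroup of the isometry group preserving the family of a given maximal totally singular
subspace. -/
def parityGroup (hQ : Cfsg.Geo.IsNondegenerateQuadraticForm Q) {k : ℕ} (hk : 2 * k = Fintype.card ι)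
    {W : Submodule F V} (hW : finrank F W = k) (tW : ∀ x ∈ W, Q x = 0) : Subgroup (GL ι F) where
  carrier := {g | g ∈ Cfsg.isometryGroup F Q ∧ Even (k - finrank F ↥(W ⊓ md g W))}
  mul_mem' := by
    rintro g h ⟨hg, h1⟩ ⟨hh, h2⟩
    refine ⟨mul_mem hg hh, ?_⟩
    have h3 := parity3 hQ hk hW (by rw [finrank_md]; exact hW)
      (C := md (g * h) W) (by rw [finrank_md]; exact hW) tW (ts_md hg tW) (ts_md (mul_mem hg hh) tW)
    have h4 : md g W ⊓ md (g * h) W = md g (W ⊓ md h W) := by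
      rw [md_inf, md_mul]
    rw [h4, finrank_md] at h3
    rw [Nat.even_iff] at h1 h2 h3 ⊢
    omega
  one_mem' := by
    refine ⟨one_mem _, ?_⟩
    rw [md_one, inf_idem, hW]
    simp
  inv_mem' := by
    rintro g ⟨hg, h1⟩
    refine ⟨inv_mem hg, ?_⟩
    have h4 : W ⊓ md g⁻¹ W = md g⁻¹ (md g W ⊓ W) := by
      rw [md_inf, ← md_mul, inv_mul_cancel, md_one]
    rw [h4, finrank_md, inf_comm]
    exact h1

theorem omega_even (hQ : Cfsg.Geo.IsNondegenerateQuadraticForm Q) {k : ℕ} (hk : 2 * k = Fintype.card ι)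
    {W : Submodule F V} (hW : finrank F W = k) (tW : ∀ x ∈ W, Q x = 0) {g : GL ι F}
    (hg : g ∈ Cfsg.Geo.omegaGL Q) : Even (k - finrank F ↥(W ⊓ md g W)) := by
  have h : Cfsg.Geo.omegaGL Q ≤ parityGroup hQ hk hW tW := by
    rw [omegaGL_eq, Subgroup.commutator_le]
    intro g₁ h₁ g₂ h₂
    -- a homomorphism to a group of exponent two
    have hmul : ∀ a ∈ Cfsg.isometryGroup F Q, ∀ b ∈ Cfsg.isometryGroup F Q,
        Even ((k - finrank F ↥(W ⊓ md a W)) + (k - finrank F ↥(W ⊓ md b W)) + (k - finrank F ↥(W ⊓ md (a * b) W))) := by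
      intro a ha b hb
      have h3 := parity3 hQ hk hW (by rw [finrank_md]; exact hW)
        (C := md (a * b) W) (by rw [finrank_md]; exact hW) tW (ts_md ha tW) (ts_md (mul_mem ha hb) tW)
      have h4 : md a W ⊓ md (a * b) W = md a (W ⊓ md b W) := by
        rw [md_inf, md_mul]
      rwa [h4, finrank_md] at h3
    have hinv : ∀ a : GL ι F, finrank F ↥(W ⊓ md a⁻¹ W) = finrank F ↥(W ⊓ md a W) := by
      intro a
      have h4 : W ⊓ md a⁻¹ W = md a⁻¹ (md a W ⊓ W) := by
        rw [md_inf, ← md_mul, inv_mul_cancel, md_one]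
      rw [h4, finrank_md, inf_comm]
    refine ⟨?_, ?_⟩
    · rw [commutatorElement_def]
      exact mul_mem (mul_mem (mul_mem h₁ h₂) (inv_mem h₁)) (inv_mem h₂)
    · rw [commutatorElement_def]
      have e1 := hmul g₁ h₁ g₂ h₂
      have e2 := hmul (g₁ * g₂) (mul_mem h₁ h₂) g₁⁻¹ (inv_mem h₁)
      have e3 := hmul (g₁ * g₂ * g₁⁻¹) (mul_mem (mul_mem h₁ h₂) (inv_mem h₁)) g₂⁻¹ (inv_mem h₂)
      rw [hinv] at e2 e3
      rw [Nat.even_iff] at e1 e2 e3 ⊢
      omega
  exact (h hg).2

/-- In `Ω`, the stabilizer of a subspace of codimension one in a maximal totally singular subspace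
`U` stabilizes `U`. -/
theorem omega_stab_of_hyper (hQ : Cfsg.Geo.IsNondegenerateQuadraticForm Q) {k : ℕ} (hk : 2 * k = Fintype.card ι)
    {U W : Submodule F V} (hU : finrank F U = k) (tU : ∀ x ∈ U, Q x = 0) (hWU : W ≤ U)
    (hW : finrank F W + 1 = k) {g : GL ι F} (hg : g ∈ Cfsg.Geo.omegaGL Q)
    (hgW : g ∈ Cfsg.Geo.subspaceStabilizer W) : g ∈ Cfsg.Geo.subspaceStabilizer U := by
  have h1 := omega_even hQ hk hU tU hg
  have h2 : W ≤ U ⊓ md g U := by
    intro x hx
    refine ⟨hWU hx, ?_⟩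
    refine ⟨(act g).symm x, ?_, by simp⟩
    apply hWU
    have h3 := (mem_stab_iff.1 hgW ((act g).symm x)).2
    apply h3
    simpa using hx
  have h3 := Submodule.finrank_mono h2
  have h4 := Submodule.finrank_mono (inf_le_left : U ⊓ md g U ≤ U)
  have h5 : finrank F ↥(U ⊓ md g U) = k := by
    rw [Nat.even_iff] at h1
    omega
  have h6 : U ⊓ md g U = md g U := by
    apply Submodule.eq_of_le_of_finrank_eq inf_le_right
    rw [h5, finrank_md, hU]
  have h7 : U ⊓ md g U = U := by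
    apply Submodule.eq_of_le_of_finrank_eq inf_le_left
    rw [h5, hU]
  have h8 : md g U = U := by rw [← h6, h7]
  exact stab_of_map_eq h8

/-- A totally singular subspace of dimension `k - 1` in a space with a maximal totally singular
subspace of dimension `k` lies in a maximal totally singular subspace. -/
theorem exists_lagr_over (hQ : Cfsg.Geo.IsNondegenerateQuadraticForm Q) {k : ℕ} (hk : 2 * k = Fintype.card ι)
    {U₀ W : Submodule F V} (hU₀ : finrank F U₀ = k) (tU₀ : ∀ x ∈ U₀, Q x = 0)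
    (hW : finrank F W + 1 = k) (tW : ∀ x ∈ W, Q x = 0) :
    ∃ u ∉ W, (∀ x ∈ W, f x u = 0) ∧ Q u = 0 := by
  have h1 := Cfsg.Agent.Lib.Classical.Orth.finrank_inf_orth (Q := bundleQ hQ) (bundleQ_nondeg hQ)
    (m := k) (by simp [hk]) ⟨hU₀, tU₀⟩ W
  by_contra hcon
  push Not at hcon
  have h2 : U₀ ⊓ LinearMap.BilinForm.orthogonal (QuadraticMap.polarBilin (bundleQ hQ)) W ≤ U₀ ⊓ W := by
    rintro x ⟨hx1, hx2⟩
    refine ⟨hx1, ?_⟩
    by_contra hxW
    apply hcon x hxW (fun y hy => ?_) (tU₀ x hx1)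
    exact (LinearMap.BilinForm.mem_orthogonal_iff.1 hx2) y hy
  have h3 := Submodule.finrank_mono h2
  omega

/-- The stabilizer in `Ω` of a totally singular subspace of codimension one in a maximal totally
singular subspace is not maximal. -/
theorem not_max_hyper (hQ : Cfsg.Geo.IsNondegenerateQuadraticForm Q) (hn : 13 ≤ Fintype.card ι) {k : ℕ}
    (hk : 2 * k = Fintype.card ι) {U₀ W : Submodule F V} (hU₀ : finrank F U₀ = k)
    (tU₀ : ∀ x ∈ U₀, Q x = 0) (hW : finrank F W + 1 = k) (tW : ∀ x ∈ W, Q x = 0) :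
    ∃ K : Subgroup (GL ι F), Cfsg.Geo.subspaceStabilizer W ⊓ Cfsg.Geo.omegaGL Q < K ∧
      K < Cfsg.Geo.omegaGL Q := by
  have hn9 : 9 ≤ Fintype.card ι := by omega
  obtain ⟨u, huW, hWu, hQu⟩ := exists_lagr_over hQ hk hU₀ tU₀ hW tW
  have hu0 : u ≠ 0 := by
    rintro rfl
    exact huW W.zero_mem
  obtain ⟨U, hU⟩ : ∃ U, U = W ⊔ Submodule.span F {u} := ⟨_, rfl⟩
  have hUd : finrank F U = k := by
    rw [hU, Submodule.finrank_sup_span_singleton huW]
    exact hW
  have hWU : W ≤ U := hU ▸ le_sup_left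
  have huU : u ∈ U := by
    rw [hU]
    exact Submodule.mem_sup_right (Submodule.mem_span_singleton_self u)
  have tU : ∀ x ∈ U, Q x = 0 := by
    intro x hx
    rw [hU] at hx
    obtain ⟨w, hw, y, hy, rfl⟩ := Submodule.mem_sup.1 hx
    obtain ⟨c, rfl⟩ := Submodule.mem_span_singleton.1 hy
    have e : Q (w + c • u) = Q w + Q (c • u) + f w (c • u) := by
      rw [QuadraticMap.polar]; ring
    rw [e, tW w hw, Q_smul' hQ, hQu, pol_smul_right hQ, hWu w hw]
    ring
  have pU : ∀ x ∈ U, ∀ y ∈ U, f x y = 0 := by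
    intro x hx y hy
    rw [QuadraticMap.polar, tU _ (U.add_mem hx hy), tU x hx, tU y hy]
    ring
  have hkpos : 2 ≤ k := by omega
  refine ⟨Cfsg.Geo.subspaceStabilizer U ⊓ Cfsg.Geo.omegaGL Q, ?_, ?_⟩
  · rw [SetLike.lt_iff_le_and_exists]
    constructor
    · rintro g ⟨hgW, hgΩ⟩
      exact ⟨omega_stab_of_hyper hQ hk hUd tU hWU hW hgΩ hgW, hgΩ⟩
    · -- Siegel element centred at `u`
      have hWb : W ≠ ⊥ := by
        rintro rfl
        simp at hW
        omega
      obtain ⟨x₀, hx₀, hx₀0⟩ := Submodule.exists_mem_ne_zero_of_ne_bot hWb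
      have hx₀u : x₀ ∉ Submodule.span F {u} := by
        intro h
        obtain ⟨c, rfl⟩ := Submodule.mem_span_singleton.1 h
        have hc : c ≠ 0 := by
          rintro rfl
          simp at hx₀0
        apply huW
        have : u = c⁻¹ • c • u := by rw [smul_smul, inv_mul_cancel₀ hc, one_smul]
        rw [this]
        exact W.smul_mem _ hx₀
      obtain ⟨b, hb1, hb2⟩ := exists_val hQ hx₀u
      have hub : f u b = 0 := hb2 u (Submodule.mem_span_singleton_self u)
      refine ⟨sg hQ u b, ⟨?_, sg_mem_omega hQ hn9 hQu hub⟩, ?_⟩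
      · apply mem_stab_of_forall
        intro y hy
        rw [act_sg_orth hQ hQu hub (pU y hy u huU)]
        exact U.sub_mem hy (U.smul_mem _ huU)
      · rintro ⟨h1, -⟩
        have h2 := (mem_stab_iff.1 h1 x₀).1 hx₀
        rw [act_sg_orth hQ hQu hub (pU x₀ (hWU hx₀) u huU), hb1, one_smul] at h2
        apply huW
        have : u = x₀ - (x₀ - u) := by abel
        rw [this]
        exact W.sub_mem hx₀ h2
  · rw [SetLike.lt_iff_le_and_exists]
    refine ⟨inf_le_right, ?_⟩
    obtain ⟨y, hy⟩ := (hQ.nondegenerate u hu0).1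
    obtain ⟨a, hQa, h1, -, -, -, -⟩ := solve5 hQ hn u 0 0 0 0 ((f y u)⁻¹ • y)
    rw [pol_smul_left hQ, inv_mul_cancel₀ hy] at h1
    have hua : f u a = 1 := by rw [pol_comm', h1]
    obtain ⟨b, hb, hbB⟩ := exists_perp_not hQ (Submodule.span F {a}) (U ⊔ Submodule.span F {a}) (by
      have h2 := Submodule.finrank_add_le_finrank_add_finrank U (Submodule.span F {a})
      have h3 : finrank F (Submodule.span F {a}) ≤ 1 := finrank_span_le_card _ |>.trans (by simp)
      omega)
    have hab : f a b = 0 := hb a (Submodule.mem_span_singleton_self a)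
    refine ⟨sg hQ a b, sg_mem_omega hQ hn9 hQa hab, ?_⟩
    rintro ⟨h1', -⟩
    have h2 := (mem_stab_iff.1 h1' u).1 huU
    rw [act_sg hQ hQa hab, hua, one_smul, mul_one] at h2
    apply hbB
    have : b = (u + b - f u b • a - Q b • a) - u + (f u b + Q b) • a := by (module)
    rw [this]
    apply Submodule.add_mem
    · exact Submodule.mem_sup_left (U.sub_mem h2 huU)
    · exact Submodule.mem_sup_right (Submodule.smul_mem _ _ (Submodule.mem_span_singleton_self a))

/-- Two complementary totally singular subspaces: a Siegel element centred in the first one fixes it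
and moves the second. -/
theorem exists_stab_not_stab_ts (hQ : Cfsg.Geo.IsNondegenerateQuadraticForm Q) (hn : 13 ≤ Fintype.card ι)
    {A B : Submodule F V} (tA : ∀ x ∈ A, Q x = 0) (hAB : A ⊓ B = ⊥) (hsup : A ⊔ B = ⊤)
    (tB : ∀ x ∈ B, Q x = 0) (hA : 2 ≤ finrank F A) :
    ∃ g ∈ Cfsg.Geo.omegaGL Q, g ∈ Cfsg.Geo.subspaceStabilizer A ∧ g ∉ Cfsg.Geo.subspaceStabilizer B := by
  have hn9 : 9 ≤ Fintype.card ι := by omega
  have pA : ∀ x ∈ A, ∀ y ∈ A, f x y = 0 := by
    intro x hx y hy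
    rw [QuadraticMap.polar, tA _ (A.add_mem hx hy), tA x hx, tA y hy]
    ring
  have hAb : A ≠ ⊥ := by
    rintro rfl
    simp at hA
  obtain ⟨a, haA, ha0⟩ := Submodule.exists_mem_ne_zero_of_ne_bot hAb
  have hspan : Submodule.span F {a} < A := by
    refine lt_of_le_of_ne ((Submodule.span_singleton_le_iff_mem _ _).2 haA) ?_
    intro h
    rw [← h, finrank_span_singleton ha0] at hA
    omega
  obtain ⟨b, hbA, hba⟩ := SetLike.exists_of_lt hspan
  obtain ⟨y, hy⟩ := (hQ.nondegenerate a ha0).1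
  have hy' : y ∈ A ⊔ B := by rw [hsup]; trivial
  obtain ⟨y₀, hy₀, y₁, hy₁, rfl⟩ := Submodule.mem_sup.1 hy'
  rw [pol_add_left hQ, pA y₀ hy₀ a haA, zero_add] at hy
  have hab : f a b = 0 := pA a haA b hbA
  refine ⟨sg hQ a b, sg_mem_omega hQ hn9 (tA a haA) hab, ?_, ?_⟩
  · apply mem_stab_of_forall
    intro w hw
    rw [act_sg hQ (tA a haA) hab, pA w hw a haA, pA w hw b hbA, tA b hbA]
    simpa using hw
  · intro h1
    have h2 := (mem_stab_iff.1 h1 y₁).1 hy₁
    rw [act_sg hQ (tA a haA) hab, tA b hbA] at h2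
    have h3 : f y₁ a • b - f y₁ b • a ∈ B := by
      have : f y₁ a • b - f y₁ b • a = (y₁ + f y₁ a • b - f y₁ b • a - (0 * f y₁ a) • a) - y₁ := by (module)
      rw [this]
      exact B.sub_mem h2 hy₁
    have h4 : f y₁ a • b - f y₁ b • a ∈ A := A.sub_mem (A.smul_mem _ hbA) (A.smul_mem _ haA)
    have h5 : f y₁ a • b - f y₁ b • a ∈ A ⊓ B := ⟨h4, h3⟩
    rw [hAB, Submodule.mem_bot] at h5
    apply hba
    have : b = (f y₁ a)⁻¹ • (f y₁ a • b - f y₁ b • a) + ((f y₁ a)⁻¹ * f y₁ b) • a := by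
      rw [smul_sub, smul_smul, inv_mul_cancel₀ hy, one_smul, smul_smul]
      abel
    rw [this, h5, smul_zero, zero_add]
    exact Submodule.smul_mem _ _ (Submodule.mem_span_singleton_self a)

/-- For `k` odd the group `Ω` has no element interchanging two complementary maximal totally singular
subspaces; so the stabilizer of the pair is not maximal. -/
theorem not_max_pair_ts (hQ : Cfsg.Geo.IsNondegenerateQuadraticForm Q) (hn : 13 ≤ Fintype.card ι) {k : ℕ}
    (hk : 2 * k = Fintype.card ι) (hko : Odd k) {D : Fin 2 → Submodule F V} (hD : Cfsg.Geo.IsMDecomposition k D)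
    (hts : ∀ i, ∀ x ∈ D i, Q x = 0) :
    ∃ K : Subgroup (GL ι F), Cfsg.Geo.decompositionStabilizer D ⊓ Cfsg.Geo.omegaGL Q < K ∧
      K < Cfsg.Geo.omegaGL Q := by
  have hdis : D 0 ⊓ D 1 = ⊥ := by
    have h := hD.indep.pairwiseDisjoint (Fin.zero_ne_one : (0 : Fin 2) ≠ 1)
    exact h.eq_bot
  have hsup : D 0 ⊔ D 1 = ⊤ := by
    have h := hD.iSup_eq_top
    rw [← h]
    apply le_antisymm
    · exact sup_le (le_iSup D 0) (le_iSup D 1)
    · apply iSup_le
      intro i
      fin_cases i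
      · exact le_sup_left
      · exact le_sup_right
  have hd0 := hD.finrank_eq 0
  have hd1 := hD.finrank_eq 1
  refine ⟨Cfsg.Geo.subspaceStabilizer (D 0) ⊓ Cfsg.Geo.omegaGL Q, ?_, ?_⟩
  · rw [SetLike.lt_iff_le_and_exists]
    constructor
    · rintro g ⟨hg1, hg2⟩
      refine ⟨?_, hg2⟩
      rcases mem_pair_iff.1 hg1 with ⟨h, -⟩ | ⟨h, -⟩
      · exact stab_of_map_eq h
      · exfalso
        have h1 := omega_even hQ hk hd0 (hts 0) hg2
        rw [md, h, hdis] at h1
        simp only [finrank_bot, Nat.sub_zero] at h1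
        exact (Nat.not_even_iff_odd.2 hko) h1
    · obtain ⟨g, hg1, hg2, hg3⟩ := exists_stab_not_stab_ts hQ hn (hts 0) hdis hsup (hts 1) (by omega)
      refine ⟨g, ⟨hg2, hg1⟩, ?_⟩
      rintro ⟨h1, -⟩
      apply hg3
      rcases mem_pair_iff.1 h1 with ⟨-, h⟩ | ⟨h, -⟩
      · exact stab_of_map_eq h
      · exfalso
        have h2 := map_eq_of_stab hg2
        rw [h] at h2
        rw [h2, inf_idem] at hdis
        rw [hdis] at hd0
        simp at hd0
        omega
  · rw [SetLike.lt_iff_le_and_exists]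
    refine ⟨inf_le_right, ?_⟩
    obtain ⟨g, hg1, -, hg3⟩ := exists_stab_not_stab_ts hQ hn (hts 1) (by rw [inf_comm]; exact hdis)
      (by rw [sup_comm]; exact hsup) (hts 0) (by omega)
    exact ⟨g, hg1, fun h => hg3 h.1⟩

end Cfsg.Agent.Lib.Geo
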