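import Mathlib
import Cfsg.Agent.Lib.Geo.OmegaTools
import Cfsg.Agent.Lib.Geo.SubfieldSL

set_option autoImplicit false

/-! Rational quadratic forms: the rational form, frames, the field of Siegel coefficients of an
overgroup of the rational Siegel elements, and rationality of Siegel elements with rational centre. -/

namespace Cfsg.Agent.Lib.Geo

open scoped MatrixGroups Matrix commutatorElement
open Module

variable {ι : Type} [Fintype ι] [DecidableEq ι]

section tools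

variable {K : Type*} [Field K] [Fintype K]
variable {Q : (ι → K) → K} (hQ : Cfsg.Geo.IsNondegenerateQuadraticForm Q)

local notation "f" => QuadraticMap.polar Q

include hQ

/-- a hyperbolic pair perpendicular to a list of vectors -/
theorem exists_hyp_perp (Λ : List (ι → K)) (h : 2 * Λ.length + 3 ≤ Fintype.card ι) :
    ∃ s t : ι → K, Q s = 0 ∧ Q t = 0 ∧ f s t = 1 ∧ ∀ l ∈ Λ, f s l = 0 ∧ f t l = 0 := by
  set hf := sform_of_quad hQ with hhf
  obtain ⟨s, hs, t, ht, h1, h2, h3⟩ := exists_hyp_pair hQ (cutL (Λ.map hf.lf)) (by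
    have := finrank_cutL (Λ.map hf.lf)
    simp only [List.length_map] at this
    omega)
  rw [mem_cutL] at hs ht
  exact ⟨s, t, h1, h2, h3, fun l hl =>
    ⟨hs _ (List.mem_map.2 ⟨l, hl, rfl⟩), ht _ (List.mem_map.2 ⟨l, hl, rfl⟩)⟩⟩

/-- a nonzero singular vector perpendicular to a list of vectors -/
theorem exists_sing_perp (Λ : List (ι → K)) (h : Λ.length + 3 ≤ Fintype.card ι) :
    ∃ s : ι → K, s ≠ 0 ∧ Q s = 0 ∧ ∀ l ∈ Λ, f s l = 0 := by
  set hf := sform_of_quad hQ with hhf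
  obtain ⟨s, hs, h0, h1⟩ := hiso_quad hQ (cutL (Λ.map hf.lf)) (by
    have := finrank_cutL (Λ.map hf.lf)
    simp only [List.length_map] at this
    omega)
  rw [mem_cutL] at hs
  exact ⟨s, h0, h1, fun l hl => hs _ (List.mem_map.2 ⟨l, hl, rfl⟩)⟩

/-- a singular vector with prescribed pairings on a list of vectors -/
theorem exists_sing_values (Λ : List (ι → K)) (h : 2 * Λ.length + 3 ≤ Fintype.card ι) (y : ι → K) :
    ∃ c : ι → K, Q c = 0 ∧ ∀ l ∈ Λ, f c l = f y l := by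
  set hf := sform_of_quad hQ with hhf
  obtain ⟨c, hc, h0⟩ := affine_Q hQ (Λ.map hf.lf) (by simpa using h) y 0
  exact ⟨c, h0, fun l hl => hc _ (List.mem_map.2 ⟨l, hl, rfl⟩)⟩

/-- a vector perpendicular to a singular vector `a` is a sum of two singular vectors
perpendicular to `a` -/
theorem decomp_perp (hn : 7 ≤ Fintype.card ι) {a x : ι → K} (ha0 : a ≠ 0) (ha : Q a = 0)
    (hx : f x a = 0) : ∃ s : ι → K, Q s = 0 ∧ f s a = 0 ∧ Q (x - s) = 0 := by
  by_cases h : ∀ c : K, x ≠ c • a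
  · obtain ⟨y, h1, h2⟩ := exists_two_values hQ ha0 h 0 (Q x)
    obtain ⟨s, h3, h4⟩ := exists_sing_values hQ [a, x] (by simp; omega) y
    refine ⟨s, h3, by rw [h4 a (by simp), h1], ?_⟩
    rw [Q_sub hQ, h3, pol_comm', h4 x (by simp), h2]
    ring
  · push Not at h
    obtain ⟨c, hc⟩ := h
    refine ⟨0, Q_zero' hQ, pol_zero_left hQ a, ?_⟩
    rw [sub_zero, hc, Q_smul' hQ, ha, mul_zero]

/-- a singular vector dual to `e` and perpendicular to `e₁`, `e₂` -/
theorem exists_dual_sing (hn : 9 ≤ Fintype.card ι) {e e₁ e₂ : ι → K}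
    (h : ∀ b c : K, e ≠ b • e₁ + c • e₂) :
    ∃ c : ι → K, Q c = 0 ∧ f c e = 1 ∧ f c e₁ = 0 ∧ f c e₂ = 0 := by
  set hf := sform_of_quad hQ with hhf
  have hS : e ∉ Submodule.span K ({e₁, e₂} : Set (ι → K)) := by
    intro hm
    obtain ⟨b, c, hbc⟩ := Submodule.mem_span_pair.1 hm
    exact h b c hbc.symm
  obtain ⟨φ, h1, h2⟩ := exists_dual_of_notMem hS
  obtain ⟨y, rfl⟩ := hf.lf_surjective φ
  simp only [SForm.lf_apply] at h1 h2
  obtain ⟨c, hc, h3⟩ := exists_sing_values hQ [e, e₁, e₂] (by simp; omega) y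
  refine ⟨c, hc, ?_, ?_, ?_⟩
  · rw [h3 e (by simp), pol_comm', h1]
  · rw [h3 e₁ (by simp), pol_comm', h2 _ (Submodule.subset_span (by simp))]
  · rw [h3 e₂ (by simp), pol_comm', h2 _ (Submodule.subset_span (by simp))]

end tools

section rational

variable {F : Type*} [Field F] {F₀ : Subfield F} (P : GL ι F)
variable {Q : (ι → F) → F}

/-- the rational form -/
noncomputable def Qr (hrat : ∀ u : ι → F₀, Q (rat F₀ P u) ∈ F₀) : (ι → F₀) → F₀ :=
  fun u => ⟨Q (rat F₀ P u), hrat u⟩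

theorem polar_Qr_coe (hrat : ∀ u : ι → F₀, Q (rat F₀ P u) ∈ F₀) (u w : ι → F₀) :
    ((QuadraticMap.polar (Qr P hrat) u w : F₀) : F) =
      QuadraticMap.polar Q (rat F₀ P u) (rat F₀ P w) := by
  simp [QuadraticMap.polar, Qr, rat_add]

variable [Fintype F] (hQ : Cfsg.Geo.IsNondegenerateQuadraticForm Q)

local notation "f" => QuadraticMap.polar Q

include hQ in
/-- nothing is perpendicular to all rational vectors -/
theorem eq_zero_of_perp_rat {z : ι → F} (h : ∀ y : ι → F₀, f z (rat F₀ P y) = 0) : z = 0 := by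
  set hf := sform_of_quad hQ with hhf
  apply hf.lf_injective
  rw [show hf.lf 0 = 0 from by
    ext x
    simp [pol_zero_right hQ]]
  apply lin_ext_rat (F₀ := F₀) P
  intro i
  simp only [SForm.lf_apply, LinearMap.zero_apply]
  rw [pol_comm']
  exact h _

include hQ in
theorem Qr_nondeg (hrat : ∀ u : ι → F₀, Q (rat F₀ P u) ∈ F₀) :
    Cfsg.Geo.IsNondegenerateQuadraticForm (Qr P hrat) := by
  have hp := polar_Qr_coe P (F₀ := F₀) (Q := Q) hrat
  refine ⟨fun c v => ?_, ⟨fun x y v => ?_, fun c x v => ?_, fun v x y => ?_, fun c v x => ?_⟩, fun v hv => ?_⟩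
  · apply Subtype.ext
    simp only [Qr, rat_smul]
    rw [Q_smul' hQ]
    simp [pow_two]
  · apply Subtype.ext
    simp only [hp, Subfield.coe_add, rat_add, pol_add_left hQ]
  · apply Subtype.ext
    simp only [hp, Subfield.coe_mul, rat_smul, pol_smul_left hQ, smul_eq_mul]
  · apply Subtype.ext
    simp only [hp, Subfield.coe_add, rat_add, pol_add_right hQ]
  · apply Subtype.ext
    simp only [hp, Subfield.coe_mul, rat_smul, pol_smul_right hQ, smul_eq_mul]
  · have h0 : rat F₀ P v ≠ 0 := by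
      intro h
      apply hv
      apply rat_injective P
      rw [h, rat_zero]
    have h1 : ∃ y : ι → F₀, f (rat F₀ P v) (rat F₀ P y) ≠ 0 := by
      by_contra hcon
      push Not at hcon
      exact h0 (eq_zero_of_perp_rat P hQ hcon)
    obtain ⟨y, hy⟩ := h1
    have h2 : QuadraticMap.polar (Qr P hrat) v y ≠ 0 := by
      intro h3
      apply hy
      rw [← hp, h3]
      rfl
    exact ⟨⟨y, by rwa [pol_comm']⟩, ⟨y, h2⟩⟩

end rational

section wrappers

variable {F : Type*} [Field F] [Fintype F] {F₀ : Subfield F} (P : GL ι F)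
variable {Q : (ι → F) → F} (hQ : Cfsg.Geo.IsNondegenerateQuadraticForm Q)
  (hrat : ∀ u : ι → F₀, Q (rat F₀ P u) ∈ F₀)

local notation "f" => QuadraticMap.polar Q
local notation "R" => rat F₀ P

include hrat in
theorem fr_mem (x y : ι → F₀) : f (R x) (R y) ∈ F₀ := by
  rw [← polar_Qr_coe P hrat]
  exact Subtype.coe_prop _

include hrat in
omit [Fintype F] in
theorem Qr_zero {s : ι → F₀} (h : Qr P hrat s = 0) : Q (R s) = 0 := congrArg Subtype.val h

include hrat in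
omit [Fintype F] in
theorem polar_val {x y : ι → F₀} {c : F₀} (h : QuadraticMap.polar (Qr P hrat) x y = c) : f (R x) (R y) = c := by
  rw [← polar_Qr_coe P hrat, h]

include hQ hrat

theorem rat_hyp (Λ : List (ι → F₀)) (h : 2 * Λ.length + 3 ≤ Fintype.card ι) :
    ∃ s t : ι → F₀, Q (R s) = 0 ∧ Q (R t) = 0 ∧ f (R s) (R t) = 1 ∧
      ∀ l ∈ Λ, f (R s) (R l) = 0 ∧ f (R t) (R l) = 0 := by
  haveI : Fintype F₀ := Fintype.ofFinite _
  obtain ⟨s, t, h1, h2, h3, h4⟩ := exists_hyp_perp (Qr_nondeg P hQ hrat) Λ h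
  exact ⟨s, t, Qr_zero P hrat h1, Qr_zero P hrat h2, polar_val P hrat h3, fun l hl =>
    ⟨polar_val P hrat (h4 l hl).1, polar_val P hrat (h4 l hl).2⟩⟩

theorem rat_sing (Λ : List (ι → F₀)) (h : Λ.length + 3 ≤ Fintype.card ι) :
    ∃ s : ι → F₀, s ≠ 0 ∧ Q (R s) = 0 ∧ ∀ l ∈ Λ, f (R s) (R l) = 0 := by
  haveI : Fintype F₀ := Fintype.ofFinite _
  obtain ⟨s, h1, h2, h3⟩ := exists_sing_perp (Qr_nondeg P hQ hrat) Λ h
  exact ⟨s, h1, Qr_zero P hrat h2, fun l hl => polar_val P hrat (h3 l hl)⟩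

theorem rat_sing_values (Λ : List (ι → F₀)) (h : 2 * Λ.length + 3 ≤ Fintype.card ι) (y : ι → F₀) :
    ∃ c : ι → F₀, Q (R c) = 0 ∧ ∀ l ∈ Λ, f (R c) (R l) = f (R y) (R l) := by
  haveI : Fintype F₀ := Fintype.ofFinite _
  obtain ⟨c, h1, h2⟩ := exists_sing_values (Qr_nondeg P hQ hrat) Λ h y
  exact ⟨c, Qr_zero P hrat h1, fun l hl => by
    rw [← polar_Qr_coe P hrat, ← polar_Qr_coe P hrat, h2 l hl]⟩

theorem rat_two_values {a b : ι → F₀} (ha : a ≠ 0) (hb : ∀ c : F₀, b ≠ c • a) (e₁ e₂ : F₀) :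
    ∃ y : ι → F₀, f (R y) (R a) = e₁ ∧ f (R y) (R b) = e₂ := by
  obtain ⟨y, h1, h2⟩ := exists_two_values (Qr_nondeg P hQ hrat) ha hb e₁ e₂
  exact ⟨y, polar_val P hrat h1, polar_val P hrat h2⟩

theorem rat_decomp (hn : 7 ≤ Fintype.card ι) {a x : ι → F₀} (ha0 : a ≠ 0) (ha : Q (R a) = 0)
    (hx : f (R x) (R a) = 0) : ∃ s : ι → F₀, Q (R s) = 0 ∧ f (R s) (R a) = 0 ∧ Q (R (x - s)) = 0 := by
  haveI : Fintype F₀ := Fintype.ofFinite _
  obtain ⟨s, h1, h2, h3⟩ := decomp_perp (Qr_nondeg P hQ hrat) hn ha0 (a := a) (x := x)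
    (Subtype.ext ha) (Subtype.ext (by rw [polar_Qr_coe P hrat, hx]; rfl))
  exact ⟨s, Qr_zero P hrat h1, polar_val P hrat h2, Qr_zero P hrat h3⟩

theorem rat_dual (hn : 9 ≤ Fintype.card ι) {e e₁ e₂ : ι → F₀} (h : ∀ b c : F₀, e ≠ b • e₁ + c • e₂) :
    ∃ c : ι → F₀, Q (R c) = 0 ∧ f (R c) (R e) = 1 ∧ f (R c) (R e₁) = 0 ∧ f (R c) (R e₂) = 0 := by
  haveI : Fintype F₀ := Fintype.ofFinite _
  obtain ⟨c, h1, h2, h3, h4⟩ := exists_dual_sing (Qr_nondeg P hQ hrat) hn h
  exact ⟨c, Qr_zero P hrat h1, polar_val P hrat h2, polar_val P hrat h3, polar_val P hrat h4⟩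

/-- every rational covector is a pairing with a rational vector -/
theorem rat_cov (ψ : Dual F₀ (ι → F₀)) : ∃ y : ι → F₀, cl P ψ = (sform_of_quad hQ).lf (R y) := by
  haveI : Fintype F₀ := Fintype.ofFinite _
  obtain ⟨y, hy⟩ := (sform_of_quad (Qr_nondeg P hQ hrat)).lf_surjective ψ
  refine ⟨y, cl_ext (F₀ := F₀) P fun u => ?_⟩
  rw [cl_rat, ← hy]
  simp only [SForm.lf_apply]
  rw [polar_Qr_coe P hrat]

/-- a vector with rational pairings is rational -/
theorem rat_of_pair {z : ι → F} (h : ∀ y : ι → F₀, f z (R y) ∈ F₀) : ∃ w : ι → F₀, z = R w := by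
  refine exists_rat_of_coords P z fun ψ => ?_
  obtain ⟨y, hy⟩ := rat_cov P hQ hrat ψ
  rw [hy, SForm.lf_apply]
  exact h y

/-- rational Siegel elements lie in the subfield group -/
theorem sg_rat_mem_subfield {a w : ι → F₀} (ha : Q (R a) = 0) (haw : f (R a) (R w) = 0) :
    sg hQ (R a) (R w) ∈ Cfsg.Geo.subfieldSubgroup F₀ P := by
  obtain ⟨σ, hfix⟩ := exists_frob F₀
  refine mem_subfield_of P σ hfix fun x => ?_
  refine ⟨1, x + (⟨_, fr_mem P hrat x a⟩ : F₀) • w - (⟨_, fr_mem P hrat x w⟩ : F₀) • a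
    - ((⟨_, hrat w⟩ : F₀) * (⟨_, fr_mem P hrat x a⟩ : F₀)) • a, ?_⟩
  rw [act_sg hQ ha haw, one_smul, rat_sub', rat_sub', rat_add, rat_smul, rat_smul, rat_smul]
  rfl

end wrappers

section overgroup

variable {F : Type*} [Field F] [Fintype F] {F₀ : Subfield F} (P : GL ι F)
variable {Q : (ι → F) → F} (hQ : Cfsg.Geo.IsNondegenerateQuadraticForm Q)
  (hrat : ∀ u : ι → F₀, Q (rat F₀ P u) ∈ F₀)
  {M : Subgroup (GL ι F)}

local notation "f" => QuadraticMap.polar Q
local notation "R" => rat F₀ P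

variable {hQ} in
/-- cancelling a Siegel factor -/
theorem sg_cancel {a w w' : ι → F} (ha : Q a = 0) (h1 : f a w = 0) (h2 : f a w' = 0)
    (hm : sg hQ a w ∈ M) (hm' : sg hQ a (w + w') ∈ M) : sg hQ a w' ∈ M := by
  have h3 := sg_add hQ ha h1 h2
  have h4 : sg hQ a w' = (sg hQ a w)⁻¹ * sg hQ a (w + w') := by
    rw [← h3]
    group
  rw [h4]
  exact M.mul_mem (M.inv_mem hm) hm'

variable {hQ} in
/-- conjugating by an element of `M` fixing the centre -/
theorem sg_conj_fix (hM : M ≤ Cfsg.isometryGroup F Q) {y : GL ι F} (hy : y ∈ M) {a w : ι → F}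
    (ha : Q a = 0) (haw : f a w = 0) (hya : act y a = a) (hm : sg hQ a w ∈ M) :
    sg hQ a (act y w) ∈ M := by
  have h1 := conj_sg hQ (hM hy) ha haw
  rw [hya] at h1
  rw [← h1]
  exact M.mul_mem (M.mul_mem hy hm) (M.inv_mem hy)

variable {hQ} in
/-- the difference for an element fixing the centre -/
theorem sg_diff (hM : M ≤ Cfsg.isometryGroup F Q) {y : GL ι F} (hy : y ∈ M) {a w : ι → F}
    (ha : Q a = 0) (haw : f a w = 0) (hya : act y a = a) (hm : sg hQ a w ∈ M) :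
    sg hQ a (act y w - w) ∈ M := by
  have h1 : f a (act y w) = 0 := by
    have := iso_polar (hM hy) a w
    rw [hya, haw] at this
    exact this
  refine sg_cancel (hQ := hQ) ha haw (by rw [pol_sub_right hQ, h1, haw, sub_zero]) hm ?_
  rw [add_sub_cancel]
  exact sg_conj_fix hM hy ha haw hya hm

theorem sg_zero_left (w : ι → F) : sg hQ (0 : ι → F) w = 1 := by
  apply act.injective
  ext1 x
  rw [act_sg hQ (Q_zero' hQ) (pol_zero_left hQ w), pol_zero_right hQ, map_one]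
  simp

/-- all rational Siegel elements lie in `M` -/
def HS (M : Subgroup (GL ι F)) (hQ : Cfsg.Geo.IsNondegenerateQuadraticForm Q) (F₀ : Subfield F) (P : GL ι F) : Prop :=
  ∀ a w : ι → F₀, Q (rat F₀ P a) = 0 → f (rat F₀ P a) (rat F₀ P w) = 0 → sg hQ (rat F₀ P a) (rat F₀ P w) ∈ M

/-- the Siegel coefficients of `M` -/
def RS (M : Subgroup (GL ι F)) (hQ : Cfsg.Geo.IsNondegenerateQuadraticForm Q) (F₀ : Subfield F) (P : GL ι F) (d : F) : Prop :=
  ∀ a b : ι → F₀, Q (rat F₀ P a) = 0 → Q (rat F₀ P b) = 0 → f (rat F₀ P a) (rat F₀ P b) = 0 →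
    sg hQ (rat F₀ P a) (d • rat F₀ P b) ∈ M

variable {hQ P}

include hrat in
/-- moving the second parameter along a chain -/
theorem chain_step (hM : M ≤ Cfsg.isometryGroup F Q) (hS : HS M hQ F₀ P) (hn : 9 ≤ Fintype.card ι) {d : F}
    {a b t t' : ι → F₀}
    (ha : Q (R a) = 0) (ht : Q (R t) = 0) (hab : f (R a) (R b) = 0)
    (hat : f (R a) (R t) = 0) (hbt : f (R b) (R t) = 0) (htt' : f (R t) (R t') = 1)
    (hat' : f (R a) (R t') = 0) (hbt' : f (R b) (R t') = 0) (ha0 : a ≠ 0)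
    (hind : ∀ c : F₀, b ≠ c • a) (hm : sg hQ (R a) (d • R b) ∈ M) : sg hQ (R a) (d • R t) ∈ M := by
  obtain ⟨y₁, h1, h2⟩ := rat_two_values P hQ hrat ha0 hind 0 1
  have h3 : ∃ y₂ : ι → F₀, f (R y₂) (R a) = 0 ∧ f (R y₂) (R b) = 1 ∧ f (R y₂) (R t) = 0 := by
    obtain ⟨κ, hκ⟩ : ∃ κ : F₀, (κ : F) = f (R y₁) (R t) := ⟨⟨_, fr_mem P hrat y₁ t⟩, rfl⟩
    refine ⟨y₁ - κ • t', ?_, ?_, ?_⟩
    · rw [rat_sub', rat_smul, pol_sub_left hQ, pol_smul_left hQ, h1, pol_comm', hat']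
      simp
    · rw [rat_sub', rat_smul, pol_sub_left hQ, pol_smul_left hQ, h2, pol_comm' (R t') (R b), hbt']
      simp
    · rw [rat_sub', rat_smul, pol_sub_left hQ, pol_smul_left hQ, pol_comm' (R t') (R t), htt', hκ]
      simp
  obtain ⟨y₂, h4, h5, h6⟩ := h3
  obtain ⟨c, hc, hv⟩ := rat_sing_values P hQ hrat [a, b, t] (by simp; omega) y₂
  have hca : f (R c) (R a) = 0 := by rw [hv a (by simp), h4]
  have hcb : f (R c) (R b) = 1 := by rw [hv b (by simp), h5]
  have hct : f (R c) (R t) = 0 := by rw [hv t (by simp), h6]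
  have hy : sg hQ (R c) (R t) ∈ M := hS c t hc hct
  have hya : act (sg hQ (R c) (R t)) (R a) = R a := by
    rw [act_sg hQ hc hct, pol_comm' (R a) (R c), hca, hat]
    simp
  have h7 : f (R a) (d • R b) = 0 := by rw [pol_smul_right hQ, hab, mul_zero]
  have h8 := sg_conj_fix hM hy ha h7 hya hm
  have h9 : act (sg hQ (R c) (R t)) (d • R b) = d • R b + d • R t := by
    rw [map_smul, act_sg hQ hc hct, pol_comm' (R b) (R c), hcb, hbt, ht]
    simp
  rw [h9] at h8
  exact sg_cancel (hQ := hQ) ha h7 (by rw [pol_smul_right hQ, hat, mul_zero]) hm h8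

include hrat in
/-- the Siegel coefficients do not depend on the rational pair -/
theorem RS_of_one (hM : M ≤ Cfsg.isometryGroup F Q) (hS : HS M hQ F₀ P) (hn : 13 ≤ Fintype.card ι) {d : F}
    {a₀ b₀ : ι → F₀} (ha₀ : Q (R a₀) = 0) (hb₀ : Q (R b₀) = 0) (hab₀ : f (R a₀) (R b₀) = 0) (ha₀0 : a₀ ≠ 0)
    (hind₀ : ∀ c : F₀, b₀ ≠ c • a₀) (hm : sg hQ (R a₀) (d • R b₀) ∈ M) : RS M hQ F₀ P d := by
  intro a₁ b₁ ha₁ hb₁ hab₁
  by_cases ha₁0 : a₁ = 0
  · subst ha₁0
    rw [rat_zero, sg_zero_left]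
    exact M.one_mem
  by_cases hind₁ : ∀ c : F₀, b₁ ≠ c • a₁
  swap
  · push Not at hind₁
    obtain ⟨c, rfl⟩ := hind₁
    rw [rat_smul, smul_smul, sg_smul_self hQ ha₁]
    exact M.one_mem
  obtain ⟨e, e', he, he', hee', hΛ⟩ := rat_hyp P hQ hrat [a₀, b₀, a₁, b₁] (by simp; omega)
  obtain ⟨e₂, e₂', he₂, he₂', hee₂', hΛ₂⟩ := rat_hyp P hQ hrat [a₀, a₁, e, e'] (by simp; omega)
  have hea₀ := hΛ a₀ (by simp)
  have heb₀ := hΛ b₀ (by simp)
  have hea₁ := hΛ a₁ (by simp)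
  have heb₁ := hΛ b₁ (by simp)
  have h2a₀ := hΛ₂ a₀ (by simp)
  have h2a₁ := hΛ₂ a₁ (by simp)
  have h2e := hΛ₂ e (by simp)
  have h2e' := hΛ₂ e' (by simp)
  have cm : ∀ x y : ι → F₀, f (R x) (R y) = f (R y) (R x) := fun _ _ => pol_comm' _ _
  have he0 : e ≠ 0 := by
    rintro rfl
    rw [rat_zero, pol_zero_left hQ] at hee'
    exact zero_ne_one hee'
  -- step 1
  have s1 : sg hQ (R a₀) (d • R e) ∈ M :=
    chain_step hrat hM hS (by omega) ha₀ he hab₀ (by rw [cm]; exact hea₀.1) (by rw [cm]; exact heb₀.1)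
      hee' (by rw [cm]; exact hea₀.2) (by rw [cm]; exact heb₀.2) ha₀0 hind₀ hm
  -- swap
  have hswap : ∀ {x y : ι → F₀}, Q (R x) = 0 → Q (R y) = 0 → f (R x) (R y) = 0 → sg hQ (R x) (d • R y) ∈ M →
      sg hQ (R y) (d • R x) ∈ M := by
    intro x y hx hy hxy h
    have h1 : f (R x) (d • R y) = 0 := by rw [pol_smul_right hQ, hxy, mul_zero]
    have h2 : Q (d • R y) = 0 := by rw [Q_smul' hQ, hy, mul_zero]
    rw [sg_swap hQ hx h2 h1, sg_smul_left hQ hy d (by rw [pol_neg_right hQ, cm, hxy, neg_zero])] at h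
    have h3 : sg hQ (R y) (d • -R x) = (sg hQ (R y) (d • R x))⁻¹ := by
      rw [sg_inv hQ hy (by rw [pol_smul_right hQ, cm, hxy, mul_zero])]
      congr 1
      simp
    rw [h3] at h
    simpa using M.inv_mem h
  have s2 : sg hQ (R e) (d • R a₀) ∈ M := hswap ha₀ he (by rw [cm]; exact hea₀.1) s1
  -- independence
  have hind_x : ∀ {x z z' : ι → F₀}, f (R z) (R z') = 1 → f (R x) (R z') = 0 → ∀ c : F₀, z ≠ c • x := by
    rintro x z z' h1 h2 c rfl
    rw [rat_smul, pol_smul_left hQ, h2, mul_zero] at h1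
    exact zero_ne_one h1
  have hind_y : ∀ {x z z' : ι → F₀}, x ≠ 0 → f (R z) (R z') = 1 → f (R x) (R z') = 0 → ∀ c : F₀, x ≠ c • z := by
    rintro x z z' h0 h1 h2 c rfl
    rw [rat_smul, pol_smul_left hQ, h1, mul_one] at h2
    have hc : c = 0 := by exact_mod_cast h2
    subst hc
    exact h0 (by simp)
  have s3 : sg hQ (R e) (d • R e₂) ∈ M :=
    chain_step hrat hM hS (by omega) he he₂ hea₀.1 (by rw [cm]; exact h2e.1) (by rw [cm]; exact h2a₀.1)
      hee₂' (by rw [cm]; exact h2e.2) (by rw [cm]; exact h2a₀.2) he0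
      (hind_y ha₀0 hee' (by rw [cm]; exact hea₀.2)) s2
  -- a partner for `a₁`
  have hp1 : ∃ z : ι → F₀, f (R a₁) (R z) = 1 ∧ f (R e) (R z) = 0 ∧ f (R e₂) (R z) = 0 := by
    obtain ⟨y, h1, h2⟩ := rat_two_values P hQ hrat ha₁0 (hind_x hee' (by rw [cm]; exact hea₁.2)) 1 0
    obtain ⟨κ, hκ⟩ : ∃ κ : F₀, (κ : F) = f (R y) (R e₂) := ⟨⟨_, fr_mem P hrat y e₂⟩, rfl⟩
    refine ⟨y - κ • e₂', ?_, ?_, ?_⟩
    · rw [rat_sub', rat_smul, pol_sub_right hQ, pol_smul_right hQ, cm a₁ y, h1, cm a₁ e₂', h2a₁.2]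
      simp
    · rw [rat_sub', rat_smul, pol_sub_right hQ, pol_smul_right hQ, cm e y, h2, cm e e₂', h2e.2]
      simp
    · rw [rat_sub', rat_smul, pol_sub_right hQ, pol_smul_right hQ, cm e₂ y, hee₂', ← hκ]
      simp
  obtain ⟨z, hz1, hz2, hz3⟩ := hp1
  have s4 : sg hQ (R e) (d • R a₁) ∈ M :=
    chain_step hrat hM hS (by omega) he ha₁ (by rw [cm]; exact h2e.1) hea₁.1 h2a₁.1 hz1 hz2 hz3 he0
      (hind_x hee₂' (by rw [cm]; exact h2e.2)) s3
  have s5 : sg hQ (R a₁) (d • R e) ∈ M := hswap he ha₁ hea₁.1 s4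
  have hp2 : ∃ z : ι → F₀, f (R b₁) (R z) = 1 ∧ f (R a₁) (R z) = 0 ∧ f (R e) (R z) = 0 := by
    obtain ⟨y, h1, h2⟩ := rat_two_values P hQ hrat ha₁0 hind₁ 0 1
    obtain ⟨κ, hκ⟩ : ∃ κ : F₀, (κ : F) = f (R y) (R e) := ⟨⟨_, fr_mem P hrat y e⟩, rfl⟩
    refine ⟨y - κ • e', ?_, ?_, ?_⟩
    · rw [rat_sub', rat_smul, pol_sub_right hQ, pol_smul_right hQ, cm b₁ y, h2, cm b₁ e', heb₁.2]
      simp
    · rw [rat_sub', rat_smul, pol_sub_right hQ, pol_smul_right hQ, cm a₁ y, h1, cm a₁ e', hea₁.2]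
      simp
    · rw [rat_sub', rat_smul, pol_sub_right hQ, pol_smul_right hQ, cm e y, hee', ← hκ]
      simp
  obtain ⟨y, hy1, hy2, hy3⟩ := hp2
  exact chain_step hrat hM hS (by omega) ha₁ hb₁ (by rw [cm]; exact hea₁.1) hab₁ heb₁.1 hy1 hy2 hy3 ha₁0
    (hind_x hee' (by rw [cm]; exact hea₁.2)) s5

theorem RS_zero : RS M hQ F₀ P 0 := by
  intro a b ha _ _
  rw [zero_smul, sg_zero hQ ha]
  exact M.one_mem

theorem RS_add {d d' : F} (h : RS M hQ F₀ P d) (h' : RS M hQ F₀ P d') : RS M hQ F₀ P (d + d') := by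
  intro a b ha hb hab
  rw [add_smul, ← sg_add hQ ha (by rw [pol_smul_right hQ, hab, mul_zero]) (by rw [pol_smul_right hQ, hab, mul_zero])]
  exact M.mul_mem (h a b ha hb hab) (h' a b ha hb hab)

theorem RS_neg {d : F} (h : RS M hQ F₀ P d) : RS M hQ F₀ P (-d) := by
  intro a b ha hb hab
  rw [neg_smul, ← sg_inv hQ ha (by rw [pol_smul_right hQ, hab, mul_zero])]
  exact M.inv_mem (h a b ha hb hab)

theorem RS_of_mem (hS : HS M hQ F₀ P) {c : F} (hc : c ∈ F₀) : RS M hQ F₀ P c := by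
  intro a b ha _ hab
  have h1 : c • R b = R ((⟨c, hc⟩ : F₀) • b) := by rw [rat_smul]
  rw [h1]
  refine hS a _ ha ?_
  rw [rat_smul, pol_smul_right hQ, hab, mul_zero]

variable (P hQ) in
include hQ hrat in
/-- a frame for products -/
theorem exists_pair (hn : 5 ≤ Fintype.card ι) : ∃ a e : ι → F₀, a ≠ 0 ∧ Q (R a) = 0 ∧ Q (R e) = 0 ∧
    f (R a) (R e) = 0 ∧ ∀ c : F₀, e ≠ c • a := by
  obtain ⟨a, a', ha, ha', haa', -⟩ := rat_hyp P hQ hrat [] (by simp; omega)
  obtain ⟨e, e', he, he', hee', hΛ⟩ := rat_hyp P hQ hrat [a] (by simp; omega)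
  have h := hΛ a (by simp)
  refine ⟨a, e, ?_, ha, he, by rw [pol_comm']; exact h.1, ?_⟩
  · rintro rfl
    rw [rat_zero, pol_zero_left hQ] at haa'
    exact zero_ne_one haa'
  · rintro c rfl
    rw [rat_smul, pol_smul_left hQ, pol_comm' (R a) (R e'), h.2, mul_zero] at hee'
    exact zero_ne_one hee'

include hrat in
theorem RS_mul (hM : M ≤ Cfsg.isometryGroup F Q) (hS : HS M hQ F₀ P) (hn : 13 ≤ Fintype.card ι) {d d' : F}
    (h : RS M hQ F₀ P d) (h' : RS M hQ F₀ P d') : RS M hQ F₀ P (d * d') := by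
  obtain ⟨a, e, ha0, ha, he, hae, hind⟩ := exists_pair P hQ hrat (by omega)
  obtain ⟨b, c, hb, hc, hbc, hΛ⟩ := rat_hyp P hQ hrat [a, e] (by simp; omega)
  have hba := hΛ a (by simp)
  have hbe := hΛ e (by simp)
  have cm : ∀ x y : ι → F₀, f (R x) (R y) = f (R y) (R x) := fun _ _ => pol_comm' _ _
  have hQc : Q (-R c) = 0 := by rw [Q_neg hQ, hc]
  refine RS_of_one hrat hM hS hn ha he hae ha0 hind ?_
  have h1 := h a b ha hb (by rw [cm]; exact hba.1)
  have h2 : sg hQ (-R c) (d' • R e) ∈ M := by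
    have := h' (-c) e (by rw [show R (-c) = -R c by
      rw [← neg_one_smul F₀ c, rat_smul]; simp]; exact hQc) he (by
      rw [show R (-c) = -R c by
        rw [← neg_one_smul F₀ c, rat_smul]; simp, pol_neg_left hQ, hbe.2, neg_zero])
    rwa [show R (-c) = -R c by
      rw [← neg_one_smul F₀ c, rat_smul]; simp] at this
  have h3 := comm_sg hQ (a := R a) (b := d • R b) (c := -R c) (d := d' • R e) ha
    (by rw [Q_smul' hQ, hb, mul_zero]) hQc (by rw [Q_smul' hQ, he, mul_zero])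
    (by rw [pol_smul_right hQ, cm, hba.1, mul_zero])
    (by rw [pol_smul_right hQ, pol_neg_left hQ, hbe.2]; simp)
    (by rw [pol_neg_right hQ, cm, hba.2, neg_zero])
    (by rw [pol_smul_right hQ, hae, mul_zero])
    (by rw [pol_smul_left hQ, pol_smul_right hQ, hbe.1]; simp)
  have e1 : (-f (d • R b) (-R c)) • d' • R e = (d * d') • R e := by
    rw [pol_smul_left hQ, pol_neg_right hQ, hbc, smul_smul]
    congr 1
    ring
  rw [e1] at h3
  rw [← h3, commutatorElement_def]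
  exact M.mul_mem (M.mul_mem (M.mul_mem h1 h2) (M.inv_mem h1)) (M.inv_mem h2)

/-- the field of Siegel coefficients -/
def sgField (hM : M ≤ Cfsg.isometryGroup F Q) (hS : HS M hQ F₀ P) (hn : 13 ≤ Fintype.card ι) : Subfield F where
  carrier := {d | RS M hQ F₀ P d}
  mul_mem' := fun h h' => RS_mul hrat hM hS hn h h'
  one_mem' := RS_of_mem hS F₀.one_mem
  add_mem' := fun h h' => RS_add h h'
  zero_mem' := RS_zero
  neg_mem' := fun h => RS_neg h
  inv_mem' := by
    intro d hd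
    by_cases h0 : d = 0
    · subst h0
      simpa using RS_zero
    · have h1 : d⁻¹ = d ^ (Fintype.card F - 2) := by
        have h2 := FiniteField.pow_card_sub_one_eq_one d h0
        have h3 : 2 ≤ Fintype.card F := Fintype.one_lt_card
        have h4 : Fintype.card F - 1 = (Fintype.card F - 2) + 1 := by omega
        rw [h4, pow_succ] at h2
        exact (eq_inv_of_mul_eq_one_left h2).symm
      show RS M hQ F₀ P d⁻¹
      rw [h1]
      have key : ∀ k : ℕ, RS M hQ F₀ P (d ^ k) := by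
        intro k
        induction k with
        | zero => simpa using RS_of_mem hS F₀.one_mem
        | succ k ih =>
          rw [pow_succ]
          exact RS_mul hrat hM hS hn ih hd
      exact key _

variable (P hQ) in
include hQ hrat in
/-- a rational partner -/
theorem rat_partner {a : ι → F₀} (ha0 : a ≠ 0) : ∃ a' : ι → F₀, f (R a) (R a') = 1 := by
  have hf₀ := sform_of_quad (Qr_nondeg P hQ hrat)
  obtain ⟨x, hx⟩ := hf₀.nd a ha0
  have h1 : f (R a) (R x) ≠ 0 := by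
    intro h0
    apply hx
    apply Subtype.ext
    rw [polar_Qr_coe P hrat, pol_comm', h0]
    rfl
  obtain ⟨κ, hκ⟩ : ∃ κ : F₀, (κ : F) = f (R a) (R x) := ⟨⟨_, fr_mem P hrat a x⟩, rfl⟩
  have hκ0 : κ ≠ 0 := by
    rintro rfl
    exact h1 hκ.symm
  refine ⟨κ⁻¹ • x, ?_⟩
  rw [rat_smul, pol_smul_right hQ, ← hκ]
  simp [hκ0]

include hrat in
/-- all Siegel elements with a rational centre -/
theorem good_of_RS (hn : 13 ≤ Fintype.card ι) (hall : ∀ d, RS M hQ F₀ P d) {a a' : ι → F₀} (ha0 : a ≠ 0)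
    (ha : Q (R a) = 0) (haa' : f (R a) (R a') = 1) : GoodV hQ M (R a) := by
  set hf := sform_of_quad hQ with hhf
  refine ⟨ha, fun w hw => ?_⟩
  have hx : ∀ x : ι → F₀, f (R x) (R a) = 0 → ∀ c : F, sg hQ (R a) (c • R x) ∈ M := by
    intro x hxa c
    obtain ⟨s, hs, hsa, hxs⟩ := rat_decomp P hQ hrat (by omega) ha0 ha hxa
    have e1 : R x = R s + R (x - s) := by rw [rat_sub']; abel
    have hsa' : f (R a) (R s) = 0 := by rw [pol_comm']; exact hsa
    have hxs' : f (R a) (R (x - s)) = 0 := by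
      rw [rat_sub', pol_sub_right hQ, hsa', pol_comm', hxa, sub_zero]
    rw [e1, smul_add, ← sg_add hQ ha (by rw [pol_smul_right hQ, hsa', mul_zero])
      (by rw [pol_smul_right hQ, hxs', mul_zero])]
    exact M.mul_mem (hall c a s ha hs hsa') (hall c a _ ha hxs hxs')
  let e : ι → (ι → F₀) := fun i => Pi.single i 1
  let c : ι → F := fun i => (act P⁻¹ w) i
  have hκ : ∀ i, f (R (e i)) (R a) ∈ F₀ := fun i => fr_mem P hrat _ _
  let κ : ι → F₀ := fun i => ⟨_, hκ i⟩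
  let x : ι → (ι → F₀) := fun i => e i - κ i • a'
  have hxa : ∀ i, f (R (x i)) (R a) = 0 := by
    intro i
    simp only [x]
    rw [rat_sub', rat_smul, pol_sub_left hQ, pol_smul_left hQ, pol_comm' (R a') (R a), haa']
    simp [κ]
  have hw1 : w = ∑ i, c i • R (e i) := sum_rat (F₀ := F₀) P w
  have hw2 : ∑ i, c i * f (R (e i)) (R a) = 0 := by
    have h1 : hf.lf (R a) w = 0 := by
      rw [SForm.lf_apply, pol_comm']
      exact hw
    rw [hw1, map_sum] at h1
    simpa using h1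
  have hw3 : w = ∑ i, c i • R (x i) := by
    have h1 : ∀ i, c i • R (x i) = c i • R (e i) - (c i * f (R (e i)) (R a)) • R a' := by
      intro i
      simp only [x]
      rw [rat_sub', rat_smul, smul_sub, smul_smul]
    simp only [h1]
    rw [Finset.sum_sub_distrib, ← Finset.sum_smul, hw2, zero_smul, sub_zero]
    exact hw1
  have key : ∀ S : Finset ι, f (R a) (∑ i ∈ S, c i • R (x i)) = 0 ∧ sg hQ (R a) (∑ i ∈ S, c i • R (x i)) ∈ M := by
    intro S
    induction S using Finset.induction_on with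
    | empty =>
      simp only [Finset.sum_empty]
      exact ⟨pol_zero_right hQ _, by rw [sg_zero hQ ha]; exact M.one_mem⟩
    | insert i S hi ih =>
      rw [Finset.sum_insert hi]
      have h1 : f (R a) (c i • R (x i)) = 0 := by
        rw [pol_smul_right hQ, pol_comm', hxa i, mul_zero]
      refine ⟨by rw [pol_add_right hQ, h1, ih.1, zero_add], ?_⟩
      rw [← sg_add hQ ha h1 ih.1]
      exact M.mul_mem (hx _ (hxa i) _) ih.2
  rw [hw3]
  exact (key Finset.univ).2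

include hrat in
/-- a full coefficient field gives all of `Ω` -/
theorem omega_le_of_RS (hM : M ≤ Cfsg.isometryGroup F Q) (hn : 13 ≤ Fintype.card ι)
    (hall : ∀ d, RS M hQ F₀ P d) : Cfsg.Geo.omegaGL Q ≤ M := by
  obtain ⟨s, t, hs, ht, hst, -⟩ := rat_hyp P hQ hrat [] (by simp; omega)
  have hs0 : s ≠ 0 := by
    rintro rfl
    rw [rat_zero, pol_zero_left hQ] at hst
    exact zero_ne_one hst
  have ht0 : t ≠ 0 := by
    rintro rfl
    rw [rat_zero, pol_zero_right hQ] at hst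
    exact zero_ne_one hst
  refine omega_le_of_two_good (by omega) hM (good_of_RS hrat hn hall hs0 hs hst)
    (good_of_RS hrat hn hall (a' := s) ht0 ht (by rw [pol_comm']; exact hst)) ?_
  rw [pol_comm', hst]
  exact one_ne_zero

include hrat in
/-- a Siegel element with a non-rational coefficient is outside the subfield group -/
theorem sg_not_mem_subfield {a e : ι → F₀} (ha0 : a ≠ 0) (ha : Q (R a) = 0) (hae : f (R a) (R e) = 0)
    (he : Q (R e) = 0) (hind : ∀ c : F₀, e ≠ c • a) {d : F} (hd : d ∉ F₀) :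
    sg hQ (R a) (d • R e) ∉ Cfsg.Geo.subfieldSubgroup F₀ P := by
  intro hmem
  have hxx := rat_two_values P hQ hrat ha0 hind 1 0
  obtain ⟨x, hx1, hx2⟩ := hxx
  simp only [Subfield.coe_one, Subfield.coe_zero] at hx1 hx2
  obtain ⟨c, w, hcw⟩ := rat_of_mem_subfield P hmem x
  have h1 : f (R a) (d • R e) = 0 := by rw [pol_smul_right hQ, hae, mul_zero]
  rw [act_sg hQ ha h1, hx1, pol_smul_right hQ, hx2, Q_smul' hQ, he] at hcw
  simp only [Subfield.coe_one, Subfield.coe_zero, mul_zero, zero_mul, zero_smul, sub_zero, one_smul] at hcw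
  have hx0 : x ≠ 0 := by
    rintro rfl
    rw [rat_zero, pol_zero_left hQ] at hx1
    exact zero_ne_one hx1
  have hind' : ∀ c : F₀, e ≠ c • x := by
    rintro c rfl
    rw [rat_smul, pol_smul_right hQ, pol_comm' (R a) (R x), hx1, mul_one] at hae
    have hc : c = 0 := by exact_mod_cast hae
    subst hc
    exact hind 0 (by simp)
  obtain ⟨y₁, h11, h12⟩ := rat_two_values P hQ hrat hx0 hind' 1 0
  obtain ⟨y₂, h21, h22⟩ := rat_two_values P hQ hrat hx0 hind' 0 1
  have e1 := congrArg (fun z => f (R y₁) z) hcw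
  have e2 := congrArg (fun z => f (R y₂) z) hcw
  simp only [pol_add_right hQ, pol_smul_right hQ, h11, h12, h21, h22] at e1 e2
  simp only [Subfield.coe_one, Subfield.coe_zero, mul_zero, add_zero, zero_add, mul_one] at e1 e2
  have hc0 : c ≠ 0 := by
    rintro rfl
    rw [zero_mul] at e1
    exact one_ne_zero e1
  have h3 : f (R y₁) (R w) ≠ 0 := by
    intro h0
    rw [h0, mul_zero] at e1
    exact one_ne_zero e1
  apply hd
  have h4 : d = f (R y₂) (R w) * (f (R y₁) (R w))⁻¹ := by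
    field_simp
    rw [e2]
    linear_combination (-f (R y₂) (R w)) * e1
  rw [h4]
  exact F₀.mul_mem (fr_mem P hrat _ _) (F₀.inv_mem (fr_mem P hrat _ _))

variable (P hQ) in
include hQ hrat in
/-- a vector off a rational line is detected by a rational vector perpendicular to the line -/
theorem L1 {a : ι → F₀} (ha0 : a ≠ 0) {z : ι → F} (hz : ∀ c : F, z ≠ c • R a) :
    ∃ b : ι → F₀, f (R a) (R b) = 0 ∧ f z (R b) ≠ 0 := by
  by_contra hcon
  push Not at hcon
  obtain ⟨a', haa'⟩ := rat_partner P hQ hrat ha0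
  apply hz (f z (R a'))
  rw [← sub_eq_zero]
  apply eq_zero_of_perp_rat (F₀ := F₀) P hQ
  intro y
  obtain ⟨t, ht⟩ : ∃ t : F₀, (t : F) = f (R y) (R a) := ⟨⟨_, fr_mem P hrat y a⟩, rfl⟩
  have h1 : f (R a) (R (y - t • a')) = 0 := by
    rw [rat_sub', rat_smul, pol_sub_right hQ, pol_smul_right hQ, haa', ht, pol_comm']
    simp
  have h2 := hcon _ h1
  rw [rat_sub', rat_smul, pol_sub_right hQ, pol_smul_right hQ, ht] at h2
  rw [pol_sub_left hQ, pol_smul_left hQ, pol_comm' (R a) (R y)]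
  linear_combination h2

section rigid0

variable (hM : M ≤ Cfsg.isometryGroup F Q) (hS : HS M hQ F₀ P) (hn : 13 ≤ Fintype.card ι)
  (hA : ∀ d, RS M hQ F₀ P d → d ∈ F₀)

include hrat hM hS hn hA

/-- one rational pair bounds the coefficient -/
theorem Rz {d : F} {a b : ι → F₀} (ha : Q (R a) = 0) (hb : Q (R b) = 0) (hab : f (R a) (R b) = 0) (ha0 : a ≠ 0)
    (hind : ∀ c : F₀, b ≠ c • a) (hm : sg hQ (R a) (d • R b) ∈ M) : d ∈ F₀ :=
  hA d (RS_of_one hrat hM hS hn ha hb hab ha0 hind hm)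

/-- pairings of the second parameter with rational singular vectors -/
theorem R1_sing {a x : ι → F₀} {w : ι → F} (ha0 : a ≠ 0) (ha : Q (R a) = 0) (haw : f (R a) w = 0)
    (hm : sg hQ (R a) w ∈ M) (hx : Q (R x) = 0) (hax : f (R a) (R x) = 0) : f w (R x) ∈ F₀ := by
  obtain ⟨c, c', hc, hc', hcc', hΛ⟩ := rat_hyp P hQ hrat [a, x] (by simp; omega)
  obtain ⟨e, e', he, he', hee', hΛ₂⟩ := rat_hyp P hQ hrat [a, x, c, c'] (by simp; omega)
  have hca := hΛ a (by simp)
  have hcx := hΛ x (by simp)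
  have hea := hΛ₂ a (by simp)
  have hex := hΛ₂ x (by simp)
  have hec := hΛ₂ c (by simp)
  have hec' := hΛ₂ c' (by simp)
  have cm : ∀ x y : ι → F₀, f (R x) (R y) = f (R y) (R x) := fun _ _ => pol_comm' _ _
  have hy₁ : sg hQ (R c) (R x) ∈ M := hS c x hc hcx.1
  have hy₁a : act (sg hQ (R c) (R x)) (R a) = R a := by
    rw [act_sg hQ hc hcx.1, cm a c, hca.1, cm a x, ← cm a x, hax]
    simp
  have h1 := sg_diff hM hy₁ ha haw hy₁a hm
  have e1 : act (sg hQ (R c) (R x)) w - w = f w (R c) • R x - f w (R x) • R c := by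
    rw [act_sg hQ hc hcx.1, hx]
    simp
    abel
  rw [e1] at h1
  have hw1 : f (R a) (f w (R c) • R x - f w (R x) • R c) = 0 := by
    rw [pol_sub_right hQ, pol_smul_right hQ, pol_smul_right hQ, hax, cm a c, hca.1]
    simp
  have hy₂ : sg hQ (R c') (R e) ∈ M := hS c' e hc' (by rw [cm]; exact hec'.1)
  have hce : f (R c') (R e) = 0 := by rw [cm]; exact hec'.1
  have hy₂a : act (sg hQ (R c') (R e)) (R a) = R a := by
    rw [act_sg hQ hc' hce, cm a c', hca.2, cm a e, hea.1]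
    simp
  have h2 := sg_diff hM hy₂ ha hw1 hy₂a h1
  have e2 : act (sg hQ (R c') (R e)) (f w (R c) • R x - f w (R x) • R c)
      - (f w (R c) • R x - f w (R x) • R c) = (- f w (R x)) • R e := by
    rw [map_sub, map_smul, map_smul, act_sg hQ hc' hce, act_sg hQ hc' hce, he, cm x c', hcx.2, cm x e, hex.1,
      cm c c', ← cm c c', hcc', cm c e, hec.1]
    simp only [zero_smul, zero_mul, add_zero, sub_zero, one_smul, smul_add]
    simp only [neg_smul]
    abel
  rw [e2] at h2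
  have h3 := Rz hrat hM hS hn hA ha he (by rw [cm]; exact hea.1) ha0 (by
    rintro c₀ rfl
    rw [rat_smul, pol_smul_left hQ, cm a e', hea.2, mul_zero] at hee'
    exact zero_ne_one hee') h2
  simpa using F₀.neg_mem h3

/-- pairings of the second parameter with rational vectors perpendicular to the centre -/
theorem R1_all {a x : ι → F₀} {w : ι → F} (ha0 : a ≠ 0) (ha : Q (R a) = 0) (haw : f (R a) w = 0)
    (hm : sg hQ (R a) w ∈ M) (hax : f (R a) (R x) = 0) : f w (R x) ∈ F₀ := by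
  obtain ⟨s, hs, hsa, hxs⟩ := rat_decomp P hQ hrat (by omega) ha0 ha (x := x) (by rw [pol_comm']; exact hax)
  have e1 : R x = R s + R (x - s) := by rw [rat_sub']; abel
  rw [e1, pol_add_right hQ]
  refine F₀.add_mem (R1_sing hrat hM hS hn hA ha0 ha haw hm hs (by rw [pol_comm']; exact hsa))
    (R1_sing hrat hM hS hn hA ha0 ha haw hm hxs ?_)
  rw [rat_sub', pol_sub_right hQ, hax, pol_comm', hsa, sub_zero]

/-- the second parameter is rational modulo the centre -/
theorem R1_vec {a : ι → F₀} {w : ι → F} (ha0 : a ≠ 0) (ha : Q (R a) = 0) (haw : f (R a) w = 0)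
    (hm : sg hQ (R a) w ∈ M) : ∃ (w₀ : ι → F₀) (κ : F), w = R w₀ + κ • R a := by
  obtain ⟨a', haa'⟩ := rat_partner P hQ hrat ha0
  set κ := f w (R a') with hκ
  obtain ⟨w₀, hw₀⟩ := rat_of_pair P hQ hrat (z := w - κ • R a) (fun y => by
    obtain ⟨t, ht⟩ : ∃ t : F₀, (t : F) = f (R y) (R a) := ⟨⟨_, fr_mem P hrat y a⟩, rfl⟩
    have h1 : f (R a) (R (y - t • a')) = 0 := by
      rw [rat_sub', rat_smul, pol_sub_right hQ, pol_smul_right hQ, haa', ht, pol_comm']
      simp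
    have h2 := R1_all hrat hM hS hn hA ha0 ha haw hm h1
    rw [rat_sub', rat_smul, pol_sub_right hQ, pol_smul_right hQ, ← hκ, ht] at h2
    rw [pol_sub_left hQ, pol_smul_left hQ, pol_comm' (R a) (R y)]
    convert h2 using 1
    ring)
  exact ⟨w₀, κ, by rw [← hw₀]; abel⟩

end rigid0

end overgroup


end Cfsg.Agent.Lib.Geo
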