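import Mathlib
import Cfsg.Agent.Lib.Geo.OmegaRat

set_option autoImplicit false

/-! Siegel elements with totally singular parameters, Plücker coordinates, rigidity. -/

namespace Cfsg.Agent.Lib.Geo

open scoped MatrixGroups Matrix commutatorElement
open Module

variable {ι : Type} [Fintype ι] [DecidableEq ι]

section wedge

variable {F : Type*} [Field F] [Fintype F]
variable {Q : (ι → F) → F} (hQ : Cfsg.Geo.IsNondegenerateQuadraticForm Q)

local notation "f" => QuadraticMap.polar Q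

/-- the action for totally singular parameters -/
theorem act_sg_ts {x y : ι → F} (hx : Q x = 0) (hy : Q y = 0) (hxy : f x y = 0) (z : ι → F) :
    act (sg hQ x y) z = z + f z x • y - f z y • x := by
  rw [act_sg hQ hx hxy, hy]
  simp

/-- Siegel elements depend only on the wedge of the parameters -/
theorem sg_wedge {x y x' y' : ι → F} {α β γ δ : F} (hx : Q x = 0) (hy : Q y = 0) (hxy : f x y = 0)
    (hx' : x' = α • x + β • y) (hy' : y' = γ • x + δ • y) (hdet : α * δ - β * γ = 1) :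
    sg hQ x' y' = sg hQ x y := by
  have hxx := pol_self_of hQ hx
  have hyy := pol_self_of hQ hy
  have hyx : f y x = 0 := by rw [pol_comm']; exact hxy
  have h1 : Q x' = 0 := by
    rw [hx', Q_add' (Q := Q), Q_smul' hQ, Q_smul' hQ, hx, hy, pol_smul_left hQ, pol_smul_right hQ, hxy]
    ring
  have h2 : Q y' = 0 := by
    rw [hy', Q_add' (Q := Q), Q_smul' hQ, Q_smul' hQ, hx, hy, pol_smul_left hQ, pol_smul_right hQ, hxy]
    ring
  have h3 : f x' y' = 0 := by
    rw [hx', hy']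
    simp only [pol_add_left hQ, pol_add_right hQ, pol_smul_left hQ, pol_smul_right hQ, hxx, hyy, hxy, hyx]
    ring
  apply act.injective
  ext1 z
  rw [act_sg_ts hQ h1 h2 h3, act_sg_ts hQ hx hy hxy, hx', hy']
  simp only [pol_add_right hQ, pol_smul_right hQ]
  have e : (α * f z x + β * f z y) • (γ • x + δ • y) - (γ * f z x + δ * f z y) • (α • x + β • y)
      = (α * δ - β * γ) • (f z x • y - f z y • x) := by
    (module)
  rw [add_sub_assoc, e, hdet, one_smul]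
  abel

/-- the product rule: adding a common perpendicular to both parameters -/
theorem sg_add_both {u v e : ι → F} (hu : Q u = 0) (hv : Q v = 0) (he : Q e = 0) (huv : f u v = 0)
    (hue : f u e = 0) (hve : f v e = 0) (α β : F) :
    sg hQ (u + α • e) (v + β • e) = sg hQ u v * sg hQ e (α • v - β • u) := by
  have huu := pol_self_of hQ hu
  have hvv := pol_self_of hQ hv
  have hee := pol_self_of hQ he
  have hvu : f v u = 0 := by rw [pol_comm']; exact huv
  have heu : f e u = 0 := by rw [pol_comm']; exact hue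
  have hev : f e v = 0 := by rw [pol_comm']; exact hve
  have h1 : Q (u + α • e) = 0 := by
    rw [Q_add' (Q := Q), Q_smul' hQ, hu, he, pol_smul_right hQ, hue]
    ring
  have h2 : Q (v + β • e) = 0 := by
    rw [Q_add' (Q := Q), Q_smul' hQ, hv, he, pol_smul_right hQ, hve]
    ring
  have h3 : f (u + α • e) (v + β • e) = 0 := by
    simp only [pol_add_left hQ, pol_add_right hQ, pol_smul_left hQ, pol_smul_right hQ, huv, hue, hev, hee]
    ring
  have h4 : Q (α • v - β • u) = 0 := by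
    rw [Q_sub hQ, Q_smul' hQ, Q_smul' hQ, hu, hv, pol_smul_left hQ, pol_smul_right hQ, hvu]
    ring
  have h5 : f e (α • v - β • u) = 0 := by
    rw [pol_sub_right hQ, pol_smul_right hQ, pol_smul_right hQ, hev, heu]
    ring
  apply act.injective
  ext1 z
  rw [map_mul, LinearEquiv.mul_apply, act_sg_ts hQ h1 h2 h3, act_sg_ts hQ hu hv huv, act_sg_ts hQ he h4 h5]
  simp only [pol_add_left hQ, pol_sub_left hQ, pol_add_right hQ, pol_sub_right hQ, pol_smul_left hQ,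
    pol_smul_right hQ, huu, hvv, hee, huv, hvu, hue, heu, hve, hev]
  (module)

/-- cancellation version of the product rule -/
theorem sg_add_both_mem {M : Subgroup (GL ι F)} {u v e : ι → F} (hu : Q u = 0) (hv : Q v = 0) (he : Q e = 0) (huv : f u v = 0)
    (hue : f u e = 0) (hve : f v e = 0) (α β : F) (h1 : sg hQ u v ∈ M)
    (h2 : sg hQ (u + α • e) (v + β • e) ∈ M) : sg hQ e (α • v - β • u) ∈ M := by
  rw [sg_add_both hQ hu hv he huv hue hve] at h2
  have := M.mul_mem (M.inv_mem h1) h2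
  simpa using this

include hQ in
theorem Q_ts3 {a b c : ι → F} (ha : Q a = 0) (hb : Q b = 0) (hc : Q c = 0) (hab : f a b = 0) (hac : f a c = 0)
    (hbc : f b c = 0) (x y z : F) : Q (x • a + y • b + z • c) = 0 := by
  rw [Q_add' (Q := Q), Q_add' (Q := Q), Q_smul' hQ, Q_smul' hQ, Q_smul' hQ]
  simp only [pol_add_left hQ, pol_smul_left hQ, pol_smul_right hQ, hab, hac, hbc, ha, hb, hc]
  ring

include hQ in
theorem f_ts3 {a b c : ι → F} (ha : Q a = 0) (hb : Q b = 0) (hc : Q c = 0) (hab : f a b = 0) (hac : f a c = 0)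
    (hbc : f b c = 0) (x y z x' y' z' : F) : f (x • a + y • b + z • c) (x' • a + y' • b + z' • c) = 0 := by
  have h1 := pol_self_of hQ ha
  have h2 := pol_self_of hQ hb
  have h3 := pol_self_of hQ hc
  have h4 : f b a = 0 := by rw [pol_comm']; exact hab
  have h5 : f c a = 0 := by rw [pol_comm']; exact hac
  have h6 : f c b = 0 := by rw [pol_comm']; exact hbc
  simp only [pol_add_left hQ, pol_add_right hQ, pol_smul_left hQ, pol_smul_right hQ, hab, hac, hbc, h1, h2, h3, h4, h5, h6]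
  ring

end wedge

section plucker

variable {F : Type*} [Field F] [Fintype F] {F₀ : Subfield F} {P : GL ι F}
variable {Q : (ι → F) → F} {hQ : Cfsg.Geo.IsNondegenerateQuadraticForm Q}
  (hrat : ∀ u : ι → F₀, Q (rat F₀ P u) ∈ F₀)
  {M : Subgroup (GL ι F)}
  (hM : M ≤ Cfsg.isometryGroup F Q) (hS : HS M hQ F₀ P) (hn : 13 ≤ Fintype.card ι)
  (hA : ∀ d, RS M hQ F₀ P d → d ∈ F₀)

local notation "f" => QuadraticMap.polar Q
local notation "R" => rat F₀ P

include hrat hM hS hn hA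

/-- a Plücker coordinate of a Siegel element inside a rational totally singular space is rational -/
theorem plucker_one {e₁ e₂ e₃ c₁ c₂ : ι → F₀} (he₁ : Q (R e₁) = 0) (he₂ : Q (R e₂) = 0) (he₃ : Q (R e₃) = 0)
    (h12 : f (R e₁) (R e₂) = 0) (h13 : f (R e₁) (R e₃) = 0) (h23 : f (R e₂) (R e₃) = 0)
    (hc₁ : Q (R c₁) = 0) (h11' : f (R c₁) (R e₁) = 1) (h12' : f (R c₁) (R e₂) = 0) (h13' : f (R c₁) (R e₃) = 0)
    (h22' : f (R c₂) (R e₂) = 1) (h23' : f (R c₂) (R e₃) = 0)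
    {α₁ α₂ α₃ β₁ β₂ β₃ : F}
    (hm : sg hQ (α₁ • R e₁ + α₂ • R e₂ + α₃ • R e₃) (β₁ • R e₁ + β₂ • R e₂ + β₃ • R e₃) ∈ M) :
    α₁ * β₂ - α₂ * β₁ ∈ F₀ := by
  set u := α₁ • R e₁ + α₂ • R e₂ + α₃ • R e₃ with hu
  set v := β₁ • R e₁ + β₂ • R e₂ + β₃ • R e₃ with hv
  obtain ⟨e', he'0, he', hΛ⟩ := rat_sing P hQ hrat [e₁, e₂, e₃, c₁, c₂] (by simp; omega)
  have h1 := hΛ e₁ (by simp)
  have h2 := hΛ e₂ (by simp)
  have h3 := hΛ e₃ (by simp)
  have h4 := hΛ c₁ (by simp)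
  have h5 := hΛ c₂ (by simp)
  have cm : ∀ x y : ι → F₀, f (R x) (R y) = f (R y) (R x) := fun _ _ => pol_comm' _ _
  have hQu : Q u = 0 := Q_ts3 hQ he₁ he₂ he₃ h12 h13 h23 _ _ _
  have hQv : Q v = 0 := Q_ts3 hQ he₁ he₂ he₃ h12 h13 h23 _ _ _
  have huv : f u v = 0 := f_ts3 hQ he₁ he₂ he₃ h12 h13 h23 _ _ _ _ _ _
  have hc₁e' : f (R c₁) (R e') = 0 := by rw [cm]; exact h4
  have hy : sg hQ (R c₁) (R e') ∈ M := hS c₁ e' hc₁ hc₁e'
  have hue' : f u (R e') = 0 := by
    simp only [hu, pol_add_left hQ, pol_smul_left hQ, cm _ e', h1, h2, h3]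
    ring
  have hve' : f v (R e') = 0 := by
    simp only [hv, pol_add_left hQ, pol_smul_left hQ, cm _ e', h1, h2, h3]
    ring
  have huc : f u (R c₁) = α₁ := by
    simp only [hu, pol_add_left hQ, pol_smul_left hQ, cm _ c₁, h11', h12', h13']
    ring
  have hvc : f v (R c₁) = β₁ := by
    simp only [hv, pol_add_left hQ, pol_smul_left hQ, cm _ c₁, h11', h12', h13']
    ring
  have hyu : act (sg hQ (R c₁) (R e')) u = u + α₁ • R e' := by
    rw [act_sg_ts hQ hc₁ he' hc₁e', huc, hue']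
    simp
  have hyv : act (sg hQ (R c₁) (R e')) v = v + β₁ • R e' := by
    rw [act_sg_ts hQ hc₁ he' hc₁e', hvc, hve']
    simp
  have h6 := conj_sg hQ (hM hy) hQu huv
  rw [hyu, hyv] at h6
  have h7 : sg hQ (u + α₁ • R e') (v + β₁ • R e') ∈ M := by
    rw [← h6]
    exact M.mul_mem (M.mul_mem hy hm) (M.inv_mem hy)
  have h8 := sg_add_both_mem hQ hQu hQv he' huv hue' hve' α₁ β₁ hm h7
  have h9 : f (R e') (α₁ • v - β₁ • u) = 0 := by
    rw [pol_sub_right hQ, pol_smul_right hQ, pol_smul_right hQ, pol_comm' _ v, pol_comm' _ u, hue', hve']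
    ring
  have h10 := R1_all hrat hM hS hn hA he'0 he' h9 h8 h5
  have e1 : f (α₁ • v - β₁ • u) (R c₂) = α₁ * β₂ - α₂ * β₁ := by
    simp only [hu, hv, pol_sub_left hQ, pol_add_left hQ, pol_smul_left hQ, cm _ c₂, h22', h23']
    ring
  rwa [e1] at h10

/-- the Plücker coordinates of a Siegel element inside a rational totally singular space -/
theorem plucker_all {e₁ e₂ e₃ : ι → F₀} (he₁ : Q (R e₁) = 0) (he₂ : Q (R e₂) = 0) (he₃ : Q (R e₃) = 0)
    (h12 : f (R e₁) (R e₂) = 0) (h13 : f (R e₁) (R e₃) = 0) (h23 : f (R e₂) (R e₃) = 0)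
    (hind : ∀ x y z : F₀, x • e₁ + y • e₂ + z • e₃ = 0 → x = 0 ∧ y = 0 ∧ z = 0)
    {α₁ α₂ α₃ β₁ β₂ β₃ : F}
    (hm : sg hQ (α₁ • R e₁ + α₂ • R e₂ + α₃ • R e₃) (β₁ • R e₁ + β₂ • R e₂ + β₃ • R e₃) ∈ M) :
    α₁ * β₂ - α₂ * β₁ ∈ F₀ ∧ α₁ * β₃ - α₃ * β₁ ∈ F₀ ∧ α₂ * β₃ - α₃ * β₂ ∈ F₀ := by
  obtain ⟨c₁, hc₁, h11, h12', h13'⟩ := rat_dual P hQ hrat (e := e₁) (e₁ := e₂) (e₂ := e₃) (by omega) (by
    intro b c h
    have := (hind 1 (-b) (-c) (by rw [h]; simp)).1
    exact one_ne_zero this)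
  obtain ⟨c₂, hc₂, h22, h21', h23'⟩ := rat_dual P hQ hrat (e := e₂) (e₁ := e₁) (e₂ := e₃) (by omega) (by
    intro b c h
    have := (hind (-b) 1 (-c) (by rw [h]; simp <;> abel)).2.1
    exact one_ne_zero this)
  obtain ⟨c₃, hc₃, h33, h31', h32'⟩ := rat_dual P hQ hrat (e := e₃) (e₁ := e₁) (e₂ := e₂) (by omega) (by
    intro b c h
    have := (hind (-b) (-c) 1 (by rw [h]; simp <;> abel)).2.2
    exact one_ne_zero this)
  have cm : ∀ x y : ι → F₀, f (R x) (R y) = f (R y) (R x) := fun _ _ => pol_comm' _ _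
  refine ⟨plucker_one hrat hM hS hn hA he₁ he₂ he₃ h12 h13 h23 hc₁ h11 h12' h13' h22 h23' hm, ?_, ?_⟩
  · refine plucker_one hrat hM hS hn hA (e₁ := e₁) (e₂ := e₃) (e₃ := e₂) (c₁ := c₁) (c₂ := c₃)
      (α₁ := α₁) (α₂ := α₃) (α₃ := α₂) (β₁ := β₁) (β₂ := β₃) (β₃ := β₂)
      he₁ he₃ he₂ h13 h12 (by rw [cm]; exact h23) hc₁ h11 h13' h12' h33 h32' ?_
    convert hm using 2 <;> abel
  · refine plucker_one hrat hM hS hn hA (e₁ := e₂) (e₂ := e₃) (e₃ := e₁) (c₁ := c₂) (c₂ := c₃)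
      (α₁ := α₂) (α₂ := α₃) (α₃ := α₁) (β₁ := β₂) (β₂ := β₃) (β₃ := β₁)
      he₂ he₃ he₁ h23 (by rw [cm]; exact h12) (by rw [cm]; exact h13) hc₂ h22 h23' h21' h33 h31' ?_
    convert hm using 2 <;> abel

/-- A plane in a rational totally singular 3-space carrying a Siegel element of `M` is rational. -/
theorem plucker_plane {e₁ e₂ e₃ : ι → F₀} (he₁ : Q (R e₁) = 0) (he₂ : Q (R e₂) = 0) (he₃ : Q (R e₃) = 0)
    (h12 : f (R e₁) (R e₂) = 0) (h13 : f (R e₁) (R e₃) = 0) (h23 : f (R e₂) (R e₃) = 0)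
    (hind : ∀ x y z : F₀, x • e₁ + y • e₂ + z • e₃ = 0 → x = 0 ∧ y = 0 ∧ z = 0)
    {α₁ α₂ α₃ β₁ β₂ β₃ : F} (hA0 : α₁ * β₂ - α₂ * β₁ ≠ 0)
    (hm : sg hQ (α₁ • R e₁ + α₂ • R e₂ + α₃ • R e₃) (β₁ • R e₁ + β₂ • R e₂ + β₃ • R e₃) ∈ M) :
    ∃ (p q : ι → F₀) (c₁ c₂ d₁ d₂ : F), α₁ • R e₁ + α₂ • R e₂ + α₃ • R e₃ = c₁ • R p + c₂ • R q ∧
      β₁ • R e₁ + β₂ • R e₂ + β₃ • R e₃ = d₁ • R p + d₂ • R q := by
  obtain ⟨hAm, hBm, hCm⟩ := plucker_all hrat hM hS hn hA he₁ he₂ he₃ h12 h13 h23 hind hm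
  obtain ⟨A, hAe⟩ : ∃ A : F₀, (A : F) = α₁ * β₂ - α₂ * β₁ := ⟨⟨_, hAm⟩, rfl⟩
  obtain ⟨B, hBe⟩ : ∃ B : F₀, (B : F) = α₁ * β₃ - α₃ * β₁ := ⟨⟨_, hBm⟩, rfl⟩
  obtain ⟨C, hCe⟩ : ∃ C : F₀, (C : F) = α₂ * β₃ - α₃ * β₂ := ⟨⟨_, hCm⟩, rfl⟩
  refine ⟨A • e₂ + B • e₃, (-A) • e₁ + C • e₃, (α₁ * β₂ - α₂ * β₁)⁻¹ * α₂, -((α₁ * β₂ - α₂ * β₁)⁻¹ * α₁),
    (α₁ * β₂ - α₂ * β₁)⁻¹ * β₂, -((α₁ * β₂ - α₂ * β₁)⁻¹ * β₁), ?_, ?_⟩
  · simp only [rat_add, rat_smul, hAe, hBe, hCe, Subfield.coe_neg]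
    set D := α₁ * β₂ - α₂ * β₁ with hD
    have e1 : D⁻¹ * α₂ * D = α₂ := by field_simp
    have e2 : D⁻¹ * α₁ * D = α₁ := by field_simp
    have e3 : D⁻¹ * α₂ * (α₁ * β₃ - α₃ * β₁) - D⁻¹ * α₁ * (α₂ * β₃ - α₃ * β₂) = α₃ := by
      field_simp
      rw [hD]
      ring
    have e4 : (D⁻¹ * α₂) • (D • R e₂ + (α₁ * β₃ - α₃ * β₁) • R e₃)
        + (-(D⁻¹ * α₁)) • ((-D) • R e₁ + (α₂ * β₃ - α₃ * β₂) • R e₃)
        = (D⁻¹ * α₁ * D) • R e₁ + (D⁻¹ * α₂ * D) • R e₂
          + (D⁻¹ * α₂ * (α₁ * β₃ - α₃ * β₁) - D⁻¹ * α₁ * (α₂ * β₃ - α₃ * β₂)) • R e₃ := by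
      (module)
    rw [e4, e1, e2, e3]
  · simp only [rat_add, rat_smul, hAe, hBe, hCe, Subfield.coe_neg]
    set D := α₁ * β₂ - α₂ * β₁ with hD
    have e1 : D⁻¹ * β₂ * D = β₂ := by field_simp
    have e2 : D⁻¹ * β₁ * D = β₁ := by field_simp
    have e3 : D⁻¹ * β₂ * (α₁ * β₃ - α₃ * β₁) - D⁻¹ * β₁ * (α₂ * β₃ - α₃ * β₂) = β₃ := by
      field_simp
      rw [hD]
      ring
    have e4 : (D⁻¹ * β₂) • (D • R e₂ + (α₁ * β₃ - α₃ * β₁) • R e₃)
        + (-(D⁻¹ * β₁)) • ((-D) • R e₁ + (α₂ * β₃ - α₃ * β₂) • R e₃)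
        = (D⁻¹ * β₁ * D) • R e₁ + (D⁻¹ * β₂ * D) • R e₂
          + (D⁻¹ * β₂ * (α₁ * β₃ - α₃ * β₁) - D⁻¹ * β₁ * (α₂ * β₃ - α₃ * β₂)) • R e₃ := by
      (module)
    rw [e4, e1, e2, e3]

/-- A Siegel element of `M` whose plane has a rational singular perpendicular has rational plane. -/
theorem rigid_plane {u v : ι → F} {a : ι → F₀} (hu : Q u = 0) (hv : Q v = 0) (huv : f u v = 0)
    (hm : sg hQ u v ∈ M) (hind : ∀ x y : F, x • u + y • v = 0 → x = 0 ∧ y = 0) (ha0 : a ≠ 0)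
    (ha : Q (R a) = 0) (hua : f u (R a) = 0) (hva : f v (R a) = 0) :
    ∃ (p q : ι → F₀) (c₁ c₂ d₁ d₂ : F), u = c₁ • R p + c₂ • R q ∧ v = d₁ • R p + d₂ • R q := by
  have hau : f (R a) u = 0 := by rw [pol_comm']; exact hua
  have hav : f (R a) v = 0 := by rw [pol_comm']; exact hva
  have hRa0 : R a ≠ 0 := by
    intro h
    apply ha0
    apply rat_injective P
    rw [h, rat_zero]
  by_cases hPl : ∃ α β : F, R a = α • u + β • v
  · obtain ⟨α, β, hab⟩ := hPl
    by_cases hα : α = 0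
    · subst hα
      have hβ : β ≠ 0 := by
        rintro rfl
        apply hRa0
        rw [hab]
        simp
      have h1 := sg_wedge hQ hu hv huv (x' := R a) (y' := (-β⁻¹) • u) (α := 0) (β := β) (γ := -β⁻¹) (δ := 0)
        hab (by simp) (by field_simp; ring)
      rw [← h1] at hm
      have hw : f (R a) ((-β⁻¹) • u) = 0 := by rw [pol_smul_right hQ, hau, mul_zero]
      obtain ⟨w₀, κ, hw₀⟩ := R1_vec hrat hM hS hn hA ha0 ha hw hm
      refine ⟨w₀, a, -β, -β * κ, 0, β⁻¹, ?_, ?_⟩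
      · have e1 : u = (-β) • ((-β⁻¹) • u) := by
          rw [smul_smul]
          field_simp
          simp
        rw [e1, hw₀]
        rw [smul_add, smul_smul]
      · rw [hab]
        simp only [zero_smul, zero_add, smul_smul]
        field_simp
        simp
    · have h1 := sg_wedge hQ hu hv huv (x' := R a) (y' := α⁻¹ • v) (α := α) (β := β) (γ := 0) (δ := α⁻¹)
        hab (by simp) (by field_simp; ring)
      rw [← h1] at hm
      have hw : f (R a) (α⁻¹ • v) = 0 := by rw [pol_smul_right hQ, hav, mul_zero]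
      obtain ⟨w₀, κ, hw₀⟩ := R1_vec hrat hM hS hn hA ha0 ha hw hm
      have e2 : v = α • (α⁻¹ • v) := by
        rw [smul_smul]
        field_simp
        simp
      refine ⟨w₀, a, -β, α⁻¹ - β * κ, α, α * κ, ?_, ?_⟩
      · have e1 : u = α⁻¹ • R a - (α⁻¹ * β) • v := by
          rw [hab, smul_add, smul_smul, smul_smul]
          have : α⁻¹ * α = 1 := by field_simp
          rw [this, one_smul]
          abel
        rw [e1]
        nth_rw 1 [e2]
        rw [hw₀]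
        have e3 : α⁻¹ * β * α = β := by field_simp
        have e4 : (α⁻¹ * β) • α • (R w₀ + κ • R a) = (α⁻¹ * β * α) • (R w₀ + κ • R a) := by
          rw [smul_smul]
        rw [e4, e3]
        (module)
      · rw [e2, hw₀, smul_add, smul_smul]
  · push Not at hPl
    -- rational vectors perpendicular to `a`
    have T : ∀ b : ι → F₀, f (R a) (R b) = 0 → ∃ (p : ι → F₀) (κ : F),
        f v (R b) • u - f u (R b) • v = R p + κ • R a := by
      intro b hab
      have hy : sg hQ (R a) (R b) ∈ M := hS a b ha hab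
      have h1 : act (sg hQ (R a) (R b)) u = u + (- f u (R b)) • R a := by
        rw [act_sg hQ ha hab, hua]
        simp
        abel
      have h2 : act (sg hQ (R a) (R b)) v = v + (- f v (R b)) • R a := by
        rw [act_sg hQ ha hab, hva]
        simp
        abel
      have h3 := conj_sg hQ (hM hy) hu huv
      rw [h1, h2] at h3
      have h4 : sg hQ (u + (- f u (R b)) • R a) (v + (- f v (R b)) • R a) ∈ M := by
        rw [← h3]
        exact M.mul_mem (M.mul_mem hy hm) (M.inv_mem hy)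
      have h5 := sg_add_both_mem hQ hu hv ha huv hua hva _ _ hm h4
      have e1 : (- f u (R b)) • v - (- f v (R b)) • u = f v (R b) • u - f u (R b) • v := by
        (module)
      rw [e1] at h5
      have h6 : f (R a) (f v (R b) • u - f u (R b) • v) = 0 := by
        rw [pol_sub_right hQ, pol_smul_right hQ, pol_smul_right hQ, hau, hav]
        ring
      exact R1_vec hrat hM hS hn hA ha0 ha h6 h5
    have hu1 : ∀ c : F, u ≠ c • R a := by
      intro c hc
      by_cases hc0 : c = 0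
      · subst hc0
        have := hind 1 0 (by rw [hc]; simp)
        exact one_ne_zero this.1
      · apply hPl c⁻¹ 0
        rw [hc, smul_smul, inv_mul_cancel₀ hc0]
        simp
    obtain ⟨b₁, hb₁a, hb₁⟩ := L1 P hQ hrat ha0 hu1
    set y₁ := f u (R b₁) with hy₁
    set x₁ := f v (R b₁) with hx₁
    have hz : ∀ c : F, x₁ • u - y₁ • v ≠ c • R a := by
      intro c hc
      by_cases hc0 : c = 0
      · subst hc0
        have := hind x₁ (-y₁) (by
          rw [zero_smul] at hc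
          rw [neg_smul, ← sub_eq_add_neg, hc])
        exact hb₁ (by simpa using this.2)
      · apply hPl (c⁻¹ * x₁) (-(c⁻¹ * y₁))
        have e1 : (c⁻¹ * x₁) • u + (-(c⁻¹ * y₁)) • v = c⁻¹ • (x₁ • u - y₁ • v) := by
          (module)
        rw [e1, hc, smul_smul, inv_mul_cancel₀ hc0, one_smul]
    obtain ⟨b₂, hb₂a, hb₂⟩ := L1 P hQ hrat ha0 hz
    set y₂ := f u (R b₂) with hy₂
    set x₂ := f v (R b₂) with hx₂
    have hD : x₁ * y₂ - y₁ * x₂ ≠ 0 := by
      intro h0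
      apply hb₂
      rw [pol_sub_left hQ, pol_smul_left hQ, pol_smul_left hQ, ← hy₂, ← hx₂, h0]
    set D := x₁ * y₂ - y₁ * x₂ with hDe
    obtain ⟨p₁, κ₁, hw₁⟩ := T b₁ hb₁a
    obtain ⟨p₂, κ₂, hw₂⟩ := T b₂ hb₂a
    rw [← hy₁, ← hx₁] at hw₁
    rw [← hy₂, ← hx₂] at hw₂
    have hR₁ : R p₁ = x₁ • u + (-y₁) • v + (-κ₁) • R a := by
      have : R p₁ = (x₁ • u - y₁ • v) - κ₁ • R a := by rw [hw₁]; abel
      rw [this]
      (module)
    have hR₂ : R p₂ = x₂ • u + (-y₂) • v + (-κ₂) • R a := by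
      have : R p₂ = (x₂ • u - y₂ • v) - κ₂ • R a := by rw [hw₂]; abel
      rw [this]
      (module)
    have hu' : u = (D⁻¹ * y₂) • R p₁ + (-(D⁻¹ * y₁)) • R p₂ + (D⁻¹ * (y₂ * κ₁ - y₁ * κ₂)) • R a := by
      have e1 : (D⁻¹ * y₂) • R p₁ + (-(D⁻¹ * y₁)) • R p₂ + (D⁻¹ * (y₂ * κ₁ - y₁ * κ₂)) • R a
          = D⁻¹ • (y₂ • (R p₁ + κ₁ • R a) - y₁ • (R p₂ + κ₂ • R a)) := by
        (module)
      rw [e1, ← hw₁, ← hw₂]
      have e2 : y₂ • (x₁ • u - y₁ • v) - y₁ • (x₂ • u - y₂ • v) = D • u := by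
        rw [hDe]
        (module)
      rw [e2, smul_smul, inv_mul_cancel₀ hD, one_smul]
    have hv' : v = (D⁻¹ * x₂) • R p₁ + (-(D⁻¹ * x₁)) • R p₂ + (D⁻¹ * (x₂ * κ₁ - x₁ * κ₂)) • R a := by
      have e1 : (D⁻¹ * x₂) • R p₁ + (-(D⁻¹ * x₁)) • R p₂ + (D⁻¹ * (x₂ * κ₁ - x₁ * κ₂)) • R a
          = D⁻¹ • (x₂ • (R p₁ + κ₁ • R a) - x₁ • (R p₂ + κ₂ • R a)) := by
        (module)
      rw [e1, ← hw₁, ← hw₂]
      have e2 : x₂ • (x₁ • u - y₁ • v) - x₁ • (x₂ • u - y₂ • v) = D • v := by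
        rw [hDe]
        (module)
      rw [e2, smul_smul, inv_mul_cancel₀ hD, one_smul]
    have hQ₁ : Q (R p₁) = 0 := by
      rw [hR₁]
      exact Q_ts3 hQ hu hv ha huv hua hva _ _ _
    have hQ₂ : Q (R p₂) = 0 := by
      rw [hR₂]
      exact Q_ts3 hQ hu hv ha huv hua hva _ _ _
    have h12 : f (R p₁) (R p₂) = 0 := by
      rw [hR₁, hR₂]
      exact f_ts3 hQ hu hv ha huv hua hva _ _ _ _ _ _
    have haa := pol_self_of hQ ha
    have h1a : f (R p₁) (R a) = 0 := by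
      rw [hR₁]
      simp only [pol_add_left hQ, pol_smul_left hQ, hua, hva, haa]
      ring
    have h2a : f (R p₂) (R a) = 0 := by
      rw [hR₂]
      simp only [pol_add_left hQ, pol_smul_left hQ, hua, hva, haa]
      ring
    have hindp : ∀ x y z : F₀, x • p₁ + y • p₂ + z • a = 0 → x = 0 ∧ y = 0 ∧ z = 0 := by
      intro x y z h
      have h1 := congrArg R h
      rw [rat_add, rat_add, rat_smul, rat_smul, rat_smul, rat_zero, hR₁, hR₂] at h1
      set c : F := (z : F) - x * κ₁ - y * κ₂ with hc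
      have e1 : (x : F) • (x₁ • u + (-y₁) • v + (-κ₁) • R a) + (y : F) • (x₂ • u + (-y₂) • v + (-κ₂) • R a)
          + (z : F) • R a = (x * x₁ + y * x₂) • u + (-(x * y₁ + y * y₂)) • v + c • R a := by
        rw [hc]
        (module)
      rw [e1] at h1
      have hc0 : c = 0 := by
        by_contra hc0
        apply hPl (-(c⁻¹ * (x * x₁ + y * x₂))) (c⁻¹ * (x * y₁ + y * y₂))
        have e2 : c • R a = - ((x * x₁ + y * x₂) • u + (-(x * y₁ + y * y₂)) • v) := by
          rw [eq_neg_iff_add_eq_zero, add_comm]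
          exact h1
        have e3 : R a = c⁻¹ • (c • R a) := by
          rw [smul_smul, inv_mul_cancel₀ hc0, one_smul]
        rw [e3, e2]
        (module)
      rw [hc0, zero_smul, add_zero] at h1
      obtain ⟨h2, h3⟩ := hind _ _ h1
      have h3' : (x : F) * y₁ + y * y₂ = 0 := neg_eq_zero.1 h3
      have hx : (x : F) = 0 := by
        have : D * x = 0 := by
          rw [hDe]
          linear_combination y₂ * h2 - x₂ * h3'
        exact (mul_eq_zero.1 this).resolve_left hD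
      have hy : (y : F) = 0 := by
        have : D * y = 0 := by
          rw [hDe]
          linear_combination x₁ * h3' - y₁ * h2
        exact (mul_eq_zero.1 this).resolve_left hD
      have hz' : (z : F) = 0 := by
        rw [hc, hx, hy] at hc0
        simpa using hc0
      exact ⟨by exact_mod_cast hx, by exact_mod_cast hy, by exact_mod_cast hz'⟩
    have hA0 : (D⁻¹ * y₂) * (-(D⁻¹ * x₁)) - (-(D⁻¹ * y₁)) * (D⁻¹ * x₂) ≠ 0 := by
      have e1 : (D⁻¹ * y₂) * (-(D⁻¹ * x₁)) - (-(D⁻¹ * y₁)) * (D⁻¹ * x₂) = - D⁻¹ := by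
        field_simp
        rw [hDe]
        ring
      rw [e1]
      exact neg_ne_zero.2 (inv_ne_zero hD)
    rw [hu', hv'] at hm
    obtain ⟨p, q, c₁, c₂, d₁, d₂, e1, e2⟩ := plucker_plane hrat hM hS hn hA hQ₁ hQ₂ ha h12 h1a h2a hindp hA0 hm
    exact ⟨p, q, c₁, c₂, d₁, d₂, hu'.trans e1, hv'.trans e2⟩

end plucker


section scale

variable {F : Type*} [Field F] [Fintype F] {F₀ : Subfield F} (P : GL ι F)
variable {Q : (ι → F) → F} (hQ : Cfsg.Geo.IsNondegenerateQuadraticForm Q)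
  (hrat : ∀ u : ι → F₀, Q (rat F₀ P u) ∈ F₀)

local notation "f" => QuadraticMap.polar Q
local notation "R" => rat F₀ P

include hQ hrat

/-- every rational vector is a sum of two rational singular vectors -/
theorem rat_decomp0 (hn : 5 ≤ Fintype.card ι) (x : ι → F₀) :
    ∃ s : ι → F₀, Q (R s) = 0 ∧ Q (R (x - s)) = 0 := by
  haveI : Fintype F₀ := Fintype.ofFinite _
  have hQ₀ := Qr_nondeg P hQ hrat
  obtain ⟨s, -, h1, h2⟩ := iso_decomp_Q_in hQ₀ (⊤ : Submodule F₀ (ι → F₀)) (fun y _ hy => by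
    obtain ⟨z, hz⟩ := (sform_of_quad hQ₀).nd y hy
    exact ⟨z, trivial, hz⟩) (by simpa using hn) (x := x) trivial
  exact ⟨s, Qr_zero P hrat h1, Qr_zero P hrat h2⟩

/-- separating a rational vector from a rational span -/
theorem rat_sep {p' q' x : ι → F₀} (hx : x ∉ Submodule.span F₀ ({p', q'} : Set (ι → F₀))) :
    ∃ y : ι → F₀, f (R p') (R y) = 0 ∧ f (R q') (R y) = 0 ∧ f (R x) (R y) = 1 := by
  haveI : Fintype F₀ := Fintype.ofFinite _
  have hQ₀ := Qr_nondeg P hQ hrat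
  obtain ⟨φ, h1, h2⟩ := exists_dual_of_notMem hx
  obtain ⟨y, rfl⟩ := (sform_of_quad hQ₀).lf_surjective φ
  simp only [SForm.lf_apply] at h1 h2
  refine ⟨y, polar_val P hrat (h2 _ (Submodule.subset_span (by simp))),
    polar_val P hrat (h2 _ (Submodule.subset_span (by simp))), polar_val P hrat h1⟩

/-- the ratio of scalars on perpendicular vectors is rational -/
theorem ratio_step {g : GL ι F} (H : ∀ x : ι → F₀, Q (R x) = 0 → ∃ (c : F) (w : ι → F₀), act g (R x) = c • R w)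
    {p q w : ι → F₀} {c : F} (hp : Q (R p) = 0) (hq : Q (R q) = 0) (hpq : f (R p) (R q) = 0) (hp0 : p ≠ 0)
    (hind : ∀ t : F₀, q ≠ t • p) (hgp : act g (R p) = c • R w) (hc : c ≠ 0) :
    ∃ w' : ι → F₀, act g (R q) = c • R w' := by
  obtain ⟨c', w', h1⟩ := H q hq
  obtain ⟨c'', w'', h2⟩ := H (p + q) (by rw [rat_add, Q_add' (Q := Q), hp, hq, hpq]; ring)
  have hRp0 : R p ≠ 0 := by
    intro h
    apply hp0
    apply rat_injective P
    rw [h, rat_zero]
  have hw0 : w ≠ 0 := by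
    rintro rfl
    rw [rat_zero, smul_zero] at hgp
    exact hRp0 ((act g).map_eq_zero_iff.1 hgp)
  have hc'0 : c' ≠ 0 := by
    rintro rfl
    rw [zero_smul] at h1
    have h3 := (act g).map_eq_zero_iff.1 h1
    have h4 : q = 0 := by
      apply rat_injective P
      rw [h3, rat_zero]
    exact hind 0 (by rw [h4, zero_smul])
  have hind' : ∀ t : F₀, w' ≠ t • w := by
    rintro t rfl
    rw [rat_smul, smul_smul] at h1
    have h3 : act g (R q) = act g ((c' * t * c⁻¹) • R p) := by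
      rw [map_smul, hgp, smul_smul, h1]
      congr 1
      field_simp
    have h4 := (act g).injective h3
    obtain ⟨a', haa'⟩ := rat_partner P hQ hrat hp0
    have h5 : f (R q) (R a') = c' * t * c⁻¹ := by
      rw [h4, pol_smul_left hQ, haa', mul_one]
    have h6 : c' * t * c⁻¹ ∈ F₀ := by
      rw [← h5]
      exact fr_mem P hrat _ _
    apply hind ⟨_, h6⟩
    apply rat_injective P
    rw [rat_smul]
    exact h4
  obtain ⟨y₁, h11, h12⟩ := rat_two_values P hQ hrat hw0 hind' 1 0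
  obtain ⟨y₂, h21, h22⟩ := rat_two_values P hQ hrat hw0 hind' 0 1
  simp only [Subfield.coe_one, Subfield.coe_zero] at h11 h12 h21 h22
  rw [rat_add, map_add, hgp, h1] at h2
  have e1 := congrArg (fun z => f (R y₁) z) h2
  have e2 := congrArg (fun z => f (R y₂) z) h2
  simp only [pol_add_right hQ, pol_smul_right hQ, h11, h12, h21, h22, mul_one, mul_zero, add_zero, zero_add] at e1 e2
  have h7 : f (R y₁) (R w'') ≠ 0 := by
    intro h0
    rw [h0, mul_zero] at e1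
    exact hc e1
  have hc''0 : c'' ≠ 0 := by
    rintro rfl
    rw [zero_mul] at e1
    exact hc e1
  obtain ⟨t₀, ht₀⟩ : ∃ t₀ : F₀, (t₀ : F) = f (R y₂) (R w'') * (f (R y₁) (R w''))⁻¹ :=
    ⟨⟨_, F₀.mul_mem (fr_mem P hrat _ _) (F₀.inv_mem (fr_mem P hrat _ _))⟩, rfl⟩
  refine ⟨t₀ • w', ?_⟩
  rw [h1, rat_smul, smul_smul, ht₀, e1, e2]
  congr 1
  field_simp

/-- an isometry outside the subfield group moves a rational singular vector off the rational vectors -/
theorem exists_not_rat_scale (hn : 13 ≤ Fintype.card ι) {g : GL ι F}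
    (hg : g ∉ Cfsg.Geo.subfieldSubgroup F₀ P) :
    ∃ a₀ : ι → F₀, Q (R a₀) = 0 ∧ ∀ (c : F) (w : ι → F₀), act g (R a₀) ≠ c • R w := by
  by_contra hcon
  push Not at hcon
  apply hg
  obtain ⟨σ, hfix⟩ := exists_frob F₀
  obtain ⟨s, t, hs, ht, hst, -⟩ := rat_hyp P hQ hrat [] (by simp; omega)
  have hs0 : s ≠ 0 := by
    rintro rfl
    rw [rat_zero, pol_zero_left hQ] at hst
    exact zero_ne_one hst
  have hRs0 : R s ≠ 0 := by
    intro h
    apply hs0
    apply rat_injective P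
    rw [h, rat_zero]
  obtain ⟨c, w, hcw⟩ := hcon s hs
  have hc : c ≠ 0 := by
    rintro rfl
    rw [zero_smul] at hcw
    exact hRs0 ((act g).map_eq_zero_iff.1 hcw)
  have cm : ∀ x y : ι → F₀, f (R x) (R y) = f (R y) (R x) := fun _ _ => pol_comm' _ _
  have key : ∀ x : ι → F₀, Q (R x) = 0 → ∃ w' : ι → F₀, act g (R x) = c • R w' := by
    intro x hx
    by_cases hx0 : x = 0
    · subst hx0
      exact ⟨0, by simp [rat_zero]⟩
    obtain ⟨e, e', he, he', hee', hΛ⟩ := rat_hyp P hQ hrat [s, x] (by simp; omega)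
    have h1 := hΛ s (by simp)
    have h2 := hΛ x (by simp)
    have he0 : e ≠ 0 := by
      rintro rfl
      rw [rat_zero, pol_zero_left hQ] at hee'
      exact zero_ne_one hee'
    obtain ⟨w₁, hw₁⟩ := ratio_step P hQ hrat hcon hs he (by rw [cm]; exact h1.1) hs0 (by
      rintro t rfl
      rw [rat_smul, pol_smul_left hQ, cm s e', h1.2, mul_zero] at hee'
      exact zero_ne_one hee') hcw hc
    exact ratio_step P hQ hrat hcon he hx (by rw [cm]; exact (by rw [cm]; exact h2.1)) he0 (by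
      rintro t rfl
      apply hx0
      have h3 := h2.2
      rw [rat_smul, pol_smul_right hQ, cm e' e, hee', mul_one] at h3
      have ht0 : t = 0 := by exact_mod_cast h3
      rw [ht0, zero_smul]) hw₁ hc
  refine mem_subfield_of P σ hfix fun x => ?_
  obtain ⟨s₁, h1, h2⟩ := rat_decomp0 P hQ hrat (by omega) x
  obtain ⟨w₁, hw₁⟩ := key s₁ h1
  obtain ⟨w₂, hw₂⟩ := key _ h2
  refine ⟨c, w₁ + w₂, ?_⟩
  have e1 : R x = R s₁ + R (x - s₁) := by rw [rat_sub']; abel
  rw [e1, map_add, hw₁, hw₂, rat_add, smul_add]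

/-- Two rational planes through a point make the point rational. -/
theorem no_two_planes {u v₀ v₁ t : ι → F} (hu0 : ∀ x y : F, x • u + y • v₀ = 0 → x = 0 ∧ y = 0)
    (hnr : ∀ (c : F) (w : ι → F₀), u ≠ c • R w) (ht0 : f t u = 0) (ht1 : f t v₀ = 0) (ht2 : f t v₁ = 1)
    {p q p' q' : ι → F₀} {c₁ c₂ d₁ d₂ c₃ c₄ d₃ d₄ : F}
    (h1 : u = c₁ • R p + c₂ • R q) (h2 : v₀ = d₁ • R p + d₂ • R q)
    (h3 : u = c₃ • R p' + c₄ • R q') (h4 : v₁ = d₃ • R p' + d₄ • R q') : False := by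
  have fmem : ∀ x y : ι → F₀, f (R x) (R y) ∈ F₀ := fr_mem P hrat
  by_cases hp : p ∈ Submodule.span F₀ ({p', q'} : Set (ι → F₀))
  · by_cases hq : q ∈ Submodule.span F₀ ({p', q'} : Set (ι → F₀))
    · obtain ⟨a₁, a₂, ha⟩ := Submodule.mem_span_pair.1 hp
      obtain ⟨a₃, a₄, ha'⟩ := Submodule.mem_span_pair.1 hq
      set m₁ : F := c₁ * a₁ + c₂ * a₃ with hm₁
      set m₂ : F := c₁ * a₂ + c₂ * a₄ with hm₂
      set n₁ : F := d₁ * a₁ + d₂ * a₃ with hn₁
      set n₂ : F := d₁ * a₂ + d₂ * a₄ with hn₂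
      have hu : u = m₁ • R p' + m₂ • R q' := by
        rw [h1, ← ha, ← ha', rat_add, rat_add, rat_smul, rat_smul, rat_smul, rat_smul, hm₁, hm₂]
        (module)
      have hv : v₀ = n₁ • R p' + n₂ • R q' := by
        rw [h2, ← ha, ← ha', rat_add, rat_add, rat_smul, rat_smul, rat_smul, rat_smul, hn₁, hn₂]
        (module)
      have hD : m₁ * n₂ - m₂ * n₁ ≠ 0 := by
        intro h0
        have e1 : n₂ • u + (-m₂) • v₀ = (m₁ * n₂ - m₂ * n₁) • R p' := by
          rw [hu, hv]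
          (module)
        have e2 : n₁ • u + (-m₁) • v₀ = (-(m₁ * n₂ - m₂ * n₁)) • R q' := by
          rw [hu, hv]
          (module)
        rw [h0, zero_smul] at e1
        rw [h0, neg_zero, zero_smul] at e2
        obtain ⟨h5, h6⟩ := hu0 _ _ e1
        obtain ⟨h7, h8⟩ := hu0 _ _ e2
        have h9 : m₂ = 0 := by simpa using h6
        have h10 : m₁ = 0 := by simpa using h8
        have h11 := (hu0 1 0 (by rw [hu, h9, h10]; simp)).1
        exact one_ne_zero h11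
      have e1 : (m₁ * n₂ - m₂ * n₁) * f t (R p') = 0 := by
        have : f t (n₂ • u + (-m₂) • v₀) = 0 := by
          rw [pol_add_right hQ, pol_smul_right hQ, pol_smul_right hQ, ht0, ht1]
          ring
        rw [hu, hv] at this
        simp only [pol_add_right hQ, pol_smul_right hQ] at this
        linear_combination this
      have e2 : (m₁ * n₂ - m₂ * n₁) * f t (R q') = 0 := by
        have : f t (n₁ • u + (-m₁) • v₀) = 0 := by
          rw [pol_add_right hQ, pol_smul_right hQ, pol_smul_right hQ, ht0, ht1]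
          ring
        rw [hu, hv] at this
        simp only [pol_add_right hQ, pol_smul_right hQ] at this
        linear_combination -this
      have e3 := (mul_eq_zero.1 e1).resolve_left hD
      have e4 := (mul_eq_zero.1 e2).resolve_left hD
      rw [h4, pol_add_right hQ, pol_smul_right hQ, pol_smul_right hQ, e3, e4] at ht2
      simp at ht2
    · obtain ⟨y, hy1, hy2, hy3⟩ := rat_sep P hQ hrat hq
      have h5 : f u (R y) = 0 := by
        rw [h3, pol_add_left hQ, pol_smul_left hQ, pol_smul_left hQ, hy1, hy2]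
        ring
      rw [h1, pol_add_left hQ, pol_smul_left hQ, pol_smul_left hQ, hy3] at h5
      obtain ⟨t₀, ht₀⟩ : ∃ t₀ : F₀, (t₀ : F) = f (R p) (R y) := ⟨⟨_, fmem _ _⟩, rfl⟩
      apply hnr c₁ (p - t₀ • q)
      rw [h1, rat_sub', rat_smul, ht₀]
      have e1 : c₂ = - (c₁ * f (R p) (R y)) := by linear_combination h5
      rw [e1]
      (module)
  · obtain ⟨y, hy1, hy2, hy3⟩ := rat_sep P hQ hrat hp
    have h5 : f u (R y) = 0 := by
      rw [h3, pol_add_left hQ, pol_smul_left hQ, pol_smul_left hQ, hy1, hy2]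
      ring
    rw [h1, pol_add_left hQ, pol_smul_left hQ, pol_smul_left hQ, hy3] at h5
    obtain ⟨t₀, ht₀⟩ : ∃ t₀ : F₀, (t₀ : F) = f (R q) (R y) := ⟨⟨_, fmem _ _⟩, rfl⟩
    apply hnr c₂ (q - t₀ • p)
    rw [h1, rat_sub', rat_smul, ht₀]
    have e1 : c₁ = - (c₂ * f (R q) (R y)) := by linear_combination h5
    rw [e1]
    (module)

end scale

end Cfsg.Agent.Lib.Geo
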