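import Mathlib
import Cfsg.Agent.Lib.Geo.OmegaRat2

set_option autoImplicit false

/-! The transvection subgroup of `SL₂(F)` attached to a pair of opposite totally singular planes,
and the impossibility of a Siegel element of `M` whose plane has no rational singular perpendicular. -/

namespace Cfsg.Agent.Lib.Geo

open scoped MatrixGroups Matrix commutatorElement
open Module
open Cfsg.Agent.Lib.KS2.SL2 (mul00 mul01 mul10 mul11 inv00 inv01 inv10 inv11 det_rel)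
open Cfsg.Agent.Lib.Classical.Dick (uu ll)

variable {ι : Type} [Fintype ι] [DecidableEq ι]

section pairlift

variable {F : Type*} [Field F]

local notation "V" => (ι → F)

/-- `z` acts on the pair `a, q` as the matrix `x`, modulo the fixed vector `ρ` -/
def PA (z : GL ι F) (x : SL(2, F)) (a q ρ : V) : Prop :=
  (∃ s : F, act z a = (x : Matrix (Fin 2) (Fin 2) F) 0 0 • a + (x : Matrix (Fin 2) (Fin 2) F) 1 0 • q + s • ρ) ∧
  (∃ s : F, act z q = (x : Matrix (Fin 2) (Fin 2) F) 0 1 • a + (x : Matrix (Fin 2) (Fin 2) F) 1 1 • q + s • ρ)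

theorem PA.mul {z z' : GL ι F} {x x' : SL(2, F)} {a q ρ : V} (h : PA z x a q ρ) (h' : PA z' x' a q ρ)
    (hρ : act z ρ = ρ) : PA (z * z') (x * x') a q ρ := by
  obtain ⟨⟨s₁, h1⟩, ⟨s₂, h2⟩⟩ := h
  obtain ⟨⟨s₁', h1'⟩, ⟨s₂', h2'⟩⟩ := h'
  refine ⟨⟨(x' : Matrix (Fin 2) (Fin 2) F) 0 0 * s₁ + (x' : Matrix (Fin 2) (Fin 2) F) 1 0 * s₂ + s₁', ?_⟩,
    ⟨(x' : Matrix (Fin 2) (Fin 2) F) 0 1 * s₁ + (x' : Matrix (Fin 2) (Fin 2) F) 1 1 * s₂ + s₂', ?_⟩⟩
  · rw [map_mul, LinearEquiv.mul_apply, h1', map_add, map_add, map_smul, map_smul, map_smul, h1, h2, hρ]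
    simp only [mul00, mul10]
    (module)
  · rw [map_mul, LinearEquiv.mul_apply, h2', map_add, map_add, map_smul, map_smul, map_smul, h1, h2, hρ]
    simp only [mul01, mul11]
    (module)

theorem PA.inv {z : GL ι F} {x : SL(2, F)} {a q ρ : V} (h : PA z x a q ρ) (hρ : act z ρ = ρ) :
    PA z⁻¹ x⁻¹ a q ρ := by
  obtain ⟨⟨s₁, h1⟩, ⟨s₂, h2⟩⟩ := h
  have hd := det_rel x
  refine ⟨⟨(x : Matrix (Fin 2) (Fin 2) F) 1 0 * s₂ - (x : Matrix (Fin 2) (Fin 2) F) 1 1 * s₁, ?_⟩,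
    ⟨(x : Matrix (Fin 2) (Fin 2) F) 0 1 * s₁ - (x : Matrix (Fin 2) (Fin 2) F) 0 0 * s₂, ?_⟩⟩
  · apply (act z).injective
    rw [act_act_inv, map_add, map_add, map_smul, map_smul, map_smul, h1, h2, hρ]
    simp only [inv00, inv10]
    have e : (x : Matrix (Fin 2) (Fin 2) F) 1 1 • ((x : Matrix (Fin 2) (Fin 2) F) 0 0 • a + (x : Matrix (Fin 2) (Fin 2) F) 1 0 • q + s₁ • ρ) +
        (-(x : Matrix (Fin 2) (Fin 2) F) 1 0) • ((x : Matrix (Fin 2) (Fin 2) F) 0 1 • a + (x : Matrix (Fin 2) (Fin 2) F) 1 1 • q + s₂ • ρ) +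
        ((x : Matrix (Fin 2) (Fin 2) F) 1 0 * s₂ - (x : Matrix (Fin 2) (Fin 2) F) 1 1 * s₁) • ρ
        = ((x : Matrix (Fin 2) (Fin 2) F) 0 0 * (x : Matrix (Fin 2) (Fin 2) F) 1 1 - (x : Matrix (Fin 2) (Fin 2) F) 0 1 * (x : Matrix (Fin 2) (Fin 2) F) 1 0) • a := by
      (module)
    rw [e, hd, one_smul]
  · apply (act z).injective
    rw [act_act_inv, map_add, map_add, map_smul, map_smul, map_smul, h1, h2, hρ]
    simp only [inv01, inv11]
    have e : (-(x : Matrix (Fin 2) (Fin 2) F) 0 1) • ((x : Matrix (Fin 2) (Fin 2) F) 0 0 • a + (x : Matrix (Fin 2) (Fin 2) F) 1 0 • q + s₁ • ρ) +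
        ((x : Matrix (Fin 2) (Fin 2) F) 0 0) • ((x : Matrix (Fin 2) (Fin 2) F) 0 1 • a + (x : Matrix (Fin 2) (Fin 2) F) 1 1 • q + s₂ • ρ) +
        ((x : Matrix (Fin 2) (Fin 2) F) 0 1 * s₁ - (x : Matrix (Fin 2) (Fin 2) F) 0 0 * s₂) • ρ
        = ((x : Matrix (Fin 2) (Fin 2) F) 0 0 * (x : Matrix (Fin 2) (Fin 2) F) 1 1 - (x : Matrix (Fin 2) (Fin 2) F) 0 1 * (x : Matrix (Fin 2) (Fin 2) F) 1 0) • q := by
      (module)
    rw [e, hd, one_smul]

/-- The elements of `SL₂(F)` induced on two planes by elements of `M` acting trivially modulo a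
fixed subspace. -/
def pairLift (M : Subgroup (GL ι F)) (a q b q' ρ : V) (Y : Submodule F V) : Subgroup SL(2, F) where
  carrier := {x | ∃ z ∈ M, act z ρ = ρ ∧ PA z x a q ρ ∧ PA z x b q' ρ ∧ ∀ y : V, act z y - y ∈ Y}
  mul_mem' := by
    rintro x x' ⟨z, hz, h1, h2, h3, h4⟩ ⟨z', hz', h1', h2', h3', h4'⟩
    refine ⟨z * z', M.mul_mem hz hz', ?_, h2.mul h2' h1, h3.mul h3' h1, fun y => ?_⟩
    · rw [map_mul, LinearEquiv.mul_apply, h1', h1]
    · have e : act (z * z') y - y = (act z (act z' y) - act z' y) + (act z' y - y) := by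
        rw [map_mul, LinearEquiv.mul_apply]
        abel
      rw [e]
      exact Y.add_mem (h4 _) (h4' y)
  one_mem' := by
    refine ⟨1, M.one_mem, ?_, ⟨⟨0, ?_⟩, ⟨0, ?_⟩⟩, ⟨⟨0, ?_⟩, ⟨0, ?_⟩⟩, fun y => ?_⟩
    · simp [act_apply]
    · simp [act_apply]
    · simp [act_apply]
    · simp [act_apply]
    · simp [act_apply]
    · simp [act_apply]
  inv_mem' := by
    rintro x ⟨z, hz, h1, h2, h3, h4⟩
    refine ⟨z⁻¹, M.inv_mem hz, ?_, h2.inv h1, h3.inv h1, fun y => ?_⟩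
    · conv_lhs => rw [← h1]
      rw [act_inv_act]
    · have e : act z⁻¹ y - y = - (act z (act z⁻¹ y) - act z⁻¹ y) := by
        rw [act_act_inv]
        abel
      rw [e]
      exact Y.neg_mem (h4 _)

theorem PA_uu {z : GL ι F} {d : F} {a q ρ : V} :
    PA z (uu d) a q ρ ↔ (∃ s : F, act z a = a + s • ρ) ∧ (∃ s : F, act z q = d • a + q + s • ρ) := by
  simp [PA, uu, Cfsg.Agent.Lib.KS2.SL2.mk]

theorem PA_ll {z : GL ι F} {t : F} {a q ρ : V} :
    PA z (ll t) a q ρ ↔ (∃ s : F, act z a = a + t • q + s • ρ) ∧ (∃ s : F, act z q = q + s • ρ) := by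
  simp [PA, ll, Cfsg.Agent.Lib.KS2.SL2.mk]

end pairlift

section core

variable {F : Type*} [Field F] [Fintype F] {F₀ : Subfield F} {P : GL ι F}
variable {Q : (ι → F) → F} {hQ : Cfsg.Geo.IsNondegenerateQuadraticForm Q}
  {M : Subgroup (GL ι F)}

local notation "f" => QuadraticMap.polar Q
local notation "R" => rat F₀ P

/-- a configuration of three rational vectors and a dual pair -/
structure CD (P : GL ι F) (F₀ : Subfield F) (Q : (ι → F) → F) (a b b' : ι → F₀) (q₁ q₂ : ι → F) (κ₁ κ₂ : F) : Prop where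
  ha : Q (rat F₀ P a) = 0
  hb : Q (rat F₀ P b) = 0
  hb' : Q (rat F₀ P b') = 0
  hab : QuadraticMap.polar Q (rat F₀ P a) (rat F₀ P b) = 0
  hab' : QuadraticMap.polar Q (rat F₀ P a) (rat F₀ P b') = 0
  hbb' : QuadraticMap.polar Q (rat F₀ P b) (rat F₀ P b') = 0
  hq₁ : Q q₁ = 0
  hq₂ : Q q₂ = 0
  hq : QuadraticMap.polar Q q₁ q₂ = 0
  h1a : QuadraticMap.polar Q q₁ (rat F₀ P a) = 1
  h1b : QuadraticMap.polar Q q₁ (rat F₀ P b) = 0
  h2a : QuadraticMap.polar Q q₂ (rat F₀ P a) = 0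
  h2b : QuadraticMap.polar Q q₂ (rat F₀ P b) = 1
  h1b' : QuadraticMap.polar Q q₁ (rat F₀ P b') = κ₁
  h2b' : QuadraticMap.polar Q q₂ (rat F₀ P b') = κ₂
  hκ : κ₂ ∉ F₀

variable {a b b' : ι → F₀} {q₁ q₂ : ι → F} {κ₁ κ₂ : F}

include hQ in
theorem CD.ind3 (D : CD P F₀ Q a b b' q₁ q₂ κ₁ κ₂) (x y z : F₀) (h : x • a + y • b + z • b' = 0) :
    x = 0 ∧ y = 0 ∧ z = 0 := by
  have h1 := congrArg R h
  rw [rat_add, rat_add, rat_smul, rat_smul, rat_smul, rat_zero] at h1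
  have e1 := congrArg (fun w => f q₁ w) h1
  have e2 := congrArg (fun w => f q₂ w) h1
  simp only [pol_add_right hQ, pol_smul_right hQ, D.h1a, D.h1b, D.h1b', D.h2a, D.h2b, D.h2b', pol_zero_right hQ,
    mul_zero, mul_one, add_zero, zero_add] at e1 e2
  have hz : z = 0 := by
    by_contra hz
    apply D.hκ
    have hz' : (z : F) ≠ 0 := by exact_mod_cast hz
    have e3 : κ₂ = (-y : F₀) * z⁻¹ := by
      push_cast
      field_simp
      linear_combination e2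
    rw [e3]
    exact_mod_cast (F₀.mul_mem (F₀.neg_mem y.2) (F₀.inv_mem z.2))
  subst hz
  simp only [ZeroMemClass.coe_zero, zero_mul, add_zero] at e1 e2
  exact ⟨by exact_mod_cast e1, by exact_mod_cast e2, rfl⟩

/-- the element used to compare -/
local notation "ρ₀" => (R b' - κ₁ • R a - κ₂ • R b)

/-- the fixed part -/
local notation "Y₀" => Submodule.span F ({R a, R b, (R b' - κ₁ • R a - κ₂ • R b), -q₁, q₂} : Set (ι → F))

include hQ in
theorem CD.ρfacts (D : CD P F₀ Q a b b' q₁ q₂ κ₁ κ₂) :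
    f ρ₀ (R a) = 0 ∧ f ρ₀ (R b) = 0 ∧ f ρ₀ (R b') = 0 ∧ f ρ₀ q₁ = 0 ∧ f ρ₀ q₂ = 0 := by
  have hcm : ∀ x y : ι → F, f x y = f y x := fun _ _ => pol_comm' _ _
  have haa := pol_self_of hQ D.ha
  have hbb := pol_self_of hQ D.hb
  have hb'b' := pol_self_of hQ D.hb'
  refine ⟨?_, ?_, ?_, ?_, ?_⟩
  · rw [pol_sub_left hQ, pol_sub_left hQ, pol_smul_left hQ, pol_smul_left hQ, hcm (R b') (R a), D.hab', haa,
      hcm (R b) (R a), D.hab]
    ring
  · rw [pol_sub_left hQ, pol_sub_left hQ, pol_smul_left hQ, pol_smul_left hQ, hcm (R b') (R b), D.hbb', hbb, D.hab]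
    ring
  · rw [pol_sub_left hQ, pol_sub_left hQ, pol_smul_left hQ, pol_smul_left hQ, hb'b', D.hab', D.hbb']
    ring
  · rw [pol_sub_left hQ, pol_sub_left hQ, pol_smul_left hQ, pol_smul_left hQ, hcm (R b') q₁, D.h1b',
      hcm (R a) q₁, D.h1a, hcm (R b) q₁, D.h1b]
    ring
  · rw [pol_sub_left hQ, pol_sub_left hQ, pol_smul_left hQ, pol_smul_left hQ, hcm (R b') q₂, D.h2b',
      hcm (R a) q₂, D.h2a, hcm (R b) q₂, D.h2b]
    ring

/-- Dickson's step in the pair lift -/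
theorem core_all_uu (hS : HS M hQ F₀ P) {r : ℕ} (hr : r.Prime)
    (hcard : Fintype.card F = Nat.card F₀ ^ r) (D : CD P F₀ Q a b b' q₁ q₂ κ₁ κ₂)
    {Δ : F} (hΔ : Δ ≠ 0) (hm : sg hQ q₁ (Δ • q₂) ∈ M) (d : F) :
    uu d ∈ pairLift M (R a) q₂ (R b) (-q₁) ρ₀ Y₀ := by
  obtain ⟨hρa, hρb, hρb', hρq₁, hρq₂⟩ := D.ρfacts (hQ := hQ)
  have hcm : ∀ x y : ι → F, f x y = f y x := fun _ _ => pol_comm' _ _
  have haa := pol_self_of hQ D.ha
  have hbb := pol_self_of hQ D.hb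
  have hq1q1 := pol_self_of hQ D.hq₁
  have hq2q2 := pol_self_of hQ D.hq₂
  have memY1 : R a ∈ Y₀ := Submodule.subset_span (by simp)
  have memY2 : R b ∈ Y₀ := Submodule.subset_span (by simp)
  have memY3 : ρ₀ ∈ Y₀ := Submodule.subset_span (by simp)
  have memY4 : -q₁ ∈ Y₀ := Submodule.subset_span (by simp)
  have memY5 : q₂ ∈ Y₀ := Submodule.subset_span (by simp)
  have hll : ll Δ ∈ pairLift M (R a) q₂ (R b) (-q₁) ρ₀ Y₀ := by
    have hQ2 : Q (Δ • q₂) = 0 := by rw [Q_smul' hQ, D.hq₂, mul_zero]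
    have hp : f q₁ (Δ • q₂) = 0 := by rw [pol_smul_right hQ, D.hq, mul_zero]
    have hact := act_sg_ts hQ D.hq₁ hQ2 hp
    refine ⟨sg hQ q₁ (Δ • q₂), hm, ?_, PA_ll.2 ⟨⟨0, ?_⟩, ⟨0, ?_⟩⟩, PA_ll.2 ⟨⟨0, ?_⟩, ⟨0, ?_⟩⟩, fun y => ?_⟩
    · rw [hact, hρq₁, pol_smul_right hQ, hρq₂]
      simp
    · rw [hact, hcm (R a) q₁, D.h1a, pol_smul_right hQ, hcm (R a) q₂, D.h2a]
      simp
    · rw [hact, hcm q₂ q₁, D.hq, pol_smul_right hQ, hq2q2]
      simp
    · rw [hact, hcm (R b) q₁, D.h1b, pol_smul_right hQ, hcm (R b) q₂, D.h2b]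
      simp
      abel
    · rw [hact, pol_neg_left hQ, hq1q1, pol_smul_right hQ, pol_neg_left hQ, D.hq]
      simp
    · rw [hact]
      have e : y + f y q₁ • Δ • q₂ - f y (Δ • q₂) • q₁ - y = (f y q₁ * Δ) • q₂ + (f y (Δ • q₂)) • (-q₁) := by
        (module)
      rw [e]
      exact Submodule.add_mem _ (Submodule.smul_mem _ _ memY5) (Submodule.smul_mem _ _ memY4)
  have huu : ∀ (s k₁ k₂ τ : F) (c : ι → F₀), Q (R c) = 0 → f (R a) (R c) = 0 → f (R b) (R c) = 0 →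
      f (R b') (R c) = 0 → f q₁ (R c) = k₁ → f q₂ (R c) = k₂ → R c = k₁ • R a + k₂ • R b + τ • ρ₀ →
      sg hQ (R a) (s • R c) ∈ M → uu (-(s * k₂)) ∈ pairLift M (R a) q₂ (R b) (-q₁) ρ₀ Y₀ := by
    intro s k₁ k₂ τ c hc hac hbc hb'c h1c h2c hRc hm'
    have hQ2 : Q (s • R c) = 0 := by rw [Q_smul' hQ, hc, mul_zero]
    have hp : f (R a) (s • R c) = 0 := by rw [pol_smul_right hQ, hac, mul_zero]
    have hact := act_sg_ts hQ D.ha hQ2 hp
    refine ⟨sg hQ (R a) (s • R c), hm', ?_, PA_uu.2 ⟨⟨0, ?_⟩, ⟨0, ?_⟩⟩,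
      PA_uu.2 ⟨⟨0, ?_⟩, ⟨-(s * τ), ?_⟩⟩, fun y => ?_⟩
    · have h3 : f ρ₀ (R c) = 0 := by
        rw [pol_sub_left hQ, pol_sub_left hQ, pol_smul_left hQ, pol_smul_left hQ, hb'c, hac, hbc]
        ring
      rw [hact, hρa, pol_smul_right hQ, h3]
      simp
    · rw [hact, haa, hp]
      simp
    · rw [hact, D.h2a, pol_smul_right hQ, h2c]
      simp only [zero_smul, add_zero, zero_add, neg_smul]
      abel_nf
    · rw [hact, hcm (R b) (R a), D.hab, pol_smul_right hQ, hbc]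
      simp
    · rw [hact, pol_neg_left hQ, D.h1a, pol_smul_right hQ, pol_neg_left hQ, h1c]
      nth_rw 1 [hRc]
      (module)
    · rw [hact]
      have e : y + f y (R a) • s • R c - f y (s • R c) • R a - y
          = (f y (R a) * s) • (k₁ • R a + k₂ • R b + τ • ρ₀) - f y (s • R c) • R a := by
        rw [← hRc]
        (module)
      rw [e]
      refine Submodule.sub_mem _ (Submodule.smul_mem _ _ (Submodule.add_mem _ (Submodule.add_mem _ (Submodule.smul_mem _ _ memY1) (Submodule.smul_mem _ _ memY2))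
        (Submodule.smul_mem _ _ memY3))) (Submodule.smul_mem _ _ memY1)
  have hRb : R b = (0 : F) • R a + (1 : F) • R b + (0 : F) • ρ₀ := by simp
  have hRb' : R b' = κ₁ • R a + κ₂ • R b + (1 : F) • ρ₀ := by
    rw [one_smul]
    abel
  have hbb'' : f (R b') (R b) = 0 := by rw [hcm]; exact D.hbb'
  set S : Set F := {e | ∃ s ∈ F₀, e = s ∨ e = s * κ₂} with hS'
  refine DS.root_closure hr hcard _ hΔ hll S ?_ ?_ (b₁ := 1) (b₂ := κ₂) ⟨1, F₀.one_mem, Or.inl rfl⟩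
    ⟨1, F₀.one_mem, Or.inr (by ring)⟩ one_ne_zero ?_ d
  · rintro e ⟨s, hs, he | he⟩
    · rw [he]
      have h1 := huu (-s) 0 1 0 b D.hb D.hab hbb hbb'' D.h1b D.h2b hRb
        (RS_of_mem hS (F₀.neg_mem hs) a b D.ha D.hb D.hab)
      simpa using h1
    · rw [he]
      have h1 := huu (-s) κ₁ κ₂ 1 b' D.hb' D.hab' D.hbb' (pol_self_of hQ D.hb') D.h1b' D.h2b' hRb'
        (RS_of_mem hS (F₀.neg_mem hs) a b' D.ha D.hb' D.hab')
      simpa using h1
  · rintro c hc e ⟨s, hs, he | he⟩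
    · exact ⟨c * s, F₀.mul_mem hc hs, Or.inl (by rw [he])⟩
    · exact ⟨c * s, F₀.mul_mem hc hs, Or.inr (by rw [he]; ring)⟩
  · intro c hc h
    apply D.hκ
    rw [h, mul_one]
    exact hc

omit [Fintype ι] [DecidableEq ι] [Fintype F] in
theorem mem_span5 {V : Type*} [AddCommGroup V] [Module F V] {a b c d e y : V}
    (h : y ∈ Submodule.span F ({a, b, c, d, e} : Set V)) :
    ∃ k₁ k₂ k₃ k₄ k₅ : F, y = k₁ • a + k₂ • b + k₃ • c + k₄ • d + k₅ • e := by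
  obtain ⟨k₁, y₁, h₁, rfl⟩ := Submodule.mem_span_insert.1 h
  obtain ⟨k₂, y₂, h₂, rfl⟩ := Submodule.mem_span_insert.1 h₁
  obtain ⟨k₃, y₃, h₃, rfl⟩ := Submodule.mem_span_insert.1 h₂
  obtain ⟨k₄, k₅, rfl⟩ := Submodule.mem_span_pair.1 h₃
  exact ⟨k₁, k₂, k₃, k₄, k₅, by abel⟩

/-- the coefficient of an element of the pair lift lying over `uu d` -/
theorem core_coeff (hrat : ∀ u : ι → F₀, Q (rat F₀ P u) ∈ F₀)
    (hM : M ≤ Cfsg.isometryGroup F Q) (hS : HS M hQ F₀ P) (hn : 13 ≤ Fintype.card ι)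
    (hA : ∀ d, RS M hQ F₀ P d → d ∈ F₀) (D : CD P F₀ Q a b b' q₁ q₂ κ₁ κ₂)
    {c₁ c₂ c₃ : ι → F₀}
    (h1a : f (R c₁) (R a) = 1) (h1b : f (R c₁) (R b) = 0) (h1c : f (R c₁) (R b') = 0)
    (h2a : f (R c₂) (R a) = 0) (h2b : f (R c₂) (R b) = 1) (h2c : f (R c₂) (R b') = 0)
    (h3a : f (R c₃) (R a) = 0) (h3b : f (R c₃) (R b) = 0) (h3c : f (R c₃) (R b') = 1)
    {d : F} {z : GL ι F} (hz : z ∈ M) (hzρ : act z ρ₀ = ρ₀)
    (hPA : PA z (uu d) (R a) q₂ ρ₀) (hPA' : PA z (uu d) (R b) (-q₁) ρ₀) (hY : ∀ y : ι → F, act z y - y ∈ Y₀) :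
    ∃ n₁ n₂ n₃ n₄ : F₀, d = n₁ + κ₂ * n₂ + κ₁ * (n₃ + κ₂ * n₄) := by
  obtain ⟨⟨s₁, hs₁⟩, ⟨s₃, hs₃⟩⟩ := PA_uu.1 hPA
  obtain ⟨⟨s₂, hs₂⟩, -⟩ := PA_uu.1 hPA'
  obtain ⟨hρa, hρb, hρb', hρq₁, hρq₂⟩ := D.ρfacts (hQ := hQ)
  have hcm : ∀ x y : ι → F, f x y = f y x := fun _ _ => pol_comm' _ _
  have hiso := hM hz
  have hconj : ∀ {x y : ι → F₀}, Q (R x) = 0 → f (R x) (R y) = 0 → sg hQ (act z (R x)) (act z (R y)) ∈ M := by
    intro x y hx hxy
    rw [← conj_sg hQ hiso hx hxy]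
    exact M.mul_mem (M.mul_mem hz (hS x y hx hxy)) (M.inv_mem hz)
  have hind := D.ind3 (hQ := hQ)
  -- the first pair
  have ea : act z (R a) = (1 - s₁ * κ₁) • R a + (-(s₁ * κ₂)) • R b + s₁ • R b' := by
    rw [hs₁]
    (module)
  have eb : act z (R b) = (-(s₂ * κ₁)) • R a + (1 - s₂ * κ₂) • R b + s₂ • R b' := by
    rw [hs₂]
    (module)
  have h1 := hconj D.ha D.hab
  rw [ea, eb] at h1
  obtain ⟨m12, m13, m23⟩ := plucker_all hrat hM hS hn hA D.ha D.hb D.hb' D.hab D.hab' D.hbb' hind h1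
  have hs₂m : s₂ ∈ F₀ := by
    have e : (1 - s₁ * κ₁) * s₂ - s₁ * (-(s₂ * κ₁)) = s₂ := by ring
    rwa [e] at m13
  have hs₁m : s₁ ∈ F₀ := by
    have e : (-(s₁ * κ₂)) * s₂ - s₁ * (1 - s₂ * κ₂) = -s₁ := by ring
    rw [e] at m23
    simpa using F₀.neg_mem m23
  set t := κ₁ * s₁ + κ₂ * s₂ with ht
  have htm : t ∈ F₀ := by
    have e : (1 - s₁ * κ₁) * (1 - s₂ * κ₂) - (-(s₁ * κ₂)) * (-(s₂ * κ₁)) = 1 - t := by
      rw [ht]
      ring
    rw [e] at m12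
    have := F₀.sub_mem F₀.one_mem m12
    simpa using this
  have eb' : act z (R b') = R b' + t • ρ₀ := by
    have e1 : R b' = ρ₀ + κ₁ • R a + κ₂ • R b := by abel
    conv_lhs => rw [e1]
    rw [map_add, map_add, map_smul, map_smul, hzρ, hs₁, hs₂, ht]
    (module)
  have eb'' : act z (R b') = (-(t * κ₁)) • R a + (-(t * κ₂)) • R b + (1 + t) • R b' := by
    rw [eb']
    (module)
  have h2 := hconj D.ha D.hab'
  rw [ea, eb''] at h2
  obtain ⟨-, -, m23'⟩ := plucker_all hrat hM hS hn hA D.ha D.hb D.hb' D.hab D.hab' D.hbb' hind h2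
  have hs₁κ : s₁ * κ₂ ∈ F₀ := by
    have e : (-(s₁ * κ₂)) * (1 + t) - s₁ * (-(t * κ₂)) = -(s₁ * κ₂) := by ring
    rw [e] at m23'
    simpa using F₀.neg_mem m23'
  have hs₁0 : s₁ = 0 := by
    by_contra h0
    apply D.hκ
    have e : κ₂ = s₁⁻¹ * (s₁ * κ₂) := by field_simp
    rw [e]
    exact F₀.mul_mem (F₀.inv_mem hs₁m) hs₁κ
  have hs₂0 : s₂ = 0 := by
    by_contra h0
    apply D.hκ
    have e : κ₂ = s₂⁻¹ * t := by
      rw [ht, hs₁0]
      field_simp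
      ring
    rw [e]
    exact F₀.mul_mem (F₀.inv_mem hs₂m) htm
  have ht0 : t = 0 := by rw [ht, hs₁0, hs₂0]; ring
  have hzA : act z (R a) = R a := by rw [hs₁, hs₁0, zero_smul, add_zero]
  have hzB : act z (R b) = R b := by rw [hs₂, hs₂0, zero_smul, add_zero]
  have hzB' : act z (R b') = R b' := by rw [eb', ht0, zero_smul, add_zero]
  -- the image of `z - 1`
  have hpa : ∀ y, f (act z y - y) (R a) = 0 := by
    intro y
    have := iso_polar hiso y (R a)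
    rw [hzA] at this
    rw [pol_sub_left hQ, this, sub_self]
  have hpb : ∀ y, f (act z y - y) (R b) = 0 := by
    intro y
    have := iso_polar hiso y (R b)
    rw [hzB] at this
    rw [pol_sub_left hQ, this, sub_self]
  have hpb' : ∀ y, f (act z y - y) (R b') = 0 := by
    intro y
    have := iso_polar hiso y (R b')
    rw [hzB'] at this
    rw [pol_sub_left hQ, this, sub_self]
  have hN : ∀ y, ∃ k₁ k₂ k₃ : F, act z y - y = k₁ • R a + k₂ • R b + k₃ • R b' := by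
    intro y
    obtain ⟨k₁, k₂, k₃, k₄, k₅, e⟩ := mem_span5 (hY y)
    have e1 := hpa y
    have e2 := hpb y
    rw [e] at e1 e2
    simp only [pol_add_left hQ, pol_smul_left hQ, pol_neg_left hQ, pol_self_of hQ D.ha, pol_self_of hQ D.hb, D.hab, hρa, hρb,
      D.h1a, D.h1b, D.h2a, D.h2b, hcm (R b) (R a)] at e1 e2
    have hk₄ : k₄ = 0 := by linear_combination -e1
    have hk₅ : k₅ = 0 := by linear_combination e2
    refine ⟨k₁ - k₃ * κ₁, k₂ - k₃ * κ₂, k₃, ?_⟩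
    rw [e, hk₄, hk₅]
    (module)
  have hkill : ∀ x, f x (R a) = 0 → f x (R b) = 0 → f x (R b') = 0 → act z x = x := by
    intro x h1 h2 h3
    rw [← sub_eq_zero]
    by_contra hne
    obtain ⟨y, hy⟩ := (sform_of_quad hQ).nd _ hne
    apply hy
    obtain ⟨k₁, k₂, k₃, hk⟩ := hN (act z⁻¹ y)
    rw [act_act_inv] at hk
    have e1 : f y (act z x) = f (act z⁻¹ y) x := by
      have := iso_polar hiso (act z⁻¹ y) x
      rwa [act_act_inv] at this
    have e2 : act z⁻¹ y = y - (k₁ • R a + k₂ • R b + k₃ • R b') := by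
      rw [← hk]
      abel
    rw [pol_sub_right hQ, e1, e2, pol_sub_left hQ]
    simp only [pol_add_left hQ, pol_smul_left hQ, hcm (R a) x, hcm (R b) x, hcm (R b') x, h1, h2, h3]
    ring
  -- rationality of the pairings
  have hratp : ∀ c x : ι → F₀, f (act z (R c) - R c) (R x) ∈ F₀ := by
    intro c x
    obtain ⟨e', he'0, he', hΛ⟩ := rat_sing P hQ hrat [a, b, b', c, x] (by simp; omega)
    have hfix : act z (R e') = R e' := hkill _ (hΛ a (by simp)) (hΛ b (by simp)) (hΛ b' (by simp))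
    have h3 : f (R e') (R c) = 0 := hΛ c (by simp)
    have h4 := sg_diff hM hz he' h3 hfix (hS e' c he' h3)
    have h5 : f (R e') (act z (R c) - R c) = 0 := by
      have h6 := iso_polar hiso (R e') (R c)
      rw [hfix, h3] at h6
      rw [pol_sub_right hQ, h6, h3, sub_zero]
    exact R1_all hrat hM hS hn hA he'0 he' h5 h4 (hΛ x (by simp))
  -- the identity
  have hid : d • R a + s₃ • ρ₀ = (act z (R c₂) - R c₂) + κ₂ • (act z (R c₃) - R c₃) := by
    have h3 : act z (q₂ - R c₂ - κ₂ • R c₃) = q₂ - R c₂ - κ₂ • R c₃ := by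
      refine hkill _ ?_ ?_ ?_
      · rw [pol_sub_left hQ, pol_sub_left hQ, pol_smul_left hQ, D.h2a, h2a, h3a]
        ring
      · rw [pol_sub_left hQ, pol_sub_left hQ, pol_smul_left hQ, D.h2b, h2b, h3b]
        ring
      · rw [pol_sub_left hQ, pol_sub_left hQ, pol_smul_left hQ, D.h2b', h2c, h3c]
        ring
    rw [map_sub, map_sub, map_smul, hs₃] at h3
    have h4 : d • R a + s₃ • ρ₀ = (d • R a + q₂ + s₃ • ρ₀ - act z (R c₂) - κ₂ • act z (R c₃))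
        - (q₂ - R c₂ - κ₂ • R c₃) + (act z (R c₂) - R c₂) + κ₂ • (act z (R c₃) - R c₃) := by
      (module)
    rw [h4, h3]
    abel
  have hp3 := congrArg (fun w => f w (R c₃)) hid
  have hp1 := congrArg (fun w => f w (R c₁)) hid
  simp only [pol_add_left hQ, pol_sub_left hQ, pol_smul_left hQ, hcm (R a) (R c₃), hcm (R b) (R c₃), hcm (R b') (R c₃),
    h3a, h3b, h3c, hcm (R a) (R c₁), hcm (R b) (R c₁), hcm (R b') (R c₁), h1a, h1b, h1c] at hp3 hp1
  refine ⟨⟨_, hratp c₂ c₁⟩, ⟨_, hratp c₃ c₁⟩, ⟨_, hratp c₂ c₃⟩, ⟨_, hratp c₃ c₃⟩, ?_⟩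
  simp only [pol_sub_left hQ]
  linear_combination hp1 + κ₁ * hp3

/-- the counting bound -/
theorem core_bound (hrat : ∀ u : ι → F₀, Q (rat F₀ P u) ∈ F₀)
    (hM : M ≤ Cfsg.isometryGroup F Q) (hS : HS M hQ F₀ P) (hn : 13 ≤ Fintype.card ι)
    (hA : ∀ d, RS M hQ F₀ P d → d ∈ F₀) {r : ℕ} (hr : r.Prime)
    (hcard : Fintype.card F = Nat.card F₀ ^ r) (D : CD P F₀ Q a b b' q₁ q₂ κ₁ κ₂)
    {Δ : F} (hΔ : Δ ≠ 0) (hm : sg hQ q₁ (Δ • q₂) ∈ M) : r ≤ 4 := by
  have hind := D.ind3 (hQ := hQ)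
  obtain ⟨c₁, -, h1a, h1b, h1c⟩ := rat_dual P hQ hrat (e := a) (e₁ := b) (e₂ := b') (by omega) (by
    intro x y h
    have := (hind 1 (-x) (-y) (by rw [h]; simp)).1
    exact one_ne_zero this)
  obtain ⟨c₂, -, h2b, h2a, h2c⟩ := rat_dual P hQ hrat (e := b) (e₁ := a) (e₂ := b') (by omega) (by
    intro x y h
    have := (hind (-x) 1 (-y) (by rw [h]; simp <;> abel)).2.1
    exact one_ne_zero this)
  obtain ⟨c₃, -, h3c, h3a, h3b⟩ := rat_dual P hQ hrat (e := b') (e₁ := a) (e₂ := b) (by omega) (by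
    intro x y h
    have := (hind (-x) (-y) 1 (by rw [h]; simp <;> abel)).2.2
    exact one_ne_zero this)
  have hsurj : ∀ d : F, ∃ n : F₀ × F₀ × F₀ × F₀,
      d = (n.1 : F) + κ₂ * n.2.1 + κ₁ * (n.2.2.1 + κ₂ * n.2.2.2) := by
    intro d
    obtain ⟨z, hz, hzρ, hPA, hPA', hY⟩ := core_all_uu hS hr hcard D hΔ hm d
    obtain ⟨n₁, n₂, n₃, n₄, e⟩ := core_coeff hrat hM hS hn hA D h1a h1b h1c h2a h2b h2c h3a h3b h3c hz hzρ hPA hPA' hY
    exact ⟨(n₁, n₂, n₃, n₄), e⟩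
  let T : F₀ × F₀ × F₀ × F₀ → F := fun n => (n.1 : F) + κ₂ * n.2.1 + κ₁ * (n.2.2.1 + κ₂ * n.2.2.2)
  have hT : Function.Surjective T := fun d => by
    obtain ⟨n, hn'⟩ := hsurj d
    exact ⟨n, hn'.symm⟩
  have h1 := Nat.card_le_card_of_surjective T hT
  rw [Nat.card_prod, Nat.card_prod, Nat.card_prod, Nat.card_eq_fintype_card (α := F), hcard] at h1
  have hq : 1 < Nat.card F₀ := Finite.one_lt_card
  have h2 : Nat.card F₀ * (Nat.card F₀ * (Nat.card F₀ * Nat.card F₀)) = Nat.card F₀ ^ 4 := by ring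
  rw [h2] at h1
  exact (Nat.pow_le_pow_iff_right hq).1 h1

end core

section caseII

variable {F : Type*} [Field F] [Fintype F] {F₀ : Subfield F} {P : GL ι F}
variable {Q : (ι → F) → F} {hQ : Cfsg.Geo.IsNondegenerateQuadraticForm Q}
  {M : Subgroup (GL ι F)}

local notation "f" => QuadraticMap.polar Q
local notation "R" => rat F₀ P

/-- two rational vectors with independent pairings give a configuration -/
theorem caseII_step (hrat : ∀ u : ι → F₀, Q (rat F₀ P u) ∈ F₀)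
    (hM : M ≤ Cfsg.isometryGroup F Q) (hS : HS M hQ F₀ P) (hn : 13 ≤ Fintype.card ι)
    (hA : ∀ d, RS M hQ F₀ P d → d ∈ F₀) {r : ℕ} (hr : r.Prime)
    (hcard : Fintype.card F = Nat.card F₀ ^ r) {u v : ι → F} (hu : Q u = 0) (hv : Q v = 0) (huv : f u v = 0)
    (hm : sg hQ u v ∈ M) {a b b' : ι → F₀} (ha : Q (R a) = 0) (hb : Q (R b) = 0) (hb' : Q (R b') = 0)
    (hab : f (R a) (R b) = 0) (hab' : f (R a) (R b') = 0) (hbb' : f (R b) (R b') = 0)
    (hΔ : f u (R a) * f v (R b) - f v (R a) * f u (R b) ≠ 0)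
    (hκ : (f u (R a) * f v (R b) - f v (R a) * f u (R b))⁻¹ * (f u (R a) * f v (R b') - f v (R a) * f u (R b')) ∉ F₀) :
    r ≤ 4 := by
  set μ₁ := f u (R a) with hμ₁
  set μ₂ := f v (R a) with hμ₂
  set ν₁ := f u (R b) with hν₁
  set ν₂ := f v (R b) with hν₂
  set ξ₁ := f u (R b') with hξ₁
  set ξ₂ := f v (R b') with hξ₂
  set Δ := μ₁ * ν₂ - μ₂ * ν₁ with hΔe
  have huu := pol_self_of hQ hu
  have hvv := pol_self_of hQ hv
  have hvu : f v u = 0 := by rw [pol_comm']; exact huv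
  have hQ2 : ∀ x y : F, Q (x • u + y • v) = 0 := by
    intro x y
    rw [Q_add' (Q := Q), Q_smul' hQ, Q_smul' hQ, hu, hv, pol_smul_left hQ, pol_smul_right hQ, huv]
    ring
  have hf2 : ∀ x y x' y' : F, f (x • u + y • v) (x' • u + y' • v) = 0 := by
    intro x y x' y'
    simp only [pol_add_left hQ, pol_add_right hQ, pol_smul_left hQ, pol_smul_right hQ, huu, hvv, huv, hvu]
    ring
  set q₁ := (Δ⁻¹ * ν₂) • u + (-(Δ⁻¹ * ν₁)) • v with hq₁
  set q₂ := (-(Δ⁻¹ * μ₂)) • u + (Δ⁻¹ * μ₁) • v with hq₂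
  have hw : sg hQ q₁ (Δ • q₂) = sg hQ u v := by
    refine sg_wedge hQ hu hv huv (α := Δ⁻¹ * ν₂) (β := -(Δ⁻¹ * ν₁)) (γ := -μ₂) (δ := μ₁) rfl ?_ ?_
    · rw [hq₂, smul_add, smul_smul, smul_smul]
      congr 2
      · field_simp
      · field_simp
    · rw [hΔe] at hΔ ⊢
      field_simp
  have D : CD P F₀ Q a b b' q₁ q₂ ((Δ⁻¹) * (ν₂ * ξ₁ - ν₁ * ξ₂)) ((Δ⁻¹) * (μ₁ * ξ₂ - μ₂ * ξ₁)) := by
    refine ⟨ha, hb, hb', hab, hab', hbb', hQ2 _ _, hQ2 _ _, hf2 _ _ _ _, ?_, ?_, ?_, ?_, ?_, ?_, hκ⟩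
    · simp only [hq₁, pol_add_left hQ, pol_smul_left hQ, ← hμ₁, ← hμ₂]
      rw [hΔe] at hΔ ⊢
      field_simp
      ring
    · simp only [hq₁, pol_add_left hQ, pol_smul_left hQ, ← hν₁, ← hν₂]
      ring
    · simp only [hq₂, pol_add_left hQ, pol_smul_left hQ, ← hμ₁, ← hμ₂]
      ring
    · simp only [hq₂, pol_add_left hQ, pol_smul_left hQ, ← hν₁, ← hν₂]
      rw [hΔe] at hΔ ⊢
      field_simp
      ring
    · simp only [hq₁, pol_add_left hQ, pol_smul_left hQ, ← hξ₁, ← hξ₂]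
      ring
    · simp only [hq₂, pol_add_left hQ, pol_smul_left hQ, ← hξ₁, ← hξ₂]
      ring
  exact core_bound hrat hM hS hn hA hr hcard D hΔ (by rw [hw]; exact hm)

/-- a singular vector perpendicular to two given vectors, for small index -/
theorem two_forms_kernel (hQ : Cfsg.Geo.IsNondegenerateQuadraticForm Q)
    (hrat : ∀ u : ι → F₀, Q (rat F₀ P u) ∈ F₀) {r : ℕ}
    (hcard : Fintype.card F = Nat.card F₀ ^ r) (hnr : 2 * r + 3 ≤ Fintype.card ι) (u v : ι → F) :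
    ∃ a : ι → F₀, a ≠ 0 ∧ Q (R a) = 0 ∧ f u (R a) = 0 ∧ f v (R a) = 0 := by
  classical
  haveI : Fintype F₀ := Fintype.ofFinite _
  have hq : 1 < Fintype.card F₀ := Fintype.one_lt_card
  have hfr : Module.finrank F₀ F = r := by
    have h1 := Module.card_eq_pow_finrank (K := F₀) (V := F)
    rw [hcard, Nat.card_eq_fintype_card] at h1
    exact (Nat.pow_right_injective hq h1).symm
  let π : (ι → F₀) →ₗ[F₀] F × F :=
    { toFun := fun x => (f u (R x), f v (R x))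
      map_add' := fun x y => by
        simp only [rat_add, pol_add_right hQ]
        rfl
      map_smul' := fun c x => by
        simp only [rat_smul, pol_smul_right hQ, RingHom.id_apply]
        rfl }
  have h1 := LinearMap.finrank_range_add_finrank_ker π
  have h2 : Module.finrank F₀ (LinearMap.range π) ≤ 2 * r := by
    refine (Submodule.finrank_le _).trans ?_
    rw [Module.finrank_prod, hfr]
    omega
  have h3 : Module.finrank F₀ (ι → F₀) = Fintype.card ι := by simp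
  obtain ⟨x, hx, hx0, hxQ⟩ := hiso_quad (Qr_nondeg P hQ hrat) (LinearMap.ker π) (by omega)
  have hx' : π x = 0 := hx
  exact ⟨x, hx0, Qr_zero P hrat hxQ, congrArg Prod.fst hx', congrArg Prod.snd hx'⟩

/-- a Siegel element of `M` with no rational singular perpendicular does not exist -/
theorem caseII (hrat : ∀ u : ι → F₀, Q (rat F₀ P u) ∈ F₀)
    (hM : M ≤ Cfsg.isometryGroup F Q) (hS : HS M hQ F₀ P) (hn : 13 ≤ Fintype.card ι)
    (hA : ∀ d, RS M hQ F₀ P d → d ∈ F₀) {r : ℕ} (hr : r.Prime)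
    (hcard : Fintype.card F = Nat.card F₀ ^ r) {u v : ι → F} (hu : Q u = 0) (hv : Q v = 0) (huv : f u v = 0)
    (hm : sg hQ u v ∈ M) (hind : ∀ x y : F, x • u + y • v = 0 → x = 0 ∧ y = 0)
    (hno : ∀ a : ι → F₀, a ≠ 0 → Q (R a) = 0 → f u (R a) = 0 → f v (R a) = 0 → False) : False := by
  have hcm : ∀ x y : ι → F₀, f (R x) (R y) = f (R y) (R x) := fun _ _ => pol_comm' _ _
  -- Claim 1
  have claim1 : ∃ a b : ι → F₀, Q (R a) = 0 ∧ Q (R b) = 0 ∧ f (R a) (R b) = 0 ∧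
      f u (R a) * f v (R b) - f v (R a) * f u (R b) ≠ 0 := by
    obtain ⟨p₀, hp₀0, hp₀, -⟩ := rat_sing P hQ hrat [] (by simp; omega)
    set μ := f u (R p₀) with hμ
    set ν := f v (R p₀) with hν
    have hμν : ¬ (μ = 0 ∧ ν = 0) := fun h => hno p₀ hp₀0 hp₀ h.1 h.2
    have hz : ν • u - μ • v ≠ 0 := by
      intro h0
      have h1 := hind ν (-μ) (by rw [neg_smul, ← sub_eq_add_neg, h0])
      exact hμν ⟨by simpa using h1.2, h1.1⟩
    obtain ⟨y, hy⟩ : ∃ y : ι → F₀, f (ν • u - μ • v) (R y) ≠ 0 := by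
      by_contra hcon
      push Not at hcon
      exact hz (eq_zero_of_perp_rat (F₀ := F₀) P hQ hcon)
    obtain ⟨p₁, hp₁, hp₁z⟩ : ∃ p₁ : ι → F₀, Q (R p₁) = 0 ∧ f (ν • u - μ • v) (R p₁) ≠ 0 := by
      obtain ⟨s, hs1, hs2⟩ := rat_decomp0 P hQ hrat (by omega) y
      by_cases h1 : f (ν • u - μ • v) (R s) = 0
      · refine ⟨y - s, hs2, ?_⟩
        rw [rat_sub', pol_sub_right hQ, h1, sub_zero]
        exact hy
      · exact ⟨s, hs1, h1⟩
    have hdet : μ * f v (R p₁) - ν * f u (R p₁) ≠ 0 := by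
      intro h0
      apply hp₁z
      rw [pol_sub_left hQ, pol_smul_left hQ, pol_smul_left hQ]
      linear_combination -h0
    obtain ⟨e, he0, he, hΛ⟩ := rat_sing P hQ hrat [p₀, p₁] (by simp; omega)
    have he1 := hΛ p₀ (by simp)
    have he2 := hΛ p₁ (by simp)
    set α := f u (R e) with hα
    set β := f v (R e) with hβ
    have hαβ : ¬ (α = 0 ∧ β = 0) := fun h => hno e he0 he h.1 h.2
    by_cases h₁ : μ * β - ν * α = 0
    · by_cases h₂ : α * f v (R p₁) - β * f u (R p₁) = 0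
      · exfalso
        have e1 : (μ * f v (R p₁) - ν * f u (R p₁)) * α = 0 := by
          linear_combination μ * h₂ + f u (R p₁) * h₁
        have e2 : (μ * f v (R p₁) - ν * f u (R p₁)) * β = 0 := by
          linear_combination f v (R p₁) * h₁ + ν * h₂
        exact hαβ ⟨(mul_eq_zero.1 e1).resolve_left hdet, (mul_eq_zero.1 e2).resolve_left hdet⟩
      · exact ⟨e, p₁, he, hp₁, he2, h₂⟩
    · exact ⟨p₀, e, hp₀, he, by rw [hcm]; exact he1, h₁⟩
  obtain ⟨a, b, ha, hb, hab, hΔ⟩ := claim1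
  set μ₁ := f u (R a) with hμ₁
  set μ₂ := f v (R a) with hμ₂
  set ν₁ := f u (R b) with hν₁
  set ν₂ := f v (R b) with hν₂
  set Δ := μ₁ * ν₂ - μ₂ * ν₁ with hΔe
  have hba : f (R b) (R a) = 0 := by rw [hcm]; exact hab
  have hr4 : r ≤ 4 := by
    by_contra hr4
    -- all the coefficients are rational
    have hall : ∀ c : ι → F₀, Q (R c) = 0 → f (R a) (R c) = 0 → f (R b) (R c) = 0 →
        Δ⁻¹ * (ν₂ * f u (R c) - ν₁ * f v (R c)) ∈ F₀ ∧ Δ⁻¹ * (μ₁ * f v (R c) - μ₂ * f u (R c)) ∈ F₀ := by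
      intro c hc hac hbc
      constructor
      · by_contra hκ
        apply hr4
        refine caseII_step hrat hM hS hn hA hr hcard hu hv huv hm hb ha hc hba hbc hac ?_ ?_
        · intro h0
          apply hΔ
          rw [hΔe, hμ₁, hμ₂, hν₁, hν₂]
          linear_combination -h0
        · intro hmem
          apply hκ
          have e : Δ⁻¹ * (ν₂ * f u (R c) - ν₁ * f v (R c))
              = (f u (R b) * f v (R a) - f v (R b) * f u (R a))⁻¹ * (f u (R b) * f v (R c) - f v (R b) * f u (R c)) := by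
            have e1 : f u (R b) * f v (R a) - f v (R b) * f u (R a) = -Δ := by
              rw [hΔe, hμ₁, hμ₂, hν₁, hν₂]
              ring
            rw [e1, inv_neg, ← hν₁, ← hν₂]
            ring
          rw [e]
          exact hmem
      · by_contra hκ
        apply hr4
        exact caseII_step hrat hM hS hn hA hr hcard hu hv huv hm ha hb hc hab hac hbc hΔ hκ
    obtain ⟨e₁, e₁', he₁, he₁', h11, hΛ₁⟩ := rat_hyp P hQ hrat [a, b] (by simp; omega)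
    obtain ⟨e₂, e₂', he₂, he₂', h22, hΛ₂⟩ := rat_hyp P hQ hrat [a, b, e₁] (by simp; omega)
    obtain ⟨e₃, e₃', he₃, he₃', h33, hΛ₃⟩ := rat_hyp P hQ hrat [a, b, e₁, e₂] (by simp; omega)
    have h12 : f (R e₁) (R e₂) = 0 := by rw [hcm]; exact (hΛ₂ e₁ (by simp)).1
    have h13 : f (R e₁) (R e₃) = 0 := by rw [hcm]; exact (hΛ₃ e₁ (by simp)).1
    have h23 : f (R e₂) (R e₃) = 0 := by rw [hcm]; exact (hΛ₃ e₂ (by simp)).1
    have hcoef : ∀ c : ι → F₀, Q (R c) = 0 → f (R a) (R c) = 0 → f (R b) (R c) = 0 →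
        ∃ A B : F₀, f u (R c) = A * μ₁ + B * ν₁ ∧ f v (R c) = A * μ₂ + B * ν₂ := by
      intro c hc hac hbc
      obtain ⟨h1, h2⟩ := hall c hc hac hbc
      refine ⟨⟨_, h1⟩, ⟨_, h2⟩, ?_, ?_⟩
      · simp only
        field_simp
        rw [hΔe]
        ring
      · simp only
        field_simp
        rw [hΔe]
        ring
    obtain ⟨A₁, B₁, h1u, h1v⟩ := hcoef e₁ he₁ (by rw [hcm]; exact (hΛ₁ a (by simp)).1) (by rw [hcm]; exact (hΛ₁ b (by simp)).1)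
    obtain ⟨A₂, B₂, h2u, h2v⟩ := hcoef e₂ he₂ (by rw [hcm]; exact (hΛ₂ a (by simp)).1) (by rw [hcm]; exact (hΛ₂ b (by simp)).1)
    obtain ⟨A₃, B₃, h3u, h3v⟩ := hcoef e₃ he₃ (by rw [hcm]; exact (hΛ₃ a (by simp)).1) (by rw [hcm]; exact (hΛ₃ b (by simp)).1)
    obtain ⟨x, hx0, hφ, hψ⟩ := exists_vec_kill2 (ι := Fin 3) (K := F₀) (by simp)
      (A₁ • LinearMap.proj 0 + A₂ • LinearMap.proj 1 + A₃ • LinearMap.proj 2)
      (B₁ • LinearMap.proj 0 + B₂ • LinearMap.proj 1 + B₃ • LinearMap.proj 2)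
    simp only [LinearMap.add_apply, LinearMap.smul_apply, LinearMap.proj_apply, smul_eq_mul] at hφ hψ
    have hφ' : (A₁ : F) * x 0 + A₂ * x 1 + A₃ * x 2 = 0 := by exact_mod_cast hφ
    have hψ' : (B₁ : F) * x 0 + B₂ * x 1 + B₃ * x 2 = 0 := by exact_mod_cast hψ
    have hRp : R (x 0 • e₁ + x 1 • e₂ + x 2 • e₃) = (x 0 : F) • R e₁ + (x 1 : F) • R e₂ + (x 2 : F) • R e₃ := by
      rw [rat_add, rat_add, rat_smul, rat_smul, rat_smul]
    have hp0 : x 0 • e₁ + x 1 • e₂ + x 2 • e₃ ≠ 0 := by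
      intro h0
      have h1 := hRp
      rw [h0, rat_zero] at h1
      have e3 := congrArg (fun w => f w (R e₃')) h1.symm
      simp only [pol_add_left hQ, pol_smul_left hQ, pol_zero_left hQ, h33, hcm e₁ e₃', hcm e₂ e₃',
        (hΛ₃ e₁ (by simp)).2, (hΛ₃ e₂ (by simp)).2, mul_zero, zero_add, mul_one] at e3
      have hx2 : x 2 = 0 := by exact_mod_cast e3
      have e2 := congrArg (fun w => f w (R e₂')) h1.symm
      simp only [pol_add_left hQ, pol_smul_left hQ, pol_zero_left hQ, h22, hcm e₁ e₂', (hΛ₂ e₁ (by simp)).2, hx2,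
        ZeroMemClass.coe_zero, zero_mul, mul_zero, zero_add, add_zero, mul_one] at e2
      have hx1 : x 1 = 0 := by exact_mod_cast e2
      have e1 := congrArg (fun w => f w (R e₁')) h1.symm
      simp only [pol_add_left hQ, pol_smul_left hQ, pol_zero_left hQ, h11, hx2, hx1,
        ZeroMemClass.coe_zero, zero_mul, mul_zero, zero_add, add_zero, mul_one] at e1
      have hx00 : x 0 = 0 := by exact_mod_cast e1
      apply hx0
      funext i
      fin_cases i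
      · exact hx00
      · exact hx1
      · exact hx2
    refine hno _ hp0 ?_ ?_ ?_
    · rw [hRp]
      exact Q_ts3 hQ he₁ he₂ he₃ h12 h13 h23 _ _ _
    · rw [hRp]
      simp only [pol_add_right hQ, pol_smul_right hQ, h1u, h2u, h3u]
      linear_combination μ₁ * hφ' + ν₁ * hψ'
    · rw [hRp]
      simp only [pol_add_right hQ, pol_smul_right hQ, h1v, h2v, h3v]
      linear_combination μ₂ * hφ' + ν₂ * hψ'
  obtain ⟨a', ha'0, ha', h1, h2⟩ := two_forms_kernel hQ hrat hcard (by omega) u v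
  exact hno a' ha'0 ha' h1 h2

end caseII

end Cfsg.Agent.Lib.Geo
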