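import Mathlib
import Cfsg.Agent.Lib.Geo.OmegaRat3

set_option autoImplicit false

/-! The subfield subgroup of `Ω` is maximal. -/

namespace Cfsg.Agent.Lib.Geo

open scoped MatrixGroups Matrix commutatorElement
open Module

variable {ι : Type} [Fintype ι] [DecidableEq ι]

variable {F : Type*} [Field F] [Fintype F] {F₀ : Subfield F} {P : GL ι F}
variable {Q : (ι → F) → F}

local notation "f" => QuadraticMap.polar Q
local notation "R" => rat F₀ P

/-- no element of an overgroup moves the rational structure when the coefficient field is small -/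
theorem no_over_omega {hQ : Cfsg.Geo.IsNondegenerateQuadraticForm Q} {M : Subgroup (GL ι F)}
    (hrat : ∀ u : ι → F₀, Q (rat F₀ P u) ∈ F₀)
    (hM : M ≤ Cfsg.isometryGroup F Q) (hS : HS M hQ F₀ P) (hn : 13 ≤ Fintype.card ι)
    (hA : ∀ d, RS M hQ F₀ P d → d ∈ F₀) {r : ℕ} (hr : r.Prime)
    (hcard : Fintype.card F = Nat.card F₀ ^ r) {g : GL ι F} (hg : g ∈ M)
    (hgH : g ∉ Cfsg.Geo.subfieldSubgroup F₀ P) : False := by
  obtain ⟨a₀, ha₀, hnr⟩ := exists_not_rat_scale P hQ hrat hn hgH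
  have hiso := hM hg
  have hcm : ∀ x y : ι → F₀, f (R x) (R y) = f (R y) (R x) := fun _ _ => pol_comm' _ _
  have ha₀0 : a₀ ≠ 0 := by
    rintro rfl
    apply hnr 0 0
    simp [rat_zero]
  obtain ⟨b₀, b₀', hb₀, hb₀', h00, hΛ₀⟩ := rat_hyp P hQ hrat [a₀] (by simp; omega)
  obtain ⟨b₁, b₁', hb₁, hb₁', h11, hΛ₁⟩ := rat_hyp P hQ hrat [a₀, b₀, b₀'] (by simp; omega)
  have h1 := hΛ₀ a₀ (by simp)
  have h2 := hΛ₁ a₀ (by simp)
  have h3 := hΛ₁ b₀ (by simp)
  have hab₀ : f (R a₀) (R b₀) = 0 := by rw [hcm]; exact h1.1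
  have hab₁ : f (R a₀) (R b₁) = 0 := by rw [hcm]; exact h2.1
  have hb₀b₁ : f (R b₀) (R b₁) = 0 := by rw [hcm]; exact h3.1
  set u := act g (R a₀) with hu
  set v₀ := act g (R b₀) with hv₀
  set v₁ := act g (R b₁) with hv₁
  have hQu : Q u = 0 := by rw [hu, mem_iso.1 hiso, ha₀]
  have hQv₀ : Q v₀ = 0 := by rw [hv₀, mem_iso.1 hiso, hb₀]
  have hQv₁ : Q v₁ = 0 := by rw [hv₁, mem_iso.1 hiso, hb₁]
  have huv₀ : f u v₀ = 0 := by rw [hu, hv₀, iso_polar hiso, hab₀]
  have huv₁ : f u v₁ = 0 := by rw [hu, hv₁, iso_polar hiso, hab₁]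
  have hm₀ : sg hQ u v₀ ∈ M := by
    rw [hu, hv₀, ← conj_sg hQ hiso ha₀ hab₀]
    exact M.mul_mem (M.mul_mem hg (hS a₀ b₀ ha₀ hab₀)) (M.inv_mem hg)
  have hm₁ : sg hQ u v₁ ∈ M := by
    rw [hu, hv₁, ← conj_sg hQ hiso ha₀ hab₁]
    exact M.mul_mem (M.mul_mem hg (hS a₀ b₁ ha₀ hab₁)) (M.inv_mem hg)
  have hRa0 : R a₀ ≠ 0 := by
    intro h
    apply ha₀0
    apply rat_injective P
    rw [h, rat_zero]
  -- independence
  have hind : ∀ {b b' : ι → F₀}, f (R b) (R b') = 1 → f (R a₀) (R b') = 0 → ∀ x y : F,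
      x • u + y • act g (R b) = 0 → x = 0 ∧ y = 0 := by
    intro b b' hbb' hab' x y h
    have h4 : x • R a₀ + y • R b = 0 := by
      apply (act g).injective
      rw [map_add, map_smul, map_smul, map_zero]
      exact h
    have h5 := congrArg (fun w => f w (R b')) h4
    simp only [pol_add_left hQ, pol_smul_left hQ, hbb', hab', pol_zero_left hQ, mul_zero, zero_add, mul_one] at h5
    subst h5
    rw [zero_smul, add_zero] at h4
    exact ⟨(smul_eq_zero.1 h4).resolve_right hRa0, rfl⟩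
  have hind₀ := hind h00 (by rw [hcm]; exact h1.2)
  have hind₁ := hind h11 (by rw [hcm]; exact h2.2)
  -- rational planes
  have hplane : ∀ {v : ι → F}, Q v = 0 → f u v = 0 → sg hQ u v ∈ M →
      (∀ x y : F, x • u + y • v = 0 → x = 0 ∧ y = 0) →
      ∃ (p q : ι → F₀) (c₁ c₂ d₁ d₂ : F), u = c₁ • R p + c₂ • R q ∧ v = d₁ • R p + d₂ • R q := by
    intro v hQv huv hm hind
    by_cases hex : ∃ a : ι → F₀, a ≠ 0 ∧ Q (R a) = 0 ∧ f u (R a) = 0 ∧ f v (R a) = 0
    · obtain ⟨a, ha0, ha, hua, hva⟩ := hex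
      exact rigid_plane hrat hM hS hn hA hQu hQv huv hm hind ha0 ha hua hva
    · exfalso
      push Not at hex
      exact caseII hrat hM hS hn hA hr hcard hQu hQv huv hm hind
        (fun a h1 h2 h3 h4 => hex a h1 h2 h3 h4)
  obtain ⟨p, q, c₁, c₂, d₁, d₂, e1, e2⟩ := hplane hQv₀ huv₀ hm₀ hind₀
  obtain ⟨p', q', c₃, c₄, d₃, d₄, e3, e4⟩ := hplane hQv₁ huv₁ hm₁ hind₁
  refine no_two_planes P hQ hrat (t := act g (R b₁')) hind₀ hnr ?_ ?_ ?_ e1 e2 e3 e4
  · show f (act g (R b₁')) (act g (R a₀)) = 0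
    rw [iso_polar hiso]
    exact h2.2
  · show f (act g (R b₁')) (act g (R b₀)) = 0
    rw [iso_polar hiso]
    exact h3.2
  · show f (act g (R b₁')) (act g (R b₁)) = 1
    rw [iso_polar hiso, hcm]
    exact h11

/-- The subfield subgroup of `Ω` is maximal. -/
theorem isMaximalIn_omega_subfield (hQ : Cfsg.Geo.IsNondegenerateQuadraticForm Q) (hn : 13 ≤ Fintype.card ι)
    {r : ℕ} (hr : r.Prime) (hcard : Fintype.card F = Nat.card F₀ ^ r) (P : GL ι F)
    (hrat : ∀ u : ι → F₀, Q (rat F₀ P u) ∈ F₀) :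
    Cfsg.Geo.IsMaximalIn (Cfsg.Geo.omegaGL Q) (Cfsg.Geo.subfieldSubgroup F₀ P ⊓ Cfsg.Geo.omegaGL Q) := by
  classical
  have hn9 : 9 ≤ Fintype.card ι := by omega
  refine ⟨lt_of_le_of_ne inf_le_right ?_, ?_⟩
  · intro heq
    obtain ⟨d, hd⟩ : ∃ d : F, d ∉ F₀ := by
      by_contra hcon
      push Not at hcon
      have h1 : Nat.card F₀ = Fintype.card F := by
        rw [← Nat.card_eq_fintype_card]
        exact Nat.card_congr (Equiv.subtypeUnivEquiv hcon)
      rw [hcard] at h1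
      have hq : 1 < Nat.card F₀ := Finite.one_lt_card
      have h2 : 1 = r := Nat.pow_right_injective hq (by simpa using h1)
      exact hr.one_lt.ne h2
    obtain ⟨a, e, ha0, ha, he, hae, hind⟩ := exists_pair P hQ hrat (by omega)
    have hmem := sg_mem_omega hQ hn9 (a := rat F₀ P a) (w := d • rat F₀ P e) ha
      (by rw [pol_smul_right hQ, hae, mul_zero])
    rw [← heq] at hmem
    exact sg_not_mem_subfield hrat ha0 ha hae he hind hd hmem.1
  · intro M hHM hMO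
    by_cases hMH : M ≤ Cfsg.Geo.subfieldSubgroup F₀ P ⊓ Cfsg.Geo.omegaGL Q
    · exact Or.inl (le_antisymm hMH hHM)
    right
    apply le_antisymm hMO
    have hM : M ≤ Cfsg.isometryGroup F Q := hMO.trans omega_le_iso
    have hS : HS M hQ F₀ P := fun a w ha haw =>
      hHM ⟨sg_rat_mem_subfield P hQ hrat ha haw, sg_mem_omega hQ hn9 ha haw⟩
    set A : Subfield F := sgField hrat hM hS hn with hA
    have hF₀A : F₀ ≤ A := fun c hc => RS_of_mem hS hc
    rcases DS.subfield_prime_index hr hcard hF₀A with hAe | hAt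
    · exfalso
      have hAF : ∀ d, RS M hQ F₀ P d → d ∈ F₀ := by
        intro d hd
        have : d ∈ A := hd
        rwa [hAe] at this
      obtain ⟨g, hg, hgH⟩ := SetLike.not_le_iff_exists.1 hMH
      have hgS : g ∉ Cfsg.Geo.subfieldSubgroup F₀ P := fun h => hgH ⟨h, hMO hg⟩
      exact no_over_omega hrat hM hS hn hAF hr hcard hg hgS
    · refine omega_le_of_RS (hQ := hQ) hrat hM hn fun d => ?_
      have : d ∈ A := by rw [hAt]; trivial
      exact this

end Cfsg.Agent.Lib.Geo
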