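import Mathlib
import Cfsg.Agent.Lib.Geo.OmegaUnitary

set_option autoImplicit false

/-! Subgroups of `Ω` containing all the unitary transvections: if they also contain one other good pair,
they contain `Ω`. -/

namespace Cfsg.Agent.Lib.Geo

open scoped MatrixGroups Matrix commutatorElement
open Module

variable {ι : Type} [Fintype ι] [DecidableEq ι] {F : Type*} [Field F] [Fintype F]

local notation "V" => (ι → F)

variable {Q : (ι → F) → F} (hQ : Cfsg.Geo.IsNondegenerateQuadraticForm Q)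

local notation "f" => QuadraticMap.polar Q

variable {J : (ι → F) →ₗ[F] (ι → F)} {τ ν : F} {M : Subgroup (GL ι F)}

/-- All the Siegel elements with this centre and this direction lie in `M`. -/
def PP (M : Subgroup (GL ι F)) (x y : V) : Prop :=
  Q x = 0 ∧ Q y = 0 ∧ f x y = 0 ∧ ∀ t : F, sg hQ x (t • y) ∈ M

variable {hQ}

theorem PP.symm {x y : V} (h : PP hQ M x y) : PP hQ M y x := by
  obtain ⟨h1, h2, h3, h4⟩ := h
  have h3' : f y x = 0 := by rw [pol_comm']; exact h3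
  refine ⟨h2, h1, h3', fun t => ?_⟩
  have e1 : sg hQ y (t • x) = sg hQ (t • x) (-y) :=
    sg_swap hQ h2 (by rw [Q_smul' hQ, h1, mul_zero]) (by rw [pol_smul_right hQ, h3', mul_zero])
  have e2 : sg hQ (t • x) (-y) = sg hQ x (t • (-y)) :=
    sg_smul_left hQ h1 t (by rw [pol_neg_right hQ, h3, neg_zero])
  have e3 : t • (-y) = (-t) • y := by simp
  rw [e1, e2, e3]
  exact h4 _

theorem PP.add {x y y' : V} (h : PP hQ M x y) (h' : PP hQ M x y') (hs : Q (y + y') = 0) :
    PP hQ M x (y + y') := by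
  obtain ⟨h1, h2, h3, h4⟩ := h
  obtain ⟨-, h2', h3', h4'⟩ := h'
  refine ⟨h1, hs, by rw [pol_add_right hQ, h3, h3', add_zero], fun t => ?_⟩
  rw [smul_add, ← sg_add hQ h1 (by rw [pol_smul_right hQ, h3, mul_zero]) (by rw [pol_smul_right hQ, h3', mul_zero])]
  exact M.mul_mem (h4 t) (h4' t)

section

variable (U : UQ J τ ν Q) (hτ : ∀ a, Q a = 0 → ∀ c : F, sg hQ a (c • J a) ∈ M)

include U hτ

theorem hτ' {a : V} (ha : Q a = 0) (s : F) : sg hQ (J a) (s • a) ∈ M := by
  have h1 : f a (J a) = 0 := U.iso a ha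
  have h2 : f (J a) a = 0 := by rw [pol_comm']; exact h1
  have e1 : sg hQ (J a) (s • a) = sg hQ (s • a) (-J a) :=
    sg_swap hQ (U.J_sing ha) (by rw [Q_smul' hQ, ha, mul_zero]) (by rw [pol_smul_right hQ, h2, mul_zero])
  have e2 : sg hQ (s • a) (-J a) = sg hQ a (s • (-J a)) :=
    sg_smul_left hQ ha s (by rw [pol_neg_right hQ, h1, neg_zero])
  have e3 : s • (-J a) = (-s) • J a := by simp
  rw [e1, e2, e3]
  exact hτ a ha _

/-- the basic move -/
theorem PP.step {x y y' : V} (h : PP hQ M x y) (hy' : Q y' = 0) (h1 : f x y' = 0) (h2 : f x (J y') = 0)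
    (h3 : f y y' = 0) (h4 : f y (J y') ≠ 0) : PP hQ M x y' := by
  obtain ⟨hx, hy, hxy, hm⟩ := h
  refine ⟨hx, hy', h1, fun t => ?_⟩
  set κ := f y (J y') with hκ
  have hQy' : Q (J y') = 0 := U.J_sing hy'
  have hs : Q ((-t / κ) • y') = 0 := by rw [Q_smul' hQ, hy', mul_zero]
  have hc := comm_sg hQ hx hy hQy' hs hxy
    (by rw [pol_smul_right hQ, pol_comm', U.iso y' hy', mul_zero]) h2
    (by rw [pol_smul_right hQ, h1, mul_zero]) (by rw [pol_smul_right hQ, h3, mul_zero])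
  have e : (-f y (J y')) • ((-t / κ) • y') = t • y' := by
    rw [smul_smul, ← hκ]
    congr 1
    field_simp
  rw [e] at hc
  rw [← hc, commutatorElement_def]
  have hm1 : sg hQ x y ∈ M := by
    have := hm 1
    rwa [one_smul] at this
  have hm2 := hτ' U hτ hy' (-t / κ)
  exact M.mul_mem (M.mul_mem (M.mul_mem hm1 hm2) (M.inv_mem hm1)) (M.inv_mem hm2)

/-- moving the direction when the old and the new direction are orthogonal -/
theorem stepA (hn : 13 ≤ Fintype.card ι) {x y₀ y : V} (h : PP hQ M x y₀) (hy : Q y = 0) (h1 : f x y = 0)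
    (h2 : f x (J y) = 0) (h3 : f y₀ y = 0)
    (hnot : J y₀ ∉ (Ks J x ⊔ Submodule.span F {y₀}) ⊔ Submodule.span F {y}) : PP hQ M x y := by
  by_cases h5 : f y₀ (J y) = 0
  · obtain ⟨y', hy'1, hy'2⟩ := exists_val hQ hnot
    have m1 : x ∈ (Ks J x ⊔ Submodule.span F {y₀}) ⊔ Submodule.span F {y} :=
      Submodule.mem_sup_left (Submodule.mem_sup_left (self_mem_Ks x))
    have m2 : J x ∈ (Ks J x ⊔ Submodule.span F {y₀}) ⊔ Submodule.span F {y} :=
      Submodule.mem_sup_left (Submodule.mem_sup_left (J_mem_Ks x))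
    have m3 : y₀ ∈ (Ks J x ⊔ Submodule.span F {y₀}) ⊔ Submodule.span F {y} :=
      Submodule.mem_sup_left (Submodule.mem_sup_right (Submodule.mem_span_singleton_self _))
    have m4 : y ∈ (Ks J x ⊔ Submodule.span F {y₀}) ⊔ Submodule.span F {y} :=
      Submodule.mem_sup_right (Submodule.mem_span_singleton_self _)
    obtain ⟨z, hz, hz1, hz2, hz3, hz4, hz5⟩ := solve5 hQ hn x (J x) y₀ y (J y₀) y'
    rw [pol_comm' y' x, hy'2 x m1] at hz1
    rw [pol_comm' y' (J x), hy'2 _ m2] at hz2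
    rw [pol_comm' y' y₀, hy'2 _ m3] at hz3
    rw [pol_comm' y' y, hy'2 _ m4] at hz4
    rw [pol_comm' y' (J y₀), hy'1] at hz5
    have a1 : f x z = 0 := by rw [pol_comm']; exact hz1
    have a2 : f x (J z) = 0 := by
      rw [pol_comm']
      exact U.adj0 hz1 hz2
    have a3 : f y₀ z = 0 := by rw [pol_comm']; exact hz3
    have a4 : f y₀ (J z) = -1 := by
      rw [pol_comm', U.adj, hz3, hz5]
      ring
    have hPz : PP hQ M x z := PP.step U hτ h hz a1 a2 a3 (by rw [a4]; simp)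
    have hz' : Q (y - z) = 0 := by
      rw [Q_sub hQ, hy, hz, pol_comm', hz4]
      ring
    have b1 : f x (y - z) = 0 := by rw [pol_sub_right hQ, h1, a1, sub_zero]
    have b2 : f x (J (y - z)) = 0 := by rw [map_sub, pol_sub_right hQ, h2, a2, sub_zero]
    have b3 : f y₀ (y - z) = 0 := by rw [pol_sub_right hQ, h3, a3, sub_zero]
    have b4 : f y₀ (J (y - z)) = 1 := by
      rw [map_sub, pol_sub_right hQ, h5, a4]
      ring
    have hPz' : PP hQ M x (y - z) := PP.step U hτ h hz' b1 b2 b3 (by rw [b4]; simp)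
    have := PP.add hPz hPz' (by simpa using hy)
    rwa [add_sub_cancel] at this
  · exact PP.step U hτ h hy h1 h2 h3 h5

/-- moving the direction -/
theorem stepZ (hn : 13 ≤ Fintype.card ι) {x y₀ y : V} (h : PP hQ M x y₀) (hy : Q y = 0) (h1 : f x y = 0)
    (h2 : f x (J y) = 0) (h3 : y₀ ∉ Ks J x) : PP hQ M x y := by
  set S₆ : Submodule F V := (Ks J x ⊔ Ks J y₀) ⊔ Ks J y with hS₆
  have hS₆st : ∀ v ∈ S₆, J v ∈ S₆ := by
    intro v hv
    obtain ⟨a, ha, b, hb, rfl⟩ := Submodule.mem_sup.1 hv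
    obtain ⟨c, hc, d, hd, rfl⟩ := Submodule.mem_sup.1 ha
    rw [map_add, map_add]
    exact Submodule.add_mem _ (Submodule.add_mem _
      (Submodule.mem_sup_left (Submodule.mem_sup_left (U.Ks_stable _ _ hc)))
      (Submodule.mem_sup_left (Submodule.mem_sup_right (U.Ks_stable _ _ hd))))
      (Submodule.mem_sup_right (U.Ks_stable _ _ hb))
  set Sp : Submodule F V := (Ks J x ⊔ Submodule.span F {y₀}) ⊔ Submodule.span F {y} with hSp
  have hS₆f : finrank F S₆ ≤ 6 := by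
    have h5 : finrank F S₆ ≤ finrank F ↥(Ks J x ⊔ Ks J y₀) + finrank F (Ks J y) :=
      Submodule.finrank_add_le_finrank_add_finrank (Ks J x ⊔ Ks J y₀) (Ks J y)
    have h6 := Submodule.finrank_add_le_finrank_add_finrank (Ks J x) (Ks J y₀)
    have h7 := finrank_Ks_le (J := J) x
    have h8 := finrank_Ks_le (J := J) y₀
    have h9 := finrank_Ks_le (J := J) y
    omega
  have hSpf : finrank F Sp ≤ 4 := by
    have h5 : finrank F Sp ≤ finrank F ↥(Ks J x ⊔ Submodule.span F {y₀}) + 1 :=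
      finrank_add_one_le (Ks J x ⊔ Submodule.span F {y₀}) y
    have h6 := finrank_add_one_le (Ks J x) y₀
    have h7 := finrank_Ks_le (J := J) x
    omega
  obtain ⟨e, he1, he2⟩ := exists_perp_not hQ S₆ Sp (by omega)
  obtain ⟨y', hy'1, hy'2⟩ := exists_val hQ he2
  have m1 : x ∈ Sp := Submodule.mem_sup_left (Submodule.mem_sup_left (self_mem_Ks x))
  have m2 : J x ∈ Sp := Submodule.mem_sup_left (Submodule.mem_sup_left (J_mem_Ks x))
  have m3 : y₀ ∈ Sp := Submodule.mem_sup_left (Submodule.mem_sup_right (Submodule.mem_span_singleton_self _))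
  have m4 : y ∈ Sp := Submodule.mem_sup_right (Submodule.mem_span_singleton_self _)
  obtain ⟨z, hz, hz1, hz2, hz3, hz4, hz5⟩ := solve5 hQ hn x (J x) y₀ y e y'
  rw [pol_comm' y' x, hy'2 x m1] at hz1
  rw [pol_comm' y' (J x), hy'2 _ m2] at hz2
  rw [pol_comm' y' y₀, hy'2 _ m3] at hz3
  rw [pol_comm' y' y, hy'2 _ m4] at hz4
  rw [pol_comm' y' e, hy'1] at hz5
  have hzS : z ∉ S₆ := fun hin => by
    have := he1 z hin
    rw [hz5] at this
    exact one_ne_zero this
  have a1 : f x z = 0 := by rw [pol_comm']; exact hz1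
  have a2 : f x (J z) = 0 := by
    rw [pol_comm']
    exact U.adj0 hz1 hz2
  have a3 : f y₀ z = 0 := by rw [pol_comm']; exact hz3
  -- first move
  have hP1 : PP hQ M x z := by
    refine stepA U hτ hn h hz a1 a2 a3 ?_
    intro hin
    obtain ⟨w, hw, v, hv, e1⟩ := Submodule.mem_sup.1 hin
    obtain ⟨δ, rfl⟩ := Submodule.mem_span_singleton.1 hv
    obtain ⟨w', hw', v', hv', rfl⟩ := Submodule.mem_sup.1 hw
    obtain ⟨γ, rfl⟩ := Submodule.mem_span_singleton.1 hv'
    by_cases hδ : δ = 0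
    · subst hδ
      rw [zero_smul, add_zero] at e1
      apply h3
      refine U.stable_cancel (U.Ks_stable x) (γ := γ) ?_
      rw [← e1]
      simpa using hw'
    · apply hzS
      have e2 : z = δ⁻¹ • (J y₀ - (w' + γ • y₀)) := by
        rw [← e1, add_sub_cancel_left, smul_smul, inv_mul_cancel₀ hδ, one_smul]
      rw [e2]
      refine S₆.smul_mem _ (S₆.sub_mem ?_ (S₆.add_mem ?_ ?_))
      · exact Submodule.mem_sup_left (Submodule.mem_sup_right (J_mem_Ks y₀))
      · exact Submodule.mem_sup_left (Submodule.mem_sup_left hw')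
      · exact S₆.smul_mem _ (Submodule.mem_sup_left (Submodule.mem_sup_right (self_mem_Ks y₀)))
  -- second move
  refine stepA U hτ hn hP1 hy h1 h2 hz4 ?_
  intro hin
  obtain ⟨w, hw, v, hv, e1⟩ := Submodule.mem_sup.1 hin
  obtain ⟨δ, rfl⟩ := Submodule.mem_span_singleton.1 hv
  obtain ⟨w', hw', v', hv', rfl⟩ := Submodule.mem_sup.1 hw
  obtain ⟨γ, rfl⟩ := Submodule.mem_span_singleton.1 hv'
  apply hzS
  refine U.stable_cancel hS₆st (γ := γ) ?_
  have e2 : J z - γ • z = w' + δ • y := by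
    rw [← e1]
    abel
  rw [e2]
  exact S₆.add_mem (Submodule.mem_sup_left (Submodule.mem_sup_left hw'))
    (S₆.smul_mem _ (Submodule.mem_sup_right (self_mem_Ks y)))

/-- all pairs of the second type from one -/
theorem stepT (hn : 13 ≤ Fintype.card ι) {x₀ y₀ x y : V} (h : PP hQ M x₀ y₀) (hx₀ : x₀ ≠ 0) (h3₀ : y₀ ∉ Ks J x₀)
    (hx : x ≠ 0) (hQx : Q x = 0) (hy : Q y = 0) (h1 : f x y = 0)
    (h2 : f x (J y) = 0) (h3 : y ∉ Ks J x) : PP hQ M x y := by
  set S₄ : Submodule F V := Ks J x₀ ⊔ Ks J x with hS₄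
  have hS₄f : finrank F S₄ ≤ 4 := by
    have h6 : finrank F S₄ ≤ finrank F (Ks J x₀) + finrank F (Ks J x) :=
      Submodule.finrank_add_le_finrank_add_finrank (Ks J x₀) (Ks J x)
    have h7 := finrank_Ks_le (J := J) x₀
    have h8 := finrank_Ks_le (J := J) x
    omega
  obtain ⟨e, he1, he2⟩ := exists_perp_not hQ S₄ S₄ (by omega)
  obtain ⟨y', hy'1, hy'2⟩ := exists_val hQ he2
  have m1 : x₀ ∈ S₄ := Submodule.mem_sup_left (self_mem_Ks x₀)
  have m2 : J x₀ ∈ S₄ := Submodule.mem_sup_left (J_mem_Ks x₀)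
  have m3 : x ∈ S₄ := Submodule.mem_sup_right (self_mem_Ks x)
  have m4 : J x ∈ S₄ := Submodule.mem_sup_right (J_mem_Ks x)
  obtain ⟨z, hz, hz1, hz2, hz3, hz4, hz5⟩ := solve5 hQ hn x₀ (J x₀) x (J x) e y'
  rw [pol_comm' y' x₀, hy'2 _ m1] at hz1
  rw [pol_comm' y' (J x₀), hy'2 _ m2] at hz2
  rw [pol_comm' y' x, hy'2 _ m3] at hz3
  rw [pol_comm' y' (J x), hy'2 _ m4] at hz4
  rw [pol_comm' y' e, hy'1] at hz5
  have hzS : z ∉ S₄ := fun hin => by
    have := he1 z hin
    rw [hz5] at this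
    exact one_ne_zero this
  have hz0 : z ≠ 0 := by
    rintro rfl
    exact hzS S₄.zero_mem
  have n1 : z ∉ Ks J x₀ := fun hin => hzS (Submodule.mem_sup_left hin)
  have n2 : z ∉ Ks J x := fun hin => hzS (Submodule.mem_sup_right hin)
  have hP1 : PP hQ M x₀ z := stepZ U hτ hn h hz (by rw [pol_comm']; exact hz1)
    (by rw [pol_comm']; exact U.adj0 hz1 hz2) h3₀
  have hP2 : PP hQ M z x := stepZ U hτ hn hP1.symm hQx hz3 (U.adj0' hz3 (U.adj0 hz3 hz4)) (fun hin =>
    n1 (U.Ks_symm hx₀ hin))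
  exact stepZ U hτ hn hP2.symm hy h1 h2 n2

/-- all pairs from one -/
theorem stepAll (hn : 13 ≤ Fintype.card ι) {x₀ y₀ x e : V} (h : PP hQ M x₀ y₀) (hx₀ : x₀ ≠ 0) (h3₀ : y₀ ∉ Ks J x₀)
    (hx : x ≠ 0) (hQx : Q x = 0) (he : Q e = 0) (h1 : f x e = 0) : PP hQ M x e := by
  by_cases hek : e ∈ Ks J x
  · refine ⟨hQx, he, h1, fun t => ?_⟩
    obtain ⟨p, r, rfl⟩ := mem_Ks.1 hek
    have ha1 : f x (p • x) = 0 := by rw [pol_smul_right hQ, pol_self_of hQ hQx, mul_zero]
    have ha2 : f x (r • J x) = 0 := by rw [pol_smul_right hQ, U.iso x hQx, mul_zero]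
    rw [smul_add, smul_smul, smul_smul]
    rw [← sg_add hQ hQx (by rw [pol_smul_right hQ, pol_self_of hQ hQx, mul_zero])
      (by rw [pol_smul_right hQ, U.iso x hQx, mul_zero]), sg_smul_self hQ hQx, one_mul]
    exact hτ x hQx _
  have he0 : e ≠ 0 := by
    rintro rfl
    exact hek (Submodule.zero_mem _)
  set S₄ : Submodule F V := Ks J x ⊔ Ks J e with hS₄
  have hS₄f : finrank F S₄ ≤ 4 := by
    have h6 : finrank F S₄ ≤ finrank F (Ks J x) + finrank F (Ks J e) :=
      Submodule.finrank_add_le_finrank_add_finrank (Ks J x) (Ks J e)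
    have h7 := finrank_Ks_le (J := J) x
    have h8 := finrank_Ks_le (J := J) e
    omega
  obtain ⟨w, hw1, hw2⟩ := exists_perp_not hQ S₄ S₄ (by omega)
  obtain ⟨y', hy'1, hy'2⟩ := exists_val hQ hw2
  have m1 : x ∈ S₄ := Submodule.mem_sup_left (self_mem_Ks x)
  have m2 : J x ∈ S₄ := Submodule.mem_sup_left (J_mem_Ks x)
  have m3 : e ∈ S₄ := Submodule.mem_sup_right (self_mem_Ks e)
  have m4 : J e ∈ S₄ := Submodule.mem_sup_right (J_mem_Ks e)
  obtain ⟨c, hc, hc1, hc2, hc3, hc4, hc5⟩ := solve5 hQ hn x (J x) e (J e) w y'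
  rw [pol_comm' y' x, hy'2 _ m1] at hc1
  rw [pol_comm' y' (J x), hy'2 _ m2] at hc2
  rw [pol_comm' y' e, hy'2 _ m3] at hc3
  rw [pol_comm' y' (J e), hy'2 _ m4] at hc4
  rw [pol_comm' y' w, hy'1] at hc5
  have hcS : c ∉ S₄ := fun hin => by
    have := hw1 c hin
    rw [hc5] at this
    exact one_ne_zero this
  have hc0 : c ≠ 0 := by
    rintro rfl
    exact hcS S₄.zero_mem
  -- the vector y
  have hcnot : c ∉ Ks J x ⊔ Submodule.span F {e} := fun hin =>
    hcS ((sup_le le_sup_left ((Submodule.span_singleton_le_iff_mem _ _).2 m3) :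
      Ks J x ⊔ Submodule.span F {e} ≤ S₄) hin)
  obtain ⟨v, hv1, hv2⟩ := exists_val hQ hcnot
  obtain ⟨y, hy, hy1, hy2, hy3, hy4, hy5⟩ := solve5 hQ hn x (J x) e c c v
  rw [pol_comm' v x, hv2 _ (Submodule.mem_sup_left (self_mem_Ks x))] at hy1
  rw [pol_comm' v (J x), hv2 _ (Submodule.mem_sup_left (J_mem_Ks x))] at hy2
  rw [pol_comm' v e, hv2 _ (Submodule.mem_sup_right (Submodule.mem_span_singleton_self _))] at hy3
  rw [pol_comm' v c, hv1] at hy4
  have hcx : f c x = 0 := hc1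
  have hxc : f x c = 0 := by rw [pol_comm']; exact hc1
  have hJxc : f (J x) c = 0 := by rw [pol_comm']; exact hc2
  have hyKx : y ∉ Ks J x := by
    intro hin
    obtain ⟨p, r, rfl⟩ := mem_Ks.1 hin
    rw [pol_add_left hQ, pol_smul_left hQ, pol_smul_left hQ, hxc, hJxc] at hy4
    simp at hy4
  have hP1 : PP hQ M x y := stepT U hτ hn h hx₀ h3₀ hx hQx hy (by rw [pol_comm']; exact hy1)
    (by rw [pol_comm']; exact U.adj0 hy1 hy2) hyKx
  have hP2 : PP hQ M c e := stepT U hτ hn h hx₀ h3₀ hc0 hc he hc3 (by exact hc4) (fun hin =>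
    hcS (Submodule.mem_sup_right (U.Ks_symm he0 hin)))
  refine ⟨hQx, he, h1, fun t => ?_⟩
  have hs : Q ((-t) • e) = 0 := by rw [Q_smul' hQ, he, mul_zero]
  have hcm := comm_sg hQ hQx hy hc hs (by rw [pol_comm']; exact hy1)
    (by rw [pol_smul_right hQ, hc3, mul_zero]) hxc
    (by rw [pol_smul_right hQ, h1, mul_zero]) (by rw [pol_smul_right hQ, hy3, mul_zero])
  have e2 : (-f y c) • ((-t) • e) = t • e := by
    rw [hy4, smul_smul]
    simp
  rw [e2] at hcm
  rw [← hcm, commutatorElement_def]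
  have hm1 : sg hQ x y ∈ M := by
    have := hP1.2.2.2 1
    rwa [one_smul] at this
  have hm2 := hP2.2.2.2 (-t)
  exact M.mul_mem (M.mul_mem (M.mul_mem hm1 hm2) (M.inv_mem hm1)) (M.inv_mem hm2)

end

end Cfsg.Agent.Lib.Geo
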