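import Mathlib
import Cfsg.Agent.Lib.Geo.OmegaUnitaryMax

set_option autoImplicit false

/-! The normalizer in `Ω` of a quadratic field acting by similarities is maximal. -/

namespace Cfsg.Agent.Lib.Geo

open scoped MatrixGroups Matrix commutatorElement
open Module

variable {ι : Type} [Fintype ι] [DecidableEq ι] {F : Type*} [Field F] [Fintype F]

local notation "V" => (ι → F)

variable {Q : (ι → F) → F} {hQ : Cfsg.Geo.IsNondegenerateQuadraticForm Q}

local notation "f" => QuadraticMap.polar Q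

variable {J : (ι → F) →ₗ[F] (ι → F)} {τ ν : F} {M : Subgroup (GL ι F)}

section

variable (U : UQ J τ ν Q) (hτ : ∀ a, Q a = 0 → ∀ c : F, sg hQ a (c • J a) ∈ M)

include U hτ

/-- from one good pair of the second type, everything -/
theorem omega_le_of_PP (hn : 13 ≤ Fintype.card ι) (hMO : M ≤ Cfsg.isometryGroup F Q) {x₀ y₀ : V}
    (h : PP hQ M x₀ y₀) (hx₀ : x₀ ≠ 0) (h3₀ : y₀ ∉ Ks J x₀) : Cfsg.Geo.omegaGL Q ≤ M := by
  have hgood : ∀ x, x ≠ 0 → Q x = 0 → GoodV hQ M x := by
    intro x hx hQx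
    refine ⟨hQx, fun w hw => ?_⟩
    by_cases hws : w ∈ Submodule.span F {x}
    · obtain ⟨c, rfl⟩ := Submodule.mem_span_singleton.1 hws
      rw [sg_smul_self hQ hQx]
      exact M.one_mem
    · obtain ⟨y', h1, h2⟩ := exists_val hQ hws
      obtain ⟨z, hz, hz1, hz2, -, -, -⟩ := solve5 hQ hn x w x w x ((Q w) • y')
      have h3 : f y' x = 0 := by
        rw [pol_comm']
        exact h2 x (Submodule.mem_span_singleton_self _)
      rw [pol_smul_left hQ, h3, mul_zero] at hz1
      rw [pol_smul_left hQ, pol_comm' y' w, h1, mul_one] at hz2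
      have a1 : f x z = 0 := by rw [pol_comm']; exact hz1
      have a2 : f x (w - z) = 0 := by rw [pol_sub_right hQ, hw, a1, sub_zero]
      have hz' : Q (w - z) = 0 := by
        rw [Q_sub hQ, hz, pol_comm', hz2]
        ring
      have e := sg_add hQ hQx a1 a2
      rw [add_sub_cancel] at e
      rw [← e]
      have p1 := stepAll U hτ hn h hx₀ h3₀ hx hQx hz a1
      have p2 := stepAll U hτ hn h hx₀ h3₀ hx hQx hz' a2
      have m1 := p1.2.2.2 1
      have m2 := p2.2.2.2 1
      rw [one_smul] at m1 m2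
      exact M.mul_mem m1 m2
  obtain ⟨s, -, t, -, hQs, hQt, hst⟩ := exists_hyp_pair hQ (⊤ : Submodule F V) (by
    rw [finrank_top]
    simp
    omega)
  have hs0 : s ≠ 0 := by
    rintro rfl
    rw [pol_zero_left hQ] at hst
    exact zero_ne_one hst
  have ht0 : t ≠ 0 := by
    rintro rfl
    rw [pol_zero_right hQ] at hst
    exact zero_ne_one hst
  exact omega_le_of_two_good (by omega) hMO (hgood t ht0 hQt) (hgood s hs0 hQs) (by rw [hst]; exact one_ne_zero)

/-- the entry point -/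
theorem entry_PP (hn : 13 ≤ Fintype.card ι) {c d : V} (h : PP hQ M c d) (hc : c ≠ 0) (hd : d ∉ Ks J c) :
    ∃ x₀ y₀, PP hQ M x₀ y₀ ∧ x₀ ≠ 0 ∧ y₀ ∉ Ks J x₀ := by
  have hd0 : d ≠ 0 := by
    rintro rfl
    exact hd (Submodule.zero_mem _)
  set S₄ : Submodule F V := Ks J c ⊔ Ks J d with hS₄
  have hS₄f : finrank F S₄ ≤ 4 := by
    have h6 : finrank F S₄ ≤ finrank F (Ks J c) + finrank F (Ks J d) :=
      Submodule.finrank_add_le_finrank_add_finrank (Ks J c) (Ks J d)
    have h7 := finrank_Ks_le (J := J) c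
    have h8 := finrank_Ks_le (J := J) d
    omega
  obtain ⟨e, he1, he2⟩ := exists_perp_not hQ (Ks J d) S₄ (by
    have h8 := finrank_Ks_le (J := J) d
    omega)
  obtain ⟨y₂, hy₂1, hy₂2⟩ := exists_val hQ he2
  have hnot : J c ∉ (Submodule.span F {c} ⊔ Ks J d) ⊔ Submodule.span F {e} := by
    intro hin
    obtain ⟨w, hw, v, hv, e1⟩ := Submodule.mem_sup.1 hin
    obtain ⟨δ, rfl⟩ := Submodule.mem_span_singleton.1 hv
    obtain ⟨w₁, hw₁, w', hw', rfl⟩ := Submodule.mem_sup.1 hw
    obtain ⟨α, rfl⟩ := Submodule.mem_span_singleton.1 hw₁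
    by_cases hδ : δ = 0
    · subst hδ
      rw [zero_smul, add_zero] at e1
      apply hd
      apply U.Ks_symm hc
      refine U.stable_cancel (U.Ks_stable d) (γ := α) ?_
      rw [← e1]
      simpa using hw'
    · apply he2
      have e2 : e = δ⁻¹ • (J c - (α • c + w')) := by
        rw [← e1, add_sub_cancel_left, smul_smul, inv_mul_cancel₀ hδ, one_smul]
      rw [e2]
      refine S₄.smul_mem _ (S₄.sub_mem (Submodule.mem_sup_left (J_mem_Ks c)) (S₄.add_mem ?_ ?_))
      · exact S₄.smul_mem _ (Submodule.mem_sup_left (self_mem_Ks c))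
      · exact Submodule.mem_sup_right hw'
  obtain ⟨y₁, hy₁1, hy₁2⟩ := exists_val hQ hnot
  have v1 : f c (y₁ + y₂) = 0 := by
    rw [pol_add_right hQ, hy₁2 c (Submodule.mem_sup_left (Submodule.mem_sup_left (Submodule.mem_span_singleton_self _))),
      hy₂2 c (Submodule.mem_sup_left (self_mem_Ks c)), add_zero]
  have v2 : f d (y₁ + y₂) = 0 := by
    rw [pol_add_right hQ, hy₁2 d (Submodule.mem_sup_left (Submodule.mem_sup_right (self_mem_Ks d))),
      hy₂2 d (Submodule.mem_sup_right (self_mem_Ks d)), add_zero]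
  have v3 : f (J d) (y₁ + y₂) = 0 := by
    rw [pol_add_right hQ, hy₁2 (J d) (Submodule.mem_sup_left (Submodule.mem_sup_right (J_mem_Ks d))),
      hy₂2 (J d) (Submodule.mem_sup_right (J_mem_Ks d)), add_zero]
  have v4 : f (J c) (y₁ + y₂) = 1 := by
    rw [pol_add_right hQ, hy₁1, hy₂2 (J c) (Submodule.mem_sup_left (J_mem_Ks c)), add_zero]
  have v5 : f e (y₁ + y₂) = 1 := by
    rw [pol_add_right hQ, hy₂1, hy₁2 e (Submodule.mem_sup_right (Submodule.mem_span_singleton_self _)), zero_add]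
  obtain ⟨a, ha, ha1, ha2, ha3, ha4, ha5⟩ := solve5 hQ hn c d (J d) (J c) e (y₁ + y₂)
  rw [pol_comm' (y₁ + y₂) c, v1] at ha1
  rw [pol_comm' (y₁ + y₂) d, v2] at ha2
  rw [pol_comm' (y₁ + y₂) (J d), v3] at ha3
  rw [pol_comm' (y₁ + y₂) (J c), v4] at ha4
  rw [pol_comm' (y₁ + y₂) e, v5] at ha5
  have a1 : f d a = 0 := by rw [pol_comm']; exact ha2
  have a2 : f d (J a) = 0 := by
    rw [pol_comm']
    exact U.adj0 ha2 ha3
  have a3 : f c a = 0 := by rw [pol_comm']; exact ha1
  have a4 : f c (J a) = -1 := by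
    rw [pol_comm', U.adj, ha1, ha4]
    ring
  refine ⟨d, a, PP.step U hτ h.symm ha a1 a2 a3 (by rw [a4]; simp), hd0, fun hin => ?_⟩
  obtain ⟨p, r, rfl⟩ := mem_Ks.1 hin
  rw [pol_add_left hQ, pol_smul_left hQ, pol_smul_left hQ, he1 d (self_mem_Ks d), he1 (J d) (J_mem_Ks d)] at ha5
  simp at ha5

end

/-- A linear map keeping all singular lines over the extension field is a scalar of the field. -/
theorem const_of_lines (hQ : Cfsg.Geo.IsNondegenerateQuadraticForm Q) (U : UQ J τ ν Q) (hn : 13 ≤ Fintype.card ι)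
    (A : V →ₗ[F] V) (h : ∀ v, Q v = 0 → A v ∈ Ks J v) : ∃ p r : F, ∀ v, A v = p • v + r • J v := by
  obtain ⟨s, -, t, -, hQs, hQt, hst⟩ := exists_hyp_pair hQ (⊤ : Submodule F V) (by
    rw [finrank_top]
    simp
    omega)
  have hs0 : s ≠ 0 := by
    rintro rfl
    rw [pol_zero_left hQ] at hst
    exact zero_ne_one hst
  obtain ⟨p, r, hpr⟩ := mem_Ks.1 (h s hQs)
  -- the step
  have step : ∀ v w : V, v ≠ 0 → Q v = 0 → A v = p • v + r • J v → Q w = 0 → f v w = 0 → w ∉ Ks J v →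
      A w = p • w + r • J w := by
    intro v w hv hQv hAv hQw hvw hw
    have hw0 : w ≠ 0 := by
      rintro rfl
      exact hw (Submodule.zero_mem _)
    obtain ⟨p', r', h1⟩ := mem_Ks.1 (h w hQw)
    have hs : Q (v + w) = 0 := by
      rw [Q_add' (Q := Q), hQv, hQw, hvw]
      ring
    obtain ⟨p₂, r₂, h2⟩ := mem_Ks.1 (h (v + w) hs)
    rw [map_add, hAv, h1, map_add] at h2
    have e1 : (p - p₂) • v + (r - r₂) • J v = (p₂ - p') • w + (r₂ - r') • J w := by
      have : (p - p₂) • v + (r - r₂) • J v - ((p₂ - p') • w + (r₂ - r') • J w)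
          = (p • v + r • J v + (p' • w + r' • J w)) - (p₂ • (v + w) + r₂ • (J v + J w)) := by
        (module)
      rw [← sub_eq_zero, this, h2, sub_self]
    have hz := U.Ks_inter (x := w) (y := v) hw hw0 (v := (p₂ - p') • w + (r₂ - r') • J w)
      (mem_Ks.2 ⟨_, _, rfl⟩) (mem_Ks.2 ⟨_, _, e1.symm⟩)
    obtain ⟨h3, h4⟩ := U.indep hw0 hz
    rw [hz] at e1
    obtain ⟨h5, h6⟩ := U.indep hv e1
    rw [h1]
    have e2 : p' = p := by linear_combination -h3 - h5
    have e3 : r' = r := by linear_combination -h4 - h6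
    rw [e2, e3]
  have hall : ∀ w, Q w = 0 → A w = p • w + r • J w := by
    intro w hw
    by_cases hw0 : w = 0
    · subst hw0
      simp
    set S₄ : Submodule F V := Ks J s ⊔ Ks J w with hS₄
    have hS₄f : finrank F S₄ ≤ 4 := by
      have h6 : finrank F S₄ ≤ finrank F (Ks J s) + finrank F (Ks J w) :=
        Submodule.finrank_add_le_finrank_add_finrank (Ks J s) (Ks J w)
      have h7 := finrank_Ks_le (J := J) s
      have h8 := finrank_Ks_le (J := J) w
      omega
    obtain ⟨e, he1, he2⟩ := exists_perp_not hQ S₄ S₄ (by omega)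
    obtain ⟨y', hy'1, hy'2⟩ := exists_val hQ he2
    obtain ⟨z, hz, hz1, hz2, -, -, hz5⟩ := solve5 hQ hn s w s w e y'
    rw [pol_comm' y' s, hy'2 s (Submodule.mem_sup_left (self_mem_Ks s))] at hz1
    rw [pol_comm' y' w, hy'2 w (Submodule.mem_sup_right (self_mem_Ks w))] at hz2
    rw [pol_comm' y' e, hy'1] at hz5
    have hzS : z ∉ S₄ := fun hin => by
      have := he1 z hin
      rw [hz5] at this
      exact one_ne_zero this
    have hz0 : z ≠ 0 := by
      rintro rfl
      exact hzS S₄.zero_mem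
    have h1 := step s z hs0 hQs hpr hz (by rw [pol_comm']; exact hz1) (fun hin => hzS (Submodule.mem_sup_left hin))
    refine step z w hz0 hz h1 hw hz2 (fun hin => ?_)
    exact hzS (Submodule.mem_sup_right (U.Ks_symm hw0 hin))
  refine ⟨p, r, fun x => ?_⟩
  obtain ⟨a, -, ha1, ha2⟩ := iso_decomp_Q_in hQ (⊤ : Submodule F V) (by
    intro y _ hy0
    obtain ⟨x, hx⟩ := (sform_of_quad hQ).nd y hy0
    exact ⟨x, trivial, hx⟩) (by
    rw [finrank_top]
    simp
    omega) (x := x) trivial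
  have e : x = a + (x - a) := by abel
  rw [e, map_add, map_add, hall a ha1, hall _ ha2]
  rw [smul_add, smul_add]
  abel

theorem exists_T2 (hQ : Cfsg.Geo.IsNondegenerateQuadraticForm Q) (hn : 13 ≤ Fintype.card ι) {a : V} :
    ∃ y, Q y = 0 ∧ f y a = 0 ∧ f y (J a) = 0 ∧ y ∉ Ks J a := by
  have h7 := finrank_Ks_le (J := J) a
  obtain ⟨e, he1, he2⟩ := exists_perp_not hQ (Ks J a) (Ks J a) (by omega)
  obtain ⟨y', hy'1, hy'2⟩ := exists_val hQ he2
  obtain ⟨y, hy, hy1, hy2, -, -, hy5⟩ := solve5 hQ hn a (J a) a a e y'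
  rw [pol_comm' y' a, hy'2 a (self_mem_Ks a)] at hy1
  rw [pol_comm' y' (J a), hy'2 _ (J_mem_Ks a)] at hy2
  rw [pol_comm' y' e, hy'1] at hy5
  refine ⟨y, hy, hy1, hy2, fun hin => ?_⟩
  have := he1 y hin
  rw [hy5] at this
  exact one_ne_zero this

theorem mat_ext {A B : Matrix ι ι F} (h : ∀ x : V, A *ᵥ x = B *ᵥ x) : A = B :=
  Matrix.toLin'.injective (LinearMap.ext h)

/-- The normalizer, from a conjugation relation. -/
theorem mem_norm_of {K : Subalgebra F (Matrix ι ι F)} {j : Matrix ι ι F} (hjK : j ∈ K)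
    (hKsp : ∀ k ∈ K, ∃ p r : F, k = p • 1 + r • j) {g : GL ι F} {p r : F} (hr : r ≠ 0)
    (h : (g : Matrix ι ι F) * j * ((g⁻¹ : GL ι F) : Matrix ι ι F) = p • 1 + r • j) :
    g ∈ Cfsg.Geo.subalgebraNormalizer K := by
  set G : Matrix ι ι F := (g : Matrix ι ι F) with hG
  set G' : Matrix ι ι F := ((g⁻¹ : GL ι F) : Matrix ι ι F) with hG'
  have h1 : G * G' = 1 := by
    rw [hG, hG', ← Units.val_mul, mul_inv_cancel, Units.val_one]
  have h2 : G' * G = 1 := by
    rw [hG, hG', ← Units.val_mul, inv_mul_cancel, Units.val_one]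
  have h3 : G' * j * G = r⁻¹ • (j - p • 1) := by
    have e1 : G' * (G * j * G') * G = j := by
      calc G' * (G * j * G') * G = (G' * G) * j * (G' * G) := by noncomm_ring
        _ = j := by rw [h2]; simp
    rw [h] at e1
    have e2 : G' * (p • 1 + r • j) * G = p • 1 + r • (G' * j * G) := by
      rw [mul_add, add_mul, Matrix.mul_smul, Matrix.smul_mul, Matrix.mul_smul, Matrix.smul_mul, mul_one, h2]
    rw [e2] at e1
    have e3 : r • (G' * j * G) = j - p • 1 := by
      rw [eq_sub_iff_add_eq, add_comm]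
      exact e1
    rw [← e3, smul_smul, inv_mul_cancel₀ hr, one_smul]
  have hmem : ∀ c : F, ∀ x ∈ K, c • x ∈ K := fun c x hx => K.smul_mem hx c
  intro k
  constructor
  · intro hk
    obtain ⟨p₁, r₁, rfl⟩ := hKsp k hk
    have e : G * (p₁ • 1 + r₁ • j) * G' = p₁ • 1 + r₁ • (G * j * G') := by
      rw [mul_add, add_mul, Matrix.mul_smul, Matrix.smul_mul, Matrix.mul_smul, Matrix.smul_mul, mul_one, h1]
    rw [e, h]
    exact K.add_mem (hmem _ _ K.one_mem) (hmem _ _ (K.add_mem (hmem _ _ K.one_mem) (hmem _ _ hjK)))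
  · intro hk
    obtain ⟨p₁, r₁, e1⟩ := hKsp _ hk
    have e2 : k = G' * (G * k * G') * G := by
      calc k = (G' * G) * k * (G' * G) := by rw [h2]; simp
        _ = G' * (G * k * G') * G := by noncomm_ring
    rw [e2, e1]
    have e3 : G' * (p₁ • 1 + r₁ • j) * G = p₁ • 1 + r₁ • (G' * j * G) := by
      rw [mul_add, add_mul, Matrix.mul_smul, Matrix.smul_mul, Matrix.mul_smul, Matrix.smul_mul, mul_one, h2]
    rw [e3, h3]
    exact K.add_mem (hmem _ _ K.one_mem) (hmem _ _ (hmem _ _ (K.sub_mem hjK (hmem _ _ K.one_mem))))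

end Cfsg.Agent.Lib.Geo
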