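import Mathlib
import Cfsg.Agent.Lib.Geo.OmegaUnitaryApp

set_option autoImplicit false

/-! The normalizer in `Ω` of a quadratic field acting by similarities is maximal: the statement. -/

namespace Cfsg.Agent.Lib.Geo

open scoped MatrixGroups Matrix commutatorElement
open Module

variable {ι : Type} [Fintype ι] [DecidableEq ι] {F : Type*} [Field F] [Fintype F]

local notation "V" => (ι → F)

variable {Q : (ι → F) → F}

local notation "f" => QuadraticMap.polar Q

/-- The structure on the quadratic space attached to the field. -/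
theorem exists_UQ_of_field (hQ : Cfsg.Geo.IsNondegenerateQuadraticForm Q) (hne : Nonempty ι)
    {K : Subalgebra F (Matrix ι ι F)} (hK : Cfsg.Geo.IsFieldSubalgebra 2 K)
    (hac : Cfsg.Geo.IsAdjointClosedFor (QuadraticMap.polar Q) K)
    (hnsa : ¬ Cfsg.Geo.IsSelfAdjointFor (QuadraticMap.polar Q) K)
    (hsc : ∀ k ∈ K, ∃ c : F, ∀ v : V, Q (Matrix.mulVec k v) = c * Q v) :
    ∃ (j : Matrix ι ι F) (τ ν : F), j ∈ K ∧ (∀ c : F, j ≠ c • 1) ∧ (∀ k ∈ K, ∃ p r : F, k = p • 1 + r • j) ∧
      UQ (Matrix.toLin' j) τ ν Q := by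
  classical
  set hf := sform_of_quad hQ with hhf
  have hone : (1 : Matrix ι ι F) ≠ 0 := one_ne_zero
  have hfK : finrank F (Subalgebra.toSubmodule K) = 2 := hK.finrank_eq
  obtain ⟨j, hjK, hj1⟩ : ∃ j ∈ K, ∀ c : F, j ≠ c • 1 := by
    by_contra hcon
    push Not at hcon
    have hle : Subalgebra.toSubmodule K ≤ Submodule.span F {(1 : Matrix ι ι F)} := by
      intro k hk
      obtain ⟨c, rfl⟩ := hcon k hk
      exact Submodule.smul_mem _ _ (Submodule.mem_span_singleton_self _)
    have h1 := Submodule.finrank_mono hle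
    rw [hfK, finrank_span_singleton hone] at h1
    omega
  have hjS : j ∉ Submodule.span F {(1 : Matrix ι ι F)} := by
    intro hin
    obtain ⟨c, hc⟩ := Submodule.mem_span_singleton.1 hin
    exact hj1 c hc.symm
  have hKsp : ∀ k ∈ K, ∃ p r : F, k = p • 1 + r • j := by
    intro k hk
    have hle : Submodule.span F {(1 : Matrix ι ι F)} ⊔ Submodule.span F {j} ≤ Subalgebra.toSubmodule K := by
      rw [sup_le_iff, Submodule.span_singleton_le_iff_mem, Submodule.span_singleton_le_iff_mem]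
      exact ⟨K.one_mem, hjK⟩
    have heq := Submodule.eq_of_le_of_finrank_eq hle (by
      rw [Submodule.finrank_sup_span_singleton hjS, finrank_span_singleton hone, hfK])
    have hkm : k ∈ Subalgebra.toSubmodule K := hk
    rw [← heq] at hkm
    obtain ⟨a, ha, b, hb, rfl⟩ := Submodule.mem_sup.1 hkm
    obtain ⟨p, rfl⟩ := Submodule.mem_span_singleton.1 ha
    obtain ⟨r, rfl⟩ := Submodule.mem_span_singleton.1 hb
    exact ⟨p, r, rfl⟩
  -- the adjoint
  obtain ⟨j', hj'K, hj'⟩ := hac j hjK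
  obtain ⟨α, β, rfl⟩ := hKsp j' hj'K
  have hexp : ∀ v : V, (α • (1 : Matrix ι ι F) + β • j) *ᵥ v = α • v + β • (j *ᵥ v) := by
    intro v
    rw [Matrix.add_mulVec, Matrix.smul_mulVec, Matrix.smul_mulVec, Matrix.one_mulVec]
  have h1 : ∀ u v : V, f (j *ᵥ u) v = α * f u v + β * f u (j *ᵥ v) := by
    intro u v
    rw [hj', hexp, pol_add_right hQ, pol_smul_right hQ, pol_smul_right hQ]
  have h2 : ∀ u v : V, (1 - β * β) * f u (j *ᵥ v) = α * (1 + β) * f u v := by
    intro u v
    have h3 := h1 v u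
    rw [pol_comm' (j *ᵥ v) u, pol_comm' v u, pol_comm' v (j *ᵥ u), h1 u v] at h3
    linear_combination h3
  have h3 : ∀ v : V, (1 - β * β) • (j *ᵥ v) = (α * (1 + β)) • v := by
    intro v
    by_contra hcon
    obtain ⟨x, hx⟩ := hf.nd _ (sub_ne_zero.2 hcon)
    apply hx
    rw [pol_sub_right hQ, pol_smul_right hQ, pol_smul_right hQ, h2]
    ring
  have hβ2 : 1 - β * β = 0 := by
    by_contra hne0
    apply hj1 ((1 - β * β)⁻¹ * (α * (1 + β)))
    apply mat_ext
    intro v
    rw [Matrix.smul_mulVec, Matrix.one_mulVec, mul_smul, ← h3, smul_smul, inv_mul_cancel₀ hne0, one_smul]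
  have hα : α * (1 + β) = 0 := by
    obtain ⟨v, hv⟩ : ∃ v : V, v ≠ 0 := by
      obtain ⟨i⟩ := hne
      exact ⟨fun _ => 1, fun h => one_ne_zero (congrFun h i)⟩
    have := h3 v
    rw [hβ2, zero_smul] at this
    rcases smul_eq_zero.1 this.symm with h4 | h4
    · exact h4
    · exact absurd h4 hv
  have hnot : ¬ (α = 0 ∧ β = 1) := by
    rintro ⟨rfl, rfl⟩
    apply hnsa
    intro k hk u v
    obtain ⟨p, r, rfl⟩ := hKsp k hk
    have h5 : ∀ u v : V, f (j *ᵥ u) v = f u (j *ᵥ v) := by
      intro u v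
      rw [h1]
      ring
    simp only [Matrix.add_mulVec, Matrix.smul_mulVec, Matrix.one_mulVec, pol_add_left hQ, pol_add_right hQ,
      pol_smul_left hQ, pol_smul_right hQ]
    rw [h5]
  have hβ : β = -1 := by
    have h5 : (β - 1) * (β + 1) = 0 := by linear_combination -hβ2
    rcases mul_eq_zero.1 h5 with h6 | h6
    · have h7 : β = 1 := sub_eq_zero.1 h6
      subst h7
      have h8 : α * 2 = 0 := by
        rw [← hα]
        ring
      rcases mul_eq_zero.1 h8 with h9 | h9
      · exact absurd ⟨h9, rfl⟩ hnot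
      · linear_combination h9
    · linear_combination h6
  subst hβ
  -- the norm
  obtain ⟨ν, hν⟩ := hsc j hjK
  have hpol : ∀ u v : V, f (j *ᵥ u) (j *ᵥ v) = ν * f u v := by
    intro u v
    simp only [QuadraticMap.polar]
    rw [← Matrix.mulVec_add, hν, hν, hν]
    ring
  have hsq : ∀ v : V, j *ᵥ (j *ᵥ v) = α • (j *ᵥ v) - ν • v := by
    intro v
    by_contra hcon
    obtain ⟨x, hx⟩ := hf.nd _ (sub_ne_zero.2 hcon)
    apply hx
    have h5 := h1 x (j *ᵥ v)
    rw [hpol] at h5
    rw [pol_sub_right hQ, pol_sub_right hQ, pol_smul_right hQ, pol_smul_right hQ]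
    linear_combination h5
  have hiso : ∀ v : V, Q v = 0 → f v (j *ᵥ v) = 0 := by
    intro v hv
    obtain ⟨c₁, hc₁⟩ := hsc (1 + j) (K.add_mem K.one_mem hjK)
    have h5 := hc₁ v
    rw [Matrix.add_mulVec, Matrix.one_mulVec, Q_add' (Q := Q), hν, hv] at h5
    linear_combination h5
  have hmat : j * j = α • j - ν • 1 := by
    apply mat_ext
    intro v
    rw [← Matrix.mulVec_mulVec, hsq, Matrix.sub_mulVec, Matrix.smul_mulVec, Matrix.smul_mulVec, Matrix.one_mulVec]
  have hirr : ∀ c : F, c * c - α * c + ν ≠ 0 := by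
    intro c h0
    have hjc : j - c • 1 ∈ K := K.sub_mem hjK (K.smul_mem K.one_mem c)
    have hjc0 : j - c • 1 ≠ 0 := fun h => hj1 c (sub_eq_zero.1 h)
    obtain ⟨y, -, hy⟩ := hK.inv _ hjc hjc0
    have hy' : y * (j - c • 1) = 1 := mul_eq_one_comm.1 hy
    have e : (j - c • 1) * (j - (α - c) • 1) = 0 := by
      have : (j - c • 1) * (j - (α - c) • 1) = j * j - α • j + (c * (α - c)) • 1 := by
        simp only [mul_sub, sub_mul, Matrix.mul_smul, Matrix.smul_mul, mul_one, smul_smul, one_mul]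
        (module)
      rw [this, hmat]
      have e2 : α • j - ν • (1 : Matrix ι ι F) - α • j + (c * (α - c)) • 1 = (-(c * c - α * c + ν)) • 1 := by
        (module)
      rw [e2, h0]
      simp
    have e3 : j - (α - c) • 1 = 0 := by
      calc j - (α - c) • 1 = (y * (j - c • 1)) * (j - (α - c) • 1) := by rw [hy', one_mul]
        _ = y * ((j - c • 1) * (j - (α - c) • 1)) := by rw [mul_assoc]
        _ = 0 := by rw [e, mul_zero]
    exact hj1 (α - c) (sub_eq_zero.1 e3)
  refine ⟨j, α, ν, hjK, hj1, hKsp, ?_⟩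
  refine ⟨fun v => ?_, fun u v => ?_, fun v => ?_, fun v hv => ?_, hirr⟩
  · simp only [Matrix.toLin'_apply]
    exact hsq v
  · simp only [Matrix.toLin'_apply]
    rw [h1]
    ring
  · simp only [Matrix.toLin'_apply]
    exact hν v
  · simp only [Matrix.toLin'_apply]
    exact hiso v hv

/-- The main theorem. -/
theorem isMaximalIn_omega_unitary (hQ : Cfsg.Geo.IsNondegenerateQuadraticForm Q) (hn : 13 ≤ Fintype.card ι)
    {K : Subalgebra F (Matrix ι ι F)} (hK : Cfsg.Geo.IsFieldSubalgebra 2 K)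
    (hac : Cfsg.Geo.IsAdjointClosedFor (QuadraticMap.polar Q) K)
    (hnsa : ¬ Cfsg.Geo.IsSelfAdjointFor (QuadraticMap.polar Q) K)
    (hsc : ∀ k ∈ K, ∃ c : F, ∀ v : V, Q (Matrix.mulVec k v) = c * Q v) :
    Cfsg.Geo.IsMaximalIn (Cfsg.Geo.omegaGL Q) (Cfsg.Geo.subalgebraNormalizer K ⊓ Cfsg.Geo.omegaGL Q) := by
  classical
  have hne : Nonempty ι := by
    apply Fintype.card_pos_iff.1
    omega
  have hn9 : 9 ≤ Fintype.card ι := by omega
  obtain ⟨j, τ, ν, hjK, hj1, hKsp, U⟩ := exists_UQ_of_field hQ hne hK hac hnsa hsc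
  set J : V →ₗ[F] V := Matrix.toLin' j with hJ
  have hJa : ∀ v, J v = j *ᵥ v := fun v => rfl
  -- a conjugation relation from a relation on vectors
  have hconj : ∀ (g : GL ι F) (p r : F), r ≠ 0 → (∀ x, act g (J x) = p • act g x + r • J (act g x)) →
      g ∈ Cfsg.Geo.subalgebraNormalizer K := by
    intro g p r hr h
    refine mem_norm_of (p := p) hjK hKsp hr ?_
    apply mat_ext
    intro x
    have h5 := h (act g⁻¹ x)
    rw [act_act_inv] at h5
    rw [← Matrix.mulVec_mulVec, ← Matrix.mulVec_mulVec, Matrix.add_mulVec, Matrix.smul_mulVec, Matrix.smul_mulVec,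
      Matrix.one_mulVec]
    exact h5
  have hcomm : ∀ g : GL ι F, (∀ x, act g (J x) = J (act g x)) → g ∈ Cfsg.Geo.subalgebraNormalizer K := by
    intro g h
    refine hconj g 0 1 one_ne_zero fun x => ?_
    rw [h]
    simp
  -- the transvections
  have hτH : ∀ a, Q a = 0 → ∀ c : F, sg hQ a (c • J a) ∈ Cfsg.Geo.subalgebraNormalizer K ⊓ Cfsg.Geo.omegaGL Q := by
    intro a ha c
    have h1 : f a (c • J a) = 0 := by rw [pol_smul_right hQ, U.iso a ha, mul_zero]
    refine ⟨hcomm _ fun x => ?_, sg_mem_omega hQ hn9 ha h1⟩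
    rw [act_sg hQ ha h1, act_sg hQ ha h1, Q_smul' hQ, U.QJ, ha]
    simp only [mul_zero, zero_mul, zero_smul, sub_zero, map_sub, map_add, map_smul]
    have e0 : f (J x) a = τ * f x a - f x (J a) := U.adj x a
    have e1 : f (J x) (J a) = ν * f x a := by
      have h2 := U.adj x (J a)
      rw [U.sq, pol_sub_right hQ, pol_smul_right hQ, pol_smul_right hQ] at h2
      linear_combination h2
    rw [pol_smul_right hQ, pol_smul_right hQ, e1, e0, U.sq]
    (module)
  -- an element outside
  have hlt : Cfsg.Geo.subalgebraNormalizer K ⊓ Cfsg.Geo.omegaGL Q < Cfsg.Geo.omegaGL Q := by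
    rw [SetLike.lt_iff_le_and_exists]
    refine ⟨inf_le_right, ?_⟩
    obtain ⟨a, -, t, -, ha, hQt, hst⟩ := exists_hyp_pair hQ (⊤ : Submodule F V) (by
      rw [finrank_top]
      simp
      omega)
    have ha0 : a ≠ 0 := by
      rintro rfl
      rw [pol_zero_left hQ] at hst
      exact zero_ne_one hst
    obtain ⟨y, hy, hy1, hy2, hy3⟩ := exists_T2 (J := J) hQ hn (a := a)
    have hay : f a y = 0 := by rw [pol_comm']; exact hy1
    have hy0 : y ≠ 0 := by
      rintro rfl
      exact hy3 (Submodule.zero_mem _)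
    refine ⟨sg hQ a y, sg_mem_omega hQ hn9 ha hay, fun hmem => ?_⟩
    have hnot : a ∉ Submodule.span F {J a} ⊔ Ks J y := by
      intro hin
      obtain ⟨w, hw, v, hv, e1⟩ := Submodule.mem_sup.1 hin
      obtain ⟨β, rfl⟩ := Submodule.mem_span_singleton.1 hw
      have haKy : a ∈ Ks J y := by
        by_cases hβ : β = 0
        · subst hβ
          rw [zero_smul, zero_add] at e1
          rw [← e1]
          exact hv
        · refine U.stable_cancel (U.Ks_stable y) (γ := β⁻¹) ?_
          have e2 : J a - β⁻¹ • a = (-β⁻¹) • v := by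
            have e3 : β⁻¹ • a = J a + β⁻¹ • v := by
              conv_lhs => rw [← e1]
              rw [smul_add, smul_smul, inv_mul_cancel₀ hβ, one_smul]
            rw [e3, neg_smul]
            abel
          rw [e2]
          exact (Ks J y).smul_mem _ hv
      exact hy3 (U.Ks_symm ha0 haKy)
    obtain ⟨x, hx1, hx2⟩ := exists_val hQ hnot
    have hxa : f x a = 1 := by rw [pol_comm']; exact hx1
    have hxJa : f x (J a) = 0 := by
      rw [pol_comm']
      exact hx2 _ (Submodule.mem_sup_left (Submodule.mem_span_singleton_self _))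
    have hxy : f x y = 0 := by
      rw [pol_comm']
      exact hx2 _ (Submodule.mem_sup_right (self_mem_Ks y))
    have hxJy : f x (J y) = 0 := by
      rw [pol_comm']
      exact hx2 _ (Submodule.mem_sup_right (J_mem_Ks y))
    have hT : ∀ z, act (sg hQ a y) z = z + f z a • y - f z y • a := by
      intro z
      rw [act_sg hQ ha hay, hy]
      simp
    have hTx : act (sg hQ a y) x = x + y := by
      rw [hT, hxa, hxy]
      simp
    have hTJx : act (sg hQ a y) (J x) = J x + τ • y := by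
      rw [hT, U.adj, U.adj, hxa, hxJa, hxy, hxJy]
      simp
    -- conjugating the generator
    have h5 : ((sg hQ a y : GL ι F) : Matrix ι ι F) * j * (((sg hQ a y)⁻¹ : GL ι F) : Matrix ι ι F) ∈ K :=
      (hmem.1 j).1 hjK
    obtain ⟨p, r, h6⟩ := hKsp _ h5
    have h7 : act (sg hQ a y) (J x) = p • act (sg hQ a y) x + r • J (act (sg hQ a y) x) := by
      have h8 := congrArg (fun A : Matrix ι ι F => A *ᵥ (act (sg hQ a y) x)) h6
      rw [← Matrix.mulVec_mulVec, ← Matrix.mulVec_mulVec, Matrix.add_mulVec, Matrix.smul_mulVec, Matrix.smul_mulVec,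
        Matrix.one_mulVec] at h8
      have h9 : (((sg hQ a y)⁻¹ : GL ι F) : Matrix ι ι F) *ᵥ (act (sg hQ a y) x) = x := act_inv_act _ x
      rw [h9] at h8
      exact h8
    rw [hTx, hTJx, map_add] at h7
    have hxKy : x ∉ Ks J y := by
      intro hin
      have h10 := U.perp_Ks (u := a) hay (by rw [pol_comm']; exact U.adj0 hy1 hy2) hin hQ
      rw [pol_comm', hxa] at h10
      exact one_ne_zero h10
    have hx0 : x ≠ 0 := by
      rintro rfl
      exact hxKy (Submodule.zero_mem _)
    have e1 : (-p) • x + (1 - r) • J x = (p - τ) • y + r • J y := by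
      have : (-p) • x + (1 - r) • J x - ((p - τ) • y + r • J y)
          = (J x + τ • y) - (p • (x + y) + r • (J x + J y)) := by
        (module)
      rw [← sub_eq_zero, this, h7, sub_self]
    have hz := U.Ks_inter hxKy hx0 (v := (-p) • x + (1 - r) • J x) (mem_Ks.2 ⟨_, _, rfl⟩)
      (mem_Ks.2 ⟨_, _, e1⟩)
    obtain ⟨-, h11⟩ := U.indep hx0 hz
    rw [hz] at e1
    obtain ⟨-, h12⟩ := U.indep hy0 e1.symm
    rw [h12] at h11
    simp at h11
  refine ⟨hlt, fun M hM1 hM2 => ?_⟩
  by_cases hMH : M = Cfsg.Geo.subalgebraNormalizer K ⊓ Cfsg.Geo.omegaGL Q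
  · exact Or.inl hMH
  right
  obtain ⟨g, hgM, hgH⟩ : ∃ g ∈ M, g ∉ Cfsg.Geo.subalgebraNormalizer K ⊓ Cfsg.Geo.omegaGL Q := by
    by_contra hcon
    push Not at hcon
    exact hMH (le_antisymm hcon hM1)
  have hgN : g ∉ Cfsg.Geo.subalgebraNormalizer K := fun h => hgH ⟨h, hM2 hgM⟩
  have hMO : M ≤ Cfsg.isometryGroup F Q := hM2.trans omega_le_iso
  have hgO := hMO hgM
  have hτ : ∀ a, Q a = 0 → ∀ c : F, sg hQ a (c • J a) ∈ M := fun a ha c => hM1 (hτH a ha c)
  -- a singular vector moved off its line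
  obtain ⟨u, hu, hu0, huK⟩ : ∃ u, Q u = 0 ∧ u ≠ 0 ∧ act g (J u) ∉ Ks J (act g u) := by
    by_contra hcon
    push Not at hcon
    let A : V →ₗ[F] V := ((act g : V ≃ₗ[F] V) : V →ₗ[F] V) ∘ₗ J ∘ₗ ((act g⁻¹ : V ≃ₗ[F] V) : V →ₗ[F] V)
    have hAa : ∀ v, A v = act g (J (act g⁻¹ v)) := fun _ => rfl
    obtain ⟨p, r, hpr⟩ := const_of_lines hQ U hn A (by
      intro v hv
      rw [hAa]
      have h5 : Q (act g⁻¹ v) = 0 := by rw [mem_iso.1 (inv_mem hgO), hv]
      by_cases hv0 : act g⁻¹ v = 0
      · rw [hv0, map_zero, map_zero]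
        exact Submodule.zero_mem _
      have := hcon _ h5 hv0
      rwa [act_act_inv] at this)
    have hr : r ≠ 0 := by
      rintro rfl
      obtain ⟨i⟩ := hne
      apply hj1 p
      -- `g` conjugates `j` to a scalar
      have h6 : ∀ x, J x = p • x := by
        intro x
        have h7 := hpr (act g x)
        rw [hAa, act_inv_act] at h7
        rw [zero_smul, add_zero] at h7
        have h8 : act g (J x) = act g (p • x) := by
          rw [h7, map_smul]
        exact (act g).injective h8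
      apply mat_ext
      intro x
      rw [Matrix.smul_mulVec, Matrix.one_mulVec]
      exact h6 x
    apply hgN
    refine hconj g p r hr fun x => ?_
    have h7 := hpr (act g x)
    rw [hAa, act_inv_act] at h7
    exact h7
  set c := act g u with hc
  set d := act g (J u) with hd
  have hc0 : c ≠ 0 := by
    intro h
    apply hu0
    apply (act g).injective
    rw [map_zero]
    exact h
  have hPcd : PP hQ M c d := by
    have h1 : f u (J u) = 0 := U.iso u hu
    refine ⟨by rw [hc, mem_iso.1 hgO, hu], by rw [hd, mem_iso.1 hgO]; exact U.J_sing hu,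
      by rw [hc, hd, iso_polar hgO, h1], fun t => ?_⟩
    have h2 : f u (t • J u) = 0 := by rw [pol_smul_right hQ, h1, mul_zero]
    have h3 := conj_sg hQ hgO hu h2
    rw [map_smul] at h3
    rw [hd, hc, ← h3]
    exact M.mul_mem (M.mul_mem hgM (hτ u hu t)) (M.inv_mem hgM)
  obtain ⟨x₀, y₀, hP, hx₀, hy₀⟩ := entry_PP U hτ hn hPcd hc0 huK
  exact le_antisymm hM2 (omega_le_of_PP U hτ hn hMO hP hx₀ hy₀)

end Cfsg.Agent.Lib.Geo
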