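import Mathlib
import Cfsg.Agent.Lib.Geo.QuadFn
import Cfsg.Agent.Lib.Geo.SympMax

set_option autoImplicit false

/-! In characteristic two, the orthogonal group of a quadratic form polarising to the symplectic
form is maximal in the symplectic group. -/

namespace Cfsg.Agent.Lib.Geo

open scoped MatrixGroups Matrix
open Module Cfsg.Agent.Lib.Classical

variable {m : ℕ} {F : Type*} [Field F] [Fintype F]

local notation "Vv" => (Fin m ⊕ Fin m → F)
local notation "f" => Cfsg.sympForm m F

section

variable {Q : (Fin m ⊕ Fin m → F) → F}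
  (hQ : Cfsg.Geo.IsNondegenerateQuadraticForm Q)
  (hpol : ∀ u v, QuadraticMap.polar Q u v = Cfsg.sympForm m F u v)
  (h2 : (2 : F) = 0)
  (hsq : ∀ a : F, ∃ s : F, s * s = a)

include hpol in
theorem Q_add_eq (u v : Vv) : Q (u + v) = Q u + Q v + f u v := by
  rw [← hpol, QuadraticMap.polar]
  ring

include hQ in
theorem Q_smul_eq (c : F) (v : Vv) : Q (c • v) = c * c * Q v := by
  rw [hQ.smul]
  ring

include h2 in
theorem neg_eq_self_F (a : F) : a + a = 0 := by
  have : a + a = 2 * a := by ring
  rw [this, h2, zero_mul]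

include hpol h2 in
/-- an isometry of `Q` is symplectic -/
theorem sp_of_iso {g : GL (Fin m ⊕ Fin m) F} (hg : ∀ v, Q (act g v) = Q v) : g ∈ Cfsg.spGL m F := by
  rw [mem_spGL_iff]
  intro u v
  rw [← hpol, ← hpol, QuadraticMap.polar, QuadraticMap.polar, ← map_add, hg, hg, hg]

include hQ hpol h2 in
/-- the orthogonal transvection -/
theorem Q_stv {v : Vv} (hv : Q v = 1) (x : Vv) : Q (act (stv v 1) x) = Q x := by
  rw [act_stv, Q_add_eq hpol, Q_smul_eq hQ, hv, Cfsg.Agent.Lib.Classical.sympForm_smul_right,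
    one_mul]
  have := neg_eq_self_F h2 (f x v * f x v)
  linear_combination this

theorem mem_H_of_iso {g : GL (Fin m ⊕ Fin m) F} (hg : ∀ v, Q (act g v) = Q v)
    (hs : g ∈ Cfsg.spGL m F) : g ∈ Cfsg.Geo.quadSimilarityGroup Q ⊓ Cfsg.spGL m F :=
  ⟨⟨1, fun v => by
    show Q (act g v) = _
    rw [hg]
    simp⟩, hs⟩

include hQ hpol in
/-- one can solve for a vector with prescribed value and inner product. -/
theorem exists_solve (hm : 3 ≤ m) (hsq : ∀ a : F, ∃ s : F, s * s = a) (h2 : (2 : F) = 0)
    {u : Vv} (hu : u ≠ 0) (a e : F) : ∃ z : Vv, f z u = a ∧ Q z = e := by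
  classical
  have hnd : ∀ w : Vv, w ≠ 0 → ∃ x, f x w ≠ 0 := by
    intro w hw
    obtain ⟨x, hx⟩ := (hQ.nondegenerate w hw).1
    exact ⟨x, by rwa [← hpol]⟩
  obtain ⟨x₀, hx₀⟩ := hnd u hu
  set y₀ : Vv := (a / f x₀ u) • x₀ with hy₀
  have hy₀u : f y₀ u = a := by
    rw [hy₀, sympForm_smul_left]
    field_simp
  clear_value y₀
  set X : Submodule F Vv := Submodule.span F {u, y₀} with hX
  set W : Submodule F Vv := sOrth X with hW
  have hfin : Module.finrank F W = _ := LinearMap.BilinForm.finrank_orthogonal (sympBilin_nondegenerate (m := m) (R := F)) X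
  have hfin2 : Module.finrank F (sOrth W) = _ := LinearMap.BilinForm.finrank_orthogonal (sympBilin_nondegenerate (m := m) (R := F)) W
  have hV : Module.finrank F Vv = m + m := by simp
  have hXle : Module.finrank F X ≤ 2 := by
    have := finrank_span_finset_le_card (R := F) ({u, y₀} : Finset Vv)
    have h3 : (({u, y₀} : Finset Vv) : Set Vv) = {u, y₀} := by simp
    rw [h3] at this
    exact this.trans (Finset.card_le_two)
  have hXV : Module.finrank F X ≤ m + m := hV ▸ Submodule.finrank_le X
  -- a vector in `W` with `Q ≠ 0`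
  obtain ⟨y₁, hy₁W, hy₁⟩ : ∃ y ∈ W, Q y ≠ 0 := by
    by_contra hcon
    push Not at hcon
    have hle : W ≤ sOrth W := by
      intro y hy
      rw [mem_sOrth]
      intro x hx
      have h1 := Q_add_eq hpol x y
      rw [hcon x hx, hcon y hy, hcon _ (W.add_mem hx hy)] at h1
      linear_combination -h1
    have := Submodule.finrank_mono hle
    rw [hV] at hfin hfin2
    omega
  have h1 : f u y₁ = 0 := mem_sOrth.1 hy₁W u (Submodule.subset_span (by simp))
  have h2' : f y₀ y₁ = 0 := mem_sOrth.1 hy₁W y₀ (Submodule.subset_span (by simp))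
  obtain ⟨s, hs⟩ := hsq ((e + Q y₀) / Q y₁)
  refine ⟨y₀ + s • y₁, ?_, ?_⟩
  · rw [sympForm_add_left, sympForm_smul_left, hy₀u, sympForm_flip, h1]
    ring
  · rw [Q_add_eq hpol, Q_smul_eq hQ, sympForm_smul_right, h2', hs]
    have := neg_eq_self_F h2 (Q y₀)
    field_simp
    linear_combination this

omit [Fintype F] in
theorem sympForm_zero_left' (v : Vv) : f 0 v = 0 := by
  have := sympForm_smul_left (0 : F) (0 : Vv) v
  simpa using this

include hQ hpol h2 hsq in
/-- The maximality theorem. -/
theorem isMaximalIn_orth_even (hm : 3 ≤ m) :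
    Cfsg.Geo.IsMaximalIn (Cfsg.spGL m F) (Cfsg.Geo.quadSimilarityGroup Q ⊓ Cfsg.spGL m F) := by
  have solve := fun {u : Vv} (hu : u ≠ 0) (a e : F) => exists_solve hQ hpol hm hsq h2 hu a e
  have hQ0 : Q (0 : Vv) = 0 := by
    have := hQ.smul 0 (0 : Vv)
    simpa using this
  have hnd : ∀ w : Vv, w ≠ 0 → ∃ x, f x w ≠ 0 := by
    intro w hw
    obtain ⟨x, hx⟩ := (hQ.nondegenerate w hw).1
    exact ⟨x, by rwa [← hpol]⟩
  obtain ⟨u₀, hu₀⟩ : ∃ u : Vv, u ≠ 0 := by
    refine ⟨Pi.single (Sum.inl ⟨0, by omega⟩) 1, fun h => ?_⟩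
    have := congrFun h (Sum.inl ⟨0, by omega⟩)
    simp at this
  have hsqrt_ne : ∀ {a : F}, a ≠ 0 → ∃ s : F, s ≠ 0 ∧ s * s * a = 1 := by
    intro a ha
    obtain ⟨s, hs⟩ := hsq a⁻¹
    refine ⟨s, ?_, by rw [hs]; field_simp⟩
    rintro rfl
    rw [mul_zero] at hs
    exact inv_ne_zero ha hs.symm
  constructor
  · -- proper
    refine lt_of_le_of_ne inf_le_right ?_
    intro heq
    obtain ⟨w, hw1, hw2⟩ := solve hu₀ 1 0
    have hw0 : w ≠ 0 := by
      rintro rfl
      rw [sympForm_zero_left'] at hw1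
      exact zero_ne_one hw1
    have hmem : stv w 1 ∈ Cfsg.Geo.quadSimilarityGroup Q ⊓ Cfsg.spGL m F := by
      rw [heq]
      exact stv_mem w 1
    obtain ⟨c, hc⟩ := hmem.1
    have hc' : ∀ v, Q (act (stv w 1) v) = (c : F) * Q v := hc
    obtain ⟨x, hx1, hx2⟩ := solve hw0 0 1
    have hc1 : (c : F) = 1 := by
      have := hc' x
      rw [act_stv, hx1, mul_zero, zero_smul, add_zero, hx2, mul_one] at this
      exact this.symm
    obtain ⟨y, hy⟩ := hnd w hw0
    have := hc' y
    rw [act_stv, hc1, one_mul, one_mul, Q_add_eq hpol, Q_smul_eq hQ, hw2,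
      sympForm_smul_right] at this
    apply hy
    have h3 : f y w * f y w = 0 := by
      linear_combination this
    exact mul_self_eq_zero.1 h3
  · intro M hM1 hM2
    by_cases hMH : M = Cfsg.Geo.quadSimilarityGroup Q ⊓ Cfsg.spGL m F
    · exact Or.inl hMH
    right
    refine le_antisymm hM2 (spGL_le_of_stv M ?_)
    obtain ⟨g, hgM, hgH⟩ : ∃ g ∈ M, g ∉ Cfsg.Geo.quadSimilarityGroup Q ⊓ Cfsg.spGL m F := by
      by_contra hcon
      push Not at hcon
      exact hMH (le_antisymm hcon hM1)
    -- the set of good vectors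
    have S_lvl : ∀ v : Vv, Q v = 1 → stv v 1 ∈ M := by
      intro v hv
      exact hM1 ⟨⟨1, fun x => by
        show Q (act (stv v 1) x) = _
        rw [Q_stv hQ hpol h2 hv]
        simp⟩, stv_mem v 1⟩
    have S_act : ∀ k ∈ M, ∀ v : Vv, stv v 1 ∈ M → stv (act k v) 1 ∈ M := by
      intro k hk v hv
      rw [← conj_stv (hM2 hk)]
      exact M.mul_mem (M.mul_mem hk hv) (M.inv_mem hk)
    have S_trans : ∀ x y : Vv, x ≠ 0 → y ≠ 0 → Q x = Q y → stv x 1 ∈ M → stv y 1 ∈ M := by
      intro x y hx hy hxy hS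
      obtain ⟨e, he1, he2⟩ := exists_isometry hQ hx hy hxy
      set k : GL (Fin m ⊕ Fin m) F := act.symm e with hk
      have hke : act k = e := by rw [hk, MulEquiv.apply_symm_apply]
      have hkiso : ∀ v, Q (act k v) = Q v := fun v => by rw [hke, he1]
      have hkM : k ∈ M := hM1 (mem_H_of_iso hkiso (sp_of_iso hpol h2 hkiso))
      have := S_act k hkM x hS
      rwa [hke, he2] at this
    -- step 1
    obtain ⟨w, hwS, hw0, hw1⟩ : ∃ w : Vv, stv w 1 ∈ M ∧ w ≠ 0 ∧ Q w ≠ 1 := by
      obtain ⟨x, hx⟩ : ∃ x : Vv, Q (act g x) ≠ Q x := by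
        by_contra hcon
        push Not at hcon
        exact hgH (mem_H_of_iso hcon (hM2 hgM))
      by_cases hx0 : Q x = 0
      · rw [hx0] at hx
        obtain ⟨s, hs0, hs⟩ := hsqrt_ne hx
        have hv : Q (s • act g x) = 1 := by rw [Q_smul_eq hQ, hs]
        have hvne : s • act g x ≠ 0 := by
          intro h
          rw [h, hQ0] at hv
          exact zero_ne_one hv
        have h3 := S_act g⁻¹ (M.inv_mem hgM) _ (S_lvl _ hv)
        have h4 : act g⁻¹ (s • act g x) = s • x := by
          rw [map_smul, ← LinearEquiv.mul_apply, ← map_mul, inv_mul_cancel, map_one]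
          rfl
        rw [h4] at h3
        refine ⟨s • x, h3, ?_, ?_⟩
        · intro h
          rw [← h4] at h
          exact hvne ((act g⁻¹).map_eq_zero_iff.1 h)
        · rw [Q_smul_eq hQ, hx0, mul_zero]
          exact zero_ne_one
      · obtain ⟨s, hs0, hs⟩ := hsqrt_ne hx0
        have hv : Q (s • x) = 1 := by rw [Q_smul_eq hQ, hs]
        have hvne : s • x ≠ 0 := by
          intro h
          rw [h, hQ0] at hv
          exact zero_ne_one hv
        have h3 := S_act g hgM _ (S_lvl _ hv)
        refine ⟨act g (s • x), h3, ?_, ?_⟩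
        · intro h
          exact hvne ((act g).map_eq_zero_iff.1 h)
        · rw [map_smul, Q_smul_eq hQ]
          intro h5
          apply hx
          have hss : s * s ≠ 0 := mul_ne_zero hs0 hs0
          apply mul_left_cancel₀ hss
          rw [h5, hs]
    -- step 2: every level
    set c := Q w with hc
    have hc1 : c + 1 ≠ 0 := by
      intro h
      apply hw1
      linear_combination h - h2
    have all : ∀ v : Vv, stv v 1 ∈ M := by
      intro v
      by_cases hv0 : v = 0
      · subst hv0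
        exact UU_zero 1
      by_cases hvc : Q v = c
      · exact S_trans w v hw0 hv0 hvc.symm hwS
      obtain ⟨a, ha⟩ := hsq ((Q v + c) / (c + 1))
      have ha0 : a ≠ 0 := by
        rintro rfl
        rw [mul_zero] at ha
        have h5 := (div_eq_zero_iff.1 ha.symm).resolve_right hc1
        apply hvc
        have := neg_eq_self_F h2 c
        linear_combination h5 - this
      obtain ⟨z, hz1, hz2⟩ := solve hw0 a c
      have hz0 : z ≠ 0 := by
        rintro rfl
        rw [sympForm_zero_left'] at hz1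
        exact ha0 hz1.symm
      have hzS : stv z 1 ∈ M := S_trans w z hw0 hz0 hz2.symm hwS
      have h6 := S_act _ hwS z hzS
      rw [act_stv, one_mul, hz1] at h6
      have h7 : z + a • w ≠ 0 := by
        intro h
        have h8 : f (z + a • w) w = a := by
          rw [sympForm_add_left, sympForm_smul_left, sympForm_self, hz1, mul_zero, add_zero]
        rw [h, sympForm_zero_left'] at h8
        exact ha0 h8.symm
      have h9 : Q (z + a • w) = Q v := by
        rw [Q_add_eq hpol, Q_smul_eq hQ, sympForm_smul_right, hz1, hz2, ← hc, ha]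
        have := neg_eq_self_F h2 c
        field_simp
        linear_combination (1 + c) * this
      exact S_trans _ v h7 hv0 h9 h6
    intro v d
    obtain ⟨s, hs⟩ := hsq d
    have : stv v d = stv (s • v) 1 := by
      rw [stv_smul, one_mul, hs]
    rw [this]
    exact all _

end

end Cfsg.Agent.Lib.Geo
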