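import Mathlib
import Cfsg.Agent.Lib.Geo.RatStruct

set_option autoImplicit false

/-! The symplectic subfield subgroup of `SU_n(q)` is maximal. -/

namespace Cfsg.Agent.Lib.Geo

open scoped MatrixGroups Matrix
open Module

variable {ι : Type} [Fintype ι] [DecidableEq ι] {F : Type*} [Field F]

variable {F₀ : Subfield F} (P : GL ι F) {σ : F →+* F} {f : (ι → F) → (ι → F) → F}

/-- a rational vector gives a unitary transvection in the subfield group -/
theorem ut_rat_mem_subfield (hf : SForm σ f) (hfix : ∀ a, σ a = a ↔ a ∈ F₀) {ζ : F} (hζ0 : ζ ≠ 0)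
    (hζ : ζ + σ ζ = 0) (hP : ∀ u v : ι → F₀, ζ * f (rat F₀ P u) (rat F₀ P v) ∈ F₀)
    (v : ι → F₀) (hv : f (rat F₀ P v) (rat F₀ P v) = 0) {c : F} (hc : c + σ c = 0) :
    ut hf hv c ∈ Cfsg.Geo.subfieldSubgroup F₀ P := by
  have hc0 : c / ζ ∈ F₀ := by
    rw [← hfix, map_div₀, eq_neg_of_add_eq_zero_right hc, eq_neg_of_add_eq_zero_right hζ, neg_div_neg_eq]
  refine mem_subfield_of P σ hfix fun x => ?_
  have h1 : c * f (rat F₀ P x) (rat F₀ P v) = (c / ζ) * (ζ * f (rat F₀ P x) (rat F₀ P v)) := by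
    field_simp
  have h2 : c * f (rat F₀ P x) (rat F₀ P v) ∈ F₀ := by
    rw [h1]
    exact mul_mem hc0 (hP x v)
  refine ⟨1, x + (⟨_, h2⟩ : F₀) • v, ?_⟩
  rw [act_ut, one_smul, rat_add, rat_smul]

theorem isMaximalIn_su_symp [Finite F] (hf : SForm σ f) (hn : 13 ≤ Fintype.card ι)
    (hev : Even (Fintype.card ι)) (hfix : ∀ a, σ a = a ↔ a ∈ F₀) {ω : F} (hω0 : ω ∉ F₀)
    (hω : ∀ x : F, ∃ a b : F₀, x = a + ω * b) {ζ : F} (hζ0 : ζ ≠ 0)
    (hζ : ζ + σ ζ = 0) (hP : ∀ u v : ι → F₀, ζ * f (rat F₀ P u) (rat F₀ P v) ∈ F₀)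
    (halt : ∀ u : ι → F₀, f (rat F₀ P u) (rat F₀ P u) = 0) :
    Cfsg.Geo.IsMaximalIn (uGroup f ⊓ Cfsg.Geo.specialLinear ι F)
      (Cfsg.Geo.subfieldSubgroup F₀ P ⊓ (uGroup f ⊓ Cfsg.Geo.specialLinear ι F)) := by
  classical
  have hωσ : σ ω - ω ≠ 0 := fun h => hω0 ((hfix ω).1 (sub_eq_zero.1 h))
  have hσ : σ ≠ RingHom.id F := fun h => hω0 ((hfix ω).1 (by rw [h]; rfl))
  set B := ratB P hf hfix hP with hBdef
  have hB : B.Nondegenerate := ratB_nondeg P hf hfix hζ0 hω hP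
  have hA : B.IsAlt := by
    intro u
    rw [← Subtype.coe_inj, hBdef, ratB_coe, halt]
    simp
  have hR : ∀ u v, B u v = 0 ↔ f (rat F₀ P u) (rat F₀ P v) = 0 := by
    intro u v
    rw [← Subtype.coe_inj, hBdef, ratB_coe]
    simp [hζ0]
  have hAnti : ∀ u v, f (rat F₀ P v) (rat F₀ P u) = - f (rat F₀ P u) (rat F₀ P v) := by
    intro u v
    have h1 : B v u = - B u v := by
      rw [← hA.neg_eq]
    have h2 := congrArg (Subtype.val) h1
    simp only [hBdef, ratB_coe, ZeroMemClass.coe_zero, NegMemClass.coe_neg] at h2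
    apply mul_left_cancel₀ hζ0
    rw [h2]
    ring
  -- the value of the form on decomposed vectors
  have hval : ∀ p r : ι → F₀, f (rat F₀ P p + ω • rat F₀ P r) (rat F₀ P p + ω • rat F₀ P r)
      = (σ ω - ω) * f (rat F₀ P p) (rat F₀ P r) := by
    intro p r
    simp only [hf.add_left, hf.add_right, hf.smul_left, hf.smul_right, halt]
    rw [hAnti p r]
    ring
  have hgood : ∀ (M : Subgroup (GL ι F)),
      Cfsg.Geo.subfieldSubgroup F₀ P ⊓ (uGroup f ⊓ Cfsg.Geo.specialLinear ι F) ≤ M →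
      ∀ v : ι → F₀, UA hf M (rat F₀ P v) := by
    intro M hM v
    refine ⟨halt v, fun c hc => hM ⟨ut_rat_mem_subfield P hf hfix hζ0 hζ hP v (halt v) hc,
      ut_mem_SU hf (halt v) hc⟩⟩
  -- lifting isometries of `B`
  have hlift : ∀ h : (ι → F₀) ≃ₗ[F₀] (ι → F₀), (∀ u v, B (h u) (h v) = B u v) →
      liftG P h ∈ Cfsg.Geo.subfieldSubgroup F₀ P ⊓ (uGroup f ⊓ Cfsg.Geo.specialLinear ι F) := by
    intro h hh
    refine ⟨liftG_mem_subfield P σ hfix h, liftG_mem_u P hf hω h ?_, det_liftG P h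
      (det_of_alt_isometry B hB hA hev h hh)⟩
    intro u v
    have h1 := congrArg (Subtype.val) (hh u v)
    simp only [hBdef, ratB_coe] at h1
    exact mul_left_cancel₀ hζ0 h1
  refine ⟨lt_of_le_of_ne inf_le_right ?_, ?_⟩
  · -- properness
    intro heq
    obtain ⟨a, ha⟩ : ∃ a : ι → F₀, a ≠ 0 := by
      have hι : Nonempty ι := Fintype.card_pos_iff.1 (by omega)
      obtain ⟨i⟩ := hι
      exact ⟨fun _ => 1, fun h => one_ne_zero (congrFun h i)⟩
    obtain ⟨x₁, hx₁⟩ : ∃ x₁, B x₁ a ≠ 0 := by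
      by_contra hcon
      push Not at hcon
      exact ha (hB.2 a hcon)
    obtain ⟨b, hb0, hb1, hb2⟩ : ∃ b : ι → F₀, b ≠ 0 ∧ B a b = 0 ∧ B x₁ b = 0 := by
      have h1 := finrank_cutL [B a, B x₁]
      have h2 : cutL [B a, B x₁] ≠ ⊥ := by
        intro h0
        rw [h0, finrank_bot] at h1
        simp at h1
        omega
      obtain ⟨b, hb, hb0⟩ := Submodule.exists_mem_ne_zero_of_ne_bot h2
      rw [mem_cutL] at hb
      exact ⟨b, hb0, hb _ (by simp), hb _ (by simp)⟩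
    have hb1' := (hR _ _).1 hb1
    have hb2' := (hR _ _).1 hb2
    have hx₁' : f (rat F₀ P x₁) (rat F₀ P a) ≠ 0 := fun h => hx₁ ((hR _ _).2 h)
    set z := rat F₀ P a + ω • rat F₀ P b with hz
    have hzz : f z z = 0 := by
      rw [hz, hval, hb1', mul_zero]
    have hmem : ut hf hzz ζ ∈ uGroup f ⊓ Cfsg.Geo.specialLinear ι F := ut_mem_SU hf hzz hζ
    rw [← heq] at hmem
    obtain ⟨c, w, hcw⟩ := rat_of_mem_subfield P hmem.1 x₁
    rw [act_ut] at hcw
    have h3 : f (rat F₀ P x₁) z = f (rat F₀ P x₁) (rat F₀ P a) := by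
      rw [hz, hf.add_right, hf.smul_right, hb2']
      simp
    rw [h3] at hcw
    set κ : F₀ := B x₁ a with hκ
    have hκ' : (κ : F) = ζ * f (rat F₀ P x₁) (rat F₀ P a) := rfl
    rw [← hκ'] at hcw
    have hT := congrArg (twist P σ) hcw
    rw [twist_add, twist_smul, twist_smul, hz, twist_add, twist_smul, (hfix _).2 κ.2] at hT
    simp only [twist_rat P σ hfix] at hT
    -- pair with `rat a`
    have haa := halt a
    have hba : f (rat F₀ P b) (rat F₀ P a) = 0 := hf.eq_zero_flip hb1'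
    have e1 := congrArg (fun y => f y (rat F₀ P a)) hcw
    have e2 := congrArg (fun y => f y (rat F₀ P a)) hT
    simp only [hf.add_left, hf.smul_left, haa, hba, hz, mul_zero, add_zero] at e1 e2
    have hc0 : c ≠ 0 := by
      rintro rfl
      apply hx₁'
      rw [e1, zero_mul]
    have hs : σ c = c := by
      have h5 : (σ c) * f (rat F₀ P w) (rat F₀ P a) = c * f (rat F₀ P w) (rat F₀ P a) := by
        rw [← e1, ← e2]
      have h6 : f (rat F₀ P w) (rat F₀ P a) ≠ 0 := by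
        intro h0
        apply hx₁'
        rw [e1, h0, mul_zero]
      exact mul_right_cancel₀ h6 h5
    rw [hs, ← hcw, hz] at hT
    have h7 : (κ : F) • (σ ω - ω) • rat F₀ P b = 0 := by
      have h8 := sub_eq_zero.2 hT
      have h9 : (κ : F) • (σ ω - ω) • rat F₀ P b
          = rat F₀ P x₁ + (κ : F) • (rat F₀ P a + σ ω • rat F₀ P b)
            - (rat F₀ P x₁ + (κ : F) • (rat F₀ P a + ω • rat F₀ P b)) := by
        (module)
      rw [h9]
      exact h8
    have hκ0 : (κ : F) ≠ 0 := by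
      rw [hκ']
      exact mul_ne_zero hζ0 hx₁'
    have h10 : rat F₀ P b = 0 := by
      have := (smul_eq_zero.1 h7).resolve_left hκ0
      exact (smul_eq_zero.1 this).resolve_left hωσ
    exact hb0 (rat_injective P (h10.trans (rat_zero P).symm))
  · intro M hHM hMG
    by_cases hMH : M = Cfsg.Geo.subfieldSubgroup F₀ P ⊓ (uGroup f ⊓ Cfsg.Geo.specialLinear ι F)
    · exact Or.inl hMH
    right
    have hMu : M ≤ uGroup f := hMG.trans inf_le_left
    obtain ⟨g, hgM, hgH⟩ : ∃ g ∈ M, g ∉ Cfsg.Geo.subfieldSubgroup F₀ P ⊓ (uGroup f ⊓ Cfsg.Geo.specialLinear ι F) := by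
      by_contra hcon
      push Not at hcon
      exact hMH (le_antisymm hcon hHM)
    have hg : g ∉ Cfsg.Geo.subfieldSubgroup F₀ P := fun h => hgH ⟨h, hMG hgM⟩
    obtain ⟨u, hu⟩ : ∃ u : ι → F₀, ∀ (c : F) (w : ι → F₀), act g (rat F₀ P u) ≠ c • rat F₀ P w := by
      by_contra hcon
      push Not at hcon
      exact hg (mem_subfield_of P σ hfix hcon)
    obtain ⟨p, r, hpr⟩ := exists_decomp P hω (act g (rat F₀ P u))
    have hzgood : UA hf M (rat F₀ P p + ω • rat F₀ P r) := by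
      rw [← hpr]
      exact UA_act hMu hgM (hgood M hHM u)
    have hsmulsimp : ∀ (a : F₀) (p₁ : ι → F₀), rat F₀ P p₁ + ω • rat F₀ P (a • p₁)
        = (1 + ω * a) • rat F₀ P p₁ := by
      intro a p₁
      rw [rat_smul, smul_smul, add_smul, one_smul]
    have hp : p ≠ 0 := by
      rintro rfl
      apply hu ω r
      rw [hpr, rat_zero, zero_add]
    have hr : ∀ a : F₀, r ≠ a • p := by
      rintro a rfl
      apply hu (1 + ω * a) p
      rw [hpr, hsmulsimp]
    have hpr0 : B p r = 0 := by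
      rw [hR]
      have h1 := hzgood.iso
      rw [hval] at h1
      exact (mul_eq_zero.1 h1).resolve_left hωσ
    refine le_antisymm hMG (su_le_of_UA hf hσ hn fun y hy => ?_)
    obtain ⟨p', r', rfl⟩ := exists_decomp P hω y
    by_cases hp' : p' = 0
    · subst hp'
      rw [rat_zero, zero_add]
      exact UA_smul (hgood M hHM r') ω
    by_cases hr' : ∃ a : F₀, r' = a • p'
    · obtain ⟨a, rfl⟩ := hr'
      rw [hsmulsimp]
      exact UA_smul (hgood M hHM p') _
    push Not at hr'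
    have hpr0' : B p' r' = 0 := by
      rw [hR]
      rw [hval] at hy
      exact (mul_eq_zero.1 hy).resolve_left hωσ
    obtain ⟨h, hh, h1, h2⟩ := exists_alt_isometry_pair B hB hA hp hp' hr hr' hpr0 hpr0'
    have h3 := UA_act hMu (hHM (hlift h hh)) hzgood
    rw [act_liftG_decomp, h1, h2] at h3
    exact h3

end Cfsg.Agent.Lib.Geo
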