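import Mathlib
import Cfsg.Agent.Lib.Geo.SubfieldSymp
import Cfsg.Agent.Lib.Geo.SUPair
import Cfsg.Agent.Lib.Geo.OmegaUnitaryApp

set_option autoImplicit false

/-! The orthogonal subfield subgroup of `SU_n(q)`: rational vectors and rational Siegel elements. -/

namespace Cfsg.Agent.Lib.Geo

open scoped MatrixGroups Matrix commutatorElement
open Module

variable {ι : Type} [Fintype ι] [DecidableEq ι] {F : Type*} [Field F]
variable {F₀ : Subfield F} {σ : F →+* F} {f : (ι → F) → (ι → F) → F}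

/-- A rational quadratic structure for a hermitian form. -/
structure RO (P : GL ι F) (hf : SForm σ f) (ω : F) (Q₀ : (ι → F₀) → F₀) : Prop where
  hfix : ∀ a, σ a = a ↔ a ∈ F₀
  hω0 : ω ≠ 0
  hωσ : σ ω = -ω
  hω : ∀ x : F, ∃ a b : F₀, x = a + ω * b
  h2 : (2 : F) ≠ 0
  hQ : Cfsg.Geo.IsNondegenerateQuadraticForm Q₀
  hB : ∀ u v, f (rat F₀ P u) (rat F₀ P v) = ((QuadraticMap.polar Q₀ u v : F₀) : F)

theorem omega_le_SL {K : Type*} [Field K] [Finite K] (Q : (ι → K) → K) :
    Cfsg.Geo.omegaGL Q ≤ Cfsg.Geo.specialLinear ι K := by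
  rw [omegaGL_eq, Subgroup.commutator_le]
  intro g₁ _ g₂ _
  show Matrix.GeneralLinearGroup.det ⁅g₁, g₂⁆ = 1
  rw [map_commutatorElement, commutatorElement_eq_one_iff_commute]
  exact Commute.all _ _

theorem rat_sub {P : GL ι F} (u v : ι → F₀) : rat F₀ P (u - v) = rat F₀ P u - rat F₀ P v := by
  have h1 : u - v = u + (-1 : F₀) • v := by
    ext i
    simp [sub_eq_add_neg]
  rw [h1, rat_add, rat_smul]
  simp [sub_eq_add_neg]

theorem rat_neg {P : GL ι F} (u : ι → F₀) : rat F₀ P (-u) = - rat F₀ P u := by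
  have h1 : -u = (-1 : F₀) • u := by
    ext i
    simp
  rw [h1, rat_smul]
  simp

theorem rat_sum {P : GL ι F} {κ : Type*} (s : Finset κ) (c : κ → F₀) (x : κ → ι → F₀) :
    rat F₀ P (∑ i ∈ s, c i • x i) = ∑ i ∈ s, (c i : F) • rat F₀ P (x i) := by
  classical
  induction s using Finset.induction_on with
  | empty => simp [rat_zero]
  | insert a s ha ih =>
    rw [Finset.sum_insert ha, Finset.sum_insert ha, rat_add, rat_smul, ih]

theorem finrank_sup_span_le {K W : Type*} [Field K] [AddCommGroup W] [Module K W] [FiniteDimensional K W]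
    (A : Submodule K W) (v : W) : finrank K ↥(A ⊔ Submodule.span K {v}) ≤ finrank K A + 1 := by
  have h8 := Submodule.finrank_add_le_finrank_add_finrank A (Submodule.span K {v})
  have h9 : finrank K (Submodule.span K {v}) ≤ 1 := finrank_span_le_card _ |>.trans (by simp)
  omega

namespace RO

variable {P : GL ι F} {hf : SForm σ f} {ω : F} {Q₀ : (ι → F₀) → F₀} (S : RO P hf ω Q₀)

local notation "R" => rat F₀ P
local notation "B" => QuadraticMap.polar Q₀

include S

theorem hσ : σ ≠ RingHom.id F := by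
  intro h
  have h1 := S.hωσ
  rw [h] at h1
  have h3 : (2 : F) * ω = 0 := by
    have : ω = -ω := h1
    linear_combination this
  exact (mul_ne_zero S.h2 S.hω0) h3

theorem hωF : ω ∉ F₀ := by
  intro h
  have h1 := (S.hfix ω).2 h
  rw [S.hωσ] at h1
  have h3 : (2 : F) * ω = 0 := by linear_combination -h1
  exact (mul_ne_zero S.h2 S.hω0) h3

theorem twist_dec (p r : ι → F₀) : twist P σ (R p + ω • R r) = R p + (-ω) • R r := by
  rw [twist_add, twist_smul, twist_rat P σ S.hfix, twist_rat P σ S.hfix, S.hωσ]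

theorem dec_unique {p r p' r' : ι → F₀} (h : R p + ω • R r = R p' + ω • R r') : p = p' ∧ r = r' := by
  have h1 := congrArg (twist P σ) h
  rw [S.twist_dec, S.twist_dec] at h1
  have h3 : (2 : F) • R p = (2 : F) • R p' := by
    have e1 : (2 : F) • R p = (R p + ω • R r) + (R p + (-ω) • R r) := by
      (module)
    have e2 : (2 : F) • R p' = (R p' + ω • R r') + (R p' + (-ω) • R r') := by
      (module)
    rw [e1, e2, h, h1]
  have h4 : R p = R p' := smul_right_injective _ S.h2 h3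
  have hp := rat_injective P h4
  refine ⟨hp, ?_⟩
  rw [h4] at h
  have h5 := add_left_cancel h
  exact rat_injective P (smul_right_injective _ S.hω0 h5)

theorem dec_eq_zero {a b : F₀} (h : (a : F) + ω * b = 0) : a = 0 ∧ b = 0 := by
  have hb : b = 0 := by
    by_contra hb
    have hb' : (b : F) ≠ 0 := by simpa using hb
    apply S.hωF
    have e : ω = -(a : F) / b := by
      field_simp
      linear_combination h
    rw [e]
    exact div_mem (neg_mem a.2) b.2
  subst hb
  simp at h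
  exact ⟨h, rfl⟩

theorem f_dec_left (p r u : ι → F₀) : f (R p + ω • R r) (R u) = (B p u : F₀) + ω * (B r u : F₀) := by
  rw [hf.add_left, hf.smul_left, S.hB, S.hB]

theorem f_dec_right (u p r : ι → F₀) : f (R u) (R p + ω • R r) = (B u p : F₀) - ω * (B u r : F₀) := by
  rw [hf.add_right, hf.smul_right, S.hB, S.hB, S.hωσ]
  ring

theorem rat_li {κ : Type*} [Fintype κ] {x : κ → ι → F₀} (hx : LinearIndependent F₀ x) :
    LinearIndependent F (fun i => R (x i)) := by
  rw [Fintype.linearIndependent_iff] at hx ⊢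
  intro g hg i
  choose a b hab using fun i => S.hω (g i)
  have h1 : R (∑ i, a i • x i) + ω • R (∑ i, b i • x i) = R 0 + ω • R 0 := by
    rw [rat_sum, rat_sum, rat_zero, Finset.smul_sum, smul_zero, add_zero, ← Finset.sum_add_distrib, ← hg]
    refine Finset.sum_congr rfl fun i _ => ?_
    rw [hab i]
    (module)
  obtain ⟨h2, h3⟩ := S.dec_unique h1
  rw [hab i, hx a h2 i, hx b h3 i]
  simp

theorem rat_indep2 {s s' : ι → F₀} (hs : s ≠ 0) (hs' : ∀ t : F₀, s' ≠ t • s) {p r : F}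
    (h : p • R s + r • R s' = 0) : p = 0 ∧ r = 0 := by
  obtain ⟨p₁, p₂, rfl⟩ := S.hω p
  obtain ⟨r₁, r₂, rfl⟩ := S.hω r
  have key : ∀ {x y : F₀}, x • s + y • s' = 0 → x = 0 ∧ y = 0 := by
    intro x y hxy
    have hy : y = 0 := by
      by_contra hy
      apply hs' (-(x / y))
      have e : y • s' = (-x) • s := by
        rw [neg_smul]
        exact eq_neg_of_add_eq_zero_right hxy
      calc s' = y⁻¹ • (y • s') := by rw [smul_smul, inv_mul_cancel₀ hy, one_smul]
        _ = -(x / y) • s := by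
          rw [e, smul_smul]
          congr 1
          field_simp
    subst hy
    rw [zero_smul, add_zero] at hxy
    exact ⟨(smul_eq_zero.1 hxy).resolve_right hs, rfl⟩
  have h1 : R (p₁ • s + r₁ • s') + ω • R (p₂ • s + r₂ • s') = R 0 + ω • R 0 := by
    rw [rat_add, rat_add, rat_smul, rat_smul, rat_smul, rat_smul, rat_zero, smul_zero, add_zero, ← h]
    (module)
  obtain ⟨h2, h3⟩ := S.dec_unique h1
  obtain ⟨e1, e2⟩ := key h2
  obtain ⟨e3, e4⟩ := key h3
  subst e1 e2 e3 e4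
  simp

theorem lift_mem_u {h : (ι → F₀) ≃ₗ[F₀] (ι → F₀)} (hh : ∀ u v, B (h u) (h v) = B u v) : liftG P h ∈ uGroup f :=
  liftG_mem_u P hf S.hω h fun u v => by rw [S.hB, S.hB, hh]

theorem lift_mem_H [Fintype F₀] {k : GL ι F₀} (hk : k ∈ Cfsg.Geo.omegaGL Q₀) :
    liftG P (act k) ∈ Cfsg.Geo.subfieldSubgroup F₀ P ⊓ (uGroup f ⊓ Cfsg.Geo.specialLinear ι F) := by
  refine ⟨liftG_mem_subfield P σ S.hfix _, S.lift_mem_u fun u v => iso_polar (omega_le_iso hk) u v, ?_⟩
  exact det_liftG P _ (mem_SL_iff.1 (omega_le_SL Q₀ hk))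

theorem lift_isE [Finite F₀] {a w : ι → F₀} (ha : Q₀ a = 0) (hw : Q₀ w = 0) (haw : B a w = 0) :
    IsE f (liftG P (act (sg S.hQ a w))) (R a) (R w) := by
  intro x
  obtain ⟨p, r, rfl⟩ := exists_decomp P S.hω x
  rw [act_liftG_decomp, act_sg S.hQ ha haw, act_sg S.hQ ha haw, hw, S.f_dec_left, S.f_dec_left]
  simp only [zero_mul, zero_smul, sub_zero, rat_sub, rat_add, rat_smul]
  (module)

section sing

variable [Fintype F₀] (hn : 13 ≤ Fintype.card ι)

include hn

/-- a common orthogonal singular vector outside a small subspace -/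
theorem exists_sing_not (A : Submodule F₀ (ι → F₀)) (hA : finrank F₀ A ≤ 4) (v₁ v₂ : ι → F₀)
    (h₁ : v₁ ∈ A) (h₂ : v₂ ∈ A) :
    ∃ z, Q₀ z = 0 ∧ B z v₁ = 0 ∧ B z v₂ = 0 ∧ z ∉ A := by
  obtain ⟨e, he1, he2⟩ := exists_perp_not S.hQ A A (by omega)
  obtain ⟨y, hy1, hy2⟩ := exists_val S.hQ he2
  obtain ⟨z, hz, z1, z2, z3, -, -⟩ := solve5 S.hQ hn v₁ v₂ e e e y
  rw [pol_comm' y v₁, hy2 v₁ h₁] at z1
  rw [pol_comm' y v₂, hy2 v₂ h₂] at z2
  rw [pol_comm' y e, hy1] at z3
  refine ⟨z, hz, z1, z2, fun hin => ?_⟩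
  have := he1 z hin
  rw [z3] at this
  exact one_ne_zero this

/-- singular vectors with prescribed value against a vector outside a subspace of three given vectors -/
theorem exists_sing_val {v v₁ v₂ v₃ : ι → F₀}
    (hv : v ∉ Submodule.span F₀ {v₁} ⊔ Submodule.span F₀ {v₂} ⊔ Submodule.span F₀ {v₃}) (t : F₀) :
    ∃ z, Q₀ z = 0 ∧ B z v₁ = 0 ∧ B z v₂ = 0 ∧ B z v₃ = 0 ∧ B z v = t := by
  obtain ⟨y, hy1, hy2⟩ := exists_val S.hQ hv
  have a1 : B y v₁ = 0 := by
    rw [pol_comm']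
    exact hy2 _ (Submodule.mem_sup_left (Submodule.mem_sup_left (Submodule.mem_span_singleton_self _)))
  have a2 : B y v₂ = 0 := by
    rw [pol_comm']
    exact hy2 _ (Submodule.mem_sup_left (Submodule.mem_sup_right (Submodule.mem_span_singleton_self _)))
  have a3 : B y v₃ = 0 := by
    rw [pol_comm']
    exact hy2 _ (Submodule.mem_sup_right (Submodule.mem_span_singleton_self _))
  obtain ⟨z, hz, z1, z2, z3, z4, -⟩ := solve5 S.hQ hn v₁ v₂ v₃ v v (t • y)
  simp only [pol_smul_left S.hQ] at z1 z2 z3 z4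
  rw [a1] at z1
  rw [a2] at z2
  rw [a3] at z3
  rw [pol_comm' y v, hy1] at z4
  exact ⟨z, hz, by simpa using z1, by simpa using z2, by simpa using z3, by simpa using z4⟩

theorem decomp_perp {a x : ι → F₀} (ha : a ≠ 0) (hQa : Q₀ a = 0) (hx : B a x = 0) :
    ∃ p p', x = p + p' ∧ Q₀ p = 0 ∧ Q₀ p' = 0 ∧ B a p = 0 ∧ B a p' = 0 := by
  by_cases hxa : ∃ c : F₀, x = c • a
  · obtain ⟨c, rfl⟩ := hxa
    refine ⟨c • a, 0, by simp, ?_, Q_zero' S.hQ, hx, pol_zero_right S.hQ _⟩
    rw [Q_smul' S.hQ, hQa, mul_zero]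
  · push Not at hxa
    obtain ⟨y, y1, y2⟩ := exists_two_values S.hQ ha hxa 0 (Q₀ x)
    obtain ⟨z, hz, z1, z2, -, -, -⟩ := solve5 S.hQ hn a x a a a y
    rw [y1] at z1
    rw [y2] at z2
    refine ⟨z, x - z, by abel, hz, ?_, by rw [pol_comm']; exact z1, ?_⟩
    · rw [Q_sub S.hQ, hz, pol_comm', z2]
      ring
    · rw [pol_sub_right S.hQ, hx, pol_comm', z1]
      ring

end sing

end RO

end Cfsg.Agent.Lib.Geo
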