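import Mathlib
import Cfsg.Agent.Lib.Geo.SympBlocks2
import Cfsg.Agent.Lib.Geo.SU2Blocks
import Cfsg.Agent.Lib.Geo.OmegaOdd
import Cfsg.Agent.Lib.Geo.SUOrthBasic
import Cfsg.Agent.Lib.Geo.OmegaPlane

set_option autoImplicit false

/-! The stabilizer in `SL_n` of a decomposition into lines for `q ≤ 4` or into planes for `q = 2`
is not maximal. -/

namespace Cfsg.Agent.Lib.Geo

open scoped MatrixGroups Matrix
open Module

variable {ι : Type} [Fintype ι] [DecidableEq ι] {F : Type*} [Field F] {t : ℕ}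
  {D : Fin t → Submodule F (ι → F)}

local notation "V" => (ι → F)

/-- Coordinates for a decomposition into lines. -/
theorem exists_coords (hD : Cfsg.Geo.IsMDecomposition 1 D) :
    ∃ (e : Fin t → V) (c : Fin t → Dual F V), (∀ l, e l ∈ D l) ∧ (∀ l, e l ≠ 0) ∧
      (∀ l j, c l (e j) = if l = j then 1 else 0) ∧ (∀ x, ∑ l, c l x • e l = x) ∧
      (∀ l x, x ∈ D l → x = c l x • e l) ∧ (∀ l j x, x ∈ D j → l ≠ j → c l x = 0) := by
  classical
  obtain ⟨π, h1, h2, h3, h4⟩ := exists_proj hD.indep hD.iSup_eq_top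
  have hgen : ∀ l, ∃ v ∈ D l, v ≠ 0 ∧ ∀ w ∈ D l, ∃ a : F, w = a • v := by
    intro l
    obtain ⟨⟨v, hv⟩, hv0, hall⟩ := finrank_eq_one_iff'.1 (hD.finrank_eq l)
    refine ⟨v, hv, fun h => hv0 (Subtype.ext h), fun w hw => ?_⟩
    obtain ⟨a, ha⟩ := hall ⟨w, hw⟩
    exact ⟨a, by simpa using (congrArg Subtype.val ha).symm⟩
  choose e he he0 hgen' using hgen
  have hdual : ∀ l, ∃ φ : Dual F V, φ (e l) = 1 := by
    intro l
    obtain ⟨φ, hφ, -⟩ := exists_dual_of_notMem (S := (⊥ : Submodule F V)) (u := e l) (by simpa using he0 l)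
    exact ⟨φ, hφ⟩
  choose φ hφ using hdual
  let c : Fin t → Dual F V := fun l => (φ l).comp (π l)
  have hc : ∀ l x, c l x = φ l (π l x) := fun l x => rfl
  have hmem : ∀ l x, x ∈ D l → x = c l x • e l := by
    intro l x hx
    obtain ⟨a, rfl⟩ := hgen' l x hx
    rw [hc, h2 l _ hx, map_smul, hφ]
    simp
  have hzero : ∀ l j x, x ∈ D j → l ≠ j → c l x = 0 := by
    intro l j x hx hlj
    rw [hc, h3 l j hlj x hx, map_zero]
  refine ⟨e, c, he, he0, ?_, ?_, hmem, hzero⟩
  · intro l j
    split_ifs with h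
    · subst h
      rw [hc, h2 l _ (he l), hφ]
    · exact hzero l j _ (he j) h
  · intro x
    conv_rhs => rw [← h4 x]
    refine Finset.sum_congr rfl fun l _ => ?_
    have := hmem l (π l x) (h1 l x)
    rw [this]
    congr 1
    rw [hc, hc, h2 l _ (h1 l x)]

/-- How an element permuting lines acts on coordinates. -/
theorem coords_act {e : Fin t → V} {c : Fin t → Dual F V} (he : ∀ l, e l ∈ D l) (he0 : ∀ l, e l ≠ 0)
    (hc : ∀ l j, c l (e j) = if l = j then 1 else 0) (hsum : ∀ x, ∑ l, c l x • e l = x)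
    (hmem : ∀ l x, x ∈ D l → x = c l x • e l) {g : GL ι F} (hg : g ∈ Cfsg.Geo.decompositionStabilizer D) :
    ∃ (σ : Equiv.Perm (Fin t)) (lam : Fin t → F), (∀ l, lam l ≠ 0) ∧ (∀ l, act g (e l) = lam l • e (σ l)) ∧
      ∀ l x, c (σ l) (act g x) = lam l * c l x := by
  classical
  obtain ⟨σ, hσ⟩ := act_mem_of_stabD hg
  refine ⟨σ, fun l => c (σ l) (act g (e l)), ?_, fun l => hmem _ _ (hσ l _ (he l)), ?_⟩
  · intro l h
    have h1 := hmem _ _ (hσ l _ (he l))
    have h' : c (σ l) (act g (e l)) = 0 := h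
    rw [h', zero_smul] at h1
    exact he0 l ((act g).injective (by rw [h1, map_zero]))
  · intro l x
    have h1 : act g x = ∑ j, c j x • act g (e j) := by
      conv_lhs => rw [← hsum x]
      rw [map_sum]
      simp only [map_smul]
    rw [h1, map_sum, Finset.sum_eq_single l]
    · rw [map_smul, smul_eq_mul, mul_comm]
    · intro j _ hj
      rw [map_smul, hmem _ _ (hσ j _ (he j)), map_smul, hc, if_neg (fun h => hj (σ.injective h).symm)]
      simp
    · simp

theorem not_mem_line {c : Fin t → Dual F V} (hz : ∀ l j x, x ∈ D j → l ≠ j → c l x = 0) {y : V} {a b : Fin t}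
    (hab : a ≠ b) (ha : c a y ≠ 0) (hb : c b y ≠ 0) (j : Fin t) : y ∉ D j := by
  intro hj
  by_cases h : a = j
  · subst h
    exact hb (hz _ _ _ hj hab.symm)
  · exact ha (hz _ _ _ hj h)

variable [Fintype F]

/-- Case `q = 2`, lines. -/
theorem lines_two_not_max (hq : Fintype.card F = 2) (hn : 13 ≤ Fintype.card ι)
    (hD : Cfsg.Geo.IsMDecomposition 1 D) :
    ∃ K : Subgroup (GL ι F), Cfsg.Geo.decompositionStabilizer D ⊓ Cfsg.Geo.specialLinear ι F < K ∧
      K < Cfsg.Geo.specialLinear ι F := by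
  classical
  have h2 : (1 : F) + 1 = 0 := by
    by_contra h
    have := eq_one_of_ne_zero_of_card_two hq h
    simp at this
  obtain ⟨e, c, he, he0, hc, hsum, hmem, hz⟩ := exists_coords hD
  have hcard := card_eq_of_decomp hD.indep hD.iSup_eq_top hD.finrank_eq
  have ht4 : 4 ≤ t := by omega
  let l₁ : Fin t := ⟨0, by omega⟩
  let l₂ : Fin t := ⟨1, by omega⟩
  let l₃ : Fin t := ⟨2, by omega⟩
  let l₄ : Fin t := ⟨3, by omega⟩
  have h12 : l₁ ≠ l₂ := by simp [l₁, l₂, Fin.ext_iff]
  have h13 : l₁ ≠ l₃ := by simp [l₁, l₃, Fin.ext_iff]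
  have h14 : l₁ ≠ l₄ := by simp [l₁, l₄, Fin.ext_iff]
  have h34 : l₃ ≠ l₄ := by simp [l₃, l₄, Fin.ext_iff]
  obtain ⟨z, hzz⟩ : ∃ z : V, z = ∑ l, e l := ⟨_, rfl⟩
  have hcz : ∀ l, c l z = 1 := by
    intro l
    rw [hzz, map_sum, Finset.sum_eq_single l]
    · rw [hc, if_pos rfl]
    · intro j _ hj
      rw [hc, if_neg (Ne.symm hj)]
    · simp
  let K : Subgroup (GL ι F) :=
    { carrier := {g | g ∈ Cfsg.Geo.specialLinear ι F ∧ act g z = z}
      mul_mem' := by
        rintro a b ⟨ha, ha'⟩ ⟨hb, hb'⟩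
        refine ⟨mul_mem ha hb, ?_⟩
        rw [act_mul_apply, hb', ha']
      one_mem' := by
        refine ⟨one_mem _, ?_⟩
        simp
      inv_mem' := by
        rintro a ⟨ha, ha'⟩
        refine ⟨inv_mem ha, ?_⟩
        conv_lhs => rw [← ha']
        rw [← act_mul_apply, inv_mul_cancel]
        simp }
  have hKmem : ∀ g, g ∈ K ↔ g ∈ Cfsg.Geo.specialLinear ι F ∧ act g z = z := fun g => Iff.rfl
  refine ⟨K, ?_, ?_⟩
  · rw [SetLike.lt_iff_le_and_exists]
    constructor
    · rintro g ⟨hg1, hg2⟩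
      rw [hKmem]
      refine ⟨hg2, ?_⟩
      obtain ⟨σ, lam, hlam, hact, -⟩ := coords_act he he0 hc hsum hmem hg1
      rw [hzz, map_sum, ← Equiv.sum_comp σ e]
      refine Finset.sum_congr rfl fun l _ => ?_
      rw [hact, eq_one_of_ne_zero_of_card_two hq (hlam l), one_smul]
    · have hφ : (c l₁ + c l₂) (e l₃ + e l₄) = 0 := by
        simp only [LinearMap.add_apply, map_add, hc, if_neg h13, if_neg h14, if_neg (show l₂ ≠ l₃ by simp [l₂, l₃, Fin.ext_iff]),
          if_neg (show l₂ ≠ l₄ by simp [l₂, l₄, Fin.ext_iff])]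
        simp
      refine ⟨tv hφ, (hKmem _).2 ⟨tv_mem_SL hφ, ?_⟩, ?_⟩
      · rw [act_tv_apply]
        have : (c l₁ + c l₂) z = 0 := by
          rw [LinearMap.add_apply, hcz, hcz, h2]
        rw [this, zero_smul, add_zero]
      · rintro ⟨hg, -⟩
        obtain ⟨σ, hσ⟩ := act_mem_of_stabD hg
        have h3 := hσ l₁ _ (he l₁)
        rw [act_tv_apply] at h3
        refine not_mem_line hz (a := l₁) (b := l₃) h13 ?_ ?_ _ h3
        · simp [hc, h12.symm, h13, h14]
        · simp [hc, h12.symm, h13.symm, h34]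
  · rw [SetLike.lt_iff_le_and_exists]
    refine ⟨fun g hg => hg.1, ?_⟩
    have hφ : c l₁ (e l₂) = 0 := by rw [hc, if_neg h12]
    refine ⟨tv hφ, tv_mem_SL hφ, ?_⟩
    intro h
    have h3 := ((hKmem _).1 h).2
    rw [act_tv_apply, hcz, one_smul] at h3
    apply he0 l₂
    exact add_eq_left.1 h3

/-- Case `q = 4`, lines. -/
theorem lines_four_not_max (hq : Fintype.card F = 4) (hn : 13 ≤ Fintype.card ι)
    (hD : Cfsg.Geo.IsMDecomposition 1 D) :
    ∃ K : Subgroup (GL ι F), Cfsg.Geo.decompositionStabilizer D ⊓ Cfsg.Geo.specialLinear ι F < K ∧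
      K < Cfsg.Geo.specialLinear ι F := by
  classical
  have hq' : Fintype.card F = 2 ^ 2 := by rw [hq]; norm_num
  obtain ⟨σ, hσ⟩ : ∃ σ : F →+* F, σ = Cfsg.Agent.Lib.Classical.conjQ hq' := ⟨_, rfl⟩
  have hσ2 : ∀ x, σ x = x ^ 2 := fun x => by rw [hσ]; exact Cfsg.Agent.Lib.Classical.conjQ_apply hq' x
  have hσσ : ∀ x, σ (σ x) = x := fun x => by rw [hσ]; exact Cfsg.Agent.Lib.Classical.conjQ_conjQ hq' x
  have h2 := f4_two hq
  obtain ⟨e, c, he, he0, hc, hsum, hmem, hz⟩ := exists_coords hD
  have hcard := card_eq_of_decomp hD.indep hD.iSup_eq_top hD.finrank_eq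
  have ht4 : 4 ≤ t := by omega
  let l₁ : Fin t := ⟨0, by omega⟩
  let l₂ : Fin t := ⟨1, by omega⟩
  let l₃ : Fin t := ⟨2, by omega⟩
  let l₄ : Fin t := ⟨3, by omega⟩
  have h12 : l₁ ≠ l₂ := by simp [l₁, l₂, Fin.ext_iff]
  have h13 : l₁ ≠ l₃ := by simp [l₁, l₃, Fin.ext_iff]
  have h14 : l₁ ≠ l₄ := by simp [l₁, l₄, Fin.ext_iff]
  have h23 : l₂ ≠ l₃ := by simp [l₂, l₃, Fin.ext_iff]
  have h24 : l₂ ≠ l₄ := by simp [l₂, l₄, Fin.ext_iff]
  have h34 : l₃ ≠ l₄ := by simp [l₃, l₄, Fin.ext_iff]
  obtain ⟨f, hfdef⟩ : ∃ f : V → V → F, f = fun x y => ∑ l, c l x * σ (c l y) := ⟨_, rfl⟩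
  have hfa : ∀ x y, f x y = ∑ l, c l x * σ (c l y) := fun x y => by rw [hfdef]
  have hfe : ∀ a b, f (e a) (e b) = if a = b then 1 else 0 := by
    intro a b
    rw [hfa, Finset.sum_eq_single a]
    · rw [hc, hc]
      by_cases hab : a = b
      · simp [hab]
      · simp [hab]
    · intro j _ hj
      rw [hc, if_neg hj, zero_mul]
    · simp
  have hnz : ∀ v : V, v ≠ 0 → ∃ l, c l v ≠ 0 := by
    intro v hv
    by_contra hcon
    push Not at hcon
    apply hv
    rw [← hsum v]
    simp [hcon]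
  have hf : SForm σ f :=
    { inv := hσσ
      add_left := fun x y v => by
        simp only [hfa, map_add, add_mul, Finset.sum_add_distrib]
      smul_left := fun a x v => by
        simp only [hfa, map_smul, smul_eq_mul, Finset.mul_sum, mul_assoc]
      herm := fun v w => by
        simp only [hfa, map_sum, map_mul, hσσ]
        exact Finset.sum_congr rfl fun l _ => mul_comm _ _
      nd := fun v hv => by
        obtain ⟨l, hl⟩ := hnz v hv
        refine ⟨e l, ?_⟩
        rw [hfa, Finset.sum_eq_single l]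
        · rw [hc, if_pos rfl, one_mul]
          exact fun h => hl ((map_eq_zero σ).1 h)
        · intro j _ hj
          rw [hc, if_neg hj, zero_mul]
        · simp }
  have hσ1 : (1 : F) + σ 1 = 0 := by rw [map_one, h2]
  refine ⟨uGroup f ⊓ Cfsg.Geo.specialLinear ι F, ?_, ?_⟩
  · rw [SetLike.lt_iff_le_and_exists]
    constructor
    · rintro g ⟨hg1, hg2⟩
      refine ⟨mem_uGroup.2 ?_, hg2⟩
      intro x y
      obtain ⟨τ, lam, hlam, -, hact⟩ := coords_act he he0 hc hsum hmem hg1
      rw [hfa, hfa, ← Equiv.sum_comp τ]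
      refine Finset.sum_congr rfl fun l _ => ?_
      rw [hact, hact, map_mul]
      have := f4_mul_conj hq hσ2 (hlam l)
      linear_combination (c l x * σ (c l y)) * this
    · have hzz : f (e l₁ + e l₂ + e l₃ + e l₄) (e l₁ + e l₂ + e l₃ + e l₄) = 0 := by
        simp only [hf.add_left, hf.add_right, hfe, if_neg h12, if_neg h13, if_neg h14, if_neg h23, if_neg h24,
          if_neg h34, if_neg h12.symm, if_neg h13.symm, if_neg h14.symm, if_neg h23.symm, if_neg h24.symm,
          if_neg h34.symm, if_true]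
        simp only [add_zero, zero_add]
        linear_combination (1 + 1 : F) * h2
      refine ⟨ut hf hzz 1, ut_mem_SU hf hzz hσ1, ?_⟩
      rintro ⟨hg, -⟩
      obtain ⟨τ, hτ⟩ := act_mem_of_stabD hg
      have h3 := hτ l₁ _ (he l₁)
      rw [act_ut, one_mul] at h3
      have e1 : f (e l₁) (e l₁ + e l₂ + e l₃ + e l₄) = 1 := by
        simp only [hf.add_right, hfe, if_neg h12, if_neg h13, if_neg h14, if_true]
        simp
      rw [e1, one_smul] at h3
      refine not_mem_line hz (a := l₂) (b := l₃) h23 ?_ ?_ _ h3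
      · simp [hc, h12.symm, h13.symm, h14.symm, h23, h24, h34]
      · simp [hc, h12.symm, h13.symm, h14.symm, h23.symm, h24, h34]
  · rw [SetLike.lt_iff_le_and_exists]
    refine ⟨fun g hg => hg.2, ?_⟩
    have hφ : c l₁ (e l₂) = 0 := by rw [hc, if_neg h12]
    refine ⟨tv hφ, tv_mem_SL hφ, ?_⟩
    rintro ⟨h, -⟩
    have h3 := (mem_uGroup.1 h) (e l₁) (e l₁)
    rw [act_tv_apply, hc, if_pos rfl, one_smul] at h3
    simp only [hf.add_left, hf.add_right, hfe, if_neg h12, if_neg h12.symm, if_true] at h3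
    have h5 : (1 : F) + 0 + (0 + 1) = 1 := h3
    have h6 : (1 : F) = 0 := by
      linear_combination -h5 + h2
    exact one_ne_zero h6

/-- Case `q = 3`, lines. -/
theorem lines_three_not_max (hq : Fintype.card F = 3) (hn : 13 ≤ Fintype.card ι)
    (hD : Cfsg.Geo.IsMDecomposition 1 D) :
    ∃ K : Subgroup (GL ι F), Cfsg.Geo.decompositionStabilizer D ⊓ Cfsg.Geo.specialLinear ι F < K ∧
      K < Cfsg.Geo.specialLinear ι F := by
  classical
  have h2 : (2 : F) ≠ 0 := two_ne_zero_of_odd_card (by rw [hq]; decide)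
  have hsq : ∀ {a : F}, a ≠ 0 → a * a = 1 := fun ha => sq_eq_one_of_card_le (by omega) ha
  have h3 : (3 : F) = 0 := by
    have := hsq h2
    linear_combination this
  obtain ⟨e, c, he, he0, hc, hsum, hmem, hz⟩ := exists_coords hD
  have hcard := card_eq_of_decomp hD.indep hD.iSup_eq_top hD.finrank_eq
  have ht4 : 4 ≤ t := by omega
  let l₁ : Fin t := ⟨0, by omega⟩
  let l₂ : Fin t := ⟨1, by omega⟩
  let l₃ : Fin t := ⟨2, by omega⟩
  let l₄ : Fin t := ⟨3, by omega⟩
  have h12 : l₁ ≠ l₂ := by simp [l₁, l₂, Fin.ext_iff]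
  have h13 : l₁ ≠ l₃ := by simp [l₁, l₃, Fin.ext_iff]
  have h14 : l₁ ≠ l₄ := by simp [l₁, l₄, Fin.ext_iff]
  have h23 : l₂ ≠ l₃ := by simp [l₂, l₃, Fin.ext_iff]
  have h24 : l₂ ≠ l₄ := by simp [l₂, l₄, Fin.ext_iff]
  have h34 : l₃ ≠ l₄ := by simp [l₃, l₄, Fin.ext_iff]
  obtain ⟨Q, hQdef⟩ : ∃ Q : V → F, Q = fun x => ∑ l, c l x * c l x := ⟨_, rfl⟩
  have hQa : ∀ x, Q x = ∑ l, c l x * c l x := fun x => by rw [hQdef]
  have hpol : ∀ x y, QuadraticMap.polar Q x y = ∑ l, 2 * (c l x * c l y) := by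
    intro x y
    rw [QuadraticMap.polar, hQa, hQa, hQa, ← Finset.sum_sub_distrib, ← Finset.sum_sub_distrib]
    refine Finset.sum_congr rfl fun l _ => ?_
    rw [map_add]
    ring
  have hnz : ∀ v : V, v ≠ 0 → ∃ l, c l v ≠ 0 := by
    intro v hv
    by_contra hcon
    push Not at hcon
    apply hv
    rw [← hsum v]
    simp [hcon]
  have hpe : ∀ a x, QuadraticMap.polar Q x (e a) = 2 * c a x := by
    intro a x
    rw [hpol, Finset.sum_eq_single a]
    · rw [hc, if_pos rfl, mul_one]
    · intro j _ hj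
      rw [hc, if_neg hj]
      ring
    · simp
  have hQ : Cfsg.Geo.IsNondegenerateQuadraticForm Q :=
    { smul := fun a v => by
        simp only [hQa, map_smul, smul_eq_mul, Finset.mul_sum]
        exact Finset.sum_congr rfl fun l _ => by ring
      polar_bilinear :=
        { add_left := fun x y v => by
            simp only [hpol, map_add, ← Finset.sum_add_distrib]
            exact Finset.sum_congr rfl fun l _ => by ring
          smul_left := fun a x v => by
            simp only [hpol, map_smul, smul_eq_mul, Finset.mul_sum]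
            exact Finset.sum_congr rfl fun l _ => by ring
          add_right := fun v x y => by
            simp only [hpol, map_add, ← Finset.sum_add_distrib]
            exact Finset.sum_congr rfl fun l _ => by ring
          smul_right := fun a v x => by
            simp only [hpol, map_smul, smul_eq_mul, Finset.mul_sum]
            exact Finset.sum_congr rfl fun l _ => by ring }
      nondegenerate := fun v hv => by
        obtain ⟨l, hl⟩ := hnz v hv
        constructor
        · refine ⟨e l, ?_⟩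
          rw [pol_comm', hpe]
          exact mul_ne_zero h2 hl
        · refine ⟨e l, ?_⟩
          rw [hpe]
          exact mul_ne_zero h2 hl }
  have hQe : ∀ a, Q (e a) = 1 := by
    intro a
    rw [hQa, Finset.sum_eq_single a]
    · rw [hc, if_pos rfl, one_mul]
    · intro j _ hj
      rw [hc, if_neg hj, zero_mul]
    · simp
  have hQadd : ∀ x y, Q (x + y) = Q x + Q y + QuadraticMap.polar Q x y := by
    intro x y
    rw [QuadraticMap.polar]
    ring
  have hcp : ∀ a b, c a (e b) = if a = b then 1 else 0 := hc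
  refine ⟨{ carrier := {g | g ∈ Cfsg.Geo.specialLinear ι F ∧ g ∈ Cfsg.isometryGroup F Q}
            mul_mem' := fun ha hb => ⟨mul_mem ha.1 hb.1, mul_mem ha.2 hb.2⟩
            one_mem' := ⟨one_mem _, one_mem _⟩
            inv_mem' := fun ha => ⟨inv_mem ha.1, inv_mem ha.2⟩ }, ?_, ?_⟩
  · rw [SetLike.lt_iff_le_and_exists]
    constructor
    · rintro g ⟨hg1, hg2⟩
      refine ⟨hg2, ?_⟩
      rw [mem_iso]
      intro x
      obtain ⟨τ, lam, hlam, -, hact⟩ := coords_act he he0 hc hsum hmem hg1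
      rw [hQa, hQa, ← Equiv.sum_comp τ]
      refine Finset.sum_congr rfl fun l _ => ?_
      rw [hact]
      have := hsq (hlam l)
      linear_combination (c l x * c l x) * this
    · have hn9 : 9 ≤ Fintype.card ι := by omega
      have hQa0 : Q (e l₁ + e l₂ + e l₃) = 0 := by
        rw [hQadd, hQadd, hQe, hQe, hQe, pol_add_left hQ, hpe, hpe, hpe, hcp, hcp, hcp, if_neg h12.symm, if_neg h13.symm,
          if_neg h23.symm]
        linear_combination h3
      have haw : QuadraticMap.polar Q (e l₁ + e l₂ + e l₃) (e l₄) = 0 := by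
        rw [hpe]
        simp [hcp, h14.symm, h24.symm, h34.symm]
      have hmem' := sg_mem_omega hQ hn9 hQa0 haw
      refine ⟨sg hQ (e l₁ + e l₂ + e l₃) (e l₄), ⟨omega_le_SL Q hmem', sg_mem_iso hQ _ _⟩, ?_⟩
      rintro ⟨hg, -⟩
      obtain ⟨τ, hτ⟩ := act_mem_of_stabD hg
      have h5 := hτ l₄ _ (he l₄)
      rw [act_sg hQ hQa0 haw] at h5
      have e1 : QuadraticMap.polar Q (e l₄) (e l₁ + e l₂ + e l₃) = 0 := by
        rw [pol_comm', haw]
      have e2 : QuadraticMap.polar Q (e l₄) (e l₄) = 2 := by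
        rw [hpe, hcp, if_pos rfl, mul_one]
      rw [e1, e2] at h5
      refine not_mem_line hz (a := l₁) (b := l₄) h14 ?_ ?_ _ h5
      · simp [hcp, h12, h13, h14]
        exact h2
      · simp [hcp, h14.symm, h24.symm, h34.symm]
  · rw [SetLike.lt_iff_le_and_exists]
    refine ⟨fun g hg => hg.1, ?_⟩
    have hφ : c l₁ (e l₂) = 0 := by rw [hc, if_neg h12]
    refine ⟨tv hφ, tv_mem_SL hφ, ?_⟩
    rintro ⟨-, h⟩
    have h5 := (mem_iso.1 h) (e l₁)
    rw [act_tv_apply, hc, if_pos rfl, one_smul, hQadd, hQe, hQe, hpe, hcp, if_neg h12.symm] at h5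
    have h6 : (1 : F) = 0 := by
      linear_combination h5
    exact one_ne_zero h6

omit [Fintype F] in
/-- Coordinates for a decomposition into planes. -/
theorem exists_coords2 (hD : Cfsg.Geo.IsMDecomposition 2 D) :
    ∃ (e e' : Fin t → V) (c c' : Fin t → Dual F V), (∀ l, e l ∈ D l) ∧ (∀ l, e' l ∈ D l) ∧
      (∀ l j, c l (e j) = if l = j then 1 else 0) ∧ (∀ l j, c l (e' j) = 0) ∧
      (∀ l j, c' l (e j) = 0) ∧ (∀ l j, c' l (e' j) = if l = j then 1 else 0) ∧
      (∀ x, ∑ l, (c l x • e l + c' l x • e' l) = x) ∧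
      (∀ l x, x ∈ D l → x = c l x • e l + c' l x • e' l) ∧
      (∀ l j x, x ∈ D j → l ≠ j → c l x = 0 ∧ c' l x = 0) := by
  classical
  obtain ⟨π, h1, h2, h3, h4⟩ := exists_proj hD.indep hD.iSup_eq_top
  let b : ∀ l, Basis (Fin 2) F (D l) := fun l => finBasisOfFinrankEq F (D l) (hD.finrank_eq l)
  let pr : ∀ l, V →ₗ[F] D l := fun l => LinearMap.codRestrict (D l) (π l) (h1 l)
  have hpr : ∀ l x, ((pr l x : D l) : V) = π l x := fun l x => rfl
  let c : Fin t → Dual F V := fun l => ((b l).coord 0).comp (pr l)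
  let c' : Fin t → Dual F V := fun l => ((b l).coord 1).comp (pr l)
  let e : Fin t → V := fun l => (b l 0 : D l)
  let e' : Fin t → V := fun l => (b l 1 : D l)
  have hcv : ∀ l x, c l x = (b l).coord 0 (pr l x) := fun l x => rfl
  have hcv' : ∀ l x, c' l x = (b l).coord 1 (pr l x) := fun l x => rfl
  have hprm : ∀ l (y : D l), pr l (y : V) = y := by
    intro l y
    apply Subtype.ext
    rw [hpr, h2 l _ y.2]
  have hprz : ∀ l j x, x ∈ D j → l ≠ j → pr l x = 0 := by
    intro l j x hx hlj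
    apply Subtype.ext
    rw [hpr, h3 l j hlj x hx]
    rfl
  have hdec : ∀ l (y : D l), (y : V) = (b l).coord 0 y • e l + (b l).coord 1 y • e' l := by
    intro l y
    have h5 := (b l).sum_repr y
    rw [Fin.sum_univ_two] at h5
    conv_lhs => rw [← h5]
    rfl
  refine ⟨e, e', c, c', fun l => (b l 0).2, fun l => (b l 1).2, ?_, ?_, ?_, ?_, ?_, ?_, ?_⟩
  · intro l j
    split_ifs with h
    · subst h
      rw [hcv, hprm]
      simp [Basis.coord_apply]
    · rw [hcv, hprz l j _ (b j 0).2 h, map_zero]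
  · intro l j
    by_cases h : l = j
    · subst h
      rw [hcv, hprm]
      simp [Basis.coord_apply]
    · rw [hcv, hprz l j _ (b j 1).2 h, map_zero]
  · intro l j
    by_cases h : l = j
    · subst h
      rw [hcv', hprm]
      simp [Basis.coord_apply]
    · rw [hcv', hprz l j _ (b j 0).2 h, map_zero]
  · intro l j
    split_ifs with h
    · subst h
      rw [hcv', hprm]
      simp [Basis.coord_apply]
    · rw [hcv', hprz l j _ (b j 1).2 h, map_zero]
  · intro x
    conv_rhs => rw [← h4 x]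
    refine Finset.sum_congr rfl fun l _ => ?_
    have := hdec l (pr l x)
    rw [hpr] at this
    rw [this, hcv, hcv']
  · intro l x hx
    have := hdec l ⟨x, hx⟩
    rw [hcv, hcv', show pr l x = ⟨x, hx⟩ from hprm l ⟨x, hx⟩]
    exact this
  · intro l j x hx hlj
    rw [hcv, hcv', hprz l j x hx hlj]
    simp

/-- Case `q = 2`, planes. -/
theorem planes_two_not_max (hq : Fintype.card F = 2) (hn : 13 ≤ Fintype.card ι)
    (hD : Cfsg.Geo.IsMDecomposition 2 D) :
    ∃ K : Subgroup (GL ι F), Cfsg.Geo.decompositionStabilizer D ⊓ Cfsg.Geo.specialLinear ι F < K ∧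
      K < Cfsg.Geo.specialLinear ι F := by
  classical
  have h2 : (1 : F) + 1 = 0 := one_add_one_of_card_two hq
  have h2c : ∀ y : F, y + y = 0 := by
    intro y
    have : y + y = ((1 : F) + 1) * y := by ring
    rw [this, h2, zero_mul]
  have h01 : ∀ {a : F}, a ≠ 0 → a = 1 := eq_one_of_ne_zero_of_card_two hq
  obtain ⟨e, e', c, c', he, he', hc, hc2, hc3, hc4, hsum, hmem, hz⟩ := exists_coords2 hD
  have hcard := card_eq_of_decomp hD.indep hD.iSup_eq_top hD.finrank_eq
  have ht4 : 4 ≤ t := by omega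
  let l₁ : Fin t := ⟨0, by omega⟩
  let l₂ : Fin t := ⟨1, by omega⟩
  have h12 : l₁ ≠ l₂ := by simp [l₁, l₂, Fin.ext_iff]
  obtain ⟨f, hfdef⟩ : ∃ f : V → V → F, f = fun x y => ∑ l, (c l x * c' l y + c' l x * c l y) := ⟨_, rfl⟩
  have hfa : ∀ x y, f x y = ∑ l, (c l x * c' l y + c' l x * c l y) := fun x y => by rw [hfdef]
  have hfe : ∀ a y, f (e a) y = c' a y := by
    intro a y
    rw [hfa, Finset.sum_eq_single a]
    · rw [hc, hc3, if_pos rfl]
      ring
    · intro j _ hj
      rw [hc, hc3, if_neg hj]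
      ring
    · simp
  have hfe' : ∀ a y, f (e' a) y = c a y := by
    intro a y
    rw [hfa, Finset.sum_eq_single a]
    · rw [hc2, hc4, if_pos rfl]
      ring
    · intro j _ hj
      rw [hc2, hc4, if_neg hj]
      ring
    · simp
  have hnz : ∀ v : V, v ≠ 0 → ∃ l, c l v ≠ 0 ∨ c' l v ≠ 0 := by
    intro v hv
    by_contra hcon
    push Not at hcon
    apply hv
    rw [← hsum v]
    simp [hcon]
  have hf : SForm (RingHom.id F) f :=
    { inv := fun _ => rfl
      add_left := fun x y v => by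
        simp only [hfa, map_add, ← Finset.sum_add_distrib]
        exact Finset.sum_congr rfl fun l _ => by ring
      smul_left := fun a x v => by
        simp only [hfa, map_smul, smul_eq_mul, Finset.mul_sum]
        exact Finset.sum_congr rfl fun l _ => by ring
      herm := fun v w => by
        simp only [hfa, RingHom.id_apply]
        exact Finset.sum_congr rfl fun l _ => by ring
      nd := fun v hv => by
        obtain ⟨l, hl | hl⟩ := hnz v hv
        · exact ⟨e' l, by rwa [hfe']⟩
        · exact ⟨e l, by rwa [hfe]⟩ }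
  have hσ1 : (1 : F) + (RingHom.id F) 1 = 0 := by simpa using h2
  refine ⟨uGroup f ⊓ Cfsg.Geo.specialLinear ι F, ?_, ?_⟩
  · rw [SetLike.lt_iff_le_and_exists]
    constructor
    · rintro g ⟨hg1, hg2⟩
      refine ⟨mem_uGroup.2 ?_, hg2⟩
      intro x y
      obtain ⟨τ, hτ⟩ := act_mem_of_stabD hg1
      -- coordinates of the images
      have hact : ∀ l u, c (τ l) (act g u) = c l u * c (τ l) (act g (e l)) + c' l u * c (τ l) (act g (e' l)) ∧
          c' (τ l) (act g u) = c l u * c' (τ l) (act g (e l)) + c' l u * c' (τ l) (act g (e' l)) := by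
        intro l u
        have h3 : act g u = ∑ j, (c j u • act g (e j) + c' j u • act g (e' j)) := by
          conv_lhs => rw [← hsum u]
          rw [map_sum]
          simp only [map_add, map_smul]
        constructor
        · rw [h3, map_sum, Finset.sum_eq_single l]
          · simp only [map_add, map_smul, smul_eq_mul]
          · intro j _ hj
            have hne : τ l ≠ τ j := fun h => hj (τ.injective h).symm
            simp only [map_add, map_smul, smul_eq_mul]
            rw [(hz _ _ _ (hτ j _ (he j)) hne).1, (hz _ _ _ (hτ j _ (he' j)) hne).1]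
            ring
          · simp
        · rw [h3, map_sum, Finset.sum_eq_single l]
          · simp only [map_add, map_smul, smul_eq_mul]
          · intro j _ hj
            have hne : τ l ≠ τ j := fun h => hj (τ.injective h).symm
            simp only [map_add, map_smul, smul_eq_mul]
            rw [(hz _ _ _ (hτ j _ (he j)) hne).2, (hz _ _ _ (hτ j _ (he' j)) hne).2]
            ring
          · simp
      have hdet : ∀ l, c (τ l) (act g (e l)) * c' (τ l) (act g (e' l)) + c (τ l) (act g (e' l)) * c' (τ l) (act g (e l)) = 1 := by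
        intro l
        apply h01
        intro h0
        obtain ⟨α, hα⟩ : ∃ α, α = c (τ l) (act g (e l)) := ⟨_, rfl⟩
        obtain ⟨β, hβ⟩ : ∃ β, β = c (τ l) (act g (e' l)) := ⟨_, rfl⟩
        obtain ⟨γ, hγ⟩ : ∃ γ, γ = c' (τ l) (act g (e l)) := ⟨_, rfl⟩
        obtain ⟨δ, hδ⟩ : ∃ δ, δ = c' (τ l) (act g (e' l)) := ⟨_, rfl⟩
        rw [← hα, ← hβ, ← hγ, ← hδ] at h0
        have v1 : act g (e l) = α • e (τ l) + γ • e' (τ l) := by
          rw [hα, hγ]; exact hmem _ _ (hτ l _ (he l))
        have v2 : act g (e' l) = β • e (τ l) + δ • e' (τ l) := by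
          rw [hβ, hδ]; exact hmem _ _ (hτ l _ (he' l))
        have hinj : ∀ {u : V}, act g u = 0 → u = 0 := fun {u} h => (act g).injective (by rw [h, map_zero])
        have k1 : δ • e l + γ • e' l = 0 := by
          apply hinj
          rw [map_add, map_smul, map_smul, v1, v2]
          have e3 : δ • (α • e (τ l) + γ • e' (τ l)) + γ • (β • e (τ l) + δ • e' (τ l))
              = (α * δ + β * γ) • e (τ l) + (γ * δ + γ * δ) • e' (τ l) := by (module)
          rw [e3, h0, h2c, zero_smul, zero_smul, add_zero]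
        have k2 : β • e l + α • e' l = 0 := by
          apply hinj
          rw [map_add, map_smul, map_smul, v1, v2]
          have e3 : β • (α • e (τ l) + γ • e' (τ l)) + α • (β • e (τ l) + δ • e' (τ l))
              = (α * β + α * β) • e (τ l) + (α * δ + β * γ) • e' (τ l) := by (module)
          rw [e3, h0, h2c, zero_smul, zero_smul, add_zero]
        have hcz : ∀ (a b : F), a • e l + b • e' l = 0 → a = 0 ∧ b = 0 := by
          intro a b hab
          have k3 := congrArg (c l) hab
          have k4 := congrArg (c' l) hab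
          simp only [map_add, map_smul, hc, hc2, hc3, hc4, if_true, map_zero, smul_eq_mul] at k3 k4
          constructor
          · simpa using k3
          · simpa using k4
        obtain ⟨a1, a2⟩ := hcz _ _ k1
        obtain ⟨a3, a4⟩ := hcz _ _ k2
        have a5 : act g (e l) = 0 := by
          rw [v1, a4, a2, zero_smul, zero_smul, add_zero]
        have a6 := hinj a5
        have a7 := hc l l
        rw [a6, map_zero, if_pos rfl] at a7
        exact zero_ne_one a7
      rw [hfa, hfa, ← Equiv.sum_comp τ]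
      refine Finset.sum_congr rfl fun l _ => ?_
      rw [(hact l x).1, (hact l x).2, (hact l y).1, (hact l y).2]
      have hd := hdet l
      generalize c (τ l) (act g (e l)) = α at *
      generalize c (τ l) (act g (e' l)) = β at *
      generalize c' (τ l) (act g (e l)) = γ at *
      generalize c' (τ l) (act g (e' l)) = δ at *
      have k1 := h2c (α * γ * c l x * c l y)
      have k2 := h2c (β * δ * c' l x * c' l y)
      linear_combination (c l x * c' l y + c' l x * c l y) * hd + k1 + k2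
    · have hvv : f (e l₁ + e l₂) (e l₁ + e l₂) = 0 := by
        rw [hfa]
        apply Finset.sum_eq_zero
        intro l _
        have := h2c (c l (e l₁ + e l₂) * c' l (e l₁ + e l₂))
        linear_combination this
      refine ⟨ut hf hvv 1, ut_mem_SU hf hvv hσ1, ?_⟩
      rintro ⟨hg, -⟩
      obtain ⟨τ, hτ⟩ := act_mem_of_stabD hg
      have h3 := hτ l₁ _ (he' l₁)
      rw [act_ut, one_mul, hfe', map_add, hc, hc, if_pos rfl, if_neg h12, add_zero, one_smul] at h3
      refine not_mem_line (fun l j x hx hlj => (hz l j x hx hlj).1) (a := l₁) (b := l₂) h12 ?_ ?_ _ h3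
      · simp [hc, hc2, h12]
      · simp [hc, hc2, h12.symm]
  · rw [SetLike.lt_iff_le_and_exists]
    refine ⟨fun g hg => hg.2, ?_⟩
    have hφ : c l₁ (e l₂) = 0 := by rw [hc, if_neg h12]
    refine ⟨tv hφ, tv_mem_SL hφ, ?_⟩
    rintro ⟨h, -⟩
    have h3 := (mem_uGroup.1 h) (e l₁) (e' l₂)
    rw [act_tv_apply, act_tv_apply, hc, if_pos rfl, hc2, one_smul, zero_smul, add_zero, hf.add_left, hfe, hfe,
      hc4, hc4, if_pos rfl, if_neg h12, zero_add] at h3
    exact one_ne_zero h3

/-- All small cases. -/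
theorem small_blocks_not_max (hn : 13 ≤ Fintype.card ι) {m : ℕ} (hD : Cfsg.Geo.IsMDecomposition m D)
    (h : (m = 1 ∧ Fintype.card F ≤ 4) ∨ (m = 2 ∧ Fintype.card F = 2)) :
    ∃ K : Subgroup (GL ι F), Cfsg.Geo.decompositionStabilizer D ⊓ Cfsg.Geo.specialLinear ι F < K ∧
      K < Cfsg.Geo.specialLinear ι F := by
  rcases h with ⟨rfl, h⟩ | ⟨rfl, h⟩
  · have h2 : 2 ≤ Fintype.card F := Fintype.one_lt_card
    have : Fintype.card F = 2 ∨ Fintype.card F = 3 ∨ Fintype.card F = 4 := by omega
    rcases this with h3 | h3 | h3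
    · exact lines_two_not_max h3 hn hD
    · exact lines_three_not_max h3 hn hD
    · exact lines_four_not_max h3 hn hD
  · exact planes_two_not_max h hn hD

end Cfsg.Agent.Lib.Geo
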