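import Mathlib
import Cfsg.Agent.Lib.Geo.MonoSL5
import Cfsg.Agent.Lib.Geo.Decomp

set_option autoImplicit false

/-! The stabilizer in `SL_n` of a decomposition into blocks of dimension at least two:
overgroups contain a cross transvection, and all of them. -/

namespace Cfsg.Agent.Lib.Geo.SD

open scoped MatrixGroups Matrix
open Module
open Cfsg.Agent.Lib.Geo

variable {ι : Type} [Fintype ι] [DecidableEq ι] {F : Type*} [Field F] {t : ℕ}
  {D : Fin t → Submodule F (ι → F)}

/-- homologies -/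
noncomputable def homE (θ : Dual F (ι → F)) (w : ι → F) (s : F) (hθ : θ w = 1) (hs : s ≠ 0) :
    (ι → F) ≃ₗ[F] (ι → F) where
  toFun x := x + ((s - 1) * θ x) • w
  invFun x := x + ((s⁻¹ - 1) * θ x) • w
  map_add' x y := by
    simp only [map_add]
    rw [mul_add, add_smul]
    abel
  map_smul' c x := by
    simp only [map_smul, smul_eq_mul, RingHom.id_apply, smul_add, smul_smul]
    congr 2
    ring
  left_inv x := by
    simp only [map_add, map_smul, hθ, smul_eq_mul, mul_one]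
    have : (s⁻¹ - 1) * (θ x + (s - 1) * θ x) = -((s - 1) * θ x) := by
      field_simp
      ring
    rw [this, neg_smul]
    abel
  right_inv x := by
    simp only [map_add, map_smul, hθ, smul_eq_mul, mul_one]
    have : (s - 1) * (θ x + (s⁻¹ - 1) * θ x) = -((s⁻¹ - 1) * θ x) := by
      field_simp
      ring
    rw [this, neg_smul]
    abel

/-- homologies as elements of `GL` -/
noncomputable def hom (θ : Dual F (ι → F)) (w : ι → F) (s : F) (hθ : θ w = 1) (hs : s ≠ 0) : GL ι F :=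
  act.symm (homE θ w s hθ hs)

theorem act_hom (θ : Dual F (ι → F)) (w : ι → F) (s : F) (hθ : θ w = 1) (hs : s ≠ 0) (x : ι → F) :
    act (hom θ w s hθ hs) x = x + ((s - 1) * θ x) • w := by
  rw [hom, MulEquiv.apply_symm_apply]
  rfl

theorem hom_det (θ : Dual F (ι → F)) (w : ι → F) (s : F) (hθ : θ w = 1) (hs : s ≠ 0) :
    ((Matrix.GeneralLinearGroup.det (hom θ w s hθ hs) : Fˣ) : F) = s := by
  have h1 : ((Matrix.GeneralLinearGroup.det (hom θ w s hθ hs) : Fˣ) : F) =
      LinearMap.det ((act (hom θ w s hθ hs) : (ι → F) ≃ₗ[F] (ι → F)) : (ι → F) →ₗ[F] (ι → F)) := by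
    rw [det_act]
    rfl
  rw [h1]
  have h2 : ((act (hom θ w s hθ hs) : (ι → F) ≃ₗ[F] (ι → F)) : (ι → F) →ₗ[F] (ι → F)) =
      LinearMap.transvection ((s - 1) • θ) w := by
    apply LinearMap.ext
    intro x
    rw [LinearEquiv.coe_coe, act_hom, LinearMap.transvection.apply]
    simp
  rw [h2, LinearMap.transvection.det]
  simp [hθ]

/-- forms vanishing on the other blocks -/
def Ad (D : Fin t → Submodule F (ι → F)) (b : Fin t) (ζ : Dual F (ι → F)) : Prop :=
  ∀ l, l ≠ b → ∀ x ∈ D l, ζ x = 0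

/-- the projections -/
structure Pj (D : Fin t → Submodule F (ι → F)) (π : Fin t → ((ι → F) →ₗ[F] (ι → F))) : Prop where
  mem : ∀ l x, π l x ∈ D l
  fix : ∀ l, ∀ x ∈ D l, π l x = x
  zero : ∀ l m, l ≠ m → ∀ x ∈ D m, π l x = 0
  sum : ∀ x, ∑ l, π l x = x

variable {π : Fin t → ((ι → F) →ₗ[F] (ι → F))}

theorem ad_comp (hp : Pj D π) (φ : Dual F (ι → F)) (b : Fin t) : Ad D b (φ ∘ₗ π b) := by
  intro l hl x hx
  simp [hp.zero b l hl.symm x hx]

theorem Ad.eq (hp : Pj D π) {b : Fin t} {ζ : Dual F (ι → F)} (hζ : Ad D b ζ) (x : ι → F) : ζ x = ζ (π b x) := by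
  conv_lhs => rw [← hp.sum x]
  rw [map_sum, Finset.sum_eq_single b]
  · intro l _ hl
    exact hζ l hl _ (hp.mem l x)
  · simp

theorem exists_block (hp : Pj D π) {ψ : Dual F (ι → F)} (hψ : ψ ≠ 0) : ∃ b, ∃ y ∈ D b, ψ y ≠ 0 := by
  by_contra hcon
  push Not at hcon
  apply hψ
  refine LinearMap.ext fun x => ?_
  rw [← hp.sum x, map_sum]
  simp [hcon _ _ (hp.mem _ x)]

variable {M : Subgroup (GL ι F)}

variable {m : ℕ}

theorem tvad (hH : Cfsg.Geo.decompositionStabilizer D ⊓ Cfsg.Geo.specialLinear ι F ≤ M)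
    (hk : ∀ i, finrank F (D i) = m) {θ : Dual F (ι → F)} {b : Fin t} (hθ : Ad D b θ) {v : ι → F} (hv : v ∈ D b)
    (h0 : θ v = 0) : TvIn M θ v := by
  refine ⟨h0, hH ⟨mem_stabD_of hk 1 fun l x hx => ?_, tv_mem_SL h0⟩⟩
  rw [act_tv_apply]
  by_cases hl : l = b
  · subst hl
    exact (D l).add_mem hx ((D l).smul_mem _ hv)
  · rw [hθ l hl x hx, zero_smul, add_zero]
    exact hx

/-- conjugating a transvection by a transvection -/
theorem conj_tvtv {ψ θ : Dual F (ι → F)} {u x : ι → F} (hT : TvIn M ψ u) (hx : TvIn M θ x) :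
    TvIn M (ψ - ψ x • θ) (u + θ u • x) := by
  obtain ⟨h0, hm⟩ := hx
  have h1 := TvIn.conj hT hm
  rw [act_tv_apply] at h1
  have e : ψ ∘ₗ ((act (tv h0)⁻¹ : (ι → F) ≃ₗ[F] (ι → F)) : (ι → F) →ₗ[F] (ι → F)) = ψ - ψ x • θ := by
    refine LinearMap.ext fun y => ?_
    have h2 : (-θ) x = 0 := by simp [h0]
    rw [tv_inv h0 h2]
    simp only [LinearMap.comp_apply, LinearEquiv.coe_coe, act_tv_apply, LinearMap.sub_apply, LinearMap.smul_apply]
    simp only [LinearMap.neg_apply, map_add, map_smul, neg_smul, map_neg, smul_eq_mul]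
    ring
  rwa [e] at h1

theorem move1 {ψ θ : Dual F (ι → F)} {u x : ι → F} (hT : TvIn M ψ u) (hx : TvIn M θ x) (h : ψ x = 0) :
    TvIn M ψ (θ u • x) := by
  have h1 := conj_tvtv hT hx
  rw [h, zero_smul, sub_zero] at h1
  have h2 := MN.TvIn.sub_center h1 hT
  rwa [add_sub_cancel_left] at h2

theorem move2 {ψ θ : Dual F (ι → F)} {u x : ι → F} (hT : TvIn M ψ u) (hx : TvIn M θ x) (h : θ u = 0) :
    TvIn M (ψ x • θ) u := by
  have h1 := conj_tvtv hT hx
  rw [h, zero_smul, add_zero] at h1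
  have h2 := hT.sub h1
  rwa [sub_sub_cancel] at h2

theorem exists_mem_notMem {l : Fin t} (hk : ∀ i, finrank F (D i) = m) {S : Submodule F (ι → F)}
    (hS : finrank F S < m) : ∃ w ∈ D l, w ∉ S := by
  by_contra hcon
  push Not at hcon
  have : D l ≤ S := fun w hw => hcon w hw
  have := Submodule.finrank_mono this
  rw [hk] at this
  omega

theorem span1_lt {m : ℕ} (hm : 2 ≤ m) (a : ι → F) : finrank F (Submodule.span F {a}) < m := by
  have := finrank_span_le_card (R := F) ({a} : Set (ι → F))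
  simp only [Set.toFinset_singleton, Finset.card_singleton] at this
  omega

theorem exists_form (hp : Pj D π) {b : Fin t} {S : Submodule F (ι → F)} {w : ι → F} (hw : w ∈ D b) (hS : w ∉ S) :
    ∃ θ : Dual F (ι → F), Ad D b θ ∧ θ w = 1 ∧ ∀ y ∈ D b, y ∈ S → θ y = 0 := by
  obtain ⟨φ, h1, h2⟩ := exists_dual_of_notMem hS
  refine ⟨φ ∘ₗ π b, ad_comp hp φ b, ?_, fun y hy hy' => ?_⟩
  · simp [hp.fix b w hw, h1]
  · simp [hp.fix b y hy, h2 y hy']

/-- cross transvections -/
def Cross (M : Subgroup (GL ι F)) (D : Fin t → Submodule F (ι → F)) : Prop :=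
  ∃ (b c : Fin t) (ζ : Dual F (ι → F)) (w : ι → F), b ≠ c ∧ Ad D b ζ ∧ ζ ≠ 0 ∧ w ∈ D c ∧ w ≠ 0 ∧ TvIn M ζ w

theorem cross_of_gap (hp : Pj D π) (hH : Cfsg.Geo.decompositionStabilizer D ⊓ Cfsg.Geo.specialLinear ι F ≤ M)
    (hk : ∀ i, finrank F (D i) = m) (hm : 2 ≤ m) {ψ : Dual F (ι → F)} {u : ι → F} (hT : TvIn M ψ u) (hψ : ψ ≠ 0)
    {c : Fin t} (hc : π c u ≠ 0) (hgap : ∀ x ∈ D c, ψ x = 0) : Cross M D := by
  obtain ⟨w, hw, hws⟩ := exists_mem_notMem (l := c) hk (span1_lt hm (π c u))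
  have h1 : π c u ∉ Submodule.span F {w} := by
    intro h
    obtain ⟨a, ha⟩ := Submodule.mem_span_singleton.1 h
    apply hws
    have ha0 : a ≠ 0 := by
      rintro rfl
      apply hc
      rw [← ha, zero_smul]
    rw [Submodule.mem_span_singleton]
    refine ⟨a⁻¹, ?_⟩
    rw [← ha, smul_smul, inv_mul_cancel₀ ha0, one_smul]
  obtain ⟨θ, hθ, hθ1, hθ2⟩ := exists_form hp (hp.mem c u) h1
  have h2 : θ w = 0 := hθ2 w hw (Submodule.mem_span_singleton_self w)
  have h3 : θ u = 1 := by rw [Ad.eq hp hθ, hθ1]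
  have h4 := move1 hT (tvad hH hk hθ hw h2) (hgap w hw)
  rw [h3, one_smul] at h4
  -- isolating a block of the form
  obtain ⟨b, y, hy, hψy⟩ := exists_block hp hψ
  have hbc : b ≠ c := by
    rintro rfl
    exact hψy (hgap y hy)
  obtain ⟨y', hy', hys⟩ := exists_mem_notMem (l := b) hk (span1_lt hm y)
  obtain ⟨ζ, hζ, hζ1, hζ2⟩ := exists_form hp hy' hys
  have h5 : ζ y = 0 := hζ2 y hy (Submodule.mem_span_singleton_self y)
  have h6 : ζ w = 0 := hζ c hbc.symm w hw
  have h7 := move2 h4 (tvad hH hk hζ hy h5) h6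
  have h8 := h7.smul_center hψy
  refine ⟨b, c, ζ, ψ y • w, hbc, hζ, ?_, (D c).smul_mem _ hw, ?_, h8⟩
  · rintro rfl
    simp at hζ1
  · have hw0 : w ≠ 0 := by
      rintro rfl
      exact hws (Submodule.zero_mem _)
    exact smul_ne_zero hψy hw0

theorem cross_of_two (hp : Pj D π) (hH : Cfsg.Geo.decompositionStabilizer D ⊓ Cfsg.Geo.specialLinear ι F ≤ M)
    (hk : ∀ i, finrank F (D i) = m) (hm : 2 ≤ m) {ψ : Dual F (ι → F)} {u : ι → F} (hT : TvIn M ψ u) (hψ : ψ ≠ 0)
    {a c : Fin t} (hac : a ≠ c) (ha : π a u ≠ 0) (hc : π c u ≠ 0)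
    (hcase : 3 ≤ m ∨ (3 ≤ t ∧ ∃ s : F, s ≠ 0 ∧ s ≠ 1)) : Cross M D := by
  by_cases gap : ∀ x ∈ D c, ψ x = 0
  · exact cross_of_gap hp hH hk hm hT hψ hc gap
  by_cases gap' : ∀ x ∈ D a, ψ x = 0
  · exact cross_of_gap hp hH hk hm hT hψ ha gap'
  push Not at gap gap'
  obtain ⟨x, hx, hψx⟩ := gap'
  -- the main move
  have key : ∀ (θ : Dual F (ι → F)) (x : ι → F), Ad D a θ → θ ≠ 0 → x ∈ D a → ψ x ≠ 0 → θ x = 0 → θ (π a u) = 0 →
      Cross M D := by
    intro θ x hθ hθ0 hx hψx h1 h2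
    have h3 : θ u = 0 := by rw [Ad.eq hp hθ, h2]
    have h4 := move2 hT (tvad hH hk hθ hx h1) h3
    refine cross_of_gap hp hH hk hm h4 (smul_ne_zero hψx hθ0) hc fun y hy => ?_
    simp [hθ c hac.symm y hy]
  by_cases h3 : 3 ≤ m
  · have hS : finrank F (Submodule.span F ({x, π a u} : Set (ι → F))) < m := by
      classical
      have h5 : (({x, π a u} : Finset (ι → F)) : Set (ι → F)) = {x, π a u} := by simp
      have := finrank_span_finset_le_card (R := F) ({x, π a u} : Finset (ι → F))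
      rw [h5] at this
      have h6 := Finset.card_le_two (a := x) (b := π a u)
      have h7 : Set.finrank F ({x, π a u} : Set (ι → F)) =
        finrank F (Submodule.span F ({x, π a u} : Set (ι → F))) := rfl
      omega
    obtain ⟨w, hw, hws⟩ := exists_mem_notMem (l := a) hk hS
    obtain ⟨θ, hθ, hθ1, hθ2⟩ := exists_form hp hw hws
    refine key θ x hθ ?_ hx hψx (hθ2 x hx (Submodule.subset_span (by simp)))
      (hθ2 _ (hp.mem a u) (Submodule.subset_span (by simp)))
    rintro rfl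
    simp at hθ1
  obtain ⟨ht, s, hs0, hs1⟩ := hcase.resolve_left h3
  by_cases h4 : ψ (π a u) = 0
  · -- two homologies
    obtain ⟨wa, hwa⟩ : ∃ wa, wa = (ψ x)⁻¹ • x := ⟨_, rfl⟩
    have hwaD : wa ∈ D a := by
      rw [hwa]
      exact (D a).smul_mem _ hx
    have hψw : ψ wa = 1 := by
      rw [hwa, map_smul, smul_eq_mul, inv_mul_cancel₀ hψx]
    obtain ⟨θa, hθa⟩ : ∃ θa, θa = ψ ∘ₗ π a := ⟨_, rfl⟩
    have hθaA : Ad D a θa := hθa ▸ ad_comp hp ψ a
    have hθaw : θa wa = 1 := by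
      rw [hθa]
      simp [hp.fix a wa hwaD, hψw]
    have hθau : θa u = 0 := by
      rw [hθa]
      simpa using h4
    obtain ⟨d, hd⟩ : ∃ d : Fin t, d ∉ ({a, c} : Finset (Fin t)) := by
      by_contra hcon
      push Not at hcon
      have h5 : (Finset.univ : Finset (Fin t)) ⊆ {a, c} := fun i _ => hcon i
      have h6 := Finset.card_le_card h5
      have h7 := Finset.card_le_two (a := a) (b := c)
      simp only [Finset.card_univ, Fintype.card_fin] at h6
      omega
    simp only [Finset.mem_insert, Finset.mem_singleton, not_or] at hd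
    obtain ⟨wd, hwd, hwds⟩ := exists_mem_notMem (l := d) hk (span1_lt hm (π d u))
    obtain ⟨θd, hθd, hθd1, hθd2⟩ := exists_form hp hwd hwds
    have hθdu : θd u = 0 := by
      rw [Ad.eq hp hθd]
      exact hθd2 _ (hp.mem d u) (Submodule.mem_span_singleton_self _)
    obtain ⟨z, hz⟩ : ∃ z : GL ι F, z = hom θa wa s hθaw hs0 * hom θd wd s⁻¹ hθd1 (inv_ne_zero hs0) := ⟨_, rfl⟩
    have hact : ∀ y, act z y = y + ((s⁻¹ - 1) * θd y) • wd +
        ((s - 1) * θa (y + ((s⁻¹ - 1) * θd y) • wd)) • wa := by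
      intro y
      rw [hz, map_mul, LinearEquiv.mul_apply, act_hom, act_hom]
    have hzM : z ∈ M := by
      refine hH ⟨mem_stabD_of hk 1 fun l y hy => ?_, ?_⟩
      · rw [hact]
        have h5 : ∀ (e : F) (p : ι → F) (b : Fin t) (θ : Dual F (ι → F)), Ad D b θ → p ∈ D b → ∀ (v : ι → F), v ∈ D l →
            v + (e * θ v) • p ∈ D l := by
          intro e p b θ hθ hp' v hv
          by_cases hl : l = b
          · subst hl
            exact (D l).add_mem hv ((D l).smul_mem _ hp')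
          · rw [hθ l hl v hv, mul_zero, zero_smul, add_zero]
            exact hv
        exact h5 _ _ a θa hθaA hwaD _ (h5 _ _ d θd hθd hwd _ hy)
      · show Matrix.GeneralLinearGroup.det z = 1
        apply Units.ext
        rw [hz, map_mul, Units.val_mul, hom_det, hom_det, mul_inv_cancel₀ hs0]
        rfl
    have hzu : act z u = u := by
      rw [hact, hθdu]
      simp [hθau]
    have h5 := TvIn.conj hT hzM
    rw [hzu] at h5
    have h6 := h5.sub hT
    have hfix : ∀ y ∈ D c, act z⁻¹ y = y := by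
      intro y hy
      have : act z y = y := by
        rw [hact, hθd c (Ne.symm hd.2) y hy]
        simp [hθaA c hac.symm y hy]
      conv_lhs => rw [← this]
      exact MN.ai z y
    refine cross_of_gap hp hH hk hm h6 ?_ hc fun y hy => ?_
    · intro h7
      have h8 : (ψ ∘ₗ ((act z⁻¹ : (ι → F) ≃ₗ[F] (ι → F)) : (ι → F) →ₗ[F] (ι → F)) - ψ) wa = 0 := by
        rw [h7]
        rfl
      have h9 : act z⁻¹ wa = s⁻¹ • wa := by
        have : act z (s⁻¹ • wa) = wa := by
          rw [map_smul, hact, hθd a (Ne.symm hd.1) wa hwaD]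
          simp only [mul_zero, zero_smul, add_zero, hθaw, mul_one]
          rw [smul_add, smul_smul, ← add_smul]
          have : s⁻¹ + s⁻¹ * (s - 1) = 1 := by
            field_simp
            ring
          rw [this, one_smul]
        conv_lhs => rw [← this]
        exact MN.ai z _
      simp only [LinearMap.sub_apply, LinearMap.comp_apply, LinearEquiv.coe_coe] at h8
      rw [h9, map_smul, hψw, smul_eq_mul, mul_one] at h8
      apply hs1
      have h10 : s⁻¹ = 1 := sub_eq_zero.1 h8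
      rw [← inv_inv s, h10, inv_one]
    · simp only [LinearMap.sub_apply, LinearMap.comp_apply, LinearEquiv.coe_coe]
      rw [hfix y hy, sub_self]
  · obtain ⟨w, hw, hws⟩ := exists_mem_notMem (l := a) hk (span1_lt hm (π a u))
    obtain ⟨θ, hθ, hθ1, hθ2⟩ := exists_form hp hw hws
    have h5 : θ (π a u) = 0 := hθ2 _ (hp.mem a u) (Submodule.mem_span_singleton_self _)
    refine key θ (π a u) hθ ?_ (hp.mem a u) h4 h5 h5
    rintro rfl
    simp at hθ1

end Cfsg.Agent.Lib.Geo.SD
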