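import Mathlib
import Cfsg.Agent.Lib.Geo.SLDec

set_option autoImplicit false

/-! The stabilizer in `SL_n` of a decomposition into blocks of dimension at least two:
from one cross transvection to all of `SL_n`. -/

namespace Cfsg.Agent.Lib.Geo.SD

open scoped MatrixGroups Matrix
open Module
open Cfsg.Agent.Lib.Geo

variable {ι : Type} [Fintype ι] [DecidableEq ι] {F : Type*} [Field F] {t : ℕ}
  {D : Fin t → Submodule F (ι → F)}

variable {π : Fin t → ((ι → F) →ₗ[F] (ι → F))}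

variable {M : Subgroup (GL ι F)} {m : ℕ}

/-- from an element outside the stabilizer to a transvection whose center is in at least two blocks -/
theorem exists_nonadapted (hp : Pj D π) (hH : Cfsg.Geo.decompositionStabilizer D ⊓ Cfsg.Geo.specialLinear ι F ≤ M)
    (hk : ∀ i, finrank F (D i) = m) (hm : 2 ≤ m) (hind : iSupIndep D) (htop : iSup D = ⊤) {g : GL ι F} (hg : g ∈ M)
    (hgs : g ∉ Cfsg.Geo.decompositionStabilizer D) :
    ∃ (ψ : Dual F (ι → F)) (u : ι → F) (a c : Fin t), TvIn M ψ u ∧ ψ ≠ 0 ∧ a ≠ c ∧ π a u ≠ 0 ∧ π c u ≠ 0 := by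
  have h1 : ¬ ∀ i, ∀ x ∈ D i, ∃ l, act g x ∈ D l := fun h =>
    hgs (mem_stabD_of_union hk (by omega) hind htop h)
  push Not at h1
  obtain ⟨i, x, hx, hall⟩ := h1
  obtain ⟨a, ha⟩ : ∃ a, π a (act g x) ≠ 0 := by
    by_contra hcon
    push Not at hcon
    apply hall i
    rw [← hp.sum (act g x)]
    simp [hcon]
  obtain ⟨c, hac, hc⟩ : ∃ c, a ≠ c ∧ π c (act g x) ≠ 0 := by
    by_contra hcon
    push Not at hcon
    apply hall a
    rw [← hp.sum (act g x), Finset.sum_eq_single a]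
    · exact hp.mem _ _
    · intro l _ hl
      exact hcon l (Ne.symm hl)
    · simp
  obtain ⟨w, hw, hws⟩ := exists_mem_notMem (l := i) hk (span1_lt hm x)
  obtain ⟨θ, hθ, hθ1, hθ2⟩ := exists_form hp hw hws
  have h2 : θ x = 0 := hθ2 x hx (Submodule.mem_span_singleton_self x)
  have h3 := TvIn.conj (tvad hH hk hθ hx h2) hg
  refine ⟨_, _, a, c, h3, ?_, hac, ha, hc⟩
  intro h4
  have h5 : (θ ∘ₗ ((act g⁻¹ : (ι → F) ≃ₗ[F] (ι → F)) : (ι → F) →ₗ[F] (ι → F))) (act g w) = 0 := by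
    rw [h4]
    rfl
  simp only [LinearMap.comp_apply, LinearEquiv.coe_coe] at h5
  rw [MN.ai, hθ1] at h5
  exact one_ne_zero h5

/-- moving the center in a block -/
theorem center_all (hp : Pj D π) (hH : Cfsg.Geo.decompositionStabilizer D ⊓ Cfsg.Geo.specialLinear ι F ≤ M)
    (hk : ∀ i, finrank F (D i) = m) (hm : 2 ≤ m) {ζ : Dual F (ι → F)} {w : ι → F} {b c : Fin t} (hT : TvIn M ζ w)
    (hζ : Ad D b ζ) (hbc : b ≠ c) (hw : w ∈ D c) (hw0 : w ≠ 0) : ∀ x ∈ D c, TvIn M ζ x := by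
  have key : ∀ w x : ι → F, TvIn M ζ w → w ∈ D c → x ∈ D c → w ∉ Submodule.span F {x} → TvIn M ζ x := by
    intro w x hT hw hx hs
    obtain ⟨θ, hθ, hθ1, hθ2⟩ := exists_form hp hw hs
    have h2 : θ x = 0 := hθ2 x hx (Submodule.mem_span_singleton_self x)
    have h3 := move1 hT (tvad hH hk hθ hx h2) (hζ c hbc.symm x hx)
    rwa [hθ1, one_smul] at h3
  intro x hx
  by_cases hs : w ∈ Submodule.span F {x}
  · obtain ⟨x', hx', hxs⟩ := exists_mem_notMem (l := c) hk (span1_lt hm x)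
    refine key x' x (key w x' hT hw hx' ?_) hx' hx hxs
    intro h1
    obtain ⟨a, ha⟩ := Submodule.mem_span_singleton.1 h1
    obtain ⟨a', ha'⟩ := Submodule.mem_span_singleton.1 hs
    have ha0 : a ≠ 0 := by
      rintro rfl
      apply hw0
      rw [← ha, zero_smul]
    apply hxs
    rw [Submodule.mem_span_singleton]
    refine ⟨a⁻¹ * a', ?_⟩
    rw [← smul_smul, ha', ← ha, smul_smul, inv_mul_cancel₀ ha0, one_smul]
  · exact key w x hT hw hx hs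

/-- moving the form in a block -/
theorem form_all (hp : Pj D π) (hH : Cfsg.Geo.decompositionStabilizer D ⊓ Cfsg.Geo.specialLinear ι F ≤ M)
    (hk : ∀ i, finrank F (D i) = m) (hm : 2 ≤ m) {ζ : Dual F (ι → F)} {b c : Fin t}
    (hall : ∀ x ∈ D c, TvIn M ζ x) (hζ : Ad D b ζ) (hζ0 : ζ ≠ 0) (hbc : b ≠ c) :
    ∀ θ, Ad D b θ → ∀ x ∈ D c, TvIn M θ x := by
  have key : ∀ ζ θ : Dual F (ι → F), (∀ x ∈ D c, TvIn M ζ x) → Ad D b θ → ∀ y ∈ D b, θ y = 0 → ζ y ≠ 0 →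
      ∀ x ∈ D c, TvIn M θ x := by
    intro ζ θ hall hθ y hy hθy hζy x hx
    have h1 := hall _ ((D c).smul_mem (ζ y)⁻¹ hx)
    have h2 := move2 h1 (tvad hH hk hθ hy hθy) (hθ c hbc.symm _ ((D c).smul_mem (ζ y)⁻¹ hx))
    have h3 := h2.smul_center hζy
    rwa [smul_smul, mul_inv_cancel₀ hζy, one_smul] at h3
  intro θ hθ x hx
  by_cases hθ0 : θ = 0
  · rw [hθ0]
    exact tvIn_zero_form x
  by_cases hR : ∃ y ∈ D b, θ y = 0 ∧ ζ y ≠ 0
  · obtain ⟨y, hy, h1, h2⟩ := hR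
    exact key ζ θ hall hθ y hy h1 h2 x hx
  push Not at hR
  -- a nonzero vector of the block killed by `θ`
  obtain ⟨y₀, hy₀, hy₀0, hθy₀⟩ : ∃ y₀ ∈ D b, y₀ ≠ 0 ∧ θ y₀ = 0 := by
    have h1 : finrank F F < finrank F (D b) := by
      rw [hk, finrank_self]
      omega
    have h2 := LinearMap.ker_ne_bot_of_finrank_lt (f := θ.domRestrict (D b)) h1
    obtain ⟨⟨y, hy⟩, hy1, hy2⟩ := Submodule.exists_mem_ne_zero_of_ne_bot h2
    refine ⟨y, hy, fun h => hy2 (Subtype.ext h), hy1⟩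
  obtain ⟨b', y₁, hy₁, hζy₁⟩ := exists_block hp hζ0
  have hb' : b' = b := by
    by_contra h
    exact hζy₁ (hζ b' h y₁ hy₁)
  subst hb'
  have h1 : y₀ ∉ Submodule.span F {y₁} := by
    intro h
    obtain ⟨a, ha⟩ := Submodule.mem_span_singleton.1 h
    have h3 : ζ y₀ = 0 := hR y₀ hy₀ hθy₀
    rw [← ha, map_smul, smul_eq_mul] at h3
    rcases mul_eq_zero.1 h3 with h4 | h4
    · apply hy₀0
      rw [← ha, h4, zero_smul]
    · exact hζy₁ h4
  obtain ⟨ζ₂, hζ₂, hζ₂1, hζ₂2⟩ := exists_form hp hy₀ h1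
  have h2 : ζ₂ y₁ = 0 := hζ₂2 y₁ hy₁ (Submodule.mem_span_singleton_self y₁)
  have h3 := key ζ ζ₂ hall hζ₂ y₁ hy₁ h2 hζy₁
  exact key ζ₂ θ h3 hθ y₀ hy₀ hθy₀ (by rw [hζ₂1]; exact one_ne_zero) x hx

/-- permuting blocks -/
theorem cross_move (hp : Pj D π) (hH : Cfsg.Geo.decompositionStabilizer D ⊓ Cfsg.Geo.specialLinear ι F ≤ M)
    (hk : ∀ i, finrank F (D i) = m) (hm : 0 < m) (hind : iSupIndep D) (htop : iSup D = ⊤)
    {ζ : Dual F (ι → F)} {w : ι → F} {b c b' c' : Fin t} (hT : TvIn M ζ w)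
    (hζ : Ad D b ζ) (hζ0 : ζ ≠ 0) (hbc : b ≠ c) (hw : w ∈ D c) (hw0 : w ≠ 0) (hbc' : b' ≠ c') :
    ∃ (ζ' : Dual F (ι → F)) (w' : ι → F), Ad D b' ζ' ∧ ζ' ≠ 0 ∧ w' ∈ D c' ∧ w' ≠ 0 ∧ TvIn M ζ' w' := by
  classical
  obtain ⟨σ, hσ1, hσ2⟩ : ∃ σ : Equiv.Perm (Fin t), σ b = b' ∧ σ c = c' := by
    have h2 : Equiv.swap b b' c ≠ b' := by
      intro h
      apply hbc
      apply (Equiv.swap b b').injective
      rw [h, Equiv.swap_apply_left]
    refine ⟨Equiv.swap (Equiv.swap b b' c) c' * Equiv.swap b b', ?_, ?_⟩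
    · rw [Equiv.Perm.mul_apply, Equiv.swap_apply_left]
      exact Equiv.swap_apply_of_ne_of_ne h2.symm hbc'
    · rw [Equiv.Perm.mul_apply, Equiv.swap_apply_left]
  obtain ⟨h, hh⟩ := exists_perm_elt hind htop σ
    (fun l => (LinearEquiv.ofFinrankEq (D l) (D (σ l)) (by rw [hk, hk])).toLinearMap)
    (fun l => (LinearEquiv.ofFinrankEq (D l) (D (σ l)) (by rw [hk, hk])).surjective)
  have hh' : ∀ l, ∀ x ∈ D l, act h x ∈ D (σ l) := by
    intro l x hx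
    have := hh l ⟨x, hx⟩
    simp only at this
    rw [this]
    exact Subtype.coe_prop _
  -- correcting the determinant
  obtain ⟨w₀, hw₀, hw₀0⟩ : ∃ w₀ ∈ D b', w₀ ∉ (⊥ : Submodule F (ι → F)) := by
    apply exists_mem_notMem hk
    simp [hm]
  obtain ⟨θ₀, hθ₀, hθ₀1, -⟩ := exists_form hp hw₀ hw₀0
  obtain ⟨d, hd⟩ : ∃ d : F, d = ((Matrix.GeneralLinearGroup.det h : Fˣ) : F) := ⟨_, rfl⟩
  have hd0 : d ≠ 0 := by
    rw [hd]
    exact Units.ne_zero _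
  obtain ⟨z, hz⟩ : ∃ z : GL ι F, z = hom θ₀ w₀ d⁻¹ hθ₀1 (inv_ne_zero hd0) * h := ⟨_, rfl⟩
  have hz1 : ∀ l, ∀ x ∈ D l, act z x ∈ D (σ l) := by
    intro l x hx
    rw [hz, map_mul, LinearEquiv.mul_apply, act_hom]
    have h1 := hh' l x hx
    by_cases hl : σ l = b'
    · rw [hl] at h1 ⊢
      exact (D b').add_mem h1 ((D b').smul_mem _ hw₀)
    · rw [hθ₀ _ hl _ h1, mul_zero, zero_smul, add_zero]
      exact h1
  have hzM : z ∈ M := by
    refine hH ⟨mem_stabD_of hk σ hz1, ?_⟩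
    show Matrix.GeneralLinearGroup.det z = 1
    apply Units.ext
    rw [hz, map_mul, Units.val_mul, hom_det, ← hd, inv_mul_cancel₀ hd0]
    rfl
  have h1 := TvIn.conj hT hzM
  refine ⟨_, _, ?_, ?_, ?_, ?_, h1⟩
  · intro l hl x hx
    -- the preimage of `x`
    have h2 : (D (σ.symm l)).map (Matrix.toLin' (z : Matrix ι ι F)) = D (σ (σ.symm l)) :=
      map_toLin_eq (hz1 _) (by rw [hk, hk])
    rw [Equiv.apply_symm_apply] at h2
    rw [← h2] at hx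
    obtain ⟨y, hy, rfl⟩ := hx
    have h3 : Matrix.toLin' (z : Matrix ι ι F) y = act z y := rfl
    simp only [LinearMap.comp_apply, LinearEquiv.coe_coe]
    rw [h3, MN.ai]
    refine hζ _ ?_ y hy
    intro h4
    apply hl
    rw [← hσ1, ← h4, Equiv.apply_symm_apply]
  · intro h2
    obtain ⟨l, y, hy, hne⟩ := exists_block hp hζ0
    have h3 : (ζ ∘ₗ ((act z⁻¹ : (ι → F) ≃ₗ[F] (ι → F)) : (ι → F) →ₗ[F] (ι → F))) (act z y) = 0 := by
      rw [h2]
      rfl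
    simp only [LinearMap.comp_apply, LinearEquiv.coe_coe] at h3
    rw [MN.ai] at h3
    exact hne h3
  · rw [← hσ2]
    exact hz1 c w hw
  · exact MN.act_ne_zero z hw0

/-- all cross transvections -/
theorem all_cross (hp : Pj D π) (hH : Cfsg.Geo.decompositionStabilizer D ⊓ Cfsg.Geo.specialLinear ι F ≤ M)
    (hk : ∀ i, finrank F (D i) = m) (hm : 2 ≤ m) (hind : iSupIndep D) (htop : iSup D = ⊤) (hC : Cross M D)
    {b c : Fin t} (hbc : b ≠ c) (θ : Dual F (ι → F)) (hθ : Ad D b θ) (x : ι → F) (hx : x ∈ D c) : TvIn M θ x := by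
  obtain ⟨b₀, c₀, ζ₀, w₀, hbc₀, hζ₀, hζ₀0, hw₀, hw₀0, hT⟩ := hC
  obtain ⟨ζ, w, hζ, hζ0, hw, hw0, hT'⟩ := cross_move hp hH hk (by omega) hind htop hT hζ₀ hζ₀0 hbc₀ hw₀ hw₀0 hbc
  exact form_all hp hH hk hm (center_all hp hH hk hm hT' hζ hbc hw hw0) hζ hζ0 hbc θ hθ x hx

end Cfsg.Agent.Lib.Geo.SD
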