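import Mathlib
import Cfsg.Agent.Lib.Geo.SLDec2
import Cfsg.Agent.Lib.Geo.SympBlocks2

set_option autoImplicit false

/-! The stabilizer in `SL_n` of a decomposition is maximal. -/

namespace Cfsg.Agent.Lib.Geo.SD

open scoped MatrixGroups Matrix
open Module
open Cfsg.Agent.Lib.Geo

variable {ι : Type} [Fintype ι] [DecidableEq ι] {F : Type*} [Field F] {t : ℕ}
  {D : Fin t → Submodule F (ι → F)}

variable {π : Fin t → ((ι → F) →ₗ[F] (ι → F))}

variable {M : Subgroup (GL ι F)} {m : ℕ}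

/-- adapted frames -/
theorem exists_frame (hp : Pj D π) (hk : ∀ i, finrank F (D i) = m) :
    ∃ (e : Fin t × Fin m → (ι → F)) (cf : Fin t × Fin m → Dual F (ι → F)), (∀ p, e p ∈ D p.1) ∧ (∀ p, Ad D p.1 (cf p)) ∧
      (∀ p q, cf p (e q) = if p = q then 1 else 0) ∧ (∀ x, ∑ p, cf p x • e p = x) := by
  classical
  let bs : ∀ l, Basis (Fin m) F (D l) := fun l => finBasisOfFinrankEq F (D l) (hk l)
  let pr : ∀ l, (ι → F) →ₗ[F] D l := fun l => (π l).codRestrict (D l) (hp.mem l)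
  have hpr : ∀ l x (hx : x ∈ D l), pr l x = ⟨x, hx⟩ := fun l x hx => Subtype.ext (hp.fix l x hx)
  have hpr0 : ∀ l l', l ≠ l' → ∀ x ∈ D l', pr l x = 0 := fun l l' h x hx => Subtype.ext (hp.zero l l' h x hx)
  refine ⟨fun p => (bs p.1 p.2 : ι → F), fun p => ((bs p.1).coord p.2) ∘ₗ pr p.1, fun p => (bs p.1 p.2).2, ?_, ?_, ?_⟩
  · intro p l hl x hx
    simp [hpr0 p.1 l hl.symm x hx]
  · intro p q
    by_cases h : p.1 = q.1
    · obtain ⟨p1, p2⟩ := p
      obtain ⟨q1, q2⟩ := q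
      dsimp only at h
      subst h
      simp only [LinearMap.comp_apply]
      rw [hpr p1 _ (bs p1 q2).2]
      simp only [Subtype.coe_eta, Basis.coord_apply, Basis.repr_self, Prod.mk.injEq, true_and]
      by_cases h2 : p2 = q2
      · simp [h2]
      · simp [h2, Ne.symm h2]
    · have h1 : p ≠ q := fun h' => h (congrArg Prod.fst h')
      rw [if_neg h1]
      simp only [LinearMap.comp_apply]
      rw [hpr0 p.1 q.1 h _ (bs q.1 q.2).2, map_zero]
  · intro x
    rw [Fintype.sum_prod_type]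
    conv_rhs => rw [← hp.sum x]
    refine Finset.sum_congr rfl fun l _ => ?_
    have h1 := (bs l).sum_repr (pr l x)
    have h2 : π l x = ((pr l x : D l) : ι → F) := rfl
    rw [h2]
    conv_rhs => rw [← h1]
    rw [Submodule.coe_sum]
    rfl

/-- the change of basis to an adapted frame -/
theorem exists_P (hp : Pj D π) (hk : ∀ i, finrank F (D i) = m) (hcard : t * m = Fintype.card ι) :
    ∃ (P : GL ι F) (ε : ι ≃ Fin t × Fin m), (∀ i, act P (MN.ee F i) ∈ D (ε i).1) ∧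
      (∀ j, Ad D (ε j).1 ((LinearMap.proj j : Dual F (ι → F)) ∘ₗ
        ((act P⁻¹ : (ι → F) ≃ₗ[F] (ι → F)) : (ι → F) →ₗ[F] (ι → F)))) := by
  classical
  obtain ⟨e, cf, he, hcf, hce, hsum⟩ := exists_frame hp hk
  have hc : Fintype.card ι = Fintype.card (Fin t × Fin m) := by
    simp [hcard]
  let ε : ι ≃ Fin t × Fin m := Fintype.equivOfCardEq hc
  let E : (ι → F) ≃ₗ[F] (ι → F) :=
    { toFun := fun x => ∑ j, x j • e (ε j)
      invFun := fun y j => cf (ε j) y
      map_add' := by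
        intro x y
        simp only [Pi.add_apply, add_smul, Finset.sum_add_distrib]
      map_smul' := by
        intro c x
        simp only [Pi.smul_apply, smul_eq_mul, RingHom.id_apply, Finset.smul_sum, smul_smul]
      left_inv := by
        intro x
        funext j
        simp only [map_sum, map_smul, hce, smul_eq_mul, ε.injective.eq_iff, mul_ite, mul_one, mul_zero]
        simp
      right_inv := by
        intro y
        have : ∑ j, cf (ε j) y • e (ε j) = ∑ p, cf p y • e p := Equiv.sum_comp ε (fun p => cf p y • e p)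
        show ∑ j, cf (ε j) y • e (ε j) = y
        rw [this, hsum] }
  refine ⟨act.symm E, ε, fun i => ?_, fun j => ?_⟩
  · have : act (act.symm E) (MN.ee F i) = e (ε i) := by
      rw [MulEquiv.apply_symm_apply]
      show ∑ j, MN.ee F i j • e (ε j) = _
      rw [Finset.sum_eq_single i]
      · simp
      · intro b _ hb
        simp [MN.ee_ne hb]
      · simp
    rw [this]
    exact he _
  · have : ∀ y, act (act.symm E)⁻¹ y j = cf (ε j) y := by
      intro y
      rw [map_inv, MulEquiv.apply_symm_apply]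
      rfl
    intro l hl x hx
    simp only [LinearMap.comp_apply, LinearEquiv.coe_coe, LinearMap.proj_apply]
    rw [this]
    exact hcf _ l hl x hx

theorem tr_eq_tv {i j : ι} (hij : i ≠ j) (a : F) {hφ : ((a • LinearMap.proj j : Dual F (ι → F))) (MN.ee F i) = 0} :
    ((Matrix.SpecialLinearGroup.transvection hij a : Matrix.SpecialLinearGroup ι F) : GL ι F) = tv hφ := by
  apply act.injective
  ext1 x
  rw [act_tv_apply, act_apply]
  funext r
  simp [Matrix.SpecialLinearGroup.transvection_coe, Matrix.add_mulVec, Matrix.single_mulVec,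
    Pi.single_apply]
  by_cases hr : r = i <;> simp [hr]

theorem le_of_comap (P : GL ι F) (h : Cfsg.Geo.specialLinear ι F ≤ M.comap (MulAut.conj P).toMonoidHom) :
    Cfsg.Geo.specialLinear ι F ≤ M := by
  intro g hg
  have h1 : P⁻¹ * g * P ∈ Cfsg.Geo.specialLinear ι F := by
    show Matrix.GeneralLinearGroup.det (P⁻¹ * g * P) = 1
    have hg' : Matrix.GeneralLinearGroup.det g = 1 := hg
    rw [map_mul, map_mul, hg', mul_one, map_inv, inv_mul_cancel]
  have h2 := h h1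
  rw [Subgroup.mem_comap] at h2
  simpa [MulAut.conj_apply, mul_assoc] using h2

/-- all cross transvections generate -/
theorem sl_le_of_cross (hp : Pj D π) (hH : Cfsg.Geo.decompositionStabilizer D ⊓ Cfsg.Geo.specialLinear ι F ≤ M)
    (hk : ∀ i, finrank F (D i) = m) (hcard : t * m = Fintype.card ι) (hn : 2 ≤ Fintype.card ι)
    (hall : ∀ b c : Fin t, b ≠ c → ∀ θ, Ad D b θ → ∀ x ∈ D c, TvIn M θ x) :
    Cfsg.Geo.specialLinear ι F ≤ M := by
  classical
  obtain ⟨P, ε, hP1, hP2⟩ := exists_P hp hk hcard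
  apply le_of_comap P
  haveI : Nontrivial ι := Fintype.one_lt_card_iff_nontrivial.1 hn
  apply sl_le_of_elem
  intro i j hij a
  have hφ : ((a • LinearMap.proj j : Dual F (ι → F))) (MN.ee F i) = 0 := by
    simp [MN.ee_ne hij.symm]
  rw [tr_eq_tv hij a (hφ := hφ), Subgroup.mem_comap]
  obtain ⟨h', e'⟩ := conj_tv hφ P
  show P * tv hφ * P⁻¹ ∈ M
  rw [e']
  have hform : (a • (LinearMap.proj j : Dual F (ι → F))) ∘ₗ
      ((act P⁻¹ : (ι → F) ≃ₗ[F] (ι → F)) : (ι → F) →ₗ[F] (ι → F)) =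
      a • ((LinearMap.proj j : Dual F (ι → F)) ∘ₗ
        ((act P⁻¹ : (ι → F) ≃ₗ[F] (ι → F)) : (ι → F) →ₗ[F] (ι → F))) := rfl
  have hAd : Ad D (ε j).1 ((a • (LinearMap.proj j : Dual F (ι → F))) ∘ₗ
      ((act P⁻¹ : (ι → F) ≃ₗ[F] (ι → F)) : (ι → F) →ₗ[F] (ι → F))) := by
    rw [hform]
    intro l hl x hx
    have := hP2 j l hl x hx
    rw [LinearMap.smul_apply, this, smul_zero]
  by_cases hb : (ε j).1 = (ε i).1
  · have h1 : act P (MN.ee F i) ∈ D (ε j).1 := by
      rw [hb]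
      exact hP1 i
    exact (tvad hH hk hAd h1 h').mem h'
  · exact (hall _ _ hb _ hAd _ (hP1 i)).mem h'

/-- the overgroup statement for blocks of dimension at least two -/
theorem sl_le_of_not_stab (hk : ∀ i, finrank F (D i) = m) (hm : 2 ≤ m) (hind : iSupIndep D) (htop : iSup D = ⊤)
    (hH : Cfsg.Geo.decompositionStabilizer D ⊓ Cfsg.Geo.specialLinear ι F ≤ M)
    (hcase : 3 ≤ m ∨ (3 ≤ t ∧ ∃ s : F, s ≠ 0 ∧ s ≠ 1)) {g : GL ι F} (hg : g ∈ M)
    (hgs : g ∉ Cfsg.Geo.decompositionStabilizer D) (hn : 2 ≤ Fintype.card ι) :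
    Cfsg.Geo.specialLinear ι F ≤ M := by
  obtain ⟨π, h1, h2, h3, h4⟩ := exists_proj hind htop
  have hp : Pj D π := ⟨h1, h2, h3, h4⟩
  obtain ⟨ψ, u, a, c, hT, hψ, hac, ha, hc⟩ := exists_nonadapted hp hH hk hm hind htop hg hgs
  have hC := cross_of_two hp hH hk hm hT hψ hac ha hc hcase
  exact sl_le_of_cross hp hH hk (card_eq_of_decomp hind htop hk) hn fun b c hbc θ hθ x hx =>
    all_cross hp hH hk hm hind htop hC hbc θ hθ x hx

/-- monomial elements and the stabilizer for decompositions into lines -/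
theorem mono_iff_stab (hk : ∀ i, finrank F (D i) = 1) (hind : iSupIndep D) (htop : iSup D = ⊤) {P : GL ι F}
    {ε : ι ≃ Fin t × Fin 1} (hP1 : ∀ i, act P (MN.ee F i) ∈ D (ε i).1)
    (hP2 : ∀ j, Ad D (ε j).1 ((LinearMap.proj j : Dual F (ι → F)) ∘ₗ
        ((act P⁻¹ : (ι → F) ≃ₗ[F] (ι → F)) : (ι → F) →ₗ[F] (ι → F)))) {g : GL ι F} (hg : MN.MonoQ g) :
    P * g * P⁻¹ ∈ Cfsg.Geo.decompositionStabilizer D := by
  classical
  apply mem_stabD_of_union hk one_pos hind htop
  intro i x hx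
  -- the coordinates of `P⁻¹ x`
  obtain ⟨l₀, hl₀⟩ : ∃ l₀, (ε l₀).1 = i := ⟨ε.symm (i, 0), by simp⟩
  have h1 : act P⁻¹ x = act P⁻¹ x l₀ • MN.ee F l₀ := by
    funext r
    by_cases hr : r = l₀
    · subst hr
      simp [MN.ee_self]
    · have h2 : (ε r).1 ≠ i := by
        intro h
        apply hr
        apply ε.injective
        apply Prod.ext
        · rw [h, hl₀]
        · exact Subsingleton.elim _ _
      have h3 := hP2 r i (Ne.symm h2) x hx
      simp only [LinearMap.comp_apply, LinearEquiv.coe_coe, LinearMap.proj_apply] at h3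
      rw [h3]
      simp [MN.ee_ne hr]
  obtain ⟨l', c, hl'⟩ := hg l₀
  refine ⟨(ε l').1, ?_⟩
  rw [map_mul, map_mul, LinearEquiv.mul_apply, LinearEquiv.mul_apply, h1, map_smul, hl', map_smul, map_smul]
  exact (D _).smul_mem _ ((D _).smul_mem _ (hP1 l'))

/-- the overgroup statement for decompositions into lines -/
theorem sl_le_of_not_stab1 [Fintype F] (hq : 5 ≤ Fintype.card F) (hn : 13 ≤ Fintype.card ι)
    (hk : ∀ i, finrank F (D i) = 1) (hind : iSupIndep D) (htop : iSup D = ⊤)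
    (hH : Cfsg.Geo.decompositionStabilizer D ⊓ Cfsg.Geo.specialLinear ι F ≤ M) {g : GL ι F} (hg : g ∈ M)
    (hgs : g ∉ Cfsg.Geo.decompositionStabilizer D) : Cfsg.Geo.specialLinear ι F ≤ M := by
  obtain ⟨π, h1, h2, h3, h4⟩ := exists_proj hind htop
  have hp : Pj D π := ⟨h1, h2, h3, h4⟩
  obtain ⟨P, ε, hP1, hP2⟩ := exists_P hp hk (card_eq_of_decomp hind htop hk)
  apply le_of_comap P
  have hconj : ∀ g' : GL ι F, MulAut.conj P g' = P * g' * P⁻¹ := fun g' => by
    rw [MulAut.conj_apply]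
  refine MN.sl_le_of_nonmono (g := P⁻¹ * g * P) hq hn ?_ ?_ ?_
  · intro g' hg' hmono
    rw [Subgroup.mem_comap]
    show MulAut.conj P g' ∈ M
    rw [hconj]
    refine hH ⟨mono_iff_stab hk hind htop hP1 hP2 hmono, ?_⟩
    show Matrix.GeneralLinearGroup.det (P * g' * P⁻¹) = 1
    have hg'' : Matrix.GeneralLinearGroup.det g' = 1 := hg'
    rw [map_mul, map_mul, hg'', mul_one, map_inv, mul_inv_cancel]
  · rw [Subgroup.mem_comap]
    show MulAut.conj P (P⁻¹ * g * P) ∈ M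
    rw [hconj]
    simpa [mul_assoc] using hg
  · intro hmono
    apply hgs
    have := mono_iff_stab hk hind htop hP1 hP2 hmono
    simpa [mul_assoc] using this

/-- the stabilizer is proper -/
theorem stab_lt (hk : ∀ i, finrank F (D i) = m) (hm : 0 < m) (ht : 2 ≤ t) (hind : iSupIndep D) (htop : iSup D = ⊤) :
    Cfsg.Geo.decompositionStabilizer D ⊓ Cfsg.Geo.specialLinear ι F < Cfsg.Geo.specialLinear ι F := by
  obtain ⟨π, h1, h2, h3, h4⟩ := exists_proj hind htop
  have hp : Pj D π := ⟨h1, h2, h3, h4⟩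
  rw [SetLike.lt_iff_le_and_exists]
  refine ⟨inf_le_right, ?_⟩
  let l₁ : Fin t := ⟨0, by omega⟩
  let l₂ : Fin t := ⟨1, by omega⟩
  have h12 : l₁ ≠ l₂ := by simp [l₁, l₂, Fin.ext_iff]
  obtain ⟨w₁, hw₁, hw₁0⟩ : ∃ w₁ ∈ D l₁, w₁ ∉ (⊥ : Submodule F (ι → F)) := by
    apply exists_mem_notMem hk
    simp [hm]
  obtain ⟨w₂, hw₂, hw₂0⟩ : ∃ w₂ ∈ D l₂, w₂ ∉ (⊥ : Submodule F (ι → F)) := by
    apply exists_mem_notMem hk
    simp [hm]
  obtain ⟨θ, hθ, hθ1, -⟩ := exists_form hp hw₁ hw₁0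
  have hθ2 : θ w₂ = 0 := hθ l₂ h12.symm w₂ hw₂
  refine ⟨tv hθ2, tv_mem_SL hθ2, ?_⟩
  rintro ⟨hst, -⟩
  obtain ⟨σ, hσ⟩ := act_mem_of_stabD hst
  have h5 := hσ l₁ w₁ hw₁
  rw [act_tv_apply, hθ1, one_smul] at h5
  by_cases hl : σ l₁ = l₁
  · rw [hl] at h5
    have h6 := hp.zero l₂ l₁ h12.symm _ h5
    rw [map_add, hp.zero l₂ l₁ h12.symm w₁ hw₁, hp.fix l₂ w₂ hw₂, zero_add] at h6
    exact hw₂0 (by simpa using h6)
  · have h6 := hp.zero l₁ (σ l₁) (Ne.symm hl) _ h5
    rw [map_add, hp.zero l₁ l₂ h12 w₂ hw₂, hp.fix l₁ w₁ hw₁, add_zero] at h6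
    exact hw₁0 (by simpa using h6)

end Cfsg.Agent.Lib.Geo.SD
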