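import Mathlib
import Cfsg.Agent.Lib.Geo.SUTools

set_option autoImplicit false

/-! The stabilizer in `SU` of a nondegenerate subspace of dimension less than half is maximal. -/

namespace Cfsg.Agent.Lib.Geo

open scoped MatrixGroups Matrix
open Module

variable {ι : Type} [Fintype ι] [DecidableEq ι] {F : Type*} [Field F]

local notation "V" => (ι → F)

variable {σ : F →+* F} {f : (ι → F) → (ι → F) → F}

section

variable [Finite F] (hf : SForm σ f) (hσ : σ ≠ RingHom.id F) (hn : 13 ≤ Fintype.card ι)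

/-- The data of the situation: `W`, its complement `Y` and the subgroup `M`. -/
structure NdPair (hf : SForm σ f) (W : Submodule F (ι → F)) (M : Subgroup (GL ι F)) : Prop where
  hc : 13 ≤ Fintype.card ι
  hW : ∀ w ∈ W, w ≠ 0 → ∃ x ∈ W, f x w ≠ 0
  hdim : 2 * finrank F W < Fintype.card ι
  hMS : M ≤ uGroup f ⊓ Cfsg.Geo.specialLinear ι F
  hPM : Cfsg.Geo.subspaceStabilizer W ⊓ (uGroup f ⊓ Cfsg.Geo.specialLinear ι F) ≤ M

namespace NdPair

variable {W : Submodule F (ι → F)} {M : Subgroup (GL ι F)} {hf}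

theorem hMU (P : NdPair hf W M) : M ≤ uGroup f := fun _ h => (P.hMS h).1

theorem inf_zero (P : NdPair hf W M) {x : V} (h1 : x ∈ W) (h2 : x ∈ hf.lperp W) : x = 0 := by
  by_contra h0
  obtain ⟨y, hy, hxy⟩ := P.hW x h1 h0
  exact hxy (hf.eq_zero_flip (h2 y hy))

theorem ne_zero_of_W (P : NdPair hf W M) {x : V} (h1 : x ∈ W) (h0 : x ≠ 0) : x ∉ hf.lperp W :=
  fun h2 => h0 (P.inf_zero h1 h2)

theorem ne_zero_of_Y (P : NdPair hf W M) {x : V} (h1 : x ∈ hf.lperp W) (h0 : x ≠ 0) : x ∉ W :=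
  fun h2 => h0 (P.inf_zero h2 h1)

theorem orth_WY (_ : NdPair hf W M) {w z : V} (h1 : w ∈ W) (h2 : z ∈ hf.lperp W) : f w z = 0 :=
  hf.eq_zero_flip (h2 w h1)

theorem orth_YW (_ : NdPair hf W M) {w z : V} (h1 : w ∈ W) (h2 : z ∈ hf.lperp W) : f z w = 0 :=
  h2 w h1

theorem finrank_Y (P : NdPair hf W M) : 7 ≤ finrank F (hf.lperp W) := by
  have h1 := hf.finrank_lperp W
  have h2 := P.hdim
  have h3 := P.hc
  omega

theorem finrank_lt (P : NdPair hf W M) : finrank F W < finrank F (hf.lperp W) := by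
  have h1 := hf.finrank_lperp W
  have h2 := P.hdim
  omega

theorem compl (P : NdPair hf W M) (x : V) : ∃ w ∈ W, ∃ z ∈ hf.lperp W, x = w + z := by
  have hd : Disjoint W (hf.lperp W) := by
    rw [Submodule.disjoint_def]
    intro y h1 h2
    exact P.inf_zero h1 h2
  have h1 := Submodule.finrank_sup_add_finrank_inf_eq W (hf.lperp W)
  have h2 := hf.finrank_lperp W
  rw [hd.eq_bot, finrank_bot, add_zero] at h1
  have h3 : W ⊔ hf.lperp W = ⊤ := by
    apply Submodule.eq_top_of_finrank_eq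
    rw [h1]
    simp
    omega
  have : x ∈ W ⊔ hf.lperp W := by rw [h3]; trivial
  obtain ⟨w, hw, z, hz, rfl⟩ := Submodule.mem_sup.1 this
  exact ⟨w, hw, z, hz, rfl⟩

theorem hY (P : NdPair hf W M) : ∀ y ∈ hf.lperp W, y ≠ 0 → ∃ x ∈ hf.lperp W, f x y ≠ 0 := by
  intro y hy h0
  obtain ⟨x, hx⟩ := hf.nd y h0
  obtain ⟨w, hw, z, hz, rfl⟩ := P.compl x
  refine ⟨z, hz, fun h => hx ?_⟩
  rw [hf.add_left, h, add_zero]
  exact P.orth_WY hw hy

theorem norm_add (P : NdPair hf W M) {w z : V} (h1 : w ∈ W) (h2 : z ∈ hf.lperp W) :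
    f (w + z) (w + z) = f w w + f z z := by
  rw [hf.add_left, hf.add_right, hf.add_right, P.orth_WY h1 h2, P.orth_YW h1 h2, add_zero, zero_add]

theorem UA_W (P : NdPair hf W M) {w : V} (hw : w ∈ W) (hww : f w w = 0) : UA hf M w :=
  ⟨hww, fun c hc => P.hPM ⟨ut_mem_stab_of_mem hf hww hw c, ut_mem_SU hf hww hc⟩⟩

theorem UA_Y (P : NdPair hf W M) {z : V} (hz : z ∈ hf.lperp W) (hzz : f z z = 0) : UA hf M z :=
  ⟨hzz, fun c hc => P.hPM ⟨ut_mem_stab_of_orth hf hzz (fun w hw => P.orth_WY hw hz) c,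
    ut_mem_SU hf hzz hc⟩⟩

include hσ hn in
/-- moving the `Y`-part by an element of the stabilizer -/
theorem move_Y (P : NdPair hf W M) {w z z' : V} (hw : w ∈ W) (hz : z ∈ hf.lperp W)
    (hz' : z' ∈ hf.lperp W) (hz0 : z ≠ 0) (hz'0 : z' ≠ 0) (hzz : f z z = f z' z')
    (hu : UA hf M (w + z)) : UA hf M (w + z') := by
  obtain ⟨g, hg, h1, h2⟩ := witt_step hf hσ W (P.ne_zero_of_Y hz hz0) (P.ne_zero_of_Y hz' hz'0) hzz
    (fun a ha => by rw [P.orth_WY ha hz, P.orth_WY ha hz'])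
  obtain ⟨a, ha, -, haa⟩ := solve_in hf hσ (hf.lperp W) P.hY [] (by simpa using (by have := P.finrank_Y; omega))
    (Submodule.zero_mem _) (c := 1) (map_one σ)
  -- now a vector of norm one orthogonal to `z'`
  obtain ⟨b, hb, hb1, hbb⟩ := solve_in hf hσ (hf.lperp W) P.hY [hf.lf z']
    (by have := P.finrank_Y; simpa using (by omega)) (Submodule.zero_mem _) (c := 1) (map_one σ)
  have hbz : f b z' = 0 := by
    have := hb1 (hf.lf z') (by simp)
    simpa [hf.zero_left] using this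
  obtain ⟨r, hr, hr1, hr2⟩ := exists_det_fix hf hσ hn hg hbb
  have hgW : r * g ∈ Cfsg.Geo.subspaceStabilizer W := by
    apply mem_stab_of_forall
    intro x hx
    rw [map_mul, LinearEquiv.mul_apply, h1 x hx, hr1 x (P.orth_WY hx hb)]
    exact hx
  have hmem : r * g ∈ M := P.hPM ⟨hgW, Subgroup.mul_mem _ hr hg, hr2⟩
  have := UA_act P.hMU hmem hu
  rwa [map_mul, LinearEquiv.mul_apply, map_add, h1 w hw, h2, map_add, hr1 w (P.orth_WY hw hb),
    hr1 z' (hf.eq_zero_flip hbz)] at this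

include hσ hn in
/-- moving the `W`-part by an element of the stabilizer -/
theorem move_W (P : NdPair hf W M) {w w' z : V} (hw : w ∈ W) (hw' : w' ∈ W) (hz : z ∈ hf.lperp W)
    (hw0 : w ≠ 0) (hw'0 : w' ≠ 0) (hww : f w w = f w' w')
    (hu : UA hf M (w + z)) : UA hf M (w' + z) := by
  obtain ⟨g, hg, h1, h2⟩ := witt_step hf hσ (hf.lperp W) (P.ne_zero_of_W hw hw0)
    (P.ne_zero_of_W hw' hw'0) hww
    (fun a ha => by rw [P.orth_YW hw ha, P.orth_YW hw' ha])
  obtain ⟨b, hb, hb1, hbb⟩ := solve_in hf hσ (hf.lperp W) P.hY [hf.lf z]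
    (by have := P.finrank_Y; simpa using (by omega)) (Submodule.zero_mem _) (c := 1) (map_one σ)
  have hbz : f b z = 0 := by
    have := hb1 (hf.lf z) (by simp)
    simpa [hf.zero_left] using this
  obtain ⟨r, hr, hr1, hr2⟩ := exists_det_fix hf hσ hn hg hbb
  have hgW : r * g ∈ Cfsg.Geo.subspaceStabilizer W := by
    apply mem_stab_of_forall
    intro x hx
    have hgx : act g x ∈ W := by
      rw [← hf.lperp_lperp W]
      intro y hy
      have := hg x y
      rw [h1 y hy, P.orth_WY hx hy] at this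
      exact this
    rw [map_mul, LinearEquiv.mul_apply, hr1 _ (P.orth_WY hgx hb)]
    exact hgx
  have hmem : r * g ∈ M := P.hPM ⟨hgW, Subgroup.mul_mem _ hr hg, hr2⟩
  have := UA_act P.hMU hmem hu
  rwa [map_mul, LinearEquiv.mul_apply, map_add, h2, h1 z hz, map_add, hr1 w' (P.orth_WY hw' hb),
    hr1 z (hf.eq_zero_flip hbz)] at this

/-- the class of pairs with prescribed norm -/
def Cl (hf : SForm σ f) (W : Submodule F (ι → F)) (M : Subgroup (GL ι F)) (e : F) : Prop :=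
  ∀ w ∈ W, ∀ z ∈ hf.lperp W, w ≠ 0 → z ≠ 0 → f w w = e → f z z = -e → UA hf M (w + z)

include hσ hn in
theorem cl_of_witness (P : NdPair hf W M) {w₀ z₀ : V} (hw₀ : w₀ ∈ W) (hz₀ : z₀ ∈ hf.lperp W) (hw₀0 : w₀ ≠ 0)
    (hz₀0 : z₀ ≠ 0) (hu : UA hf M (w₀ + z₀)) : Cl hf W M (f w₀ w₀) := by
  intro w hw z hz hw0 hz0 he1 he2
  have h0 := hu.iso
  rw [P.norm_add hw₀ hz₀] at h0
  have h1 : f z₀ z₀ = f z z := by
    rw [he2]
    linear_combination h0
  have h2 := P.move_Y hσ hn hw₀ hz₀ hz hz₀0 hz0 h1 hu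
  exact P.move_W hσ hn hw₀ hw hz hw₀0 hw0 he1.symm h2

include hσ in
theorem cl_scale (P : NdPair hf W M) {e e' : F} (he : e ≠ 0) (hes : σ e = e) (he' : e' ≠ 0)
    (hes' : σ e' = e') (h : Cl hf W M e) : Cl hf W M e' := by
  intro w hw z hz hw0 hz0 h1 h2
  obtain ⟨μ, hμ0, hμ⟩ := Cfsg.Agent.Lib.Classical.Witt.norm_surj_sigma σ hσ hf.inv (e / e')
    (div_ne_zero he he') (by rw [map_div₀, hes, hes'])
  have h3 := h (μ • w) (W.smul_mem _ hw) (μ • z) (Submodule.smul_mem _ _ hz)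
    (smul_ne_zero hμ0 hw0) (smul_ne_zero hμ0 hz0)
    (by
      rw [hf.smul_left, hf.smul_right, h1, ← mul_assoc, hμ]
      field_simp)
    (by
      rw [hf.smul_left, hf.smul_right, h2, ← mul_assoc, hμ]
      field_simp)
  have h4 := UA_smul h3 μ⁻¹
  rwa [smul_add, smul_smul, smul_smul, inv_mul_cancel₀ hμ0, one_smul, one_smul] at h4

include hσ hn in
/-- from nonzero norms to norm zero -/
theorem cl_zero_of (P : NdPair hf W M) (h : ∀ e, e ≠ 0 → σ e = e → Cl hf W M e) : Cl hf W M 0 := by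
  intro w hw z hz hw0 hz0 h1 h2
  have h2' : f z z = 0 := by simpa using h2
  obtain ⟨δ, hδ0, hδ⟩ := exists_trace_zero hσ hf
  obtain ⟨v, hv, hvw⟩ := P.hW w hw hw0
  obtain ⟨t, ht⟩ := exists_adjust hf hσ h1 hvw (c := 1) (map_one σ)
  set w₁ : V := v + t • w with hw₁
  have hw₁W : w₁ ∈ W := W.add_mem hv (W.smul_mem _ hw)
  set d := f v w with hd
  have hw₁w : f w₁ w = d := by
    rw [hw₁, hf.add_left, hf.smul_left, h1, mul_zero, add_zero]
  have hww₁ : f w w₁ = σ d := by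
    rw [hf.herm, hw₁w]
  have hd0 : d ≠ 0 := hvw
  have hσd : σ d ≠ 0 := fun h => hd0 ((map_eq_zero σ).1 h)
  -- the `Y`-part
  set m := d⁻¹ - σ d with hm
  obtain ⟨y, hy, hyz⟩ := P.hY z hz hz0
  obtain ⟨z₁, hz₁, hz₁1, hz₁2⟩ := solve_in hf hσ (hf.lperp W) P.hY [hf.lf z]
    (by have := P.finrank_Y; simpa using (by omega))
    (Submodule.smul_mem _ (σ m / f y z) hy) (c := -1) (by simp)
  have hz₁z : f z₁ z = σ m := by
    have := hz₁1 (hf.lf z) (by simp)
    simp only [SForm.lf_apply, hf.smul_left] at this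
    rw [this]
    field_simp
  have hzz₁ : f z z₁ = m := by
    rw [hf.herm, hz₁z, hf.inv]
  have hz₁0 : z₁ ≠ 0 := by
    rintro rfl
    rw [hf.zero_left] at hz₁2
    exact one_ne_zero (neg_eq_zero.1 hz₁2.symm)
  have hw₁0 : w₁ ≠ 0 := by
    intro h
    rw [h, hf.zero_left] at ht
    exact zero_ne_one ht
  have hu₁ : UA hf M (w₁ + z₁) := h 1 one_ne_zero (map_one σ) w₁ hw₁W z₁ hz₁ hw₁0 hz₁0 ht hz₁2
  have hκ : f (w + z) (w₁ + z₁) = d⁻¹ := by
    simp only [hf.add_left, hf.add_right]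
    rw [hww₁, hzz₁, P.orth_WY hw hz₁, P.orth_YW hw₁W hz, hm]
    ring
  set κ' := δ * d⁻¹ with hκ'
  have hδ' : -δ + σ (-δ) = 0 := by
    rw [map_neg]
    linear_combination -hδ
  have hu₀ := hu₁.iso
  set u₂ : V := act (ut hf hu₀ (-δ)) (w + z) with hu₂
  have hu₂e : u₂ = (w - κ' • w₁) + (z - κ' • z₁) := by
    rw [hu₂, act_ut, hκ, smul_add, hκ']
    have : -δ * d⁻¹ = -(δ * d⁻¹) := by ring
    rw [this, neg_smul, neg_smul]
    abel
  have hw₂ : w - κ' • w₁ ∈ W := W.sub_mem hw (W.smul_mem _ hw₁W)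
  have hz₂ : z - κ' • z₁ ∈ hf.lperp W := Submodule.sub_mem _ hz (Submodule.smul_mem _ _ hz₁)
  have hκ'0 : κ' ≠ 0 := mul_ne_zero hδ0 (inv_ne_zero hd0)
  have hσκ'0 : σ κ' ≠ 0 := fun h => hκ'0 ((map_eq_zero σ).1 h)
  have hn₂ : f (w - κ' • w₁) (w - κ' • w₁) = κ' * σ κ' := by
    simp only [hf.sub_left, hf.sub_right, hf.smul_left, hf.smul_right, h1, ht, hw₁w, hww₁]
    have e1 : κ' * d = δ := by
      rw [hκ']
      field_simp
    have e2 : σ κ' * σ d = σ δ := by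
      rw [← map_mul, e1]
    linear_combination -e2 - e1 - hδ
  have hiso₂ : f u₂ u₂ = 0 := by
    have e3 : f (w + z) (w + z) = 0 := by
      rw [P.norm_add hw hz, h1, h2', add_zero]
    rw [hu₂, ut_mem_u hf hu₀ hδ', e3]
  have hn₃ : f (z - κ' • z₁) (z - κ' • z₁) = -(κ' * σ κ') := by
    rw [hu₂e, P.norm_add hw₂ hz₂, hn₂] at hiso₂
    linear_combination hiso₂
  have hN0 : κ' * σ κ' ≠ 0 := mul_ne_zero hκ'0 hσκ'0
  have hwn : w - κ' • w₁ ≠ 0 := by
    intro h3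
    rw [h3, hf.zero_left] at hn₂
    exact hN0 hn₂.symm
  have hzn : z - κ' • z₁ ≠ 0 := by
    intro h3
    rw [h3, hf.zero_left] at hn₃
    exact hN0 (neg_eq_zero.1 hn₃.symm)
  have hu₃ : UA hf M u₂ := by
    rw [hu₂e]
    exact h _ hN0 (by rw [map_mul, hf.inv, mul_comm]) _ hw₂ _ hz₂ hwn hzn hn₂ hn₃
  have h4 := UA_act P.hMU (hu₁.mem hu₀ hδ) hu₃
  have h5 : act (ut hf hu₀ δ) u₂ = w + z := by
    rw [hu₂, act_ut_neg]
  rwa [h5] at h4

include hσ hn in
/-- from norm zero to norm one -/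
theorem cl_one_of_zero (P : NdPair hf W M) {w₁ z₁ : V} (hw₁ : w₁ ∈ W) (hz₁ : z₁ ∈ hf.lperp W)
    (hw₁0 : w₁ ≠ 0) (hz₁0 : z₁ ≠ 0) (hww : f w₁ w₁ = 0) (hzz : f z₁ z₁ = 0) (h : Cl hf W M 0) :
    Cl hf W M 1 := by
  obtain ⟨δ, hδ0, hδ⟩ := exists_trace_zero hσ hf
  obtain ⟨b₀, hb₀⟩ := htr_herm hσ hf.inv 1 (map_one σ)
  have hb₀0 : b₀ ≠ 0 := by
    rintro rfl
    rw [map_zero, add_zero] at hb₀
    exact zero_ne_one hb₀
  -- `w₂`
  obtain ⟨v, hv, hvw⟩ := P.hW w₁ hw₁ hw₁0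
  obtain ⟨t, ht⟩ := exists_adjust hf hσ hww hvw (c := 0) (map_zero σ)
  set w₂ : V := v + t • w₁ with hw₂
  have hw₂W : w₂ ∈ W := W.add_mem hv (W.smul_mem _ hw₁)
  set p := f v w₁ with hp
  have hp0 : p ≠ 0 := hvw
  have hσp : σ p ≠ 0 := fun h => hp0 ((map_eq_zero σ).1 h)
  have hw₂w₁ : f w₂ w₁ = p := by
    rw [hw₂, hf.add_left, hf.smul_left, hww, mul_zero, add_zero]
  have hw₁w₂ : f w₁ w₂ = σ p := by
    rw [hf.herm, hw₂w₁]
  have hw₂0 : w₂ ≠ 0 := by
    intro h3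
    rw [h3, hf.zero_left] at hw₂w₁
    exact hp0 hw₂w₁.symm
  set r := b₀ / (δ * σ p) with hr
  have hr0 : r ≠ 0 := div_ne_zero hb₀0 (mul_ne_zero hδ0 hσp)
  obtain ⟨y, hy, hyz⟩ := P.hY z₁ hz₁ hz₁0
  obtain ⟨z₂, hz₂, hz₂1, hz₂2⟩ := solve_in hf hσ (hf.lperp W) P.hY [hf.lf z₁]
    (by have := P.finrank_Y; simpa using (by omega))
    (Submodule.smul_mem _ (r / f y z₁) hy) (c := 0) (map_zero σ)
  have hz₂z₁ : f z₂ z₁ = r := by
    have := hz₂1 (hf.lf z₁) (by simp)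
    simp only [SForm.lf_apply, hf.smul_left] at this
    rw [this]
    field_simp
  have hz₁z₂ : f z₁ z₂ = σ r := by
    rw [hf.herm, hz₂z₁]
  have hz₂0 : z₂ ≠ 0 := by
    intro h3
    rw [h3, hf.zero_left] at hz₂z₁
    exact hr0 hz₂z₁.symm
  have hu₁ : UA hf M (w₁ + z₁) := h w₁ hw₁ z₁ hz₁ hw₁0 hz₁0 hww (by simpa using hzz)
  have hu₂ : UA hf M (w₂ + z₂) := h w₂ hw₂W z₂ hz₂ hw₂0 hz₂0 ht (by simpa using hz₂2)
  have hu₀ := hu₁.iso
  set κ := f (w₂ + z₂) (w₁ + z₁) with hκ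
  have hκe : κ = p + r := by
    rw [hκ]
    simp only [hf.add_left, hf.add_right]
    rw [hw₂w₁, hz₂z₁, P.orth_WY hw₂W hz₁, P.orth_YW hw₁ hz₂]
    ring
  have h3 := UA_act P.hMU (hu₁.mem hu₀ hδ) hu₂
  rw [act_ut, ← hκ] at h3
  have e1 : w₂ + z₂ + (δ * κ) • (w₁ + z₁) = (w₂ + (δ * κ) • w₁) + (z₂ + (δ * κ) • z₁) := by
    rw [smul_add]
    abel
  rw [e1] at h3
  have hw₃ : w₂ + (δ * κ) • w₁ ∈ W := W.add_mem hw₂W (W.smul_mem _ hw₁)
  have hz₃ : z₂ + (δ * κ) • z₁ ∈ hf.lperp W := Submodule.add_mem _ hz₂ (Submodule.smul_mem _ _ hz₁)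
  have hn₂ : f (w₂ + (δ * κ) • w₁) (w₂ + (δ * κ) • w₁) = 1 := by
    simp only [hf.add_left, hf.add_right, hf.smul_left, hf.smul_right, hww, ht, hw₂w₁, hw₁w₂, mul_zero,
      add_zero, zero_add]
    have e2 : δ * r * σ p = b₀ := by
      rw [hr]
      field_simp
    have e3 : σ δ * σ r * p = σ b₀ := by
      rw [← e2, map_mul, map_mul, hf.inv]
    rw [map_mul, hκe, map_add]
    have hσδ : σ δ = -δ := by linear_combination hδ
    linear_combination e2 + e3 + hb₀ + (p * σ p) * hδ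
  have h4 := h3.iso
  have hn₃ : f (z₂ + (δ * κ) • z₁) (z₂ + (δ * κ) • z₁) = -1 := by
    rw [P.norm_add hw₃ hz₃, hn₂] at h4
    linear_combination h4
  have hw0 : w₂ + (δ * κ) • w₁ ≠ 0 := by
    intro h5
    rw [h5, hf.zero_left] at hn₂
    exact zero_ne_one hn₂
  have hz0 : z₂ + (δ * κ) • z₁ ≠ 0 := by
    intro h5
    rw [h5, hf.zero_left] at hn₃
    exact one_ne_zero (neg_eq_zero.1 hn₃.symm)
  have h5 := P.cl_of_witness hσ hn hw₃ hz₃ hw0 hz0 h3
  rwa [hn₂] at h5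

end NdPair

open NdPair in
include hf hσ hn in
/-- The stabilizer in `SU` of a nondegenerate subspace of dimension less than half is maximal. -/
theorem isMaximalIn_su_stab_nondeg {W : Submodule F V} (hW0 : W ≠ ⊥)
    (hW : ∀ w ∈ W, w ≠ 0 → ∃ x ∈ W, f x w ≠ 0) (hdim : 2 * finrank F W < Fintype.card ι) :
    Cfsg.Geo.IsMaximalIn (uGroup f ⊓ Cfsg.Geo.specialLinear ι F)
      (Cfsg.Geo.subspaceStabilizer W ⊓ (uGroup f ⊓ Cfsg.Geo.specialLinear ι F)) := by
  have hiso := fun W hW => hiso_herm (f := f) hf hσ W hW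
  have htr : ∀ a, σ a = a → ∃ b, b + σ b = a := fun a ha => htr_herm hσ hf.inv a ha
  obtain ⟨δ, hδ0, hδ⟩ := exists_trace_zero hσ hf
  have P₀ : NdPair hf W (uGroup f ⊓ Cfsg.Geo.specialLinear ι F) := ⟨hn, hW, hdim, le_rfl, inf_le_right⟩
  refine ⟨?_, fun M hPM hMS => ?_⟩
  · rw [SetLike.lt_iff_le_and_exists]
    refine ⟨inf_le_right, ?_⟩
    obtain ⟨w, hw, hw0⟩ := (Submodule.ne_bot_iff W).1 hW0
    obtain ⟨w₁, hw₁, hw₁w⟩ := hW w hw hw0
    obtain ⟨b, hb, hb0⟩ : ∃ b ∈ hf.lperp W, b ≠ 0 := by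
      have : hf.lperp W ≠ ⊥ := by
        intro h
        have := P₀.finrank_Y
        rw [h, finrank_bot] at this
        omega
      exact (Submodule.ne_bot_iff _).1 this
    obtain ⟨b', hb', hb'b⟩ := P₀.hY b hb hb0
    obtain ⟨u, hu1, hu2⟩ := affine_solve hf hiso htr [hf.lf w, hf.lf b] (by simp; omega) (w₁ + b') (e := 0)
      (map_zero σ)
    have huw : f u w ≠ 0 := by
      have := hu1 (hf.lf w) (by simp)
      simp only [SForm.lf_apply, hf.add_left] at this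
      rw [this, P₀.orth_YW hw hb', add_zero]
      exact hw₁w
    have hub : f u b ≠ 0 := by
      have := hu1 (hf.lf b) (by simp)
      simp only [SForm.lf_apply, hf.add_left] at this
      rw [this, P₀.orth_WY hw₁ hb, zero_add]
      exact hb'b
    have hwu : f w u ≠ 0 := fun h => huw (hf.eq_zero_flip h)
    refine ⟨ut hf hu2 δ, ut_mem_SU hf hu2 hδ, fun hmem => ?_⟩
    have h1 := ((mem_stab_iff.1 hmem.1) w).1 hw
    rw [act_ut] at h1
    have h2 := (W.add_mem_iff_right hw).1 h1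
    have h3 : u ∈ W := (W.smul_mem_iff (mul_ne_zero hδ0 hwu)).1 h2
    exact hub (P₀.orth_WY h3 hb)
  by_cases hMP : M ≤ Cfsg.Geo.subspaceStabilizer W ⊓ (uGroup f ⊓ Cfsg.Geo.specialLinear ι F)
  · exact Or.inl (le_antisymm hMP hPM)
  right
  obtain ⟨g, hgM, hgP⟩ := SetLike.not_le_iff_exists.1 hMP
  have hgW : g ∉ Cfsg.Geo.subspaceStabilizer W := fun h => hgP ⟨h, hMS hgM⟩
  have P : NdPair hf W M := ⟨hn, hW, hdim, hMS, hPM⟩
  have hMU := P.hMU
  have hgU := hMU hgM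
  set Y := hf.lperp W with hYdef
  -- a witness with both components nonzero
  have hex : ∃ w₀ ∈ W, ∃ z₀ ∈ Y, w₀ ≠ 0 ∧ z₀ ≠ 0 ∧ UA hf M (w₀ + z₀) := by
    by_contra hcon
    push Not at hcon
    have hdich : ∀ x, UA hf M x → x ∈ W ∨ x ∈ Y := by
      intro x hx
      obtain ⟨w, hw, z, hz, rfl⟩ := P.compl x
      by_cases hw0 : w = 0
      · right
        rw [hw0, zero_add]
        exact hz
      · by_cases hz0 : z = 0
        · left
          rw [hz0, add_zero]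
          exact hw
        · exact absurd hx (hcon w hw z hz hw0 hz0)
    have himg : ∀ z ∈ Y, f z z = 0 → act g z ∈ W ∨ act g z ∈ Y := fun z hz hzz =>
      hdich _ (UA_act hMU hgM (P.UA_Y hz hzz))
    by_cases hall : ∀ z ∈ Y, f z z = 0 → act g z ∈ Y
    · -- `g` stabilizes `Y`
      have h1 : ∀ x ∈ Y, act g x ∈ Y := by
        intro x hx
        obtain ⟨p, hp, -, hp2, hp3⟩ := iso_decomp_in hf hσ Y P.hY [] (by simpa using P.finrank_Y) hx
          (by simp)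
        have := Y.add_mem (hall p hp hp2) (hall (x - p) (Y.sub_mem hx hp) hp3)
        rwa [← map_add, add_sub_cancel] at this
      have h2 : ∀ x ∈ Y, act g⁻¹ x ∈ Y := by
        intro x hx
        have hst := mem_stab_of_forall h1
        exact ((mem_stab_iff.1 (Subgroup.inv_mem _ hst)) x).1 hx
      apply hgW
      apply mem_stab_of_forall
      intro w hw
      rw [← hf.lperp_lperp W]
      intro y hy
      have := hgU w (act g⁻¹ y)
      rw [act_act_inv, P.orth_WY hw (h2 y hy)] at this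
      exact this
    · push Not at hall
      obtain ⟨z₁, hz₁, hz₁z, hz₁Y⟩ := hall
      have hz₁W : act g z₁ ∈ W := (himg z₁ hz₁ hz₁z).resolve_right hz₁Y
      have hz₁0 : z₁ ≠ 0 := by
        rintro rfl
        apply hz₁Y
        rw [map_zero]
        exact Y.zero_mem
      have h1 : ∀ z ∈ Y, f z z = 0 → act g z ∈ W := by
        intro z hz hzz
        by_cases hz0 : z = 0
        · rw [hz0, map_zero]
          exact W.zero_mem
        by_contra hzW
        have hzY : act g z ∈ Y := (himg z hz hzz).resolve_left hzW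
        have horth : f z₁ z = 0 := by
          have := hgU z₁ z
          rw [P.orth_WY hz₁W hzY] at this
          exact this.symm
        obtain ⟨y₁, hy₁, h3⟩ := P.hY z₁ hz₁ hz₁0
        obtain ⟨y₂, hy₂, h4⟩ := P.hY z hz hz0
        obtain ⟨y, hy, h5, h6⟩ := exists_avoid2 (α := hf.lf z₁) (β := hf.lf z) hy₁ hy₂ h3 h4
        simp only [SForm.lf_apply] at h5 h6
        obtain ⟨t, ht⟩ := exists_adjust hf hσ hz₁z h5 (c := 0) (map_zero σ)
        set y' : V := y + t • z₁ with hy'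
        have hy'Y : y' ∈ Y := Y.add_mem hy (Y.smul_mem _ hz₁)
        have h7 : f y' z₁ ≠ 0 := by
          rw [hy', hf.add_left, hf.smul_left, hz₁z, mul_zero, add_zero]
          exact h5
        have h8 : f y' z ≠ 0 := by
          rw [hy', hf.add_left, hf.smul_left, horth, mul_zero, add_zero]
          exact h6
        rcases himg y' hy'Y ht with h9 | h9
        · apply h8
          have := hgU y' z
          rw [P.orth_WY h9 hzY] at this
          exact this.symm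
        · apply h7
          have := hgU y' z₁
          rw [P.orth_YW hz₁W h9] at this
          exact this.symm
      have h2 : Y.map ((act g : V ≃ₗ[F] V) : V →ₗ[F] V) ≤ W := by
        rintro _ ⟨x, hx, rfl⟩
        obtain ⟨p, hp, -, hp2, hp3⟩ := iso_decomp_in hf hσ Y P.hY [] (by simpa using P.finrank_Y) hx
          (by simp)
        have := W.add_mem (h1 p hp hp2) (h1 (x - p) (Y.sub_mem hx hp) hp3)
        rwa [← map_add, add_sub_cancel] at this
      have h3 := Submodule.finrank_mono h2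
      rw [LinearEquiv.finrank_map_eq] at h3
      have : finrank F W < finrank F Y := P.finrank_lt
      omega
  obtain ⟨w₀, hw₀, z₀, hz₀, hw₀0, hz₀0, hu₀⟩ := hex
  have hC := P.cl_of_witness hσ hn hw₀ hz₀ hw₀0 hz₀0 hu₀
  have hC' : (∀ e, e ≠ 0 → σ e = e → Cl hf W M e) ∧ Cl hf W M 0 := by
    by_cases he : f w₀ w₀ = 0
    · have h0 : Cl hf W M 0 := he ▸ hC
      have hzz : f z₀ z₀ = 0 := by
        have h := hu₀.iso
        rw [P.norm_add hw₀ hz₀, he, zero_add] at h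
        exact h
      have h1 := P.cl_one_of_zero hσ hn hw₀ hz₀ hw₀0 hz₀0 he hzz h0
      exact ⟨fun e he1 he2 => P.cl_scale hσ one_ne_zero (map_one σ) he1 he2 h1, h0⟩
    · have h1 : ∀ e, e ≠ 0 → σ e = e → Cl hf W M e := fun e he1 he2 =>
        P.cl_scale hσ he (hf.self_fixed _) he1 he2 hC
      exact ⟨h1, P.cl_zero_of hσ hn h1⟩
  obtain ⟨hC1, hC0⟩ := hC'
  refine le_antisymm hMS (su_le_of_UA hf hσ hn fun x hx => ?_)
  obtain ⟨w, hw, z, hz, rfl⟩ := P.compl x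
  have hxx : f w w + f z z = 0 := by
    rwa [P.norm_add hw hz] at hx
  by_cases hw0 : w = 0
  · rw [hw0, zero_add]
    rw [hw0, hf.zero_left, zero_add] at hxx
    exact P.UA_Y hz hxx
  by_cases hz0 : z = 0
  · rw [hz0, add_zero]
    rw [hz0, hf.zero_left, add_zero] at hxx
    exact P.UA_W hw hxx
  have hzz : f z z = - f w w := by linear_combination hxx
  by_cases he : f w w = 0
  · exact hC0 w hw z hz hw0 hz0 he (by simp [hzz, he])
  · exact hC1 _ he (hf.self_fixed w) w hw z hz hw0 hz0 rfl hzz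

end

end Cfsg.Agent.Lib.Geo
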