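import Mathlib
import Cfsg.Agent.Lib.Geo.SUOrthBasic

set_option autoImplicit false

/-! The orthogonal subfield subgroup of `SU_n(q)`: a moved singular vector, and the resulting unitary
transvections. -/

namespace Cfsg.Agent.Lib.Geo

open scoped MatrixGroups Matrix commutatorElement
open Module

variable {ι : Type} [Fintype ι] [DecidableEq ι] {F : Type*} [Field F]
variable {F₀ : Subfield F} {σ : F →+* F} {f : (ι → F) → (ι → F) → F}

namespace RO

variable {P : GL ι F} {hf : SForm σ f} {ω : F} {Q₀ : (ι → F₀) → F₀} (S : RO P hf ω Q₀)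

local notation "R" => rat F₀ P
local notation "B" => QuadraticMap.polar Q₀

variable [Finite F] [Fintype F₀] (hn : 13 ≤ Fintype.card ι)

include S hn

/-- Some singular rational vector is moved off the rational multiples. -/
theorem exists_moved {g : GL ι F} (hg : g ∉ Cfsg.Geo.subfieldSubgroup F₀ P) :
    ∃ y₀, Q₀ y₀ = 0 ∧ ∀ (c : F) (w : ι → F₀), act g (R y₀) ≠ c • R w := by
  by_contra hcon
  push Not at hcon
  apply hg
  refine mem_subfield_of P σ S.hfix ?_
  have hinj : ∀ x, act g x = 0 → x = 0 := fun x hx => by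
    simpa using (act g).injective (hx.trans (map_zero (act g)).symm)
  have hRinj : ∀ x : ι → F₀, R x = 0 → x = 0 := fun x hx => rat_injective P (hx.trans (rat_zero P).symm)
  -- the step
  have step : ∀ s s' : ι → F₀, s ≠ 0 → Q₀ s = 0 → Q₀ s' = 0 → B s s' = 0 → (∀ t : F₀, s' ≠ t • s) →
      ∀ (κ : F) (w : ι → F₀), κ ≠ 0 → act g (R s) = κ • R w → ∃ w', act g (R s') = κ • R w' := by
    intro s s' hs hQs hQs' hss' hind κ w hκ hw
    obtain ⟨c', w', h1⟩ := hcon s' hQs'
    have hsum : Q₀ (s + s') = 0 := by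
      rw [Q_add' (Q := Q₀), hQs, hQs', hss']
      ring
    obtain ⟨c'', w'', h2⟩ := hcon (s + s') hsum
    rw [rat_add, map_add, hw, h1] at h2
    have hs'0 : s' ≠ 0 := fun h => hind 0 (by rw [h, zero_smul])
    have hc' : c' ≠ 0 := by
      rintro rfl
      rw [zero_smul] at h1
      exact hs'0 (hRinj _ (hinj _ h1))
    have hc'' : c'' ≠ 0 := by
      rintro rfl
      rw [zero_smul, ← hw, ← h1, ← map_add, ← rat_add] at h2
      have h3 := hRinj _ (hinj _ h2)
      apply hind (-1)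
      rw [neg_smul, one_smul]
      exact eq_neg_of_add_eq_zero_right h3
    set α := κ / c'' with hα
    set β := c' / c'' with hβ
    have hα0 : α ≠ 0 := div_ne_zero hκ hc''
    have hβ0 : β ≠ 0 := div_ne_zero hc' hc''
    have h3 : α • R w + β • R w' = R w'' := by
      have h4 := congrArg (fun v => c''⁻¹ • v) h2
      simp only [smul_add, smul_smul] at h4
      rw [inv_mul_cancel₀ hc'', one_smul] at h4
      rw [← h4, hα, hβ]
      congr 2 <;> field_simp
    have h4 := congrArg (twist P σ) h3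
    rw [twist_add, twist_smul, twist_smul, twist_rat P σ S.hfix, twist_rat P σ S.hfix, twist_rat P σ S.hfix, ← h3] at h4
    have h5 : ((σ α - α) * κ⁻¹) • R s + ((σ β - β) * c'⁻¹) • R s' = 0 := by
      apply hinj
      rw [map_add, map_smul, map_smul, hw, h1, smul_smul, smul_smul, mul_assoc, mul_assoc,
        inv_mul_cancel₀ hκ, inv_mul_cancel₀ hc', mul_one, mul_one, sub_smul, sub_smul, sub_add_sub_comm, h4, sub_self]
    obtain ⟨h6, h7⟩ := S.rat_indep2 hs hind h5
    have hκ' : κ⁻¹ ≠ 0 := inv_ne_zero hκ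
    have hc'i : c'⁻¹ ≠ 0 := inv_ne_zero hc'
    have h8 : σ α = α := sub_eq_zero.1 ((mul_eq_zero.1 h6).resolve_right hκ')
    have h9 : σ β = β := sub_eq_zero.1 ((mul_eq_zero.1 h7).resolve_right hc'i)
    have h10 : c' / κ ∈ F₀ := by
      rw [← S.hfix]
      have e : c' / κ = β / α := by
        rw [hα, hβ]
        field_simp
      rw [e, map_div₀, h8, h9]
    refine ⟨(⟨c' / κ, h10⟩ : F₀) • w', ?_⟩
    rw [h1, rat_smul, smul_smul]
    congr 1
    simp only
    field_simp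
  -- a base point
  obtain ⟨s₀, -, t₀, -, hs₀, -, hst⟩ := exists_hyp_pair S.hQ (⊤ : Submodule F₀ (ι → F₀)) (by
    rw [finrank_top]
    simp
    omega)
  have hs₀0 : s₀ ≠ 0 := by
    rintro rfl
    rw [pol_zero_left S.hQ] at hst
    exact zero_ne_one hst
  obtain ⟨c₀, w₀, hc₀⟩ := hcon s₀ hs₀
  have hc₀0 : c₀ ≠ 0 := by
    rintro rfl
    rw [zero_smul] at hc₀
    exact hs₀0 (hRinj _ (hinj _ hc₀))
  have hall : ∀ s'' : ι → F₀, Q₀ s'' = 0 → ∃ w, act g (R s'') = c₀ • R w := by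
    intro s'' hs''
    by_cases h0 : s'' = 0
    · subst h0
      exact ⟨0, by simp [rat_zero]⟩
    have hA : finrank F₀ ↥(Submodule.span F₀ {s₀} ⊔ Submodule.span F₀ {s''}) ≤ 4 := by
      have h8 := finrank_add_one_le (Submodule.span F₀ {s₀}) s''
      have h9 : finrank F₀ (Submodule.span F₀ {s₀}) ≤ 1 := finrank_span_le_card _ |>.trans (by simp)
      omega
    obtain ⟨z, hz, z1, z2, z3⟩ := S.exists_sing_not hn _ hA s₀ s''
      (Submodule.mem_sup_left (Submodule.mem_span_singleton_self _))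
      (Submodule.mem_sup_right (Submodule.mem_span_singleton_self _))
    have hz0 : z ≠ 0 := by
      rintro rfl
      exact z3 (Submodule.zero_mem _)
    obtain ⟨w₁, h1⟩ := step s₀ z hs₀0 hs₀ hz (by rw [pol_comm']; exact z1) (fun t ht => z3 (by
      rw [ht]
      exact Submodule.smul_mem _ _ (Submodule.mem_sup_left (Submodule.mem_span_singleton_self _)))) c₀ w₀ hc₀0 hc₀
    refine step z s'' hz0 hz hs'' z2 (fun t ht => z3 ?_) c₀ w₁ hc₀0 h1
    have ht0 : t ≠ 0 := by
      rintro rfl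
      rw [zero_smul] at ht
      exact h0 ht
    have e : z = t⁻¹ • s'' := by
      rw [ht, smul_smul, inv_mul_cancel₀ ht0, one_smul]
    rw [e]
    exact Submodule.smul_mem _ _ (Submodule.mem_sup_right (Submodule.mem_span_singleton_self _))
  intro u
  obtain ⟨p, -, hp, hp'⟩ := iso_decomp_Q_in S.hQ (⊤ : Submodule F₀ (ι → F₀)) (by
    intro y _ hy
    obtain ⟨x, hx⟩ := (sform_of_quad S.hQ).nd y hy
    exact ⟨x, trivial, hx⟩) (by
    rw [finrank_top]
    simp
    omega) (x := u) trivial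
  obtain ⟨w₁, h1⟩ := hall p hp
  obtain ⟨w₂, h2⟩ := hall (u - p) hp'
  refine ⟨c₀, w₁ + w₂, ?_⟩
  have e : R u = R p + R (u - p) := by
    rw [← rat_add]
    congr 1
    abel
  rw [e, map_add, h1, h2, rat_add, smul_add]

/-- One unitary transvection family at a rational singular vector. -/
theorem exists_UA {M : Subgroup (GL ι F)}
    (hHM : Cfsg.Geo.subfieldSubgroup F₀ P ⊓ (uGroup f ⊓ Cfsg.Geo.specialLinear ι F) ≤ M)
    (hMG : M ≤ uGroup f ⊓ Cfsg.Geo.specialLinear ι F) {g : GL ι F} (hgM : g ∈ M)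
    (hg : g ∉ Cfsg.Geo.subfieldSubgroup F₀ P) :
    ∃ a, a ≠ 0 ∧ Q₀ a = 0 ∧ UA hf M (R a) := by
  classical
  have hMu : M ≤ uGroup f := hMG.trans inf_le_left
  have hgu := hMu hgM
  have hRinj : ∀ x : ι → F₀, R x = 0 → x = 0 := fun x hx => rat_injective P (hx.trans (rat_zero P).symm)
  have hQ := S.hQ
  -- lifted Eichler elements
  have hL : ∀ {a w : ι → F₀}, Q₀ a = 0 → Q₀ w = 0 → B a w = 0 →
      ∃ h ∈ M, IsE f h (R a) (R w) := by
    intro a w ha hw haw
    exact ⟨_, hHM (S.lift_mem_H (sg_mem_omega hQ (by omega) ha haw)), S.lift_isE ha hw haw⟩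
  obtain ⟨y₀, hy₀, hmoved⟩ := S.exists_moved hn hg
  obtain ⟨d₁, d₂, hd⟩ := exists_decomp P S.hω (act g (R y₀))
  have hd10 : d₁ ≠ 0 := by
    rintro rfl
    apply hmoved ω d₂
    rw [hd, rat_zero, zero_add]
  have hd2 : ∀ t : F₀, d₂ ≠ t • d₁ := by
    rintro t rfl
    apply hmoved (1 + ω * t) d₁
    rw [hd, rat_smul, smul_smul, add_smul, one_smul]
  -- the shadow
  set D : Submodule F (ι → F) := Submodule.span F {R d₁} ⊔ Submodule.span F {R d₂} with hD
  have hDf : finrank F D ≤ 2 := by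
    have h8 : finrank F D ≤ finrank F (Submodule.span F {R d₁}) + 1 := finrank_sup_span_le _ _
    have h9 : finrank F (Submodule.span F {R d₁}) ≤ 1 := finrank_span_le_card _ |>.trans (by simp)
    omega
  let Sh : Submodule F₀ (ι → F₀) :=
    { carrier := {u | act g (R u) ∈ D}
      add_mem' := by
        intro a b ha hb
        simp only [Set.mem_setOf_eq] at ha hb ⊢
        rw [rat_add, map_add]
        exact D.add_mem ha hb
      zero_mem' := by
        simp only [Set.mem_setOf_eq]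
        rw [rat_zero, map_zero]
        exact D.zero_mem
      smul_mem' := by
        intro c x hx
        simp only [Set.mem_setOf_eq] at hx ⊢
        rw [rat_smul, map_smul]
        exact D.smul_mem _ hx }
  have hSh : finrank F₀ Sh ≤ 2 := by
    let b := Module.finBasis F₀ Sh
    have h1 : LinearIndependent F (fun i => R ((b i : Sh) : ι → F₀)) :=
      S.rat_li (b.linearIndependent.map' Sh.subtype (Submodule.ker_subtype Sh))
    have h2 : LinearIndependent F (fun i => act g (R ((b i : Sh) : ι → F₀))) :=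
      h1.map' ((act g : (ι → F) ≃ₗ[F] (ι → F)) : (ι → F) →ₗ[F] (ι → F)) (LinearEquiv.ker (act g))
    let v : Fin (finrank F₀ Sh) → D := fun i => ⟨act g (R ((b i : Sh) : ι → F₀)), (b i).2⟩
    have h3 : LinearIndependent F v := by
      apply LinearIndependent.of_comp D.subtype
      exact h2
    have h4 := h3.fintype_card_le_finrank
    simp only [Fintype.card_fin] at h4
    omega
  -- the vector `z`
  obtain ⟨z, hz, hzy, -, hzS⟩ : ∃ z, Q₀ z = 0 ∧ B z y₀ = 0 ∧ B z y₀ = 0 ∧ z ∉ Sh := by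
    obtain ⟨e, he1, he2⟩ := exists_perp_not hQ Sh (Submodule.span F₀ {y₀}) (by
      have h9 : finrank F₀ (Submodule.span F₀ {y₀}) ≤ 1 := finrank_span_le_card _ |>.trans (by simp)
      omega)
    obtain ⟨y, hy1, hy2⟩ := exists_val hQ he2
    obtain ⟨z, hz, z1, z2, -, -, -⟩ := solve5 hQ hn y₀ e e e e y
    rw [pol_comm' y y₀, hy2 y₀ (Submodule.mem_span_singleton_self _)] at z1
    rw [pol_comm' y e, hy1] at z2
    refine ⟨z, hz, z1, z1, fun hin => ?_⟩
    have := he1 z hin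
    rw [z2] at this
    exact one_ne_zero this
  obtain ⟨c₁, c₂, hc⟩ := exists_decomp P S.hω (act g (R z))
  have hcD : act g (R z) ∉ D := hzS
  -- the vector `a`
  set X : Submodule F₀ (ι → F₀) := Submodule.span F₀ {c₁} ⊔ Submodule.span F₀ {c₂} ⊔ Submodule.span F₀ {d₁} ⊔
    Submodule.span F₀ {d₂} with hX
  have hXf : finrank F₀ X ≤ 4 := by
    have h6 : finrank F₀ X ≤ _ := finrank_sup_span_le (Submodule.span F₀ {c₁} ⊔ Submodule.span F₀ {c₂} ⊔ Submodule.span F₀ {d₁}) d₂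
    have h7 := finrank_sup_span_le (Submodule.span F₀ {c₁} ⊔ Submodule.span F₀ {c₂}) d₁
    have h8 := finrank_sup_span_le (Submodule.span F₀ {c₁}) c₂
    have h9 : finrank F₀ (Submodule.span F₀ {c₁}) ≤ 1 := finrank_span_le_card _ |>.trans (by simp)
    omega
  obtain ⟨e, he1, he2⟩ := exists_perp_not hQ X X (by omega)
  obtain ⟨y', hy'1, hy'2⟩ := exists_val hQ he2
  have hc₁X : c₁ ∈ X := Submodule.mem_sup_left (Submodule.mem_sup_left (Submodule.mem_sup_left
    (Submodule.mem_span_singleton_self _)))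
  have hc₂X : c₂ ∈ X := Submodule.mem_sup_left (Submodule.mem_sup_left (Submodule.mem_sup_right
    (Submodule.mem_span_singleton_self _)))
  have hd₁X : d₁ ∈ X := Submodule.mem_sup_left (Submodule.mem_sup_right (Submodule.mem_span_singleton_self _))
  have hd₂X : d₂ ∈ X := Submodule.mem_sup_right (Submodule.mem_span_singleton_self _)
  obtain ⟨a, ha, a1, a2, a3, a4, a5⟩ := solve5 hQ hn c₁ c₂ d₁ d₂ e y'
  rw [pol_comm' y' c₁, hy'2 c₁ hc₁X] at a1
  rw [pol_comm' y' c₂, hy'2 c₂ hc₂X] at a2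
  rw [pol_comm' y' d₁, hy'2 d₁ hd₁X] at a3
  rw [pol_comm' y' d₂, hy'2 d₂ hd₂X] at a4
  rw [pol_comm' y' e, hy'1] at a5
  have haX : a ∉ X := by
    intro hin
    have := he1 a hin
    rw [a5] at this
    exact one_ne_zero this
  have ha0 : a ≠ 0 := by
    rintro rfl
    exact haX X.zero_mem
  -- the vector `b`
  set S₂ : Submodule F₀ (ι → F₀) := Submodule.span F₀ {a} ⊔ Submodule.span F₀ {d₁} ⊔ Submodule.span F₀ {d₂} with hS₂
  have hin_of : ∀ v ∈ S₂, v ∈ X → ∃ β γ : F₀, v = β • d₁ + γ • d₂ := by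
    intro v hv hvX
    obtain ⟨w, hw, w₃, hw₃, rfl⟩ := Submodule.mem_sup.1 hv
    obtain ⟨w₁, hw₁, w₂, hw₂, rfl⟩ := Submodule.mem_sup.1 hw
    obtain ⟨α, rfl⟩ := Submodule.mem_span_singleton.1 hw₁
    obtain ⟨β, rfl⟩ := Submodule.mem_span_singleton.1 hw₂
    obtain ⟨γ, rfl⟩ := Submodule.mem_span_singleton.1 hw₃
    have hα : α = 0 := by
      by_contra hα
      apply haX
      have e : a = α⁻¹ • ((α • a + β • d₁ + γ • d₂) - β • d₁ - γ • d₂) := by
        rw [show (α • a + β • d₁ + γ • d₂) - β • d₁ - γ • d₂ = α • a by abel, smul_smul, inv_mul_cancel₀ hα, one_smul]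
      rw [e]
      exact X.smul_mem _ (X.sub_mem (X.sub_mem hvX (X.smul_mem _ hd₁X)) (X.smul_mem _ hd₂X))
    subst hα
    exact ⟨β, γ, by simp⟩
  have hRD : ∀ β γ : F₀, R (β • d₁ + γ • d₂) ∈ D := by
    intro β γ
    rw [rat_add, rat_smul, rat_smul]
    exact D.add_mem (D.smul_mem _ (Submodule.mem_sup_left (Submodule.mem_span_singleton_self _)))
      (D.smul_mem _ (Submodule.mem_sup_right (Submodule.mem_span_singleton_self _)))
  obtain ⟨v, hv, hvS⟩ : ∃ v, (v = c₁ ∨ v = c₂) ∧ v ∉ S₂ := by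
    by_contra hcon
    push Not at hcon
    obtain ⟨β, γ, h1⟩ := hin_of c₁ (hcon c₁ (Or.inl rfl)) hc₁X
    obtain ⟨β', γ', h2⟩ := hin_of c₂ (hcon c₂ (Or.inr rfl)) hc₂X
    apply hcD
    rw [hc, h1, h2]
    exact D.add_mem (hRD _ _) (D.smul_mem _ (hRD _ _))
  obtain ⟨b, hb, b1, b2, b3, b4⟩ := S.exists_sing_val hn hvS (1 : F₀)
  obtain ⟨lam, hlam⟩ : ∃ lam, lam = f (R b) (act g (R z)) := ⟨_, rfl⟩
  have hlam' : lam = (B b c₁ : F₀) - ω * (B b c₂ : F₀) := by
    rw [hlam, hc, S.f_dec_right]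
  have hlam0 : lam ≠ 0 := by
    intro h0
    rw [hlam'] at h0
    have h1 : ((B b c₁ : F₀) : F) + ω * ((-B b c₂ : F₀) : F) = 0 := by
      rw [← h0]
      push_cast
      ring
    obtain ⟨h2, h3⟩ := S.dec_eq_zero h1
    rcases hv with rfl | rfl
    · rw [h2] at b4
      exact zero_ne_one b4
    · rw [neg_eq_zero] at h3
      rw [h3] at b4
      exact zero_ne_one b4
  -- the relations
  have haa : f (R a) (R a) = 0 := by
    rw [S.hB, pol_self_of hQ ha]
    rfl
  have hbb : f (R b) (R b) = 0 := by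
    rw [S.hB, pol_self_of hQ hb]
    rfl
  have hab : f (R a) (R b) = 0 := by
    rw [S.hB, pol_comm', b1]
    rfl
  have hzz : f (R z) (R z) = 0 := by
    rw [S.hB, pol_self_of hQ hz]
    rfl
  have hyy : f (R y₀) (R y₀) = 0 := by
    rw [S.hB, pol_self_of hQ hy₀]
    rfl
  have hac : f (R a) (act g (R z)) = 0 := by
    rw [hc, S.f_dec_right, a1, a2]
    simp
  have had : f (R a) (act g (R y₀)) = 0 := by
    rw [hd, S.f_dec_right, a3, a4]
    simp
  have hbd : f (R b) (act g (R y₀)) = 0 := by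
    rw [hd, S.f_dec_right, b2, b3]
    simp
  have hcc : f (act g (R z)) (act g (R z)) = 0 := by rw [hgu, hzz]
  have hdd : f (act g (R y₀)) (act g (R y₀)) = 0 := by rw [hgu, hyy]
  have hcd : f (act g (R z)) (act g (R y₀)) = 0 := by
    rw [hgu, S.hB, hzy]
    rfl
  obtain ⟨h, hhM, hh⟩ := hL ha hb (by rw [pol_comm']; exact b1)
  obtain ⟨k₀, hk₀M, hk₀⟩ := hL hz hy₀ hzy
  have hk := IsE.conj hf hgu hk₀
  have hkM : g * k₀ * g⁻¹ ∈ M := M.mul_mem (M.mul_mem hgM hk₀M) (M.inv_mem hgM)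
  obtain ⟨y, hy⟩ : ∃ y, y = (-lam) • act g (R y₀) := ⟨_, rfl⟩
  have hyy' : f y y = 0 := by
    rw [hy, hf.smul_left, hf.smul_right, hdd, mul_zero, mul_zero]
  have hay : f (R a) y = 0 := by
    rw [hy, hf.smul_right, had, mul_zero]
  obtain ⟨e₀, -, he₀⟩ := exists_eich hf S.hσ haa hyy' hay
  have hE : IsE f e₀ (R a) ((- f (R b) (act g (R z))) • act g (R y₀)) := by
    rw [← hlam, ← hy]
    exact he₀
  have hcomm := IsE.comm1 hf hh hk hab hcd hac had hbd haa hbb hcc hdd hE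
  have he₀M : e₀ ∈ M := by
    rw [← hcomm]
    exact M.mul_mem (M.mul_mem (M.mul_mem hhM hkM) (M.inv_mem hhM)) (M.inv_mem hkM)
  -- decomposition of `y`
  obtain ⟨l₁, l₂, hl⟩ := S.hω lam
  have hδ₀ : ω * ω ∈ F₀ := by
    rw [← S.hfix, map_mul, S.hωσ]
    ring
  obtain ⟨y₁, y₂, hy₁, hy₂⟩ : ∃ y₁ y₂ : ι → F₀, y₁ = -(l₁ • d₁ + ((⟨ω * ω, hδ₀⟩ : F₀) * l₂) • d₂) ∧
      y₂ = -(l₂ • d₁ + l₁ • d₂) := ⟨_, _, rfl, rfl⟩
  have hy12 : y = R y₁ + ω • R y₂ := by
    rw [hy, hd, hl, hy₁, hy₂]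
    simp only [rat_neg, rat_add, rat_smul, Subfield.coe_mul]
    (module)
  have hy₂a : y₂ ∉ Submodule.span F₀ {a} ⊔ Submodule.span F₀ {a} ⊔ Submodule.span F₀ {a} := by
    rw [sup_idem, sup_idem]
    intro hin
    obtain ⟨t, ht⟩ := Submodule.mem_span_singleton.1 hin
    by_cases ht0 : t = 0
    · subst ht0
      rw [zero_smul] at ht
      rw [← ht] at hy₂
      have hy₂' : l₂ • d₁ + l₁ • d₂ = 0 := neg_eq_zero.1 hy₂.symm
      have hl₁ : l₁ = 0 := by
        by_contra hl₁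
        apply hd2 (-(l₂ / l₁))
        have e : l₁ • d₂ = (-l₂) • d₁ := by
          rw [neg_smul]
          exact eq_neg_of_add_eq_zero_right hy₂'
        calc d₂ = l₁⁻¹ • (l₁ • d₂) := by rw [smul_smul, inv_mul_cancel₀ hl₁, one_smul]
          _ = -(l₂ / l₁) • d₁ := by
            rw [e, smul_smul]
            congr 1
            field_simp
      subst hl₁
      rw [zero_smul, add_zero] at hy₂'
      have hl₂ : l₂ = 0 := (smul_eq_zero.1 hy₂').resolve_right hd10
      subst hl₂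
      apply hlam0
      rw [hl]
      simp
    · apply haX
      have e : a = (-t⁻¹) • (l₂ • d₁ + l₁ • d₂) := by
        have e1 : t • a = -(l₂ • d₁ + l₁ • d₂) := by rw [ht, hy₂]
        calc a = t⁻¹ • (t • a) := by rw [smul_smul, inv_mul_cancel₀ ht0, one_smul]
          _ = _ := by
            rw [e1, neg_smul, smul_neg]
      rw [e]
      exact X.smul_mem _ (X.add_mem (X.smul_mem _ hd₁X) (X.smul_mem _ hd₂X))
  refine ⟨a, ha0, ha, haa, fun c hcc' => ?_⟩
  have hσ2 : σ 2 = 2 := map_ofNat σ 2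
  have ht : c / (-2 * ω) ∈ F₀ := by
    rw [← S.hfix, map_div₀, map_mul, map_neg, hσ2, S.hωσ]
    have : σ c = -c := by linear_combination hcc'
    rw [this]
    have h2 := S.h2
    have h3 := S.hω0
    field_simp
  obtain ⟨w, hw, w1, -, -, w4⟩ := S.exists_sing_val hn hy₂a (⟨c / (-2 * ω), ht⟩ : F₀)
  obtain ⟨L, hLM, hLE⟩ := hL ha hw (by rw [pol_comm']; exact w1)
  have haw : f (R a) (R w) = 0 := by
    rw [S.hB, pol_comm', w1]
    rfl
  have hcomm2 := IsE.comm2 hf hLE he₀ haw hay haa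
  have e5 : f (R w) y - f y (R w) = c := by
    rw [hy12, S.f_dec_right, S.f_dec_left, pol_comm' y₁ w, pol_comm' y₂ w, w4]
    have h2 := S.h2
    have h3 := S.hω0
    simp only
    field_simp
    ring
  rw [e5] at hcomm2
  rw [← hcomm2]
  exact M.mul_mem (M.mul_mem (M.mul_mem hLM he₀M) (M.inv_mem hLM)) (M.inv_mem he₀M)

end RO

end Cfsg.Agent.Lib.Geo
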