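import Mathlib
import Cfsg.Agent.Lib.Geo.SUOrthStep

set_option autoImplicit false

/-! The orthogonal subfield subgroup of `SU_n(q)` is maximal. -/

namespace Cfsg.Agent.Lib.Geo

open scoped MatrixGroups Matrix commutatorElement
open Module

variable {ι : Type} [Fintype ι] [DecidableEq ι] {F : Type*} [Field F]
variable {F₀ : Subfield F} {σ : F →+* F} {f : (ι → F) → (ι → F) → F}

/-- the radical elements at an isotropic vector -/
def YY (f : (ι → F) → (ι → F) → F) (M : Subgroup (GL ι F)) (A y : ι → F) : Prop :=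
  ∃ s : F, ∃ h ∈ M, ∀ x, act h x = x + f x A • y - f x y • A + (s * f x A) • A

theorem YY_add (hf : SForm σ f) {M : Subgroup (GL ι F)} {A y y' : ι → F} (hAA : f A A = 0) (h1 : f A y = 0)
    (h2 : f A y' = 0) (Y1 : YY f M A y) (Y2 : YY f M A y') : YY f M A (y + y') := by
  obtain ⟨s, h, hM, hh⟩ := Y1
  obtain ⟨s', h', hM', hh'⟩ := Y2
  have h3 : f y A = 0 := hf.eq_zero_flip h1
  refine ⟨s + s' - f y y', h' * h, M.mul_mem hM' hM, fun x => ?_⟩
  rw [map_mul, LinearEquiv.mul_apply, hh, hh']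
  simp only [hf.add_left, hf.sub_left, hf.smul_left, hf.add_right, h1, h2, h3, hAA, mul_zero, add_zero, sub_zero]
  (module)

theorem YY_of_isE {M : Subgroup (GL ι F)} {A y : ι → F} {h : GL ι F} (hM : h ∈ M) (H : IsE f h A y) :
    YY f M A y :=
  ⟨0, h, hM, fun x => by rw [H x]; simp⟩

theorem YY_scalar (hf : SForm σ f) (M : Subgroup (GL ι F)) (A : ι → F) (c : F) : YY f M A (c • A) := by
  refine ⟨σ c - c, 1, M.one_mem, fun x => ?_⟩
  have h1 : act (1 : GL ι F) x = x := by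
    rw [map_one]
    rfl
  rw [h1, hf.smul_right]
  (module)

theorem isE_of_YY [Finite F] (hf : SForm σ f) {M : Subgroup (GL ι F)} (hMu : M ≤ uGroup f) {A y : ι → F}
    (hA : UA hf M A) (hA0 : A ≠ 0) (h1 : f A y = 0) (hyy : f y y = 0) (Y : YY f M A y) :
    ∃ h ∈ M, ∀ x, act h x = x + f x A • y - f x y • A := by
  obtain ⟨s, h, hM, hh⟩ := Y
  have hAA := hA.iso
  have h3 : f y A = 0 := hf.eq_zero_flip h1
  obtain ⟨x₀, hx₀⟩ := hf.nd A hA0
  obtain ⟨x₁, hx₁⟩ : ∃ x₁, f x₁ A = 1 := ⟨(f x₀ A)⁻¹ • x₀, by rw [hf.smul_left, inv_mul_cancel₀ hx₀]⟩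
  have hAx : f A x₁ = 1 := by rw [hf.herm, hx₁, map_one]
  have hs : s + σ s = 0 := by
    have h4 := hMu hM x₁ x₁
    rw [hh x₁, hx₁] at h4
    simp only [hf.add_left, hf.sub_left, hf.smul_left, hf.add_right, hf.sub_right, hf.smul_right, hAA, h1, h3, hyy, hAx,
      hx₁, mul_zero, add_zero, sub_zero, mul_one, one_mul, map_one, zero_add] at h4
    have h5 : f y x₁ = σ (f x₁ y) := hf.herm _ _
    rw [h5] at h4
    linear_combination h4
  have hs' : -s + σ (-s) = 0 := by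
    rw [map_neg]
    linear_combination -hs
  refine ⟨h * ut hf hAA (-s), M.mul_mem hM (hA.mem hAA hs'), fun x => ?_⟩
  rw [map_mul, LinearEquiv.mul_apply, act_ut, hh]
  simp only [hf.add_left, hf.smul_left, hAA, mul_zero, add_zero]
  have h6 : f A y = 0 := h1
  simp only [hf.add_left, hf.sub_left, hf.smul_left, h6, mul_zero, add_zero]
  (module)

namespace RO

variable {P : GL ι F} {hf : SForm σ f} {ω : F} {Q₀ : (ι → F₀) → F₀} (S : RO P hf ω Q₀)

local notation "R" => rat F₀ P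
local notation "B" => QuadraticMap.polar Q₀

variable [Finite F] [Fintype F₀] (hn : 13 ≤ Fintype.card ι)

include S hn

theorem sing_trans_step {a a' : ι → F₀} (ha : a ≠ 0) (hQa : Q₀ a = 0) (hQa' : Q₀ a' = 0) (haa' : B a a' = 0)
    (hind : ∀ t : F₀, a' ≠ t • a) : ∃ k ∈ Cfsg.Geo.omegaGL Q₀, act k a = a' := by
  obtain ⟨y, y1, y2⟩ := exists_two_values S.hQ ha hind 1 1
  obtain ⟨x, hx, x1, x2, -, -, -⟩ := solve5 S.hQ hn a a' a a a y
  rw [y1] at x1
  rw [y2] at x2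
  have h1 : B x (a' - a) = 0 := by
    rw [pol_sub_right S.hQ, x1, x2, sub_self]
  refine ⟨sg S.hQ x (a' - a), sg_mem_omega S.hQ (by omega) hx h1, ?_⟩
  have h2 : Q₀ (a' - a) = 0 := by
    rw [Q_sub S.hQ, hQa, hQa', pol_comm', haa']
    ring
  have h3 : B a (a' - a) = 0 := by
    rw [pol_sub_right S.hQ, haa', pol_self_of S.hQ hQa, sub_self]
  rw [act_sg S.hQ hx h1, pol_comm' a x, x1, h3, h2]
  simp

theorem sing_trans {a a' : ι → F₀} (ha : a ≠ 0) (ha' : a' ≠ 0) (hQa : Q₀ a = 0) (hQa' : Q₀ a' = 0) :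
    ∃ k ∈ Cfsg.Geo.omegaGL Q₀, act k a = a' := by
  have hA : finrank F₀ ↥(Submodule.span F₀ {a} ⊔ Submodule.span F₀ {a'}) ≤ 4 := by
    have h8 := finrank_sup_span_le (Submodule.span F₀ {a}) a'
    have h9 : finrank F₀ (Submodule.span F₀ {a}) ≤ 1 := finrank_span_le_card _ |>.trans (by simp)
    omega
  obtain ⟨z, hz, z1, z2, z3⟩ := S.exists_sing_not hn _ hA a a'
    (Submodule.mem_sup_left (Submodule.mem_span_singleton_self _))
    (Submodule.mem_sup_right (Submodule.mem_span_singleton_self _))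
  have hz0 : z ≠ 0 := by
    rintro rfl
    exact z3 (Submodule.zero_mem _)
  obtain ⟨k₁, hk₁, e1⟩ := S.sing_trans_step hn ha hQa hz (by rw [pol_comm']; exact z1) (fun t ht => z3 (by
    rw [ht]
    exact Submodule.smul_mem _ _ (Submodule.mem_sup_left (Submodule.mem_span_singleton_self _))))
  obtain ⟨k₂, hk₂, e2⟩ := S.sing_trans_step hn hz0 hz hQa' z2 (fun t ht => z3 (by
    have ht0 : t ≠ 0 := by
      rintro rfl
      rw [zero_smul] at ht
      exact ha' ht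
    have e : z = t⁻¹ • a' := by
      rw [ht, smul_smul, inv_mul_cancel₀ ht0, one_smul]
    rw [e]
    exact Submodule.smul_mem _ _ (Submodule.mem_sup_right (Submodule.mem_span_singleton_self _))))
  refine ⟨k₂ * k₁, Subgroup.mul_mem _ hk₂ hk₁, ?_⟩
  rw [map_mul, LinearEquiv.mul_apply, e1, e2]

variable {M : Subgroup (GL ι F)}
  (hHM : Cfsg.Geo.subfieldSubgroup F₀ P ⊓ (uGroup f ⊓ Cfsg.Geo.specialLinear ι F) ≤ M)
  (hMG : M ≤ uGroup f ⊓ Cfsg.Geo.specialLinear ι F)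

include hHM

theorem hL {a w : ι → F₀} (ha : Q₀ a = 0) (hw : Q₀ w = 0) (haw : B a w = 0) :
    ∃ h ∈ M, IsE f h (R a) (R w) :=
  ⟨_, hHM (S.lift_mem_H (sg_mem_omega S.hQ (by omega) ha haw)), S.lift_isE ha hw haw⟩

include hMG

theorem UA_all {a : ι → F₀} (ha0 : a ≠ 0) (hQa : Q₀ a = 0) (hU : UA hf M (R a)) {a' : ι → F₀} (hQa' : Q₀ a' = 0) :
    UA hf M (R a') := by
  by_cases h0 : a' = 0
  · subst h0
    rw [rat_zero]
    exact UA_zero hf M
  obtain ⟨k, hk, e⟩ := S.sing_trans hn ha0 h0 hQa hQa'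
  have h1 := UA_act (hMG.trans inf_le_left) (hHM (S.lift_mem_H hk)) hU
  rwa [act_liftG, e] at h1

theorem YY_omega (hall : ∀ a', Q₀ a' = 0 → UA hf M (R a')) {a p : ι → F₀} (ha : Q₀ a = 0) (hp : Q₀ p = 0)
    (hap : B a p = 0) (hind : ∀ t : F₀, p ≠ t • a) {c : F} (hc : c + σ c = 0) : YY f M (R a) (c • R p) := by
  have hMu : M ≤ uGroup f := hMG.trans inf_le_left
  have hv : p ∉ Submodule.span F₀ {a} ⊔ Submodule.span F₀ {a} ⊔ Submodule.span F₀ {a} := by
    rw [sup_idem, sup_idem]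
    intro hin
    obtain ⟨t, ht⟩ := Submodule.mem_span_singleton.1 hin
    exact hind t ht.symm
  obtain ⟨b, hb, b1, -, -, b4⟩ := S.exists_sing_val hn hv (1 : F₀)
  have hab : B a b = 0 := by rw [pol_comm']; exact b1
  obtain ⟨L₁, hL₁M, hL₁⟩ := S.hL hn hHM ha hb hab
  have hpp : f (R p) (R p) = 0 := (hall p hp).iso
  have hT := (hall p hp).mem hpp hc
  have hk := IsE.conj hf (hMu hT) hL₁
  have e1 : act (ut hf hpp c) (R a) = R a := by
    rw [act_ut, S.hB, hap]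
    simp
  have e2 : act (ut hf hpp c) (R b) = R b + c • R p := by
    rw [act_ut, S.hB, b4]
    simp
  rw [e1, e2] at hk
  have hQ : Q₀ (-b) = 0 := by rw [Q_neg S.hQ, hb]
  obtain ⟨L₂, hL₂M, hL₂⟩ := S.hL hn hHM ha hQ (by rw [pol_neg_right S.hQ, hab, neg_zero])
  have Y1 : YY f M (R a) (R b + c • R p) :=
    YY_of_isE (M.mul_mem (M.mul_mem hT hL₁M) (M.inv_mem hT)) hk
  have Y2 : YY f M (R a) (R (-b)) := YY_of_isE hL₂M hL₂
  have haa : f (R a) (R a) = 0 := (hall a ha).iso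
  have o1 : f (R a) (R b) = 0 := by
    rw [S.hB, hab]
    rfl
  have o2 : f (R a) (R p) = 0 := by
    rw [S.hB, hap]
    rfl
  have o3 : f (R a) (R b + c • R p) = 0 := by
    rw [hf.add_right, hf.smul_right, o1, o2]
    simp
  have o4 : f (R a) (R (-b)) = 0 := by
    rw [S.hB, pol_neg_right S.hQ, hab, neg_zero]
    rfl
  have Y3 := YY_add hf haa o3 o4 Y1 Y2
  have e3 : R b + c • R p + R (-b) = c • R p := by
    rw [rat_neg]
    abel
  rwa [e3] at Y3

theorem YY_all (hall : ∀ a', Q₀ a' = 0 → UA hf M (R a')) {a : ι → F₀} (ha0 : a ≠ 0) (ha : Q₀ a = 0) {y : ι → F}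
    (hy : f (R a) y = 0) : YY f M (R a) y := by
  have haa : f (R a) (R a) = 0 := (hall a ha).iso
  obtain ⟨y₁, y₂, rfl⟩ := exists_decomp P S.hω y
  rw [S.f_dec_right] at hy
  have h1 : ((B a y₁ : F₀) : F) + ω * ((-B a y₂ : F₀) : F) = 0 := by
    rw [← hy]
    push_cast
    ring
  obtain ⟨e1, e2⟩ := S.dec_eq_zero h1
  rw [neg_eq_zero] at e2
  obtain ⟨p₁, p₂, rfl, q1, q2, r1, r2⟩ := S.decomp_perp hn ha0 ha e1
  obtain ⟨p₃, p₄, rfl, q3, q4, r3, r4⟩ := S.decomp_perp hn ha0 ha e2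
  have o : ∀ {p : ι → F₀}, B a p = 0 → f (R a) (R p) = 0 := by
    intro p hp
    rw [S.hB, hp]
    rfl
  have o' : ∀ {p : ι → F₀}, B a p = 0 → f (R a) (ω • R p) = 0 := by
    intro p hp
    rw [hf.smul_right, o hp, mul_zero]
  have Yr : ∀ {p : ι → F₀}, Q₀ p = 0 → B a p = 0 → YY f M (R a) (R p) := by
    intro p hp hap
    obtain ⟨L, hLM, hLE⟩ := S.hL hn hHM ha hp hap
    exact YY_of_isE hLM hLE
  have hc : ω + σ ω = 0 := by
    rw [S.hωσ]
    ring
  have Yω : ∀ {p : ι → F₀}, Q₀ p = 0 → B a p = 0 → YY f M (R a) (ω • R p) := by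
    intro p hp hap
    by_cases hind : ∃ t : F₀, p = t • a
    · obtain ⟨t, rfl⟩ := hind
      rw [rat_smul, smul_smul]
      exact YY_scalar hf M _ _
    · push Not at hind
      exact S.YY_omega hn hHM hMG hall ha hp hap hind hc
  have Y1 := YY_add hf haa (o r1) (o r2) (Yr q1 r1) (Yr q2 r2)
  have Y2 := YY_add hf haa (o' r3) (o' r4) (Yω q3 r3) (Yω q4 r4)
  have o5 : f (R a) (R p₁ + R p₂) = 0 := by
    rw [hf.add_right, o r1, o r2, add_zero]
  have o6 : f (R a) (ω • R p₃ + ω • R p₄) = 0 := by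
    rw [hf.add_right, o' r3, o' r4, add_zero]
  have Y3 := YY_add hf haa o5 o6 Y1 Y2
  rw [rat_add, rat_add, smul_add]
  exact Y3

theorem su_le_of_hall (hall : ∀ a', Q₀ a' = 0 → UA hf M (R a')) {a : ι → F₀} (ha0 : a ≠ 0) (ha : Q₀ a = 0) :
    uGroup f ⊓ Cfsg.Geo.specialLinear ι F ≤ M := by
  have hMu : M ≤ uGroup f := hMG.trans inf_le_left
  have hRa0 : R a ≠ 0 := fun h => ha0 (rat_injective P (h.trans (rat_zero P).symm))
  have hE : ∀ y, f y y = 0 → f (R a) y = 0 → ∃ h ∈ M, ∀ x, act h x = x + f x (R a) • y - f x y • R a := by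
    intro y hyy hay
    exact isE_of_YY hf hMu (hall a ha) hRa0 hay hyy (S.YY_all hn hHM hMG hall ha0 ha hay)
  obtain ⟨u₀, hu₀, hu₀a, -⟩ := exists_singular_nonorth S.hQ (by omega) ha0 ha0
  have h₀ : f (R u₀) (R a) ≠ 0 := by
    rw [S.hB]
    simpa using hu₀a
  have hS : ∀ u, f u u = 0 → f u (R a) ≠ 0 → UA hf M u := fun u hu h₁ =>
    spread hf S.hσ hn hMu (hall a ha) hE (hall u₀ hu₀) h₀ hu h₁
  exact su_le_of_UA hf S.hσ hn fun z hz => all_of_spread hf S.hσ hn hMu hRa0 hS hz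

omit hn hHM hMG in
theorem not_mem_subfield {a x : ι → F₀} (hQa : Q₀ a = 0) (hxa : B x a = 1) (hc : ω + σ ω = 0)
    (haa : f (R a) (R a) = 0) : ut hf haa ω ∉ Cfsg.Geo.subfieldSubgroup F₀ P := by
  intro hmem
  obtain ⟨c, w, hcw⟩ := rat_of_mem_subfield P hmem x
  rw [act_ut, S.hB, hxa] at hcw
  obtain ⟨c₁, c₂, rfl⟩ := S.hω c
  have e : R x + ω • R a = R (c₁ • w) + ω • R (c₂ • w) := by
    have e1 : R x + (ω * ((1 : F₀) : F)) • R a = R x + ω • R a := by simp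
    rw [← e1, hcw, rat_smul, rat_smul]
    (module)
  obtain ⟨h1, h2⟩ := S.dec_unique e
  have ha0 : a ≠ 0 := by
    rintro rfl
    rw [pol_zero_right S.hQ] at hxa
    exact zero_ne_one hxa
  have hc₂ : c₂ ≠ 0 := by
    rintro rfl
    rw [zero_smul] at h2
    exact ha0 h2
  have h3 : B a a = 0 := pol_self_of S.hQ hQa
  rw [h2, pol_smul_left S.hQ, pol_smul_right S.hQ] at h3
  have h4 : B w w = 0 := by
    have := mul_eq_zero.1 h3
    rcases this with h5 | h5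
    · exact absurd h5 hc₂
    · exact (mul_eq_zero.1 h5).resolve_left hc₂
  rw [h1, h2, pol_smul_left S.hQ, pol_smul_right S.hQ, h4] at hxa
  simp at hxa

omit hHM hMG in
/-- The abstract theorem. -/
theorem isMaximal : Cfsg.Geo.IsMaximalIn (uGroup f ⊓ Cfsg.Geo.specialLinear ι F)
    (Cfsg.Geo.subfieldSubgroup F₀ P ⊓ (uGroup f ⊓ Cfsg.Geo.specialLinear ι F)) := by
  classical
  have hc : ω + σ ω = 0 := by
    rw [S.hωσ]
    ring
  obtain ⟨s, -, t, -, hQs, hQt, hst⟩ := exists_hyp_pair S.hQ (⊤ : Submodule F₀ (ι → F₀)) (by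
    rw [finrank_top]
    simp
    omega)
  have hs0 : s ≠ 0 := by
    rintro rfl
    rw [pol_zero_left S.hQ] at hst
    exact zero_ne_one hst
  refine ⟨lt_of_le_of_ne inf_le_right ?_, ?_⟩
  · intro heq
    have haa : f (R s) (R s) = 0 := by
      rw [S.hB, pol_self_of S.hQ hQs]
      rfl
    have hmem : ut hf haa ω ∈ uGroup f ⊓ Cfsg.Geo.specialLinear ι F := ut_mem_SU hf haa hc
    rw [← heq] at hmem
    exact S.not_mem_subfield hQs (by rw [pol_comm']; exact hst) hc haa hmem.1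
  · intro M hHM hMG
    by_cases hMH : M = Cfsg.Geo.subfieldSubgroup F₀ P ⊓ (uGroup f ⊓ Cfsg.Geo.specialLinear ι F)
    · exact Or.inl hMH
    right
    obtain ⟨g, hgM, hgH⟩ : ∃ g ∈ M, g ∉ Cfsg.Geo.subfieldSubgroup F₀ P ⊓ (uGroup f ⊓ Cfsg.Geo.specialLinear ι F) := by
      by_contra hcon
      push Not at hcon
      exact hMH (le_antisymm hcon hHM)
    have hg : g ∉ Cfsg.Geo.subfieldSubgroup F₀ P := fun h => hgH ⟨h, hMG hgM⟩
    obtain ⟨a, ha0, ha, hU⟩ := S.exists_UA hn hHM hMG hgM hg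
    have hall : ∀ a', Q₀ a' = 0 → UA hf M (R a') := fun a' h' => S.UA_all hn hHM hMG ha0 ha hU h'
    exact le_antisymm hMG (S.su_le_of_hall hn hHM hMG hall ha0 ha)

end RO

/-- Construction of the quadratic form. -/
theorem exists_RO [Finite F] {P : GL ι F} (hf : SForm σ f) (hfix : ∀ a, σ a = a ↔ a ∈ F₀) (h2 : (2 : F) ≠ 0)
    {ω : F} (hω0 : ω ≠ 0) (hωσ : σ ω = -ω) (hω : ∀ x : F, ∃ a b : F₀, x = a + ω * b)
    (hP : ∀ u v : ι → F₀, f (rat F₀ P u) (rat F₀ P v) ∈ F₀) :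
    ∃ Q₀ : (ι → F₀) → F₀, RO P hf ω Q₀ := by
  have h2F : (2⁻¹ : F) ∈ F₀ := inv_mem (by
    have : (2 : F) = ((2 : F₀) : F) := by push_cast; rfl
    rw [this]
    exact (2 : F₀).2)
  let Q₀ : (ι → F₀) → F₀ := fun u => ⟨2⁻¹ * f (rat F₀ P u) (rat F₀ P u), mul_mem h2F (hP u u)⟩
  have hQv : ∀ u, ((Q₀ u : F₀) : F) = 2⁻¹ * f (rat F₀ P u) (rat F₀ P u) := fun _ => rfl
  have hsymm : ∀ u v, f (rat F₀ P v) (rat F₀ P u) = f (rat F₀ P u) (rat F₀ P v) := by
    intro u v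
    rw [hf.herm, (hfix _).2 (hP u v)]
  have hpol : ∀ u v, ((QuadraticMap.polar Q₀ u v : F₀) : F) = f (rat F₀ P u) (rat F₀ P v) := by
    intro u v
    simp only [QuadraticMap.polar, Subfield.coe_sub, hQv, rat_add, hf.add_left, hf.add_right]
    rw [hsymm u v]
    field_simp
    ring
  refine ⟨Q₀, hfix, hω0, hωσ, hω, h2, ?_, fun u v => (hpol u v).symm⟩
  refine ⟨fun c v => ?_, ⟨fun x y v => ?_, fun c x v => ?_, fun v x y => ?_, fun c v x => ?_⟩, fun v hv => ?_⟩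
  · apply Subtype.ext
    simp only [Subfield.coe_mul, hQv, rat_smul, hf.smul_left, hf.smul_right, (hfix _).2 c.2, SubmonoidClass.coe_pow]
    ring
  · apply Subtype.ext
    simp only [Subfield.coe_add, hpol, rat_add, hf.add_left]
  · apply Subtype.ext
    simp only [Subfield.coe_mul, smul_eq_mul, hpol, rat_smul, hf.smul_left]
  · apply Subtype.ext
    simp only [Subfield.coe_add, hpol, rat_add, hf.add_right]
  · apply Subtype.ext
    simp only [Subfield.coe_mul, smul_eq_mul, hpol, rat_smul, hf.smul_right, (hfix _).2 c.2]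
  · have hv' : rat F₀ P v ≠ 0 := fun h => hv (rat_injective P (h.trans (rat_zero P).symm))
    obtain ⟨x, hx⟩ := hf.nd _ hv'
    obtain ⟨p, r, rfl⟩ := exists_decomp P hω x
    rw [hf.add_left, hf.smul_left] at hx
    have key : ∃ x, QuadraticMap.polar Q₀ x v ≠ 0 := by
      by_contra hcon
      push Not at hcon
      apply hx
      rw [← hpol, ← hpol, hcon p, hcon r]
      simp
    refine ⟨key, ?_⟩
    obtain ⟨x, hx⟩ := key
    exact ⟨x, by rw [pol_comm']; exact hx⟩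

end Cfsg.Agent.Lib.Geo
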