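import Mathlib
import Cfsg.Agent.Lib.Geo.SUTools
import Cfsg.Agent.Lib.Geo.HermBridge
import Cfsg.Agent.Lib.Geo.OmegaRat3

set_option autoImplicit false

/-! Rational structures for a hermitian form whose restriction to the subfield is again hermitian. -/

namespace Cfsg.Agent.Lib.Geo.SUR

open scoped MatrixGroups Matrix commutatorElement
open Module

variable {ι : Type} [Fintype ι] [DecidableEq ι]

section gen

variable {K : Type*} [Field K] {σ : K →+* K} {g : (ι → K) → (ι → K) → K} (hg : SForm σ g)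

include hg

/-- two independent vectors: prescribing the pairings -/
theorem two_values {a b : ι → K} (ha : a ≠ 0) (hb : ∀ c : K, b ≠ c • a) (e₁ e₂ : K) :
    ∃ y, g y a = e₁ ∧ g y b = e₂ := by
  have hb0 : b ≠ 0 := by
    intro h
    exact hb 0 (by rw [h, zero_smul])
  have ha' : ∀ c : K, a ≠ c • b := by
    intro c h
    have hc : c ≠ 0 := by
      rintro rfl
      exact ha (by rw [h, zero_smul])
    apply hb c⁻¹
    rw [h, smul_smul, inv_mul_cancel₀ hc, one_smul]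
  have key : ∀ {a b : ι → K}, a ≠ 0 → (∀ c : K, b ≠ c • a) → ∃ y, g y a = 0 ∧ g y b = 1 := by
    intro a b ha hb
    obtain ⟨y, hy1, hy2⟩ := exists_sep (hg.lf_ne_zero ha) (ψ := hg.lf b) (by
      rintro ⟨c, hc⟩
      apply hb (σ c)
      apply hg.lf_injective
      rw [hc, hg.lf_smul, hg.inv])
    refine ⟨(g y b)⁻¹ • y, ?_, ?_⟩
    · have h0 : g y a = 0 := hy1
      rw [hg.smul_left, h0, mul_zero]
    · exact (hg.smul_left _ _ _).trans (inv_mul_cancel₀ hy2)
  obtain ⟨y₁, h1, h2⟩ := key ha hb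
  obtain ⟨y₂, h3, h4⟩ := key hb0 ha'
  refine ⟨e₂ • y₁ + e₁ • y₂, ?_, ?_⟩
  · rw [hg.add_left, hg.smul_left, hg.smul_left, h1, h4]
    ring
  · rw [hg.add_left, hg.smul_left, hg.smul_left, h2, h3]
    ring

/-- a hyperbolic pair of isotropic vectors perpendicular to a list -/
theorem exists_hyp_perp [Finite K] (hσ : σ ≠ RingHom.id K) (Λ : List (ι → K)) (h : 2 * Λ.length + 3 ≤ Fintype.card ι) :
    ∃ s t : ι → K, g s s = 0 ∧ g t t = 0 ∧ g s t = 1 ∧ ∀ l ∈ Λ, g s l = 0 ∧ g t l = 0 := by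
  have hiso := fun W hW => hiso_herm (f := g) hg hσ W hW
  have h1 := finrank_cutL (Λ.map hg.lf)
  simp only [List.length_map] at h1
  obtain ⟨p₁, hp₁, p₂, hp₂, h11, h12⟩ := exists_hyp hg hiso (cutL (Λ.map hg.lf)) (by omega)
  rw [mem_cutL] at hp₁ hp₂
  have h21 : g p₂ p₁ ≠ 0 := fun h0 => h12 (hg.eq_zero_flip h0)
  obtain ⟨t, ht⟩ := exists_adjust hg hσ (c := 0) h11 h21 (map_zero σ)
  set κ := g p₁ (p₂ + t • p₁) with hκ
  have hκ0 : κ ≠ 0 := by
    rw [hκ, hg.add_right, hg.smul_right, h11, mul_zero, add_zero]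
    exact h12
  refine ⟨p₁, (σ κ)⁻¹ • (p₂ + t • p₁), h11, ?_, ?_, fun l hl => ⟨?_, ?_⟩⟩
  · rw [hg.smul_left, hg.smul_right, ht]
    ring
  · rw [hg.smul_right, ← hκ, map_inv₀, hg.inv, inv_mul_cancel₀ hκ0]
  · exact hp₁ _ (List.mem_map.2 ⟨l, hl, rfl⟩)
  · rw [hg.smul_left, hg.add_left, hg.smul_left, (show g p₂ l = 0 from hp₂ _ (List.mem_map.2 ⟨l, hl, rfl⟩)),
      (show g p₁ l = 0 from hp₁ _ (List.mem_map.2 ⟨l, hl, rfl⟩))]
    ring

end gen

section rational

variable {F : Type*} [Field F] [Fintype F]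

/-- a hermitian rational structure -/
structure RD (F₀ : Subfield F) (P : GL ι F) (σ : F →+* F) (f : (ι → F) → (ι → F) → F) : Prop where
  hf : SForm σ f
  hs : ∀ a ∈ F₀, σ a ∈ F₀
  hrat : ∀ x y : ι → F₀, f (rat F₀ P x) (rat F₀ P y) ∈ F₀
  hσ₀ : ∃ e ∈ F₀, σ e ≠ e

variable {F₀ : Subfield F} {P : GL ι F} {σ : F →+* F} {f : (ι → F) → (ι → F) → F}

/-- the restriction of the automorphism -/
def sig (hs : ∀ a ∈ F₀, σ a ∈ F₀) : F₀ →+* F₀ :=
  (σ.comp F₀.subtype).codRestrict F₀ (fun x => hs _ x.2)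

omit [Fintype F] in
theorem sig_coe (hs : ∀ a ∈ F₀, σ a ∈ F₀) (x : F₀) : ((sig hs x : F₀) : F) = σ x := rfl

/-- the rational form -/
noncomputable def fq (hrat : ∀ x y : ι → F₀, f (rat F₀ P x) (rat F₀ P y) ∈ F₀) : (ι → F₀) → (ι → F₀) → F₀ :=
  fun x y => ⟨_, hrat x y⟩

omit [Fintype F] in
theorem val_of_fq {hrat : ∀ x y : ι → F₀, f (rat F₀ P x) (rat F₀ P y) ∈ F₀} {x y : ι → F₀} {c : F₀}
    (h : fq hrat x y = c) : f (rat F₀ P x) (rat F₀ P y) = c := congrArg Subtype.val h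

namespace RD

variable (D : RD F₀ P σ f)

local notation "R" => rat F₀ P

include D

/-- nothing is perpendicular to all rational vectors -/
theorem perp_zero {z : ι → F} (h : ∀ y : ι → F₀, f (R y) z = 0) : z = 0 := by
  apply D.hf.lf_injective
  have h1 : D.hf.lf z = 0 := by
    apply lin_ext_rat (F₀ := F₀) P
    intro i
    simpa using h _
  rw [h1]
  ext x
  simp [D.hf.zero_right]

theorem perp_zero' {z : ι → F} (h : ∀ y : ι → F₀, f z (R y) = 0) : z = 0 :=
  D.perp_zero fun y => D.hf.eq_zero_flip (h y)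

theorem fq_sform : SForm (sig D.hs) (fq D.hrat) := by
  have hf := D.hf
  refine ⟨fun a => Subtype.ext (hf.inv _), fun x y v => Subtype.ext ?_, fun c x v => Subtype.ext ?_,
    fun v w => Subtype.ext (hf.herm _ _), fun v hv => ?_⟩
  · show f (R (x + y)) (R v) = f (R x) (R v) + f (R y) (R v)
    rw [rat_add, hf.add_left]
  · show f (R (c • x)) (R v) = c * f (R x) (R v)
    rw [rat_smul, hf.smul_left]
  · have h0 : R v ≠ 0 := by
      intro h
      apply hv
      apply rat_injective P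
      rw [h, rat_zero]
    by_contra hcon
    push Not at hcon
    exact h0 (D.perp_zero fun y => congrArg Subtype.val (hcon y))

theorem sig_ne : sig D.hs ≠ RingHom.id F₀ := by
  obtain ⟨e, he, hne⟩ := D.hσ₀
  intro h
  apply hne
  have := congrArg Subtype.val (RingHom.congr_fun h ⟨e, he⟩)
  exact this

theorem iso (Λ : List (ι → F₀)) (h : Λ.length + 3 ≤ Fintype.card ι) :
    ∃ s : ι → F₀, s ≠ 0 ∧ f (R s) (R s) = 0 ∧ ∀ l ∈ Λ, f (R s) (R l) = 0 := by
  have hf₀ := D.fq_sform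
  have h1 := finrank_cutL (Λ.map hf₀.lf)
  simp only [List.length_map] at h1
  obtain ⟨s, hs, h2, h3⟩ := hiso_herm hf₀ D.sig_ne (cutL (Λ.map hf₀.lf)) (by omega)
  rw [mem_cutL] at hs
  exact ⟨s, h2, val_of_fq h3, fun l hl => val_of_fq (hs _ (List.mem_map.2 ⟨l, hl, rfl⟩))⟩

theorem iso_values (Λ : List (ι → F₀)) (h : 2 * Λ.length + 5 ≤ Fintype.card ι) (y : ι → F₀) :
    ∃ c : ι → F₀, f (R c) (R c) = 0 ∧ ∀ l ∈ Λ, f (R c) (R l) = f (R y) (R l) := by
  have hf₀ := D.fq_sform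
  have hiso := fun W hW => hiso_herm hf₀ D.sig_ne W hW
  have htr : ∀ a, sig D.hs a = a → ∃ b, b + sig D.hs b = a := fun a ha => htr_herm D.sig_ne hf₀.inv a ha
  obtain ⟨z, h1, h2⟩ := affine_solve hf₀ hiso htr (Λ.map hf₀.lf) (by simpa using h) y (e := 0) (map_zero _)
  refine ⟨z, val_of_fq h2, fun l hl => ?_⟩
  have h3 := h1 _ (List.mem_map.2 ⟨l, hl, rfl⟩)
  exact congrArg Subtype.val h3

theorem hyp (Λ : List (ι → F₀)) (h : 2 * Λ.length + 3 ≤ Fintype.card ι) :
    ∃ s t : ι → F₀, f (R s) (R s) = 0 ∧ f (R t) (R t) = 0 ∧ f (R s) (R t) = 1 ∧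
      ∀ l ∈ Λ, f (R s) (R l) = 0 ∧ f (R t) (R l) = 0 := by
  obtain ⟨s, t, h1, h2, h3, h4⟩ := exists_hyp_perp D.fq_sform D.sig_ne Λ h
  exact ⟨s, t, val_of_fq h1, val_of_fq h2, val_of_fq h3, fun l hl => ⟨val_of_fq (h4 l hl).1, val_of_fq (h4 l hl).2⟩⟩

theorem two_vals {a b : ι → F₀} (ha : a ≠ 0) (hb : ∀ c : F₀, b ≠ c • a) (e₁ e₂ : F₀) :
    ∃ y : ι → F₀, f (R y) (R a) = e₁ ∧ f (R y) (R b) = e₂ := by
  obtain ⟨y, h1, h2⟩ := two_values D.fq_sform ha hb e₁ e₂
  exact ⟨y, val_of_fq h1, val_of_fq h2⟩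

theorem decomp (h : 9 ≤ Fintype.card ι) {a x : ι → F₀} (hx : f (R x) (R a) = 0) :
    ∃ s : ι → F₀, f (R s) (R s) = 0 ∧ f (R s) (R a) = 0 ∧ f (R (x - s)) (R (x - s)) = 0 := by
  have hf₀ := D.fq_sform
  have hiso := fun W hW => hiso_herm hf₀ D.sig_ne W hW
  have htr : ∀ a, sig D.hs a = a → ∃ b, b + sig D.hs b = a := fun a ha => htr_herm D.sig_ne hf₀.inv a ha
  obtain ⟨p, h1, h2, h3⟩ := exists_iso_decomp hf₀ hiso htr [hf₀.lf a] (by simpa using (by omega : 9 ≤ Fintype.card ι))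
    (x := x) (by
      intro l hl
      simp only [List.mem_singleton] at hl
      subst hl
      exact Subtype.ext hx)
  have h4 : fq D.hrat p a = 0 := h1 (hf₀.lf a) (by simp)
  exact ⟨p, val_of_fq h2, val_of_fq h4, val_of_fq h3⟩

theorem decomp0 (h : 7 ≤ Fintype.card ι) (x : ι → F₀) :
    ∃ s : ι → F₀, f (R s) (R s) = 0 ∧ f (R (x - s)) (R (x - s)) = 0 := by
  have hf₀ := D.fq_sform
  have hiso := fun W hW => hiso_herm hf₀ D.sig_ne W hW
  have htr : ∀ a, sig D.hs a = a → ∃ b, b + sig D.hs b = a := fun a ha => htr_herm D.sig_ne hf₀.inv a ha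
  obtain ⟨p, -, h2, h3⟩ := exists_iso_decomp hf₀ hiso htr [] (by simpa using h) (x := x) (by simp)
  exact ⟨p, val_of_fq h2, val_of_fq h3⟩

theorem partner {a : ι → F₀} (ha : a ≠ 0) : ∃ y : ι → F₀, f (R y) (R a) = 1 := by
  have hf₀ := D.fq_sform
  obtain ⟨x, hx⟩ := hf₀.nd a ha
  refine ⟨(fq D.hrat x a)⁻¹ • x, ?_⟩
  have h1 : fq D.hrat ((fq D.hrat x a)⁻¹ • x) a = 1 := by
    rw [hf₀.smul_left, inv_mul_cancel₀ hx]
  exact val_of_fq h1

/-- a vector with rational pairings is rational -/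
theorem of_pair {z : ι → F} (h : ∀ y : ι → F₀, f z (R y) ∈ F₀) : ∃ w : ι → F₀, z = R w := by
  refine exists_rat_of_coords P z fun ψ => ?_
  obtain ⟨y, rfl⟩ := D.fq_sform.lf_surjective ψ
  have h1 : cl P (D.fq_sform.lf y) = D.hf.lf (R y) := by
    refine cl_ext (F₀ := F₀) P fun u => ?_
    rw [cl_rat]
    rfl
  rw [h1]
  exact h y

theorem ut_mem {a : ι → F₀} (ha : f (R a) (R a) = 0) {c : F} (hc : c ∈ F₀) :
    ut D.hf ha c ∈ Cfsg.Geo.subfieldSubgroup F₀ P := by
  obtain ⟨τ, hfix⟩ := exists_frob F₀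
  refine mem_subfield_of P τ hfix fun x => ?_
  refine ⟨1, x + ((⟨c, hc⟩ : F₀) * fq D.hrat x a) • a, ?_⟩
  rw [act_ut, one_smul, rat_add, rat_smul]
  rfl

theorem eich_mem {a b : ι → F₀} {h : GL ι F} (he : ∀ x, act h x = x + f x (R a) • R b - f x (R b) • R a) :
    h ∈ Cfsg.Geo.subfieldSubgroup F₀ P := by
  obtain ⟨τ, hfix⟩ := exists_frob F₀
  refine mem_subfield_of P τ hfix fun x => ?_
  refine ⟨1, x + fq D.hrat x a • b - fq D.hrat x b • a, ?_⟩
  rw [he, one_smul, rat_sub', rat_add, rat_smul, rat_smul]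
  rfl

end RD

end rational

section ise

variable {F : Type*} [Field F] {σ : F →+* F} {f : (ι → F) → (ι → F) → F}

local notation "V" => (ι → F)

/-- the elements attached to an isotropic vector -/
def IsE (f : (ι → F) → (ι → F) → F) (g : GL ι F) (a w : ι → F) (τ : F) : Prop :=
  ∀ x, act g x = x + f x a • w - f x w • a + (τ * f x a) • a

variable (hf : SForm σ f)

include hf

theorem IsE.mul {g g' : GL ι F} {a w w' : V} {τ τ' : F} (ha : f a a = 0) (h1 : f a w = 0) (h2 : f a w' = 0)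
    (hg : IsE f g a w τ) (hg' : IsE f g' a w' τ') : IsE f (g * g') a (w + w') (τ + τ' - f w' w) := by
  intro x
  have h1' := hf.eq_zero_flip h1
  have h2' := hf.eq_zero_flip h2
  rw [map_mul, LinearEquiv.mul_apply, hg', hg]
  simp only [hf.add_left, hf.sub_left, hf.smul_left, hf.add_right, ha, h1, h2', mul_zero, sub_zero, add_zero]
  (module)

theorem IsE.inv {g : GL ι F} {a w : V} {τ : F} (ha : f a a = 0) (h1 : f a w = 0)
    (hg : IsE f g a w τ) : IsE f g⁻¹ a (-w) (-τ - f w w) := by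
  intro x
  have h1' := hf.eq_zero_flip h1
  have hneg : ∀ y : V, f y (-w) = - f y w := by
    intro y
    have := hf.smul_right (-1) y w
    rw [neg_one_smul, map_neg, map_one] at this
    rw [this]
    ring
  apply (act g).injective
  rw [act_act_inv, hg]
  simp only [hf.add_left, hf.sub_left, hf.smul_left, hneg, ha, h1, h1', mul_zero, sub_zero, add_zero, zero_add,
    map_add, map_sub, map_smul]
  have e1 : f (-w) a = 0 := by
    rw [← neg_one_smul F w, hf.smul_left, h1', mul_zero]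
  have e2 : f (-w) w = - f w w := by
    rw [← neg_one_smul F w, hf.smul_left]
    ring
  simp only [e1, e2]
  simp only [hneg, sub_neg_eq_add, smul_neg, mul_zero, add_zero, sub_zero, zero_smul, mul_neg, neg_mul, neg_neg]
  (module)

theorem IsE.conj {g y : GL ι F} {a w : V} {τ : F} (hg : IsE f g a w τ) (hy : y ∈ uGroup f) :
    IsE f (y * g * y⁻¹) (act y a) (act y w) τ := by
  intro x
  rw [map_mul, map_mul, LinearEquiv.mul_apply, LinearEquiv.mul_apply, hg]
  simp only [map_add, map_sub, map_smul, act_act_inv, u_inv_left hy]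

omit hf in
theorem IsE.one_zero (a : V) (hf : SForm σ f) : IsE f 1 a 0 0 := by
  intro x
  rw [hf.zero_right, map_one]
  simp

theorem IsE.self {a : V} (κ : F) : IsE f 1 a (κ • a) (σ κ - κ) := by
  intro x
  rw [hf.smul_right, map_one]
  simp only [LinearEquiv.coe_one, id_eq]
  (module)

/-- the difference for an element fixing the centre -/
theorem IsE.diff {M : Subgroup (GL ι F)} (hM : M ≤ uGroup f) {y g : GL ι F} (hy : y ∈ M) (hgM : g ∈ M) {a w : V} {τ : F}
    (ha : f a a = 0) (haw : f a w = 0) (hya : act y a = a) (hg : IsE f g a w τ) :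
    ∃ g₂ ∈ M, IsE f g₂ a (act y w - w) (f w (act y w - w)) := by
  have h1 : f a (act y w) = 0 := by
    have := hM hy a w
    rw [hya, haw] at this
    exact this
  have hneg : f a (-w) = 0 := by
    have := hf.smul_right (-1) a w
    rw [neg_one_smul, haw, mul_zero] at this
    exact this
  have h2 := hg.conj hf (hM hy)
  rw [hya] at h2
  have h3 := hg.inv hf ha haw
  have h4 := h2.mul hf ha h1 hneg h3
  refine ⟨_, M.mul_mem (M.mul_mem (M.mul_mem hy hgM) (M.inv_mem hy)) (M.inv_mem hgM), ?_⟩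
  rw [← sub_eq_add_neg] at h4
  have e : τ + (-τ - f w w) - f (-w) (act y w) = f w (act y w - w) := by
    have e1 : f (-w) (act y w) = - f w (act y w) := by
      rw [← neg_one_smul F w, hf.smul_left]
      ring
    rw [e1, hf.sub_right]
    ring
  rwa [e] at h4

/-- an element of the unitary group of this kind has a parameter with the right trace -/
theorem IsE.trace {g : GL ι F} {a w : V} {τ : F} (ha : f a a = 0) (haw : f a w = 0) (ha0 : a ≠ 0)
    (hg : IsE f g a w τ) (hu : g ∈ uGroup f) : τ + σ τ + f w w = 0 := by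
  obtain ⟨x, hx⟩ := hf.nd a ha0
  have hwa := hf.eq_zero_flip haw
  have h1 := hu x x
  rw [hg] at h1
  simp only [hf.add_left, hf.sub_left, hf.smul_left, hf.add_right, hf.sub_right, hf.smul_right, ha, haw, hwa, mul_zero,
    sub_zero, add_zero, zero_add, map_mul] at h1
  have hσ : σ (f x a) = f a x := (hf.herm a x).symm
  have hσw : σ (f x w) = f w x := (hf.herm w x).symm
  rw [hσ, hσw] at h1
  have hne : f x a * f a x ≠ 0 := mul_ne_zero hx (fun h => hx (hf.eq_zero_flip h))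
  apply mul_left_cancel₀ hne
  rw [mul_zero]
  linear_combination h1

end ise

end Cfsg.Agent.Lib.Geo.SUR
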