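import Mathlib
import Cfsg.Agent.Lib.Geo.SURat

set_option autoImplicit false

/-! Overgroups of the rational unitary group: the field of coefficients, and what a full field of
coefficients gives. -/

namespace Cfsg.Agent.Lib.Geo.SUR

open scoped MatrixGroups Matrix commutatorElement
open Module

variable {ι : Type} [Fintype ι] [DecidableEq ι]

section ts

variable {F : Type*} [Field F] {σ : F →+* F} {f : (ι → F) → (ι → F) → F} {M : Subgroup (GL ι F)}

local notation "V" => (ι → F)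

/-- an element of `M` of the given kind exists -/
def TS (f : (ι → F) → (ι → F) → F) (M : Subgroup (GL ι F)) (a w : ι → F) (τ : F) : Prop :=
  ∃ g ∈ M, IsE f g a w τ

theorem TS.add (hf : SForm σ f) {a w w' : V} {τ τ' : F} (ha : f a a = 0) (h1 : f a w = 0) (h2 : f a w' = 0)
    (h : TS f M a w τ) (h' : TS f M a w' τ') : TS f M a (w + w') (τ + τ' - f w' w) := by
  obtain ⟨g, hg, hE⟩ := h
  obtain ⟨g', hg', hE'⟩ := h'
  exact ⟨g * g', M.mul_mem hg hg', hE.mul hf ha h1 h2 hE'⟩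

theorem TS.neg (hf : SForm σ f) {a w : V} {τ : F} (ha : f a a = 0) (h1 : f a w = 0)
    (h : TS f M a w τ) : TS f M a (-w) (-τ - f w w) := by
  obtain ⟨g, hg, hE⟩ := h
  exact ⟨g⁻¹, M.inv_mem hg, hE.inv hf ha h1⟩

theorem TS.conj (hf : SForm σ f) (hM : M ≤ uGroup f) {y : GL ι F} (hy : y ∈ M) {a w : V} {τ : F}
    (h : TS f M a w τ) : TS f M (act y a) (act y w) τ := by
  obtain ⟨g, hg, hE⟩ := h
  exact ⟨_, M.mul_mem (M.mul_mem hy hg) (M.inv_mem hy), hE.conj hf (hM hy)⟩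

theorem TS.diff (hf : SForm σ f) (hM : M ≤ uGroup f) {y : GL ι F} (hy : y ∈ M) {a w : V} {τ : F}
    (ha : f a a = 0) (haw : f a w = 0) (hya : act y a = a) (h : TS f M a w τ) :
    TS f M a (act y w - w) (f w (act y w - w)) := by
  obtain ⟨g, hg, hE⟩ := h
  exact hE.diff hf hM hy hg ha haw hya

/-- exchanging the two parameters -/
theorem IsE.swap (hf : SForm σ f) {g : GL ι F} {x y : V} {d : F} (h : IsE f g x (d • y) 0) :
    IsE f g y ((-σ d) • x) 0 := by
  intro z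
  rw [h z]
  simp only [hf.smul_right, map_neg, hf.inv]
  (module)

/-- the commutator of two elements -/
theorem IsE.comm (hf : SForm σ f) {g₁ g₂ : GL ι F} {a b c w' : V} {d : F} (hu : g₁ ∈ uGroup f)
    (hc : f c c = 0) (hw' : f w' w' = 0) (hcw : f c w' = 0) (hca : f c a = 0)
    (haw : f a w' = 0) (hbw : f b w' = 0) (hcb : f c b = 1)
    (h₁ : IsE f g₁ a (d • b) 0) (h₂ : IsE f g₂ c w' 0) : IsE f (g₁ * g₂ * g₁⁻¹ * g₂⁻¹) a ((-d) • w') 0 := by
  have hwc := hf.eq_zero_flip hcw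
  have hac := hf.eq_zero_flip hca
  have hwa := hf.eq_zero_flip haw
  have hwb := hf.eq_zero_flip hbw
  have e1 : act g₁ c = c - σ d • a := by
    rw [h₁ c, hca, hf.smul_right, hcb]
    simp
  have e2 : act g₁ w' = w' := by
    rw [h₁ w', hwa, hf.smul_right, hwb]
    simp
  have h₃ := h₂.conj hf hu
  rw [e1, e2] at h₃
  have h₄ := h₂.inv hf hc hcw
  have hneg : ∀ y : V, f y (-w') = - f y w' := by
    intro y
    have := hf.smul_right (-1) y w'
    rw [neg_one_smul, map_neg, map_one] at this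
    rw [this]
    ring
  intro x
  rw [map_mul, LinearEquiv.mul_apply, h₃, h₄]
  simp only [hneg, hw', neg_zero, zero_sub, sub_zero, neg_neg, zero_mul, zero_smul, add_zero, mul_zero]
  have hnegL : f (-w') = fun y => - f w' y := by
    funext y
    rw [← neg_one_smul F w', hf.smul_left]
    ring
  simp only [hf.add_left, hf.sub_left, hf.smul_left, hf.add_right, hf.sub_right, hf.smul_right, hnegL, hwc, hwa, hw',
    hc, hca, hcw, mul_zero, sub_zero, add_zero, zero_add, map_neg, hf.inv, neg_zero, zero_mul, zero_sub, neg_mul,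
    mul_neg, neg_neg]
  (module)

end ts

section overgroup

variable {F : Type*} [Field F] [Fintype F] {F₀ : Subfield F} {P : GL ι F} {σ : F →+* F}
  {f : (ι → F) → (ι → F) → F} {M : Subgroup (GL ι F)}

local notation "V₀" => (ι → F₀)
local notation "R" => rat F₀ P

/-- all rational elements lie in `M` -/
structure HS (M : Subgroup (GL ι F)) (F₀ : Subfield F) (P : GL ι F) (σ : F →+* F) (f : (ι → F) → (ι → F) → F) : Prop where
  ut : ∀ (a : ι → F₀) (c : F), f (rat F₀ P a) (rat F₀ P a) = 0 → c ∈ F₀ → c + σ c = 0 → TS f M (rat F₀ P a) 0 c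
  eich : ∀ a b : ι → F₀, f (rat F₀ P a) (rat F₀ P a) = 0 → f (rat F₀ P b) (rat F₀ P b) = 0 →
    f (rat F₀ P a) (rat F₀ P b) = 0 → TS f M (rat F₀ P a) (rat F₀ P b) 0

/-- the coefficients of `M` -/
def RS (M : Subgroup (GL ι F)) (F₀ : Subfield F) (P : GL ι F) (f : (ι → F) → (ι → F) → F) (d : F) : Prop :=
  ∀ a b : ι → F₀, f (rat F₀ P a) (rat F₀ P a) = 0 → f (rat F₀ P b) (rat F₀ P b) = 0 →
    f (rat F₀ P a) (rat F₀ P b) = 0 → a ≠ 0 → (∀ t : F₀, b ≠ t • a) → TS f M (rat F₀ P a) (d • rat F₀ P b) 0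

omit [Fintype F] in
theorem hind_x {x z z' : V₀} (hf : SForm σ f) (h1 : f (R z) (R z') = 1) (h2 : f (R x) (R z') = 0) (c : F₀) : z ≠ c • x := by
  rintro rfl
  rw [rat_smul, hf.smul_left, h2, mul_zero] at h1
  exact zero_ne_one h1

omit [Fintype F] in
theorem hind_y {x z z' : V₀} (hf : SForm σ f) (h0 : x ≠ 0) (h1 : f (R z) (R z') = 1) (h2 : f (R x) (R z') = 0) (c : F₀) :
    x ≠ c • z := by
  rintro rfl
  rw [rat_smul, hf.smul_left, h1, mul_one] at h2
  have hc : c = 0 := by exact_mod_cast h2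
  subst hc
  exact h0 (by simp)

omit [Fintype F] in
theorem ne_zero_of_pair {x y : V₀} (hf : SForm σ f) (h : f (R x) (R y) = 1) : x ≠ 0 := by
  rintro rfl
  rw [rat_zero, hf.zero_left] at h
  exact zero_ne_one h

omit [Fintype F] in
theorem ne_zero_of_pair' {x y : V₀} (hf : SForm σ f) (h : f (R x) (R y) = 1) : y ≠ 0 := by
  rintro rfl
  rw [rat_zero, hf.zero_right] at h
  exact zero_ne_one h

variable (D : RD F₀ P σ f)

include D

/-- moving the second parameter along a chain -/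
theorem chain_step (hM : M ≤ uGroup f) (hS : HS M F₀ P σ f) (hn : 11 ≤ Fintype.card ι) {d : F} {a b t t' : V₀}
    (ha : f (R a) (R a) = 0) (ht : f (R t) (R t) = 0)
    (hab : f (R a) (R b) = 0) (hat : f (R a) (R t) = 0) (hbt : f (R b) (R t) = 0) (htt' : f (R t) (R t') = 1)
    (hat' : f (R a) (R t') = 0) (hbt' : f (R b) (R t') = 0) (ha0 : a ≠ 0)
    (hind : ∀ c : F₀, b ≠ c • a) (hm : TS f M (R a) (d • R b) 0) : TS f M (R a) (d • R t) 0 := by
  have hf := D.hf
  obtain ⟨y₁, h1, h2⟩ := D.two_vals ha0 hind 0 1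
  simp only [Subfield.coe_zero, Subfield.coe_one] at h1 h2
  obtain ⟨κ, hκ⟩ : ∃ κ : F₀, (κ : F) = f (R y₁) (R t) := ⟨⟨_, D.hrat y₁ t⟩, rfl⟩
  have ht't : f (R t') (R t) = 1 := by rw [hf.herm, htt', map_one]
  have h3 : ∃ y₂ : V₀, f (R y₂) (R a) = 0 ∧ f (R y₂) (R b) = 1 ∧ f (R y₂) (R t) = 0 := by
    refine ⟨y₁ - κ • t', ?_, ?_, ?_⟩
    · rw [rat_sub', rat_smul, hf.sub_left, hf.smul_left, h1, hf.eq_zero_flip hat']
      simp
    · rw [rat_sub', rat_smul, hf.sub_left, hf.smul_left, h2, hf.eq_zero_flip hbt']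
      simp
    · rw [rat_sub', rat_smul, hf.sub_left, hf.smul_left, ht't, hκ]
      simp
  obtain ⟨y₂, h4, h5, h6⟩ := h3
  obtain ⟨c, hc, hv⟩ := D.iso_values [a, b, t] (by simp; omega) y₂
  have hca : f (R c) (R a) = 0 := by rw [hv a (by simp), h4]
  have hcb : f (R c) (R b) = 1 := by rw [hv b (by simp), h5]
  have hct : f (R c) (R t) = 0 := by rw [hv t (by simp), h6]
  obtain ⟨y, hyM, hy⟩ := hS.eich c t hc ht hct
  have hya : act y (R a) = R a := by
    rw [hy, hf.eq_zero_flip hca, hat]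
    simp
  have h7 : f (R a) (d • R b) = 0 := by rw [hf.smul_right, hab, mul_zero]
  have h8 := hm.diff hf hM hyM ha h7 hya
  have hbc : f (R b) (R c) = 1 := by rw [hf.herm, hcb, map_one]
  have h9 : act y (d • R b) - d • R b = d • R t := by
    rw [map_smul, hy, hbc, hbt]
    simp only [zero_smul, sub_zero, one_smul, zero_mul, add_zero]
    (module)
  rw [h9, hf.smul_left, hf.smul_right, hbt] at h8
  simpa using h8

/-- the coefficients do not depend on the rational pair -/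
theorem RS_of_one (hM : M ≤ uGroup f) (hS : HS M F₀ P σ f) (hn : 13 ≤ Fintype.card ι) {d : F}
    {a₀ b₀ : V₀} (ha₀ : f (R a₀) (R a₀) = 0) (hb₀ : f (R b₀) (R b₀) = 0) (hab₀ : f (R a₀) (R b₀) = 0) (ha₀0 : a₀ ≠ 0)
    (hind₀ : ∀ c : F₀, b₀ ≠ c • a₀) (hm : TS f M (R a₀) (d • R b₀) 0) : RS M F₀ P f d := by
  intro a₁ b₁ ha₁ hb₁ hab₁ ha₁0 hind₁
  have hf := D.hf
  obtain ⟨e, e', he, he', hee', hΛ⟩ := D.hyp [a₀, b₀, a₁, b₁] (by simp; omega)
  obtain ⟨e₂, e₂', he₂, he₂', hee₂', hΛ₂⟩ := D.hyp [a₀, a₁, e, e'] (by simp; omega)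
  have hea₀ := hΛ a₀ (by simp)
  have heb₀ := hΛ b₀ (by simp)
  have hea₁ := hΛ a₁ (by simp)
  have heb₁ := hΛ b₁ (by simp)
  have h2a₀ := hΛ₂ a₀ (by simp)
  have h2a₁ := hΛ₂ a₁ (by simp)
  have h2e := hΛ₂ e (by simp)
  have h2e' := hΛ₂ e' (by simp)
  have he0 : e ≠ 0 := ne_zero_of_pair hf hee'
  have fl : ∀ {x y : V₀}, f (R x) (R y) = 0 → f (R y) (R x) = 0 := fun h => hf.eq_zero_flip h
  have s1 : TS f M (R a₀) (d • R e) 0 :=
    chain_step D hM hS (by omega) ha₀ he hab₀ (fl hea₀.1) (fl heb₀.1) hee' (fl hea₀.2) (fl heb₀.2) ha₀0 hind₀ hm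
  have hswap : ∀ {x y : V₀} {d' : F}, TS f M (R x) (d' • R y) 0 → TS f M (R y) ((-σ d') • R x) 0 := by
    rintro x y d' ⟨g, hg, hE⟩
    exact ⟨g, hg, hE.swap hf⟩
  have s2 : TS f M (R e) ((-σ d) • R a₀) 0 := hswap s1
  have s3 : TS f M (R e) ((-σ d) • R e₂) 0 :=
    chain_step D hM hS (by omega) he he₂ hea₀.1 (fl h2e.1) (fl h2a₀.1) hee₂' (fl h2e.2) (fl h2a₀.2) he0
      (hind_y hf ha₀0 hee' (fl hea₀.2)) s2
  have hp1 : ∃ z : V₀, f (R a₁) (R z) = 1 ∧ f (R e) (R z) = 0 ∧ f (R e₂) (R z) = 0 := by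
    obtain ⟨y, h1, h2⟩ := D.two_vals ha₁0 (hind_x hf hee' (fl hea₁.2)) 1 0
    simp only [Subfield.coe_zero, Subfield.coe_one] at h1 h2
    obtain ⟨κ, hκ⟩ : ∃ κ : F₀, (κ : F) = f (R y) (R e₂) := ⟨⟨_, D.hrat y e₂⟩, rfl⟩
    have hκ' : σ κ * 1 = f (R e₂) (R y) := by rw [mul_one, hκ, ← hf.herm]
    refine ⟨y - κ • e₂', ?_, ?_, ?_⟩
    · rw [rat_sub', rat_smul, hf.sub_right, hf.smul_right, hf.herm (R a₁) (R y), h1, fl h2a₁.2]
      simp
    · rw [rat_sub', rat_smul, hf.sub_right, hf.smul_right, hf.herm (R e) (R y), h2, fl h2e.2]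
      simp
    · rw [rat_sub', rat_smul, hf.sub_right, hf.smul_right, hee₂', hκ', sub_self]
  obtain ⟨z, hz1, hz2, hz3⟩ := hp1
  have s4 : TS f M (R e) ((-σ d) • R a₁) 0 :=
    chain_step D hM hS (by omega) he ha₁ (fl h2e.1) hea₁.1 h2a₁.1 hz1 hz2 hz3 he0
      (hind_x hf hee₂' (fl h2e.2)) s3
  have s5 : TS f M (R a₁) (d • R e) 0 := by
    have := hswap s4
    rwa [map_neg, hf.inv, neg_neg] at this
  have hp2 : ∃ z : V₀, f (R b₁) (R z) = 1 ∧ f (R a₁) (R z) = 0 ∧ f (R e) (R z) = 0 := by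
    obtain ⟨y, h1, h2⟩ := D.two_vals ha₁0 hind₁ 0 1
    simp only [Subfield.coe_zero, Subfield.coe_one] at h1 h2
    obtain ⟨κ, hκ⟩ : ∃ κ : F₀, (κ : F) = f (R y) (R e) := ⟨⟨_, D.hrat y e⟩, rfl⟩
    have hκ' : σ κ * 1 = f (R e) (R y) := by rw [mul_one, hκ, ← hf.herm]
    refine ⟨y - κ • e', ?_, ?_, ?_⟩
    · rw [rat_sub', rat_smul, hf.sub_right, hf.smul_right, hf.herm (R b₁) (R y), h2, fl heb₁.2]
      simp
    · rw [rat_sub', rat_smul, hf.sub_right, hf.smul_right, hf.herm (R a₁) (R y), h1, fl hea₁.2]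
      simp
    · rw [rat_sub', rat_smul, hf.sub_right, hf.smul_right, hee', hκ', sub_self]
  obtain ⟨y, hy1, hy2, hy3⟩ := hp2
  exact chain_step D hM hS (by omega) ha₁ hb₁ (fl hea₁.1) hab₁ heb₁.1 hy1 hy2 hy3 ha₁0
    (hind_x hf hee' (fl hea₁.2)) s5

theorem RS_zero : RS M F₀ P f 0 := by
  intro a b _ _ _ _ _
  refine ⟨1, M.one_mem, ?_⟩
  rw [zero_smul]
  exact IsE.one_zero _ D.hf

theorem RS_add {d d' : F} (h : RS M F₀ P f d) (h' : RS M F₀ P f d') : RS M F₀ P f (d + d') := by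
  intro a b ha hb hab ha0 hind
  have hf := D.hf
  have h1 := (h a b ha hb hab ha0 hind).add hf ha (by rw [hf.smul_right, hab, mul_zero]) (by rw [hf.smul_right, hab, mul_zero])
    (h' a b ha hb hab ha0 hind)
  rw [← add_smul, hf.smul_left, hf.smul_right, hb] at h1
  simpa using h1

theorem RS_neg {d : F} (h : RS M F₀ P f d) : RS M F₀ P f (-d) := by
  intro a b ha hb hab ha0 hind
  have hf := D.hf
  have h1 := (h a b ha hb hab ha0 hind).neg hf ha (by rw [hf.smul_right, hab, mul_zero])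
  rw [hf.smul_left, hf.smul_right, hb, ← neg_smul] at h1
  simpa using h1

theorem RS_of_mem (hS : HS M F₀ P σ f) {c : F} (hc : c ∈ F₀) : RS M F₀ P f c := by
  intro a b ha hb hab _ _
  have hf := D.hf
  have h1 : c • R b = R ((⟨c, hc⟩ : F₀) • b) := by rw [rat_smul]
  rw [h1]
  refine hS.eich a _ ha ?_ ?_
  · rw [← h1, hf.smul_left, hf.smul_right, hb]
    ring
  · rw [← h1, hf.smul_right, hab, mul_zero]

/-- a frame for products -/
theorem exists_pair (hn : 7 ≤ Fintype.card ι) : ∃ a e : V₀, a ≠ 0 ∧ f (R a) (R a) = 0 ∧ f (R e) (R e) = 0 ∧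
    f (R a) (R e) = 0 ∧ ∀ c : F₀, e ≠ c • a := by
  have hf := D.hf
  obtain ⟨a, a', ha, ha', haa', -⟩ := D.hyp [] (by simp; omega)
  obtain ⟨e, e', he, he', hee', hΛ⟩ := D.hyp [a] (by simp; omega)
  have h := hΛ a (by simp)
  exact ⟨a, e, ne_zero_of_pair hf haa', ha, he, hf.eq_zero_flip h.1, hind_x hf hee' (hf.eq_zero_flip h.2)⟩

theorem RS_mul (hM : M ≤ uGroup f) (hS : HS M F₀ P σ f) (hn : 13 ≤ Fintype.card ι) {d d' : F}
    (h : RS M F₀ P f d) (h' : RS M F₀ P f d') : RS M F₀ P f (d * d') := by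
  have hf := D.hf
  obtain ⟨a, e, ha0, ha, he, hae, hind⟩ := exists_pair D (by omega)
  obtain ⟨c, b, hc, hb, hcb, hΛ⟩ := D.hyp [a, e] (by simp; omega)
  have hca := hΛ a (by simp)
  have hce := hΛ e (by simp)
  have he0 : e ≠ 0 := by
    rintro rfl
    exact hind 0 (by simp)
  obtain ⟨g₁, hg₁, h1⟩ := h a b ha hb (hf.eq_zero_flip hca.2) ha0 (by
    rintro t rfl
    rw [rat_smul, hf.smul_right, hca.1, mul_zero] at hcb
    exact zero_ne_one hcb)
  obtain ⟨g₂, hg₂, h2⟩ := h' c e hc he hce.1 (ne_zero_of_pair hf hcb) (hind_y hf he0 hcb (hf.eq_zero_flip hce.2))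
  have h3 := IsE.comm hf (w' := d' • R e) (hM hg₁) hc (by rw [hf.smul_left, hf.smul_right, he]; ring)
    (by rw [hf.smul_right, hce.1, mul_zero]) hca.1 (by rw [hf.smul_right, hae, mul_zero])
    (by rw [hf.smul_right, hce.2, mul_zero]) hcb h1 h2
  rw [smul_smul, neg_mul] at h3
  have h4 : RS M F₀ P f (-(d * d')) := RS_of_one D hM hS hn ha he hae ha0 hind
    ⟨_, M.mul_mem (M.mul_mem (M.mul_mem hg₁ hg₂) (M.inv_mem hg₁)) (M.inv_mem hg₂), h3⟩
  simpa using RS_neg D h4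

/-- the field of coefficients -/
def sgField (hM : M ≤ uGroup f) (hS : HS M F₀ P σ f) (hn : 13 ≤ Fintype.card ι) : Subfield F where
  carrier := {d | RS M F₀ P f d}
  mul_mem' := fun h h' => RS_mul D hM hS hn h h'
  one_mem' := RS_of_mem D hS F₀.one_mem
  add_mem' := fun h h' => RS_add D h h'
  zero_mem' := RS_zero D
  neg_mem' := fun h => RS_neg D h
  inv_mem' := by
    intro d hd
    by_cases h0 : d = 0
    · subst h0
      simpa using RS_zero D
    · have h1 : d⁻¹ = d ^ (Fintype.card F - 2) := by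
        have h2 := FiniteField.pow_card_sub_one_eq_one d h0
        have h3 : 2 ≤ Fintype.card F := Fintype.one_lt_card
        have h4 : Fintype.card F - 1 = (Fintype.card F - 2) + 1 := by omega
        rw [h4, pow_succ] at h2
        exact (eq_inv_of_mul_eq_one_left h2).symm
      show RS M F₀ P f d⁻¹
      rw [h1]
      have key : ∀ k : ℕ, RS M F₀ P f (d ^ k) := by
        intro k
        induction k with
        | zero => simpa using RS_of_mem D hS F₀.one_mem
        | succ k ih =>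
          rw [pow_succ]
          exact RS_mul D hM hS hn ih hd
      exact key _

/-- all elements with a rational centre, for a full field of coefficients -/
theorem TS_of_RS (hM : M ≤ uGroup f) (hS : HS M F₀ P σ f) (hn : 13 ≤ Fintype.card ι) (hall : ∀ d, RS M F₀ P f d)
    {a : V₀} (ha0 : a ≠ 0) (ha : f (R a) (R a) = 0) {w : ι → F} (hw : f (R a) w = 0) : ∃ τ, TS f M (R a) w τ := by
  have hf := D.hf
  have hiso : ∀ (x : V₀) (c : F), f (R x) (R x) = 0 → f (R a) (R x) = 0 → ∃ τ, TS f M (R a) (c • R x) τ := by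
    intro x c hx hax
    by_cases hind : ∀ t : F₀, x ≠ t • a
    · exact ⟨0, hall c a x ha hx hax ha0 hind⟩
    · push Not at hind
      obtain ⟨t, rfl⟩ := hind
      rw [rat_smul, smul_smul]
      exact ⟨_, 1, M.one_mem, IsE.self hf _⟩
  have hgen : ∀ (x : V₀) (c : F), f (R a) (R x) = 0 → ∃ τ, TS f M (R a) (c • R x) τ := by
    intro x c hax
    obtain ⟨s, hs, hsa, hxs⟩ := D.decomp (by omega) (a := a) (x := x) (hf.eq_zero_flip hax)
    have e1 : R x = R s + R (x - s) := by rw [rat_sub']; abel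
    have h1 : f (R a) (R s) = 0 := hf.eq_zero_flip hsa
    have h2 : f (R a) (R (x - s)) = 0 := by
      rw [rat_sub', hf.sub_right, hax, h1, sub_zero]
    obtain ⟨τ₁, h3⟩ := hiso s c hs h1
    obtain ⟨τ₂, h4⟩ := hiso (x - s) c hxs h2
    rw [e1, smul_add]
    exact ⟨_, h3.add hf ha (by rw [hf.smul_right, h1, mul_zero]) (by rw [hf.smul_right, h2, mul_zero]) h4⟩
  obtain ⟨a', haa'⟩ := D.partner ha0
  let e : ι → V₀ := fun i => Pi.single i 1
  let c : ι → F := fun i => (act P⁻¹ w) i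
  let κ : ι → F₀ := fun i => ⟨_, D.hrat (e i) a⟩
  let x : ι → V₀ := fun i => e i - κ i • a'
  have hxa : ∀ i, f (R (x i)) (R a) = 0 := by
    intro i
    simp only [x]
    rw [rat_sub', rat_smul, hf.sub_left, hf.smul_left, haa']
    simp [κ]
  have hw1 : w = ∑ i, c i • R (e i) := sum_rat (F₀ := F₀) P w
  have hw2 : ∑ i, c i * f (R (e i)) (R a) = 0 := by
    have h1 : hf.lf (R a) w = 0 := by
      rw [SForm.lf_apply]
      exact hf.eq_zero_flip hw
    rw [hw1, map_sum] at h1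
    simpa using h1
  have hw3 : w = ∑ i, c i • R (x i) := by
    have h1 : ∀ i, c i • R (x i) = c i • R (e i) - (c i * f (R (e i)) (R a)) • R a' := by
      intro i
      simp only [x]
      rw [rat_sub', rat_smul, smul_sub, smul_smul]
    simp only [h1]
    rw [Finset.sum_sub_distrib, ← Finset.sum_smul, hw2, zero_smul, sub_zero]
    exact hw1
  have key : ∀ S : Finset ι, f (R a) (∑ i ∈ S, c i • R (x i)) = 0 ∧ ∃ τ, TS f M (R a) (∑ i ∈ S, c i • R (x i)) τ := by
    intro S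
    induction S using Finset.induction_on with
    | empty =>
      simp only [Finset.sum_empty]
      exact ⟨hf.zero_right _, 0, 1, M.one_mem, IsE.one_zero _ hf⟩
    | insert i S hi ih =>
      rw [Finset.sum_insert hi]
      have h1 : f (R a) (c i • R (x i)) = 0 := by
        rw [hf.smul_right, hf.eq_zero_flip (hxa i), mul_zero]
      refine ⟨by rw [hf.add_right, h1, ih.1, zero_add], ?_⟩
      obtain ⟨τ₁, h2⟩ := hgen (x i) (c i) (hf.eq_zero_flip (hxa i))
      obtain ⟨τ₂, h3⟩ := ih.2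
      exact ⟨_, h2.add hf ha h1 ih.1 h3⟩
  rw [hw3]
  exact (key Finset.univ).2

theorem exists_sub_sigma (hσ : σ ≠ RingHom.id F) {c : F} (hc : c + σ c = 0) : ∃ d, d - σ d = c := by
  obtain ⟨δ, hδ0, hδ⟩ := exists_trace_zero hσ D.hf
  have hinv := D.hf.inv
  obtain ⟨b, hb⟩ := htr_herm hσ hinv (c / δ) (by
    rw [map_div₀, eq_neg_of_add_eq_zero_right hc, eq_neg_of_add_eq_zero_right hδ]
    field_simp)
  refine ⟨b * δ, ?_⟩
  rw [map_mul, eq_neg_of_add_eq_zero_right hδ]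
  have : (b + σ b) * δ = c := by
    rw [hb]
    field_simp
  linear_combination this

/-- an element of the unitary group of `M` attached to a vector with a trivial second parameter is a transvection -/
theorem UA_of_RS (hM : M ≤ uGroup f) (hS : HS M F₀ P σ f) (hn : 13 ≤ Fintype.card ι) (hσ : σ ≠ RingHom.id F)
    (hall : ∀ d, RS M F₀ P f d) {a : V₀} (ha0 : a ≠ 0) (ha : f (R a) (R a) = 0) : UA D.hf M (R a) := by
  have hf := D.hf
  refine ⟨ha, fun c hc => ?_⟩
  obtain ⟨d, hd⟩ := exists_sub_sigma D hσ hc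
  obtain ⟨b, b', hb, hb', hbb', hΛ⟩ := D.hyp [a] (by simp; omega)
  have h1 := hΛ a (by simp)
  have hab : f (R a) (R b) = 0 := hf.eq_zero_flip h1.1
  have hab' : f (R a) (R b') = 0 := hf.eq_zero_flip h1.2
  have hind : ∀ t : F₀, b ≠ t • a := hind_x hf hbb' (hf.eq_zero_flip h1.2)
  have hb'b : f (R b') (R b) = 1 := by rw [hf.herm, hbb', map_one]
  have hind' : ∀ t : F₀, b' ≠ t • a := hind_x hf hb'b (hf.eq_zero_flip h1.1)
  obtain ⟨g₁, hg₁, e₁⟩ := hall d a b ha hb hab ha0 hind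
  obtain ⟨g₂, hg₂, e₂⟩ := hall 1 a b' ha hb' hab' ha0 hind'
  rw [one_smul] at e₂
  have h2 : f (R a) (d • R b) = 0 := by rw [hf.smul_right, hab, mul_zero]
  have e₃ := e₁.mul hf ha h2 hab' e₂
  have e₄ := e₂.mul hf ha hab' h2 e₁
  have h3 : f (R a) (d • R b + R b') = 0 := by rw [hf.add_right, h2, hab', add_zero]
  rw [add_comm (R b') (d • R b)] at e₄
  have e₅ := e₃.mul hf ha h3 (by
    have := hf.smul_right (-1) (R a) (d • R b + R b')
    rw [neg_one_smul, h3, mul_zero] at this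
    exact this) (e₄.inv hf ha h3)
  have hfinal : ut hf ha c = g₁ * g₂ * (g₂ * g₁)⁻¹ := by
    apply act.injective
    ext1 x
    rw [act_ut, e₅ x]
    rw [add_neg_cancel, hf.zero_right]
    have e6 : f (-(d • R b + R b')) (d • R b + R b') = - f (d • R b + R b') (d • R b + R b') := by
      rw [← neg_one_smul F (d • R b + R b'), hf.smul_left]
      ring
    rw [e6]
    simp only [hf.smul_left, hf.smul_right, hb'b, hbb', mul_one]
    have e7 : c = d - σ d := hd.symm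
    rw [e7]
    simp only [zero_smul, smul_zero, sub_zero, add_zero, zero_add]
    congr 2
    ring
  rw [hfinal]
  exact M.mul_mem (M.mul_mem hg₁ hg₂) (M.inv_mem (M.mul_mem hg₂ hg₁))

theorem hE_of_RS (hM : M ≤ uGroup f) (hS : HS M F₀ P σ f) (hn : 13 ≤ Fintype.card ι) (hσ : σ ≠ RingHom.id F)
    (hall : ∀ d, RS M F₀ P f d) {a : V₀} (ha0 : a ≠ 0) (ha : f (R a) (R a) = 0) {y : ι → F} (hy : f y y = 0)
    (hay : f (R a) y = 0) : ∃ h ∈ M, ∀ x, act h x = x + f x (R a) • y - f x y • R a := by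
  have hf := D.hf
  obtain ⟨τ, g, hg, hE⟩ := TS_of_RS D hM hS hn hall ha0 ha hay
  have hRa0 : R a ≠ 0 := by
    intro h
    apply ha0
    apply rat_injective P
    rw [h, rat_zero]
  have htr := hE.trace hf ha hay hRa0 (hM hg)
  rw [hy, add_zero] at htr
  have hU := UA_of_RS D hM hS hn hσ hall ha0 ha
  have hτ : (-τ) + σ (-τ) = 0 := by
    rw [map_neg]
    linear_combination -htr
  refine ⟨g * ut hf ha (-τ), M.mul_mem hg (hU.mem ha hτ), fun x => ?_⟩
  rw [map_mul, LinearEquiv.mul_apply, act_ut, hE]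
  simp only [hf.add_left, hf.smul_left, ha, mul_zero, add_zero, hay]
  (module)

theorem su_le_of_RS (hM : M ≤ uGroup f) (hS : HS M F₀ P σ f) (hn : 13 ≤ Fintype.card ι) (hσ : σ ≠ RingHom.id F)
    (hall : ∀ d, RS M F₀ P f d) : uGroup f ⊓ Cfsg.Geo.specialLinear ι F ≤ M := by
  have hf := D.hf
  obtain ⟨s, t, hs, ht, hst, -⟩ := D.hyp [] (by simp; omega)
  have hs0 := ne_zero_of_pair hf hst
  have ht0 := ne_zero_of_pair' hf hst
  have hRs0 : R s ≠ 0 := by
    intro h
    apply hs0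
    apply rat_injective P
    rw [h, rat_zero]
  refine su_le_of_UA hf hσ hn fun z hz => ?_
  refine all_of_spread hf hσ hn hM hRs0 (fun u hu hua => ?_) hz
  have hts : f (R t) (R s) ≠ 0 := by
    rw [hf.herm, hst, map_one]
    exact one_ne_zero
  exact spread hf hσ hn hM (UA_of_RS D hM hS hn hσ hall hs0 hs)
    (fun y hy hay => hE_of_RS D hM hS hn hσ hall hs0 hs hy hay)
    (UA_of_RS D hM hS hn hσ hall ht0 ht) hts hu hua

/-- an element with a non-rational coefficient is outside the subfield group -/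
theorem eich_not_mem_subfield {a e : V₀} (ha0 : a ≠ 0) (hae : f (R a) (R e) = 0)
    (hind : ∀ c : F₀, e ≠ c • a) {d : F} (hd : d ∉ F₀) {h : GL ι F} (hh : IsE f h (R a) (d • R e) 0) :
    h ∉ Cfsg.Geo.subfieldSubgroup F₀ P := by
  have hf := D.hf
  intro hmem
  obtain ⟨x, hx1, hx2⟩ := D.two_vals ha0 hind 1 0
  simp only [Subfield.coe_zero, Subfield.coe_one] at hx1 hx2
  obtain ⟨c, w, hcw⟩ := rat_of_mem_subfield P hmem x
  rw [hh (rat F₀ P x), hx1, hf.smul_right, hx2] at hcw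
  simp only [one_smul, mul_zero, zero_mul, zero_smul, sub_zero, add_zero] at hcw
  have hx0 : x ≠ 0 := ne_zero_of_pair hf hx1
  have he0 : e ≠ 0 := by
    rintro rfl
    exact hind 0 (by simp)
  have hind' : ∀ t : F₀, e ≠ t • x := by
    intro t ht
    apply he0
    have hax : f (R a) (R x) = 1 := by rw [hf.herm, hx1, map_one]
    rw [ht, rat_smul, hf.smul_right, hax, mul_one] at hae
    have h1 : σ (t : F) = 0 := hae
    have h2 : (t : F) = 0 := by
      have := congrArg σ h1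
      rwa [hf.inv, map_zero] at this
    have h3 : t = 0 := by exact_mod_cast h2
    rw [ht, h3, zero_smul]
  obtain ⟨y₁, h11, h12⟩ := D.two_vals hx0 hind' 1 0
  obtain ⟨y₂, h21, h22⟩ := D.two_vals hx0 hind' 0 1
  simp only [Subfield.coe_zero, Subfield.coe_one] at h11 h12 h21 h22
  have fl1 : f (R x) (R y₁) = 1 := by rw [hf.herm, h11, map_one]
  have fl2 : f (R e) (R y₁) = 0 := hf.eq_zero_flip h12
  have fl3 : f (R x) (R y₂) = 0 := hf.eq_zero_flip h21
  have fl4 : f (R e) (R y₂) = 1 := by rw [hf.herm, h22, map_one]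
  have e1 := congrArg (fun z => f z (R y₁)) hcw
  have e2 := congrArg (fun z => f z (R y₂)) hcw
  simp only [hf.add_left, hf.smul_left, fl1, fl2, fl3, fl4, mul_zero, add_zero, mul_one, zero_add] at e1 e2
  have h3 : f (R w) (R y₁) ≠ 0 := by
    intro h0
    rw [h0, mul_zero] at e1
    exact one_ne_zero e1
  have hc0 : c ≠ 0 := by
    rintro rfl
    rw [zero_mul] at e1
    exact one_ne_zero e1
  apply hd
  have h4 : d = f (R w) (R y₂) * (f (R w) (R y₁))⁻¹ := by
    field_simp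
    rw [e2]
    linear_combination (-f (R w) (R y₂)) * e1
  rw [h4]
  exact F₀.mul_mem (D.hrat _ _) (F₀.inv_mem (D.hrat _ _))

end overgroup

end Cfsg.Agent.Lib.Geo.SUR
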