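import Mathlib
import Cfsg.Agent.Lib.Geo.SURat2

set_option autoImplicit false

/-! Overgroups of the rational unitary group with a small field of coefficients: the first pairing
bound and the rigid case. -/

namespace Cfsg.Agent.Lib.Geo.SUR

open scoped MatrixGroups Matrix commutatorElement
open Module

variable {ι : Type} [Fintype ι] [DecidableEq ι]

section rigid0

variable {F : Type*} [Field F] [Fintype F] {F₀ : Subfield F} {P : GL ι F} {σ : F →+* F}
  {f : (ι → F) → (ι → F) → F} {M : Subgroup (GL ι F)}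

local notation "V₀" => (ι → F₀)
local notation "R" => rat F₀ P

variable (D : RD F₀ P σ f) (hM : M ≤ uGroup f) (hS : HS M F₀ P σ f) (hn : 13 ≤ Fintype.card ι)
  (hA : ∀ d, RS M F₀ P f d → d ∈ F₀)

include D hM hS hn hA

/-- pairings of the second parameter with isotropic rational vectors perpendicular to the centre -/
theorem R1_iso {a x : V₀} {w : ι → F} {τ : F} (ha0 : a ≠ 0) (ha : f (R a) (R a) = 0) (haw : f (R a) w = 0)
    (hm : TS f M (R a) w τ) (hx : f (R x) (R x) = 0) (hax : f (R a) (R x) = 0) : f w (R x) ∈ F₀ := by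
  have hf := D.hf
  obtain ⟨c, c', hc, hc', hcc', hΛ⟩ := D.hyp [a, x] (by simp; omega)
  obtain ⟨e, e', he, he', hee', hΛ₂⟩ := D.hyp [a, x, c, c'] (by simp; omega)
  have hca := hΛ a (by simp)
  have hcx := hΛ x (by simp)
  have hea := hΛ₂ a (by simp)
  have hex := hΛ₂ x (by simp)
  have hec := hΛ₂ c (by simp)
  have hec' := hΛ₂ c' (by simp)
  have fl : ∀ {x y : V₀}, f (R x) (R y) = 0 → f (R y) (R x) = 0 := fun h => hf.eq_zero_flip h
  obtain ⟨y₁, hy₁, e₁⟩ := hS.eich c x hc hx hcx.1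
  have hy₁a : act y₁ (R a) = R a := by
    rw [e₁, fl hca.1, hax]
    simp
  have h1 := hm.diff hf hM hy₁ ha haw hy₁a
  have e1 : act y₁ w - w = f w (R c) • R x - f w (R x) • R c := by
    rw [e₁]
    simp only [zero_mul, zero_smul, add_zero]
    abel
  rw [e1] at h1
  generalize hw₁ : f w (R c) • R x - f w (R x) • R c = w₁ at h1
  have hw₁a : f (R a) w₁ = 0 := by
    rw [← hw₁, hf.sub_right, hf.smul_right, hf.smul_right, hax, fl hca.1]
    ring
  obtain ⟨y₂, hy₂, e₂⟩ := hS.eich c' e hc' he (fl hec'.1)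
  have hy₂a : act y₂ (R a) = R a := by
    rw [e₂, fl hca.2, fl hea.1]
    simp
  have h2 := h1.diff hf hM hy₂ ha hw₁a hy₂a
  have hw₁c' : f w₁ (R c') = - f w (R x) := by
    rw [← hw₁, hf.sub_left, hf.smul_left, hf.smul_left, fl hcx.2, hcc']
    ring
  have hw₁e : f w₁ (R e) = 0 := by
    rw [← hw₁, hf.sub_left, hf.smul_left, hf.smul_left, fl hex.1, fl hec.1]
    ring
  have e2 : act y₂ w₁ - w₁ = (- f w (R x)) • R e := by
    rw [e₂, hw₁c', hw₁e]
    simp only [zero_mul, zero_smul, add_zero, sub_zero]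
    abel
  rw [e2, hf.smul_right, hw₁e, mul_zero] at h2
  have h3 := hA _ (RS_of_one D hM hS hn ha he (fl hea.1) ha0 (hind_x hf hee' (fl hea.2)) h2)
  simpa using F₀.neg_mem h3

/-- pairings of the second parameter with rational vectors perpendicular to the centre -/
theorem R1_all {a x : V₀} {w : ι → F} {τ : F} (ha0 : a ≠ 0) (ha : f (R a) (R a) = 0) (haw : f (R a) w = 0)
    (hm : TS f M (R a) w τ) (hax : f (R a) (R x) = 0) : f w (R x) ∈ F₀ := by
  have hf := D.hf
  obtain ⟨s, hs, hsa, hxs⟩ := D.decomp (by omega) (a := a) (x := x) (hf.eq_zero_flip hax)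
  have e1 : R x = R s + R (x - s) := by rw [rat_sub']; abel
  have h1 : f (R a) (R s) = 0 := hf.eq_zero_flip hsa
  have h2 : f (R a) (R (x - s)) = 0 := by
    rw [rat_sub', hf.sub_right, hax, h1, sub_zero]
  rw [e1, hf.add_right]
  exact F₀.add_mem (R1_iso D hM hS hn hA ha0 ha haw hm hs h1) (R1_iso D hM hS hn hA ha0 ha haw hm hxs h2)

end rigid0

section prod

variable {F : Type*} [Field F] {σ : F →+* F} {f : (ι → F) → (ι → F) → F}

/-- the product of transvections on two centres in a totally isotropic plane -/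
theorem IsE.of_two (hf : SForm σ f) {g₁ g₂ : GL ι F} {u a : ι → F} {κ c₀ : F} (huu : f u u = 0)
    (hua : f u a = 0) (hc₀ : c₀ + σ c₀ = 0) (h₁ : IsE f g₁ (u + κ • a) 0 c₀) (h₂ : IsE f g₂ u 0 (-c₀)) :
    IsE f (g₁ * g₂) a ((c₀ * σ κ) • u) (c₀ * κ * σ κ) := by
  intro x
  have hau := hf.eq_zero_flip hua
  have hσ : σ c₀ = -c₀ := by linear_combination hc₀
  rw [map_mul, LinearEquiv.mul_apply, h₂, h₁]
  simp only [hf.zero_right, hf.add_left, hf.add_right, hf.smul_left, hf.smul_right, hf.sub_left, huu, hua, map_mul, hf.inv,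
    hσ, mul_zero, add_zero, zero_smul, sub_zero, smul_zero]
  (module)

theorem IsE.smul_centre (hf : SForm σ f) {g : GL ι F} {u : ι → F} {μ c₀ : F} (h : IsE f g (μ • u) 0 c₀) :
    IsE f g u 0 (c₀ * μ * σ μ) := by
  intro x
  rw [h x]
  simp only [hf.zero_right, hf.smul_right, zero_smul, smul_zero, sub_zero, add_zero]
  (module)

end prod

section rigid1

variable {F : Type*} [Field F] [Fintype F] {F₀ : Subfield F} {P : GL ι F} {σ : F →+* F}
  {f : (ι → F) → (ι → F) → F} {M : Subgroup (GL ι F)}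

local notation "V₀" => (ι → F₀)
local notation "R" => rat F₀ P

variable (D : RD F₀ P σ f) (hM : M ≤ uGroup f) (hS : HS M F₀ P σ f) (hn : 13 ≤ Fintype.card ι)
  (hA : ∀ d, RS M F₀ P f d → d ∈ F₀)

include D hM hS hn hA

/-- a transvection centred on a vector with a rational isotropic perpendicular -/
theorem rigid {a b x : V₀} {u : ι → F} {c₀ : F} (hc₀F : c₀ ∈ F₀) (hc₀0 : c₀ ≠ 0) (hc₀ : c₀ + σ c₀ = 0) (ha0 : a ≠ 0)
    (ha : f (R a) (R a) = 0) (huu : f u u = 0) (hu : TS f M u 0 c₀) (hua : f u (R a) = 0)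
    (hb : f (R b) (R b) = 0) (hab : f (R a) (R b) = 0) (hax : f (R a) (R x) = 0) :
    σ (f u (R b)) * f u (R x) ∈ F₀ := by
  have hf := D.hf
  obtain ⟨y, hy, ey⟩ := hS.eich a b ha hb hab
  have e1 : act y u = u + (- f u (R b)) • R a := by
    rw [ey, hua]
    simp only [zero_smul, add_zero, zero_mul, neg_smul]
    abel
  have h2 := hu.conj hf hM hy
  rw [e1, map_zero] at h2
  obtain ⟨g₁, hg₁, E₁⟩ := h2
  obtain ⟨g₂, hg₂, E₂⟩ := hu
  have E₃ := E₂.inv hf huu (hf.zero_right _)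
  rw [neg_zero, hf.zero_left] at E₃
  have hneg : -c₀ - (0 : F) = -c₀ := by ring
  rw [hneg] at E₃
  have h3 := IsE.of_two hf huu hua hc₀ E₁ E₃
  set κ : F := -f u (R b) with hκ
  have hau : f (R a) ((c₀ * σ κ) • u) = 0 := by
    rw [hf.smul_right, hf.eq_zero_flip hua, mul_zero]
  have h5 := R1_all D hM hS hn hA ha0 ha hau ⟨_, M.mul_mem hg₁ (M.inv_mem hg₂), h3⟩ hax
  rw [hf.smul_left] at h5
  have h6 : σ (f u (R b)) * f u (R x) = -(c₀⁻¹ * (c₀ * σ κ * f u (R x))) := by
    rw [hκ, map_neg]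
    field_simp
  rw [h6]
  exact F₀.neg_mem (F₀.mul_mem (F₀.inv_mem hc₀F) h5)

/-- the same for a general vector `b` -/
theorem rigid_all {a b x : V₀} {u : ι → F} {c₀ : F} (hc₀F : c₀ ∈ F₀) (hc₀0 : c₀ ≠ 0) (hc₀ : c₀ + σ c₀ = 0) (ha0 : a ≠ 0)
    (ha : f (R a) (R a) = 0) (huu : f u u = 0) (hu : TS f M u 0 c₀) (hua : f u (R a) = 0)
    (hab : f (R a) (R b) = 0) (hax : f (R a) (R x) = 0) :
    σ (f u (R b)) * f u (R x) ∈ F₀ := by
  have hf := D.hf
  obtain ⟨s, hs, hsa, hxs⟩ := D.decomp (by omega) (a := a) (x := b) (hf.eq_zero_flip hab)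
  have e1 : R b = R s + R (b - s) := by rw [rat_sub']; abel
  have h1 : f (R a) (R s) = 0 := hf.eq_zero_flip hsa
  have h2 : f (R a) (R (b - s)) = 0 := by
    rw [rat_sub', hf.sub_right, hab, h1, sub_zero]
  rw [e1, hf.add_right, map_add, add_mul]
  exact F₀.add_mem (rigid D hM hS hn hA hc₀F hc₀0 hc₀ ha0 ha huu hu hua hs h1 hax)
    (rigid D hM hS hn hA hc₀F hc₀0 hc₀ ha0 ha huu hu hua hxs h2 hax)

end rigid1

section fields

variable {F : Type*} [Field F]

/-- the fixed field of an endomorphism -/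
def fixF (σ : F →+* F) : Subfield F where
  carrier := {x | σ x = x}
  mul_mem' := fun {a b} ha hb => by
    show σ (a * b) = a * b
    rw [map_mul, ha, hb]
  one_mem' := map_one σ
  add_mem' := fun {a b} ha hb => by
    show σ (a + b) = a + b
    rw [map_add, ha, hb]
  zero_mem' := map_zero σ
  neg_mem' := fun {a} ha => by
    show σ (-a) = -a
    rw [map_neg, ha]
  inv_mem' := fun a ha => by
    show σ a⁻¹ = a⁻¹
    rw [map_inv₀, ha]

theorem mem_fixF {σ : F →+* F} {x : F} : x ∈ fixF σ ↔ σ x = x := Iff.rfl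

/-- an involution of a field: the field is two-dimensional over the fixed field -/
noncomputable def decompEquiv (σ : F →+* F) (hinv : ∀ a, σ (σ a) = a) (ω : F) (hω : σ ω ≠ ω) : F ≃ fixF σ × fixF σ where
  toFun x :=
    (⟨x - ω * ((x - σ x) / (ω - σ ω)), by
        have h0 : ω - σ ω ≠ 0 := sub_ne_zero.2 (Ne.symm hω)
        have h1 : σ ω - ω ≠ 0 := sub_ne_zero.2 hω
        rw [mem_fixF]
        simp only [map_sub, map_mul, map_div₀, hinv]
        field_simp
        ring⟩,
     ⟨(x - σ x) / (ω - σ ω), by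
        have h0 : ω - σ ω ≠ 0 := sub_ne_zero.2 (Ne.symm hω)
        have h1 : σ ω - ω ≠ 0 := sub_ne_zero.2 hω
        rw [mem_fixF]
        simp only [map_sub, map_div₀, hinv]
        field_simp
        ring⟩)
  invFun p := (p.1 : F) + ω * (p.2 : F)
  left_inv x := by
    simp
  right_inv p := by
    obtain ⟨⟨a, ha⟩, ⟨b, hb⟩⟩ := p
    have ha' : σ a = a := ha
    have hb' : σ b = b := hb
    have h0 : ω - σ ω ≠ 0 := sub_ne_zero.2 (Ne.symm hω)
    have e : (a + ω * b - σ (a + ω * b)) / (ω - σ ω) = b := by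
      simp only [map_add, map_mul, ha', hb']
      field_simp
      ring
    ext
    · simp only [e]
      ring
    · simp only [e]

theorem card_eq_fix_sq [Finite F] (σ : F →+* F) (hinv : ∀ a, σ (σ a) = a) (hσ : σ ≠ RingHom.id F) :
    Nat.card F = Nat.card (fixF σ) ^ 2 := by
  obtain ⟨ω, hω⟩ : ∃ ω, σ ω ≠ ω := by
    by_contra hcon
    push Not at hcon
    apply hσ
    ext x
    exact hcon x
  rw [Nat.card_congr (decompEquiv σ hinv ω hω), Nat.card_prod, pow_two]

/-- the analogue for the fixed points in a stable subfield -/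
theorem card_sub_eq_fix_sq [Finite F] {σ : F →+* F} {F₀ : Subfield F} (hs : ∀ a ∈ F₀, σ a ∈ F₀)
    (hinv : ∀ a, σ (σ a) = a) (hσ₀ : ∃ e ∈ F₀, σ e ≠ e) :
    Nat.card F₀ = Nat.card (F₀.comap (fixF σ).subtype) ^ 2 := by
  have hne : sig hs ≠ RingHom.id F₀ := by
    obtain ⟨e, he, hne⟩ := hσ₀
    intro h
    apply hne
    exact congrArg Subtype.val (RingHom.congr_fun h ⟨e, he⟩)
  have h1 := card_eq_fix_sq (sig hs) (fun a => Subtype.ext (hinv _)) hne
  rw [h1]
  congr 1
  refine Nat.card_congr ?_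
  refine
    { toFun := fun x => ⟨⟨(x.1 : F), ?_⟩, ?_⟩
      invFun := fun y => ⟨⟨(y.1 : F), ?_⟩, ?_⟩
      left_inv := fun x => rfl
      right_inv := fun y => rfl }
  · exact congrArg Subtype.val x.2
  · exact x.1.2
  · exact y.2
  · exact Subtype.ext y.1.2

/-- the degree of the fixed fields -/
theorem card_fix_pow [Fintype F] {σ : F →+* F} {F₀ : Subfield F} (hs : ∀ a ∈ F₀, σ a ∈ F₀)
    (hinv : ∀ a, σ (σ a) = a) (hσ : σ ≠ RingHom.id F) (hσ₀ : ∃ e ∈ F₀, σ e ≠ e) {r : ℕ}
    (hcard : Fintype.card F = Nat.card F₀ ^ r) :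
    Nat.card (fixF σ) = Nat.card (F₀.comap (fixF σ).subtype) ^ r := by
  have h1 := card_eq_fix_sq σ hinv hσ
  have h2 := card_sub_eq_fix_sq hs hinv hσ₀
  rw [← Nat.card_eq_fintype_card] at hcard
  rw [h1, h2, ← pow_mul, mul_comm, pow_mul] at hcard
  exact Nat.pow_left_injective (n := 2) (by norm_num) hcard

/-- roots of a quadratic over a subfield of odd prime index lie in the subfield -/
theorem quad_mem [Fintype F] {F₀ : Subfield F} {r : ℕ} (hr : r.Prime) (hr2 : r ≠ 2)
    (hcard : Fintype.card F = Nat.card F₀ ^ r) {γ b c : F} (hb : b ∈ F₀) (hc : c ∈ F₀)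
    (h : γ * γ + b * γ + c = 0) : γ ∈ F₀ := by
  classical
  set q := Nat.card F₀ with hq
  have hq1 : 1 < q := Finite.one_lt_card
  have hmem := fun a : F => mem_iff_pow_eq (F₀ := F₀) (q := q) hq.symm hq1 a
  have hb' : b ^ q = b := (hmem _).2 hb
  have hc' : c ^ q = c := (hmem _).2 hc
  obtain ⟨p, hp⟩ := CharP.exists F
  haveI : Fact p.Prime := ⟨CharP.char_is_prime F p⟩
  -- the map `x ↦ x ^ q` is a ring homomorphism
  obtain ⟨n, hn⟩ : ∃ n : ℕ, q = p ^ n := by
    haveI : Fintype F₀ := Fintype.ofFinite _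
    haveI : CharP F₀ p := by
      exact (RingHom.charP_iff F₀.subtype F₀.subtype.injective p).2 hp
    obtain ⟨k, hk⟩ := FiniteField.card F₀ p
    exact ⟨k, by rw [hq, Nat.card_eq_fintype_card, hk.2]⟩
  have hadd : ∀ x y : F, (x + y) ^ q = x ^ q + y ^ q := by
    intro x y
    rw [hn]
    exact add_pow_char_pow x y p n
  have hγ1 : (γ ^ q) * (γ ^ q) + b * γ ^ q + c = 0 := by
    have := congrArg (fun z => z ^ q) h
    simp only [hadd, mul_pow, hb', hc'] at this
    rw [zero_pow (by omega)] at this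
    exact this
  -- two roots
  set γ' := γ ^ q with hγ'
  have h2 : (γ' - γ) * (γ' + γ + b) = 0 := by linear_combination hγ1 - h
  have hγ2 : γ' ^ q = γ := by
    have h3 := congrArg (fun z => z ^ q) (h2)
    by_cases hne : γ' = γ
    · calc γ' ^ q = γ ^ q := by rw [hne]
        _ = γ' := rfl
        _ = γ := hne
    · have h4 : γ' + γ + b = 0 := (mul_eq_zero.1 h2).resolve_left (sub_ne_zero.2 hne)
      have h5 := congrArg (fun z => z ^ q) h4
      simp only [hadd, hb'] at h5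
      rw [zero_pow (by omega)] at h5
      have h6 : γ' ^ q + γ' + b = 0 := h5
      linear_combination h6 - h4
  have hodd : Odd r := hr.odd_of_ne_two hr2
  obtain ⟨k, hk⟩ := hodd
  have h8 : ∀ n : ℕ, γ ^ ((q ^ 2) ^ n) = γ := by
    intro n
    induction n with
    | zero => simp
    | succ n ih =>
      rw [pow_succ, pow_mul, ih, pow_two, pow_mul]
      exact hγ2
  have h9 : γ ^ (q ^ r) = γ := by
    rw [← hcard]
    exact FiniteField.pow_card γ
  have h10 : q ^ r = (q ^ 2) ^ k * q := by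
    rw [hk, pow_succ, pow_mul]
  rw [h10, pow_mul, h8] at h9
  exact (hmem _).1 h9

end fields

end Cfsg.Agent.Lib.Geo.SUR
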