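import Mathlib
import Cfsg.Agent.Lib.Geo.SURat3

set_option autoImplicit false

/-! Dickson's step for overgroups of the rational unitary group. -/

namespace Cfsg.Agent.Lib.Geo.SUR

open scoped MatrixGroups Matrix commutatorElement
open Module
open Cfsg.Agent.Lib.Classical.Dick (uu ll)

variable {ι : Type} [Fintype ι] [DecidableEq ι]

section dickson

variable {F : Type*} [Field F]

/-- the embedding of `SL₂` of a subfield -/
noncomputable def slmap (E : Subfield F) : SL(2, E) →* SL(2, F) := Matrix.SpecialLinearGroup.map E.subtype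

theorem slmap_uu (E : Subfield F) (t : E) : slmap E (uu t) = uu (t : F) := by
  ext i j
  fin_cases i <;> fin_cases j <;> rfl

theorem slmap_ll (E : Subfield F) (t : E) : slmap E (ll t) = ll (t : F) := by
  ext i j
  fin_cases i <;> fin_cases j <;> rfl

theorem IsE.act_zero {σ : F →+* F} {f : (ι → F) → (ι → F) → F} (hf : SForm σ f) {g : GL ι F} {a : ι → F} {τ : F}
    (h : IsE f g a 0 τ) (x : ι → F) : act g x = x + (τ * f x a) • a := by
  rw [h x, hf.zero_right]
  simp

variable [Fintype F] {F₀ : Subfield F} {P : GL ι F} {σ : F →+* F}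
  {f : (ι → F) → (ι → F) → F} {M : Subgroup (GL ι F)}

local notation "V₀" => (ι → F₀)
local notation "Vv" => (ι → F)
local notation "R" => rat F₀ P

variable (D : RD F₀ P σ f) (hM : M ≤ uGroup f) (hS : HS M F₀ P σ f) (hn : 13 ≤ Fintype.card ι)
  (hA : ∀ d, RS M F₀ P f d → d ∈ F₀)

include D hM hS hn hA

/-- Dickson's step: a moved transvection with two perpendicular rational isotropic vectors with a
non-rational ratio of pairings forces a small degree -/
theorem dickson_bound {r : ℕ} (hr : r.Prime) (hr2 : r ≠ 2) (hcard : Fintype.card F = Nat.card F₀ ^ r)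
    (hσ : σ ≠ RingHom.id F) {u : Vv} {c₀ : F} (hc₀F : c₀ ∈ F₀) (hc₀0 : c₀ ≠ 0) (hc₀ : c₀ + σ c₀ = 0)
    (huu : f u u = 0) (hum : TS f M u 0 c₀) {a a' : V₀} (ha : f (R a) (R a) = 0) (ha' : f (R a') (R a') = 0)
    (haa' : f (R a) (R a') = 0) (hμ : f u (R a) ≠ 0)
    (hc : f u (R a') * (f u (R a))⁻¹ ∉ F₀) : r ≤ 8 := by
  classical
  have hf := D.hf
  have hinv := hf.inv
  set μ := f u (R a) with hμd
  set c := f u (R a') * μ⁻¹ with hcd
  set γ := σ c with hγd
  have hcγ : σ γ = c := hinv c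
  have ha0 : a ≠ 0 := by
    rintro rfl
    apply hμ
    rw [hμd, rat_zero, hf.zero_right]
  have hγF : γ ∉ F₀ := fun h => hc (by
    have := D.hs _ h
    rwa [hcγ] at this)
  have hind : ∀ t : F₀, a' ≠ t • a := by
    intro t ht
    apply hc
    have h1 : c = σ t := by
      rw [hcd, ht, rat_smul, hf.smul_right, ← hμd]
      field_simp
    rw [h1]
    exact D.hs _ t.2
  obtain ⟨u', hu'⟩ : ∃ u' : Vv, u' = μ⁻¹ • u := ⟨_, rfl⟩
  have hu'a : f u' (R a) = 1 := by
    rw [hu', hf.smul_left, ← hμd, inv_mul_cancel₀ hμ]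
  have hu'a' : f u' (R a') = c := by
    rw [hu', hf.smul_left, hcd]
    ring
  have hu'u' : f u' u' = 0 := by
    rw [hu', hf.smul_left, hf.smul_right, huu]
    ring
  have hau' : f (R a) u' = 1 := by rw [hf.herm, hu'a, map_one]
  have ha'u' : f (R a') u' = γ := by rw [hf.herm, hu'a']
  have ha'a : f (R a') (R a) = 0 := hf.eq_zero_flip haa'
  obtain ⟨g₀, hg₀, E₀⟩ := hum
  have e₀ : u = μ • u' := by
    rw [hu', smul_smul, mul_inv_cancel₀ hμ, one_smul]
  rw [e₀] at E₀
  have E₁ := E₀.smul_centre hf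
  obtain ⟨τ₀, hτ₀d⟩ : ∃ τ₀ : F, τ₀ = c₀ * μ * σ μ := ⟨_, rfl⟩
  rw [← hτ₀d] at E₁
  have hσμ : σ μ ≠ 0 := by
    intro h
    apply hμ
    have := congrArg σ h
    rwa [hinv, map_zero] at this
  have hτ₀0 : τ₀ ≠ 0 := by
    rw [hτ₀d]
    exact mul_ne_zero (mul_ne_zero hc₀0 hμ) hσμ
  have hτ₀tr : σ τ₀ = -τ₀ := by
    rw [hτ₀d, map_mul, map_mul, hinv, eq_neg_of_add_eq_zero_right hc₀]
    ring
  -- a rational element of trace zero
  obtain ⟨δ₀, hδ₀0, hδ₀⟩ := exists_trace_zero D.sig_ne D.fq_sform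
  obtain ⟨δ, hδd⟩ : ∃ δ : F, δ = (δ₀ : F) := ⟨_, rfl⟩
  have hδF : δ ∈ F₀ := by
    rw [hδd]
    exact δ₀.2
  have hδ0 : δ ≠ 0 := by
    rw [hδd]
    exact_mod_cast hδ₀0
  have hδσ : σ δ = -δ := by
    have := congrArg Subtype.val hδ₀
    have h2 : (δ₀ : F) + σ δ₀ = 0 := this
    rw [hδd]
    linear_combination h2
  -- the fixed field
  haveI fK : Fintype (fixF σ) := Fintype.ofFinite _
  have hcardK : Fintype.card (fixF σ) = Nat.card (F₀.comap (fixF σ).subtype) ^ r := by
    rw [← Nat.card_eq_fintype_card]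
    exact card_fix_pow D.hs hinv hσ D.hσ₀ hcard
  obtain ⟨p, hp⟩ : ∃ p : Vv, p = δ • R a := ⟨_, rfl⟩
  obtain ⟨ρ', hρ'⟩ : ∃ ρ' : Vv, ρ' = R a' - γ • R a := ⟨_, rfl⟩
  have hpa : f p (R a) = 0 := by rw [hp, hf.smul_left, ha, mul_zero]
  have hpa' : f p (R a') = 0 := by rw [hp, hf.smul_left, haa', mul_zero]
  have hρa : f ρ' (R a) = 0 := by
    rw [hρ', hf.sub_left, hf.smul_left, ha'a, ha]
    ring
  have hρa' : f ρ' (R a') = 0 := by
    rw [hρ', hf.sub_left, hf.smul_left, ha', haa']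
    ring
  have hρu : f ρ' u' = 0 := by
    rw [hρ', hf.sub_left, hf.smul_left, ha'u', hau']
    ring
  have hRa' : R a' = ρ' + γ • R a := by rw [hρ']; abel
  have hRa : R a = δ⁻¹ • p := by rw [hp, smul_smul, inv_mul_cancel₀ hδ0, one_smul]
  obtain ⟨Y, hY⟩ : ∃ Y : Submodule F Vv, Y = Submodule.span F ({p, u', ρ'} : Set Vv) := ⟨_, rfl⟩
  have memY1 : p ∈ Y := by rw [hY]; exact Submodule.subset_span (by simp)
  have memY2 : u' ∈ Y := by rw [hY]; exact Submodule.subset_span (by simp)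
  have memY3 : ρ' ∈ Y := by rw [hY]; exact Submodule.subset_span (by simp)
  have memA : R a ∈ Y := by
    rw [hRa]
    exact Submodule.smul_mem _ _ memY1
  have memA' : R a' ∈ Y := by
    rw [hRa']
    exact Submodule.add_mem _ memY3 (Submodule.smul_mem _ _ memA)
  obtain ⟨L, hL⟩ : ∃ L : Subgroup SL(2, fixF σ), L = (pairLift M p u' p u' ρ' Y).comap (slmap (fixF σ)) := ⟨_, rfl⟩
  have memL : ∀ {x : SL(2, fixF σ)}, slmap (fixF σ) x ∈ pairLift M p u' p u' ρ' Y → x ∈ L := by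
    intro x hx
    rw [hL]
    exact hx
  -- the root elements
  have hll : ll (⟨τ₀ * δ, by
      rw [mem_fixF, map_mul, hτ₀tr, hδσ]
      ring⟩ : fixF σ) ∈ L := by
    apply memL
    rw [slmap_ll]
    have hPA : PA g₀ (ll (τ₀ * δ)) p u' ρ' := by
      refine PA_ll.2 ⟨⟨0, ?_⟩, ⟨0, ?_⟩⟩
      · rw [hp, map_smul, E₁.act_zero hf, hau']
        simp only [mul_one, zero_smul, add_zero]
        (module)
      · rw [E₁.act_zero hf, hu'u']
        simp
    refine ⟨g₀, hg₀, ?_, hPA, hPA, fun y => ?_⟩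
    · rw [E₁.act_zero hf, hρu]
      simp
    · rw [E₁.act_zero hf, add_sub_cancel_left]
      exact Submodule.smul_mem _ _ memY2
  have hu1 : ∀ s : fixF σ, (s : F) ∈ F₀ → uu s ∈ L := by
    intro s hs
    apply memL
    rw [slmap_uu]
    have hsσ : σ (s : F) = s := s.2
    obtain ⟨g, hg, E⟩ := hS.ut a ((s : F) * δ) ha (F₀.mul_mem hs hδF) (by
      rw [map_mul, hsσ, hδσ]
      ring)
    have hPA : PA g (uu (s : F)) p u' ρ' := by
      refine PA_uu.2 ⟨⟨0, ?_⟩, ⟨0, ?_⟩⟩
      · rw [E.act_zero hf, hpa]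
        simp
      · rw [E.act_zero hf, hu'a, hp]
        simp only [mul_one, zero_smul, add_zero]
        (module)
    refine ⟨g, hg, ?_, hPA, hPA, fun y => ?_⟩
    · rw [E.act_zero hf, hρa]
      simp
    · rw [E.act_zero hf, add_sub_cancel_left]
      exact Submodule.smul_mem _ _ memA
  -- the second root element
  obtain ⟨t₀, ht₀F, ht₀⟩ : ∃ t₀ : F, t₀ ∈ F₀ ∧ t₀ * γ - σ (t₀ * γ) ∉ F₀ := by
    by_contra hcon
    push Not at hcon
    obtain ⟨ω, hωF, hω⟩ := D.hσ₀
    have h1 := hcon 1 F₀.one_mem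
    have h2 := hcon ω hωF
    apply hγF
    have h3 : ω - σ ω ≠ 0 := sub_ne_zero.2 (Ne.symm hω)
    have e1 : γ = ((ω * γ - σ (ω * γ)) - σ ω * (1 * γ - σ (1 * γ))) * (ω - σ ω)⁻¹ := by
      simp only [map_mul, map_one]
      field_simp
      ring
    rw [e1]
    exact F₀.mul_mem (F₀.sub_mem h2 (F₀.mul_mem (D.hs _ hωF) h1)) (F₀.inv_mem (F₀.sub_mem hωF (D.hs _ hωF)))
  have hb₂fix : (t₀ * γ - σ (t₀ * γ)) / δ ∈ fixF σ := by
    rw [mem_fixF, map_div₀, map_sub, hinv, hδσ]
    field_simp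
    ring
  obtain ⟨b₂, hb₂⟩ : ∃ b₂ : fixF σ, (b₂ : F) = (t₀ * γ - σ (t₀ * γ)) / δ := ⟨⟨_, hb₂fix⟩, rfl⟩
  have hb₂F : (b₂ : F) ∉ F₀ := by
    intro h
    apply ht₀
    have : t₀ * γ - σ (t₀ * γ) = (b₂ : F) * δ := by
      rw [hb₂]
      field_simp
    rw [this]
    exact F₀.mul_mem h hδF
  have hu2 : ∀ s : fixF σ, (s : F) ∈ F₀ → uu (s * b₂) ∈ L := by
    intro s hs
    apply memL
    rw [slmap_uu]
    have hsσ : σ (s : F) = s := s.2
    have hst : (s : F) * t₀ ∈ F₀ := F₀.mul_mem hs ht₀F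
    have e1 : R ((⟨_, hst⟩ : F₀) • a') = ((s : F) * t₀) • R a' := by rw [rat_smul]
    obtain ⟨g, hg, E⟩ := hS.eich a ((⟨_, hst⟩ : F₀) • a') ha (by
        rw [e1, hf.smul_left, hf.smul_right, ha']
        ring) (by
        rw [e1, hf.smul_right, haa', mul_zero])
    rw [e1] at E
    have hfx : ∀ x : Vv, f x (((s : F) * t₀) • R a') = σ ((s : F) * t₀) * f x (R a') := fun x => hf.smul_right _ _ _
    have hPA : PA g (uu ((s : F) * (b₂ : F))) p u' ρ' := by
      refine PA_uu.2 ⟨⟨0, ?_⟩, ⟨(s : F) * t₀, ?_⟩⟩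
      · rw [E p, hfx, hpa, hpa']
        simp
      · rw [E u', hfx, hu'a, hu'a', map_mul, hsσ, hp, hρ', hb₂]
        simp only [one_smul, zero_mul, zero_smul, add_zero]
        have e2 : σ (t₀ * γ) = σ t₀ * c := by rw [map_mul, hcγ]
        rw [e2]
        have e3 : ((s : F) * ((t₀ * γ - σ t₀ * c) / δ)) * δ = (s : F) * (t₀ * γ - σ t₀ * c) := by
          field_simp
        have e4 : ((s : F) * ((t₀ * γ - σ t₀ * c) / δ)) • δ • R a = ((s : F) * (t₀ * γ - σ t₀ * c)) • R a := by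
          rw [smul_smul, e3]
        rw [e4]
        (module)
    refine ⟨g, hg, ?_, hPA, hPA, fun y => ?_⟩
    · rw [E ρ', hfx, hρa, hρa']
      simp
    · rw [E y]
      have e5 : y + f y (R a) • ((s : F) * t₀) • R a' - f y (((s : F) * t₀) • R a') • R a + (0 * f y (R a)) • R a - y
          = (f y (R a) * ((s : F) * t₀)) • R a' - f y (((s : F) * t₀) • R a') • R a := by
        (module)
      rw [e5]
      exact Submodule.sub_mem _ (Submodule.smul_mem _ _ memA') (Submodule.smul_mem _ _ memA)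
  have hall : ∀ d : fixF σ, uu d ∈ L := by
    intro d
    set S : Set (fixF σ) := {e | ∃ s : fixF σ, (s : F) ∈ F₀ ∧ (e = s ∨ e = s * b₂)} with hSd
    have ht₀' : (⟨τ₀ * δ, by
      rw [mem_fixF, map_mul, hτ₀tr, hδσ]
      ring⟩ : fixF σ) ≠ 0 := by
      intro h
      have := congrArg Subtype.val h
      exact (mul_ne_zero hτ₀0 hδ0) this
    refine DS.root_closure hr hcardK L ht₀' hll S ?_ ?_ (b₁ := 1) (b₂ := b₂)
      ⟨1, F₀.one_mem, Or.inl rfl⟩ ⟨1, F₀.one_mem, Or.inr (by ring)⟩ one_ne_zero ?_ d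
    · rintro e ⟨s, hs, he | he⟩
      · rw [he]
        exact hu1 s hs
      · rw [he]
        exact hu2 s hs
    · rintro c' hc' e ⟨s, hs, he | he⟩
      · exact ⟨c' * s, F₀.mul_mem hc' hs, Or.inl (by rw [he])⟩
      · exact ⟨c' * s, F₀.mul_mem hc' hs, Or.inr (by rw [he]; ring)⟩
    · intro c' hc' h
      apply hb₂F
      rw [h, mul_one]
      exact hc'
  -- a hyperbolic pair perpendicular to both
  obtain ⟨q, q', hq, hq', hqq', hΛ⟩ := D.hyp [a, a'] (by simp; omega)
  have hqa := hΛ a (by simp)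
  have hqa' := hΛ a' (by simp)
  have hq0 := ne_zero_of_pair hf hqq'
  have hq'q : f (R q') (R q) = 1 := by rw [hf.herm, hqq', map_one]
  have hdual : ∀ e₁ e₂ : F₀, ∃ x : V₀, f (R x) (R x) = 0 ∧ f (R x) (R a) = e₁ ∧ f (R x) (R a') = e₂ ∧ f (R x) (R q) = 0 := by
    intro e₁ e₂
    obtain ⟨y, h1, h2⟩ := D.two_vals ha0 hind e₁ e₂
    obtain ⟨κ, hκ⟩ : ∃ κ : F₀, (κ : F) = f (R y) (R q) := ⟨⟨_, D.hrat y q⟩, rfl⟩
    have e4 : f (R (y - κ • q')) (R a) = e₁ := by
      rw [rat_sub', rat_smul, hf.sub_left, hf.smul_left, h1, hqa.2]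
      simp
    have e5 : f (R (y - κ • q')) (R a') = e₂ := by
      rw [rat_sub', rat_smul, hf.sub_left, hf.smul_left, h2, hqa'.2]
      simp
    have e6 : f (R (y - κ • q')) (R q) = 0 := by
      rw [rat_sub', rat_smul, hf.sub_left, hf.smul_left, hq'q, hκ]
      simp
    obtain ⟨x, hx, hv⟩ := D.iso_values [a, a', q] (by simp; omega) (y - κ • q')
    exact ⟨x, hx, by rw [hv a (by simp), e4], by rw [hv a' (by simp), e5], by rw [hv q (by simp), e6]⟩
  obtain ⟨x₁, hx₁, hx₁a, hx₁a', hx₁q⟩ := hdual 1 0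
  obtain ⟨x₂, hx₂, hx₂a, hx₂a', hx₂q⟩ := hdual 0 1
  simp only [Subfield.coe_zero, Subfield.coe_one] at hx₁a hx₁a' hx₂a hx₂a'
  have hax₁ : f (R a) (R x₁) = 1 := by rw [hf.herm, hx₁a, map_one]
  have ha'x₁ : f (R a') (R x₁) = 0 := hf.eq_zero_flip hx₁a'
  have hax₂ : f (R a) (R x₂) = 0 := hf.eq_zero_flip hx₂a
  have ha'x₂ : f (R a') (R x₂) = 1 := by rw [hf.herm, hx₂a', map_one]
  -- the ratio of coordinates of an image
  have hratio : ∀ {v : Vv} {α β : F}, TS f M v 0 c₀ → v = α • R a + β • R a' → β ≠ 0 → α * β⁻¹ ∈ F₀ := by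
    intro v α β hTS hv hβ
    have hvv : f v v = 0 := by
      rw [hv]
      simp only [hf.add_left, hf.add_right, hf.smul_left, hf.smul_right, ha, ha', haa', ha'a, mul_zero, add_zero]
    have hvq : f v (R q) = 0 := by
      rw [hv, hf.add_left, hf.smul_left, hf.smul_left, hf.eq_zero_flip hqa.1, hf.eq_zero_flip hqa'.1]
      ring
    have hvx₁ : f v (R x₁) = α := by
      rw [hv, hf.add_left, hf.smul_left, hf.smul_left, hax₁, ha'x₁]
      ring
    have hvx₂ : f v (R x₂) = β := by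
      rw [hv, hf.add_left, hf.smul_left, hf.smul_left, hax₂, ha'x₂]
      ring
    have h1 := rigid_all D hM hS hn hA hc₀F hc₀0 hc₀ hq0 hq hvv hTS hvq (hf.eq_zero_flip hx₂q) (hf.eq_zero_flip hx₁q)
    have h2 := rigid_all D hM hS hn hA hc₀F hc₀0 hc₀ hq0 hq hvv hTS hvq (hf.eq_zero_flip hx₂q) (hf.eq_zero_flip hx₂q)
    rw [hvx₁, hvx₂] at h1
    rw [hvx₂] at h2
    have hσβ : σ β ≠ 0 := by
      intro h
      apply hβ
      have := congrArg σ h
      rwa [hinv, map_zero] at this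
    have e : α * β⁻¹ = (σ β * α) * (σ β * β)⁻¹ := by
      field_simp
    rw [e]
    exact F₀.mul_mem h1 (F₀.inv_mem h2)
  -- the dual vectors
  obtain ⟨c₁, hc₁, hc₁a, hc₁a', -⟩ := hdual 1 0
  obtain ⟨c₂, hc₂, hc₂a, hc₂a', -⟩ := hdual 0 1
  simp only [Subfield.coe_zero, Subfield.coe_one] at hc₁a hc₁a' hc₂a hc₂a'
  have hac₁ : f (R a) (R c₁) = 1 := by rw [hf.herm, hc₁a, map_one]
  have ha'c₁ : f (R a') (R c₁) = 0 := hf.eq_zero_flip hc₁a'
  have hac₂ : f (R a) (R c₂) = 0 := hf.eq_zero_flip hc₂a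
  have ha'c₂ : f (R a') (R c₂) = 1 := by rw [hf.herm, hc₂a', map_one]
  -- every element of the fixed field is a combination
  have hcomb : ∀ d : fixF σ, ∃ A B C E : F₀, (d : F) * δ = A + c * B + γ * C + c * γ * E := by
    intro d
    have hd := hall d
    rw [hL] at hd
    have hd' : uu (d : F) ∈ pairLift M p u' p u' ρ' Y := by
      have := hd
      rw [Subgroup.mem_comap, slmap_uu] at this
      exact this
    obtain ⟨z, hz, hzρ, hPA, -, hYz⟩ := hd'
    obtain ⟨⟨s, hs⟩, ⟨s₃, hs₃⟩⟩ := PA_uu.1 hPA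
    have hiso := hM hz
    obtain ⟨s₁, hs₁d⟩ : ∃ s₁ : F, s₁ = δ⁻¹ * s := ⟨_, rfl⟩
    have hza₀ : act z (R a) = R a + s₁ • ρ' := by
      have h1 : act z (R a) = δ⁻¹ • act z p := by
        rw [hp, map_smul, smul_smul, inv_mul_cancel₀ hδ0, one_smul]
      rw [h1, hs, hs₁d, hp, smul_add, smul_smul, smul_smul, inv_mul_cancel₀ hδ0, one_smul]
    have hza'₀ : act z (R a') = R a' + (γ * s₁) • ρ' := by
      rw [hRa', map_add, map_smul, hzρ, hza₀]
      (module)
    have hv₁ : act z (R a) = (1 - s₁ * γ) • R a + s₁ • R a' := by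
      rw [hza₀, hρ']
      (module)
    have hv₂ : act z (R a') = (-(s₁ * γ * γ)) • R a + (1 + s₁ * γ) • R a' := by
      rw [hza'₀, hρ']
      (module)
    have hT : ∀ w : V₀, f (R w) (R w) = 0 → TS f M (act z (R w)) 0 c₀ := by
      intro w hw
      have := (hS.ut w c₀ hw hc₀F hc₀).conj hf hM hz
      rwa [map_zero] at this
    have hs0 : s₁ = 0 := by
      by_contra hs₁0
      have h1 := hratio (hT a ha) hv₁ hs₁0
      obtain ⟨t₁, ht₁⟩ : ∃ t₁ : F, t₁ = (1 - s₁ * γ) * s₁⁻¹ := ⟨_, rfl⟩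
      have ht₁F : t₁ ∈ F₀ := by rw [ht₁]; exact h1
      have e1 : s₁ * (t₁ + γ) = 1 := by
        rw [ht₁]
        field_simp
        ring
      apply hγF
      by_cases hβ₂ : t₁ + 2 * γ = 0
      · by_cases h2 : (2 : F) = 0
        · have ht₁0 : t₁ = 0 := by
            rw [h2, zero_mul, add_zero] at hβ₂
            exact hβ₂
          rw [ht₁0, zero_add] at e1
          have hv₃ : act z (R (a + a')) = (-γ) • R a + s₁ • R a' := by
            rw [rat_add, map_add, hv₁, hv₂]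
            have e2 : (1 - s₁ * γ) = 0 := by rw [e1]; ring
            have e3 : s₁ * γ * γ = γ := by rw [e1]; ring
            rw [e2, e3]
            have e4 : (1 + s₁ * γ) = 0 := by
              rw [e1]
              have : (1 : F) + 1 = 2 := by norm_num
              rw [this, h2]
            rw [e4]
            simp [add_comm]
          have hiso3 : f (R (a + a')) (R (a + a')) = 0 := by
            rw [rat_add]
            simp only [hf.add_left, hf.add_right, ha, ha', haa', ha'a, add_zero]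
          have h3 := hratio (hT _ hiso3) hv₃ hs₁0
          have e5 : γ * γ = -((-γ) * s₁⁻¹) := by
            have : s₁⁻¹ = γ := by
              rw [inv_eq_iff_eq_inv]
              exact eq_inv_of_mul_eq_one_left e1
            rw [this]
            ring
          have h4 : γ * γ ∈ F₀ := by
            rw [e5]
            exact F₀.neg_mem h3
          exact quad_mem hr hr2 hcard (b := 0) (c := -(γ * γ)) F₀.zero_mem (F₀.neg_mem h4) (by ring)
        · have e2 : γ = -t₁ * 2⁻¹ := by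
            field_simp
            linear_combination hβ₂
          rw [e2]
          refine F₀.mul_mem (F₀.neg_mem ht₁F) (F₀.inv_mem ?_)
          have : (2 : F) = 1 + 1 := by norm_num
          rw [this]
          exact F₀.add_mem F₀.one_mem F₀.one_mem
      · have e2 : 1 + s₁ * γ = s₁ * (t₁ + 2 * γ) := by
          linear_combination -e1
        have hβ₂' : 1 + s₁ * γ ≠ 0 := by
          rw [e2]
          exact mul_ne_zero hs₁0 hβ₂
        have h2 := hratio (hT a' ha') hv₂ hβ₂'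
        obtain ⟨t₂, ht₂⟩ : ∃ t₂ : F, t₂ = (-(s₁ * γ * γ)) * (1 + s₁ * γ)⁻¹ := ⟨_, rfl⟩
        have ht₂F : t₂ ∈ F₀ := by rw [ht₂]; exact h2
        have e3 : γ * γ + (t₂ * 2) * γ + (t₂ * t₁) = 0 := by
          have e4 : t₂ * (1 + s₁ * γ) = -(s₁ * γ * γ) := by
            rw [ht₂]
            field_simp
          rw [e2] at e4
          apply mul_left_cancel₀ hs₁0
          rw [mul_zero]
          linear_combination e4 * (1 : F)
        refine quad_mem hr hr2 hcard (F₀.mul_mem ht₂F ?_) (F₀.mul_mem ht₂F ht₁F) e3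
        have : (2 : F) = 1 + 1 := by norm_num
        rw [this]
        exact F₀.add_mem F₀.one_mem F₀.one_mem
    have hza : act z (R a) = R a := by
      rw [hza₀, hs0]
      simp
    have hza' : act z (R a') = R a' := by
      rw [hza'₀, hs0]
      simp
    -- the image of `z - 1`
    have hN : ∀ y : Vv, ∃ k₁ k₃ : F, act z y - y = k₁ • R a + k₃ • ρ' := by
      intro y
      have h1 := hYz y
      rw [hY] at h1
      obtain ⟨k₁, y₁, h₁, h2⟩ := Submodule.mem_span_insert.1 h1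
      obtain ⟨k₂, k₃, h3⟩ := Submodule.mem_span_pair.1 h₁
      rw [← h3] at h2
      have h4 : f (act z y - y) (R a) = 0 := by
        have h5 := hiso y (R a)
        rw [hza] at h5
        rw [hf.sub_left, h5, sub_self]
      rw [h2, hf.add_left, hf.add_left, hf.smul_left, hf.smul_left, hf.smul_left, hpa, hu'a, hρa] at h4
      have h6 : k₂ = 0 := by linear_combination h4
      refine ⟨k₁ * δ, k₃, ?_⟩
      rw [h2, h6, hp, smul_smul]
      simp
    have hfix : ∀ y : Vv, f y (R a) = 0 → f y (R a') = 0 → act z y = y := by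
      intro y hy hy'
      rw [← sub_eq_zero]
      by_contra hne
      obtain ⟨w, hw⟩ := hf.nd _ hne
      apply hw
      obtain ⟨k₁, k₃, hk⟩ := hN w
      have h1 : f w y = f (act z w) (act z y) := (hiso w y).symm
      have h2 : f (R a) (act z y) = 0 := by
        have h3 := hiso (R a) y
        rw [hza] at h3
        rw [h3]
        exact hf.eq_zero_flip hy
      have h4 : f ρ' (act z y) = 0 := by
        have h3 := hiso ρ' y
        rw [hzρ] at h3
        rw [h3, hρ', hf.sub_left, hf.smul_left, hf.eq_zero_flip hy, hf.eq_zero_flip hy']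
        ring
      have h5 : f (act z w - w) (act z y) = 0 := by
        rw [hk, hf.add_left, hf.smul_left, hf.smul_left, h2, h4]
        ring
      rw [hf.sub_right, h1, sub_eq_zero]
      rw [hf.sub_left, sub_eq_zero] at h5
      rw [h5]
    have hn0 : ∀ c' x : V₀, f (R c') (R c') = 0 → f (act z (R c') - R c') (R x) ∈ F₀ := by
      intro c' x hc'
      obtain ⟨e', he'0, he', hΛ₃⟩ := D.iso [a, a', c', x] (by simp; omega)
      have hz' : act z (R e') = R e' := hfix _ (hΛ₃ a (by simp)) (hΛ₃ a' (by simp))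
      have h1 := (hS.eich e' c' he' hc' (hΛ₃ c' (by simp))).diff hf hM hz he' (hΛ₃ c' (by simp)) hz'
      have h2 : f (R e') (act z (R c') - R c') = 0 := by
        have h3 := hiso (R e') (R c')
        rw [hz', hΛ₃ c' (by simp)] at h3
        rw [hf.sub_right, h3, hΛ₃ c' (by simp), sub_zero]
      exact R1_all D hM hS hn hA he'0 he' h2 h1 (hΛ₃ x (by simp))
    obtain ⟨y₀, hy₀⟩ : ∃ y₀ : Vv, y₀ = u' - R c₁ - c • R c₂ := ⟨_, rfl⟩
    have hy₀a : f y₀ (R a) = 0 := by
      rw [hy₀, hf.sub_left, hf.sub_left, hf.smul_left, hu'a, hc₁a, hc₂a]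
      ring
    have hy₀a' : f y₀ (R a') = 0 := by
      rw [hy₀, hf.sub_left, hf.sub_left, hf.smul_left, hu'a', hc₁a', hc₂a']
      ring
    have hz₀ := hfix y₀ hy₀a hy₀a'
    have hNu : act z u' - u' = (act z (R c₁) - R c₁) + c • (act z (R c₂) - R c₂) := by
      have e1 : u' = y₀ + R c₁ + c • R c₂ := by
        rw [hy₀]
        abel
      have e2 : act z u' = y₀ + act z (R c₁) + c • act z (R c₂) := by
        rw [e1, map_add, map_add, map_smul, hz₀]
      rw [e2, e1]
      (module)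
    have hNu' : act z u' - u' = ((d : F) * δ) • R a + s₃ • ρ' := by
      rw [hs₃, hp]
      (module)
    have hρc₁ : f ρ' (R c₁) = -γ := by
      rw [hρ', hf.sub_left, hf.smul_left, ha'c₁, hac₁]
      ring
    have hρc₂ : f ρ' (R c₂) = 1 := by
      rw [hρ', hf.sub_left, hf.smul_left, ha'c₂, hac₂]
      ring
    have e1 : f (act z u' - u') (R c₁) = (d : F) * δ - s₃ * γ := by
      rw [hNu', hf.add_left, hf.smul_left, hf.smul_left, hac₁, hρc₁]
      ring
    have e2 : f (act z u' - u') (R c₂) = s₃ := by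
      rw [hNu', hf.add_left, hf.smul_left, hf.smul_left, hac₂, hρc₂]
      ring
    rw [hNu, hf.add_left, hf.smul_left] at e1 e2
    refine ⟨⟨_, hn0 c₁ c₁ hc₁⟩, ⟨_, hn0 c₂ c₁ hc₂⟩, ⟨_, hn0 c₁ c₂ hc₁⟩, ⟨_, hn0 c₂ c₂ hc₂⟩, ?_⟩
    simp only
    linear_combination -e1 + (-γ) * e2
  -- counting
  choose A B C E hABCE using hcomb
  have hinj : Function.Injective (fun d : fixF σ => (A d, B d, C d, E d)) := by
    intro d d' h
    have h1 : A d = A d' := congrArg Prod.fst h
    have h2 : B d = B d' := congrArg (fun x => x.2.1) h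
    have h3 : C d = C d' := congrArg (fun x => x.2.2.1) h
    have h4 : E d = E d' := congrArg (fun x => x.2.2.2) h
    apply Subtype.ext
    apply mul_right_cancel₀ hδ0
    rw [hABCE, hABCE, h1, h2, h3, h4]
  have hq1 : 1 < Nat.card F₀ := Finite.one_lt_card
  have h1 := Nat.card_le_card_of_injective _ hinj
  simp only [Nat.card_prod] at h1
  have h2 := card_eq_fix_sq σ hinv hσ
  rw [Nat.card_eq_fintype_card (α := F), hcard] at h2
  have h3 : Nat.card F₀ ^ r ≤ Nat.card F₀ ^ 8 := by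
    rw [h2]
    calc Nat.card (fixF σ) ^ 2 ≤ (Nat.card F₀ * (Nat.card F₀ * (Nat.card F₀ * Nat.card F₀))) ^ 2 := Nat.pow_le_pow_left h1 2
      _ = Nat.card F₀ ^ 8 := by ring
  exact (Nat.pow_le_pow_iff_right hq1).1 h3

end dickson

end Cfsg.Agent.Lib.Geo.SUR
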