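import Mathlib
import Cfsg.Agent.Lib.Geo.SURat4

set_option autoImplicit false

/-! The subfield subgroup of `SU` for a subfield of odd prime index is maximal. -/

namespace Cfsg.Agent.Lib.Geo.SUR

open scoped MatrixGroups Matrix commutatorElement
open Module

variable {ι : Type} [Fintype ι] [DecidableEq ι]

variable {F : Type*} [Field F] [Fintype F] {F₀ : Subfield F} {P : GL ι F} {σ : F →+* F}
  {f : (ι → F) → (ι → F) → F} {M : Subgroup (GL ι F)}

local notation "V₀" => (ι → F₀)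
local notation "Vv" => (ι → F)
local notation "R" => rat F₀ P

variable (D : RD F₀ P σ f)

include D

/-- the ratio of scalars on perpendicular vectors is rational -/
theorem ratio_step {g : GL ι F} (H : ∀ x : V₀, f (R x) (R x) = 0 → ∃ (c : F) (w : V₀), act g (R x) = c • R w)
    {p q w : V₀} {c : F} (hp : f (R p) (R p) = 0) (hq : f (R q) (R q) = 0) (hpq : f (R p) (R q) = 0) (hp0 : p ≠ 0)
    (hind : ∀ t : F₀, q ≠ t • p) (hgp : act g (R p) = c • R w) (hc : c ≠ 0) :
    ∃ w' : V₀, act g (R q) = c • R w' := by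
  have hf := D.hf
  obtain ⟨c', w', h1⟩ := H q hq
  obtain ⟨c'', w'', h2⟩ := H (p + q) (by
    rw [rat_add]
    simp only [hf.add_left, hf.add_right, hp, hq, hpq, hf.eq_zero_flip hpq, add_zero])
  have hRp0 : R p ≠ 0 := by
    intro h
    apply hp0
    apply rat_injective P
    rw [h, rat_zero]
  have hw0 : w ≠ 0 := by
    rintro rfl
    rw [rat_zero, smul_zero] at hgp
    exact hRp0 ((act g).map_eq_zero_iff.1 hgp)
  have hc'0 : c' ≠ 0 := by
    rintro rfl
    rw [zero_smul] at h1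
    have h3 := (act g).map_eq_zero_iff.1 h1
    have h4 : q = 0 := by
      apply rat_injective P
      rw [h3, rat_zero]
    exact hind 0 (by rw [h4, zero_smul])
  have hind' : ∀ t : F₀, w' ≠ t • w := by
    rintro t rfl
    rw [rat_smul, smul_smul] at h1
    have h3 : act g (R q) = act g ((c' * t * c⁻¹) • R p) := by
      rw [map_smul, hgp, smul_smul, h1]
      congr 1
      field_simp
    have h4 := (act g).injective h3
    obtain ⟨a', haa'⟩ := D.partner hp0
    have haa'' : f (R p) (R a') = 1 := by rw [hf.herm, haa', map_one]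
    have h5 : f (R q) (R a') = c' * t * c⁻¹ := by
      rw [h4, hf.smul_left, haa'', mul_one]
    have h6 : c' * t * c⁻¹ ∈ F₀ := by
      rw [← h5]
      exact D.hrat _ _
    apply hind ⟨_, h6⟩
    apply rat_injective P
    rw [rat_smul]
    exact h4
  obtain ⟨y₁, h11, h12⟩ := D.two_vals hw0 hind' 1 0
  obtain ⟨y₂, h21, h22⟩ := D.two_vals hw0 hind' 0 1
  simp only [Subfield.coe_one, Subfield.coe_zero] at h11 h12 h21 h22
  have fl1 : f (R w) (R y₁) = 1 := by rw [hf.herm, h11, map_one]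
  have fl2 : f (R w') (R y₁) = 0 := hf.eq_zero_flip h12
  have fl3 : f (R w) (R y₂) = 0 := hf.eq_zero_flip h21
  have fl4 : f (R w') (R y₂) = 1 := by rw [hf.herm, h22, map_one]
  rw [rat_add, map_add, hgp, h1] at h2
  have e1 := congrArg (fun z => f z (R y₁)) h2
  have e2 := congrArg (fun z => f z (R y₂)) h2
  simp only [hf.add_left, hf.smul_left, fl1, fl2, fl3, fl4, mul_one, mul_zero, add_zero, zero_add] at e1 e2
  have h7 : f (R w'') (R y₁) ≠ 0 := by
    intro h0
    rw [h0, mul_zero] at e1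
    exact hc e1
  have hc''0 : c'' ≠ 0 := by
    rintro rfl
    rw [zero_mul] at e1
    exact hc e1
  obtain ⟨t₀, ht₀⟩ : ∃ t₀ : F₀, (t₀ : F) = f (R w'') (R y₂) * (f (R w'') (R y₁))⁻¹ :=
    ⟨⟨_, F₀.mul_mem (D.hrat _ _) (F₀.inv_mem (D.hrat _ _))⟩, rfl⟩
  refine ⟨t₀ • w', ?_⟩
  rw [h1, rat_smul, smul_smul, ht₀, e1, e2]
  congr 1
  field_simp

/-- an isometry outside the subfield group moves a rational isotropic vector off the rational vectors -/
theorem exists_not_rat_scale (hn : 13 ≤ Fintype.card ι) {g : GL ι F}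
    (hg : g ∉ Cfsg.Geo.subfieldSubgroup F₀ P) :
    ∃ a₀ : V₀, f (R a₀) (R a₀) = 0 ∧ ∀ (c : F) (w : V₀), act g (R a₀) ≠ c • R w := by
  have hf := D.hf
  by_contra hcon
  push Not at hcon
  apply hg
  obtain ⟨τ, hfix⟩ := exists_frob F₀
  obtain ⟨s, t, hs, ht, hst, -⟩ := D.hyp [] (by simp; omega)
  have hs0 : s ≠ 0 := ne_zero_of_pair hf hst
  have hRs0 : R s ≠ 0 := by
    intro h
    apply hs0
    apply rat_injective P
    rw [h, rat_zero]
  obtain ⟨c, w, hcw⟩ := hcon s hs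
  have hc : c ≠ 0 := by
    rintro rfl
    rw [zero_smul] at hcw
    exact hRs0 ((act g).map_eq_zero_iff.1 hcw)
  have key : ∀ x : V₀, f (R x) (R x) = 0 → ∃ w' : V₀, act g (R x) = c • R w' := by
    intro x hx
    by_cases hx0 : x = 0
    · subst hx0
      exact ⟨0, by simp [rat_zero]⟩
    obtain ⟨e, e', he, he', hee', hΛ⟩ := D.hyp [s, x] (by simp; omega)
    have h1 := hΛ s (by simp)
    have h2 := hΛ x (by simp)
    have he0 : e ≠ 0 := ne_zero_of_pair hf hee'
    obtain ⟨w₁, hw₁⟩ := ratio_step D hcon hs he (hf.eq_zero_flip h1.1) hs0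
      (hind_x hf hee' (hf.eq_zero_flip h1.2)) hcw hc
    exact ratio_step D hcon he hx h2.1 he0 (hind_y hf hx0 hee' (hf.eq_zero_flip h2.2)) hw₁ hc
  refine mem_subfield_of P τ hfix fun x => ?_
  obtain ⟨s₁, h1, h2⟩ := D.decomp0 (by omega) x
  obtain ⟨w₁, hw₁⟩ := key s₁ h1
  obtain ⟨w₂, hw₂⟩ := key _ h2
  refine ⟨c, w₁ + w₂, ?_⟩
  have e1 : R x = R s₁ + R (x - s₁) := by rw [rat_sub']; abel
  rw [e1, map_add, hw₁, hw₂, rat_add, smul_add]

/-- a rational isotropic vector in the kernel of a pairing and perpendicular to two vectors -/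
theorem exists_kernel {r : ℕ} (hcard : Fintype.card F = Nat.card F₀ ^ r) (hnr : r + 5 ≤ Fintype.card ι) (u : Vv) (b x : V₀) :
    ∃ a : V₀, a ≠ 0 ∧ f (R a) (R a) = 0 ∧ f u (R a) = 0 ∧ f (R a) (R b) = 0 ∧ f (R a) (R x) = 0 := by
  classical
  have hf := D.hf
  haveI : Fintype F₀ := Fintype.ofFinite _
  have hq : 1 < Fintype.card F₀ := Fintype.one_lt_card
  have hfr : Module.finrank F₀ F = r := by
    have h1 := Module.card_eq_pow_finrank (K := F₀) (V := F)
    rw [hcard, Nat.card_eq_fintype_card] at h1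
    exact (Nat.pow_right_injective hq h1).symm
  let π' : V₀ →ₗ[F₀] F × F₀ × F₀ :=
    { toFun := fun a => (f (R a) u, fq D.hrat a b, fq D.hrat a x)
      map_add' := fun y z => by
        have hf₀ := D.fq_sform
        simp only [rat_add, hf.add_left, hf₀.add_left]
        rfl
      map_smul' := fun c y => by
        have hf₀ := D.fq_sform
        simp only [rat_smul, hf.smul_left, hf₀.smul_left, RingHom.id_apply]
        rfl }
  have h1 := LinearMap.finrank_range_add_finrank_ker π'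
  have h2 : Module.finrank F₀ (LinearMap.range π') ≤ r + 2 := by
    refine (Submodule.finrank_le _).trans ?_
    rw [Module.finrank_prod, Module.finrank_prod, hfr]
    simp
  have h3 : Module.finrank F₀ V₀ = Fintype.card ι := by simp
  obtain ⟨a, ha, ha0, haa⟩ := hiso_herm D.fq_sform D.sig_ne (LinearMap.ker π') (by omega)
  have h4 : π' a = 0 := ha
  refine ⟨a, ha0, val_of_fq haa, hf.eq_zero_flip (congrArg Prod.fst h4), ?_, ?_⟩
  · exact congrArg (fun p : F × F₀ × F₀ => (p.2.1 : F)) h4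
  · exact congrArg (fun p : F × F₀ × F₀ => (p.2.2 : F)) h4

/-- no element of an overgroup moves the rational structure when the coefficient field is small -/
theorem no_over_su (hM : M ≤ uGroup f) (hS : HS M F₀ P σ f) (hn : 13 ≤ Fintype.card ι)
    (hA : ∀ d, RS M F₀ P f d → d ∈ F₀) {r : ℕ} (hr : r.Prime) (hr2 : r ≠ 2)
    (hcard : Fintype.card F = Nat.card F₀ ^ r) (hσ : σ ≠ RingHom.id F) {g : GL ι F} (hg : g ∈ M)
    (hgH : g ∉ Cfsg.Geo.subfieldSubgroup F₀ P) : False := by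
  have hf := D.hf
  obtain ⟨a₀, ha₀, hnr⟩ := exists_not_rat_scale D hn hgH
  set u := act g (R a₀) with hu
  have huu : f u u = 0 := by rw [hu, hM hg, ha₀]
  obtain ⟨δ₀, hδ₀0, hδ₀⟩ := exists_trace_zero D.sig_ne D.fq_sform
  obtain ⟨c₀, hc₀d⟩ : ∃ c₀ : F, c₀ = (δ₀ : F) := ⟨_, rfl⟩
  have hc₀F : c₀ ∈ F₀ := by
    rw [hc₀d]
    exact δ₀.2
  have hc₀0 : c₀ ≠ 0 := by
    rw [hc₀d]
    exact_mod_cast hδ₀0
  have hc₀ : c₀ + σ c₀ = 0 := by
    rw [hc₀d]
    exact congrArg Subtype.val hδ₀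
  have hum : TS f M u 0 c₀ := by
    have := (hS.ut a₀ c₀ ha₀ hc₀F hc₀).conj hf hM hg
    rwa [map_zero] at this
  have hu0 : u ≠ 0 := by
    intro h
    apply hnr 0 0
    rw [zero_smul]
    exact h
  obtain ⟨y₀, hy₀⟩ : ∃ y₀ : V₀, f u (R y₀) ≠ 0 := by
    by_contra hcon
    push Not at hcon
    exact hu0 (D.perp_zero' hcon)
  by_cases hrig : ∀ b x : V₀, ∃ a : V₀, a ≠ 0 ∧ f (R a) (R a) = 0 ∧ f u (R a) = 0 ∧ f (R a) (R b) = 0 ∧ f (R a) (R x) = 0
  · obtain ⟨w, hw⟩ := D.of_pair (z := σ (f u (R y₀)) • u) (fun y => by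
      obtain ⟨a, ha0, h0, h1, h2, h3⟩ := hrig y₀ y
      rw [hf.smul_left]
      exact rigid_all D hM hS hn hA hc₀F hc₀0 hc₀ ha0 h0 huu hum h1 h2 h3)
    have hσ0 : σ (f u (R y₀)) ≠ 0 := by
      intro h
      apply hy₀
      have := congrArg σ h
      rwa [hf.inv, map_zero] at this
    exact hnr (σ (f u (R y₀)))⁻¹ w (by rw [← hw, smul_smul, inv_mul_cancel₀ hσ0, one_smul])
  · push Not at hrig
    obtain ⟨b', x', hno⟩ := hrig
    have hrr : Fintype.card ι ≤ r + 4 := by
      by_contra hcon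
      obtain ⟨a, h1, h0, h2, h3, h4⟩ := exists_kernel D hcard (by omega) u b' x'
      exact hno a h1 h0 h2 h3 h4
    have hbound : ∀ {a a' : V₀}, f (R a) (R a) = 0 → f (R a') (R a') = 0 → f (R a) (R a') = 0 → f u (R a) ≠ 0 →
        f u (R a') * (f u (R a))⁻¹ ∈ F₀ := by
      intro a a' h0 h0' h1 h2
      by_contra h3
      have := dickson_bound D hM hS hn hA hr hr2 hcard hσ hc₀F hc₀0 hc₀ huu hum h0 h0' h1 h2 h3
      omega
    obtain ⟨x, y, hx, hy, hνy, hxy⟩ : ∃ x y : V₀, f (R x) (R x) = 0 ∧ f (R y) (R y) = 0 ∧ f u (R y) ≠ 0 ∧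
        f u (R x) * (f u (R y))⁻¹ ∉ F₀ := by
      by_contra hcon
      push Not at hcon
      obtain ⟨y₁, hy₁, hνy₁⟩ : ∃ y₁ : V₀, f (R y₁) (R y₁) = 0 ∧ f u (R y₁) ≠ 0 := by
        obtain ⟨s, h1, h2⟩ := D.decomp0 (by omega) y₀
        by_cases h3 : f u (R s) = 0
        · refine ⟨y₀ - s, h2, ?_⟩
          rw [rat_sub', hf.sub_right, h3, sub_zero]
          exact hy₀
        · exact ⟨s, h1, h3⟩
      obtain ⟨w, hw⟩ := D.of_pair (z := (f u (R y₁))⁻¹ • u) (fun y => by
        obtain ⟨s, h1, h2⟩ := D.decomp0 (by omega) y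
        have e1 : R y = R s + R (y - s) := by rw [rat_sub']; abel
        rw [hf.smul_left, e1, hf.add_right, mul_add, mul_comm, mul_comm _ (f u (R (y - s)))]
        exact F₀.add_mem (hcon s y₁ h1 hy₁ hνy₁) (hcon _ y₁ h2 hy₁ hνy₁))
      apply hnr (f u (R y₁)) w
      rw [← hw, smul_smul, mul_inv_cancel₀ hνy₁, one_smul]
    obtain ⟨e, he0, he, hΛ⟩ := D.iso [x, y, b', x'] (by simp; omega)
    have hνe : f u (R e) ≠ 0 := fun h => hno e he0 he h (hΛ b' (by simp)) (hΛ x' (by simp))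
    have h1 := hbound he hx (hΛ x (by simp)) hνe
    have h2 := hbound he hy (hΛ y (by simp)) hνe
    apply hxy
    have h3 : f u (R x) * (f u (R y))⁻¹ = (f u (R x) * (f u (R e))⁻¹) * (f u (R y) * (f u (R e))⁻¹)⁻¹ := by
      field_simp
    rw [h3]
    exact F₀.mul_mem h1 (F₀.inv_mem h2)

/-- The subfield subgroup of `SU` is maximal. -/
theorem isMaximalIn_su_subfield (hn : 13 ≤ Fintype.card ι) {r : ℕ} (hr : r.Prime) (hr2 : r ≠ 2)
    (hcard : Fintype.card F = Nat.card F₀ ^ r) (hσ : σ ≠ RingHom.id F) :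
    Cfsg.Geo.IsMaximalIn (uGroup f ⊓ Cfsg.Geo.specialLinear ι F)
      (Cfsg.Geo.subfieldSubgroup F₀ P ⊓ (uGroup f ⊓ Cfsg.Geo.specialLinear ι F)) := by
  classical
  have hf := D.hf
  refine ⟨lt_of_le_of_ne inf_le_right ?_, ?_⟩
  · intro heq
    obtain ⟨d, hd⟩ : ∃ d : F, d ∉ F₀ := by
      by_contra hcon
      push Not at hcon
      have h1 : Nat.card F₀ = Fintype.card F := by
        rw [← Nat.card_eq_fintype_card]
        exact Nat.card_congr (Equiv.subtypeUnivEquiv hcon)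
      rw [hcard] at h1
      have hq : 1 < Nat.card F₀ := Finite.one_lt_card
      have h2 : 1 = r := Nat.pow_right_injective hq (by simpa using h1)
      exact hr.one_lt.ne h2
    obtain ⟨a, e, ha0, ha, he, hae, hind⟩ := exists_pair D (by omega)
    obtain ⟨h, hh, E⟩ := exists_eich hf hσ (y := d • R e) ha (by
      rw [hf.smul_left, hf.smul_right, he]
      ring) (by rw [hf.smul_right, hae, mul_zero])
    have hmem : h ∈ uGroup f ⊓ Cfsg.Geo.specialLinear ι F := ⟨UE_le_u hf hh, UE_le_SL hf hh⟩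
    rw [← heq] at hmem
    refine eich_not_mem_subfield D ha0 hae hind hd (h := h) (fun x => ?_) hmem.1
    rw [E x]
    simp
  · intro M hHM hMO
    by_cases hMH : M ≤ Cfsg.Geo.subfieldSubgroup F₀ P ⊓ (uGroup f ⊓ Cfsg.Geo.specialLinear ι F)
    · exact Or.inl (le_antisymm hMH hHM)
    right
    apply le_antisymm hMO
    have hM : M ≤ uGroup f := fun x hx => (hMO hx).1
    have hS : HS M F₀ P σ f := by
      refine ⟨fun a c ha hc hc' => ?_, fun a b ha hb hab => ?_⟩
      · refine ⟨ut hf ha c, hHM ⟨D.ut_mem ha hc, ut_mem_SU hf ha hc'⟩, fun x => ?_⟩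
        rw [act_ut, hf.zero_right]
        simp
      · obtain ⟨h, hh, E⟩ := exists_eich hf hσ ha hb hab
        refine ⟨h, hHM ⟨D.eich_mem E, UE_le_u hf hh, UE_le_SL hf hh⟩, fun x => ?_⟩
        rw [E x]
        simp
    set A : Subfield F := sgField D hM hS hn with hA
    have hF₀A : F₀ ≤ A := fun c hc => RS_of_mem D hS hc
    rcases DS.subfield_prime_index hr hcard hF₀A with hAe | hAt
    · exfalso
      have hAF : ∀ d, RS M F₀ P f d → d ∈ F₀ := by
        intro d hd
        have : d ∈ A := hd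
        rwa [hAe] at this
      obtain ⟨g, hg, hgH⟩ := SetLike.not_le_iff_exists.1 hMH
      have hgS : g ∉ Cfsg.Geo.subfieldSubgroup F₀ P := fun h => hgH ⟨h, hMO hg⟩
      exact no_over_su D hM hS hn hAF hr hr2 hcard hσ hg hgS
    · refine su_le_of_RS D hM hS hn hσ fun d => ?_
      have : d ∈ A := by rw [hAt]; trivial
      exact this

end Cfsg.Agent.Lib.Geo.SUR
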