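import Mathlib
import Cfsg.Agent.Lib.Geo.Decomp
import Cfsg.Agent.Lib.Geo.SympMax
import Cfsg.Agent.Lib.Classical.Witt
import Cfsg.Agent.Lib.Geo.SesqSolve

set_option autoImplicit false

/-! The stabilizer of a pair of complementary totally singular subspaces is maximal in the
symplectic group (odd characteristic). -/

namespace Cfsg.Agent.Lib.Geo

open scoped MatrixGroups Matrix
open Module Cfsg.Agent.Lib.Classical

variable {m : ℕ} {F : Type*} [Field F]

local notation "Vv" => (Fin m ⊕ Fin m → F)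
local notation "f" => Cfsg.sympForm m F

theorem sform_flip0 {x y : Vv} (h : f x y = 0) : f y x = 0 := by
  rw [sympForm_flip x y, h, neg_zero]

theorem conj_rho {h : GL (Fin m ⊕ Fin m) F} (hh : h ∈ Cfsg.spGL m F) (a y : Vv) :
    h * rho a y * h⁻¹ = rho (act h a) (act h y) := by
  have e : h * rho a y * h⁻¹ = (h * stv (a + y) 1 * h⁻¹) * (h * stv a (-1) * h⁻¹) * (h * stv y (-1) * h⁻¹) := by
    rw [rho]
    group
  rw [e, conj_stv hh, conj_stv hh, conj_stv hh, map_add, rho]

theorem rho_symm (a y : Vv) (h : f a y = 0) : rho a y = rho y a := by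
  apply act.injective
  ext1 x
  rw [act_rho h, act_rho (sform_flip0 h)]
  abel

/-- first commutator relation -/
theorem rho_comm1 {a b c d : Vv} (hab : f a b = 0) (hcd : f c d = 0) (hac : f a c = 0)
    (had : f a d = 0) (hbd : f b d = 0) :
    rho a b * rho c d * (rho a b)⁻¹ * (rho c d)⁻¹ = rho a (f c b • d) := by
  rw [mul_inv_eq_iff_eq_mul, mul_inv_eq_iff_eq_mul]
  have had' : f a (f c b • d) = 0 := by rw [sympForm_smul_right, had, mul_zero]
  apply act.injective
  ext1 x
  simp only [map_mul, LinearEquiv.mul_apply]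
  rw [act_rho hcd, act_rho hab, act_rho hab, act_rho hcd, act_rho had']
  have hba := sform_flip0 hab
  have hdc := sform_flip0 hcd
  have hca := sform_flip0 hac
  have hda := sform_flip0 had
  have hdb := sform_flip0 hbd
  simp only [sympForm_add_left, sympForm_add_right, sympForm_smul_left, sympForm_smul_right, sympForm_self,
    hab, hcd, hac, had, hbd, hba, hdc, hca, hda, hdb, mul_zero, add_zero, zero_add]
  rw [sympForm_flip c b]
  (module)

/-- second commutator relation -/
theorem rho_comm2 {a y y' : Vv} (hy : f a y = 0) (hy' : f a y' = 0) :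
    rho a y * rho a y' * (rho a y)⁻¹ * (rho a y')⁻¹ = stv a (2 * f y' y) := by
  rw [mul_inv_eq_iff_eq_mul, mul_inv_eq_iff_eq_mul]
  apply act.injective
  ext1 x
  simp only [map_mul, LinearEquiv.mul_apply]
  rw [act_rho hy', act_rho hy, act_rho hy, act_rho hy', act_stv]
  have hya := sform_flip0 hy
  have hya' := sform_flip0 hy'
  simp only [sympForm_add_left, sympForm_add_right, sympForm_smul_left, sympForm_smul_right, sympForm_self,
    hy, hy', hya, hya', mul_zero, add_zero, zero_add]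
  rw [sympForm_flip y' y]
  (module)

/-- the linear form `x ↦ f x z` -/
noncomputable def fr (z : Vv) : Dual F Vv := (sympBilin m F).flip z

theorem fr_apply (z x : Vv) : fr z x = f x z := rfl

theorem sform_sub_right (x a b : Vv) : f x (a - b) = f x a - f x b := by
  rw [sub_eq_add_neg, sympForm_add_right, show -b = (-1 : F) • b by simp, sympForm_smul_right]
  ring

theorem sform_sub_left (x a b : Vv) : f (a - b) x = f a x - f b x := by
  rw [sub_eq_add_neg, sympForm_add_left, show -b = (-1 : F) • b by simp, sympForm_smul_left]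
  ring

theorem finrank_inf_cutL (X : Submodule F Vv) (Λ : List (Dual F Vv)) :
    finrank F X ≤ finrank F ↥(X ⊓ cutL Λ) + Λ.length := by
  have h1 := finrank_cutL Λ
  have h2 := Submodule.finrank_sup_add_finrank_inf_eq X (cutL Λ)
  have h3 : finrank F ↥(X ⊔ cutL Λ) ≤ finrank F Vv := Submodule.finrank_le _
  have hV : finrank F Vv = Fintype.card (Fin m ⊕ Fin m) := by simp
  omega

/-- The key construction -/
theorem core_pair {M : Subgroup (GL (Fin m ⊕ Fin m) F)} {X Y C E : Submodule F (Fin m ⊕ Fin m → F)}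
    (hX : ∀ u ∈ X, ∀ v ∈ X, f u v = 0) (hY : ∀ u ∈ Y, ∀ v ∈ Y, f u v = 0)
    (π : (Fin m ⊕ Fin m → F) →ₗ[F] (Fin m ⊕ Fin m → F)) (hπX : ∀ v, π v ∈ X) (hπY : ∀ v, v - π v ∈ Y)
    (hrXY : ∀ x ∈ X, ∀ y ∈ Y, f x y = 0 → rho x y ∈ M)
    (hrCE : ∀ c ∈ C, ∀ e ∈ E, f c e = 0 → rho c e ∈ M)
    (hE : ¬ E ≤ Y) (hrank : 3 ≤ finrank F (C.map π)) (hdim : 5 ≤ finrank F X) (h2 : (2 : F) ≠ 0) :
    ∃ a ∈ X, a ≠ 0 ∧ a ∈ UU M := by
  classical
  -- the vector `d`
  obtain ⟨d, hdE, hdY⟩ := SetLike.not_le_iff_exists.1 hE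
  have hdX0 : π d ≠ 0 := by
    intro h0
    apply hdY
    have := hπY d
    rwa [h0, sub_zero] at this
  have hfX : ∀ {x x' : Vv}, x ∈ X → f x x' = f x (x' - π x') := by
    intro x x' hx
    rw [sform_sub_right, hX x hx _ (hπX x'), sub_zero]
  have hfY : ∀ {y x' : Vv}, y ∈ Y → f y x' = f y (π x') := by
    intro y x' hy
    have := hY y hy _ (hπY x')
    rw [sform_sub_right] at this
    exact sub_eq_zero.1 this
  -- the vector `c`
  obtain ⟨c, hcC, hcd, hcS⟩ : ∃ c ∈ C, f c d = 0 ∧ π c ∉ Submodule.span F {π d} := by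
    by_contra hcon
    push Not at hcon
    have hS1 : finrank F (Submodule.span F {π d}) = 1 := finrank_span_singleton hdX0
    by_cases hall : ∀ c ∈ C, f c d = 0
    · have hle : C.map π ≤ Submodule.span F {π d} := by
        rintro _ ⟨c, hc, rfl⟩
        exact hcon c hc (hall c hc)
      have := Submodule.finrank_mono hle
      omega
    · push Not at hall
      obtain ⟨c₀, hc₀, hc₀d⟩ := hall
      have hle : C.map π ≤ Submodule.span F {π d} ⊔ Submodule.span F {π c₀} := by
        rintro _ ⟨c, hc, rfl⟩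
        have h5 : c - (f c d / f c₀ d) • c₀ ∈ C := C.sub_mem hc (C.smul_mem _ hc₀)
        have h6 := hcon _ h5 (by
          rw [sform_sub_left, sympForm_smul_left]
          field_simp
          ring)
        rw [map_sub, map_smul] at h6
        have e : π c = (π c - (f c d / f c₀ d) • π c₀) + (f c d / f c₀ d) • π c₀ := by abel
        show π c ∈ _
        rw [e]
        exact Submodule.add_mem _ (Submodule.mem_sup_left h6)
          (Submodule.mem_sup_right (Submodule.smul_mem _ _ (Submodule.mem_span_singleton_self _)))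
      have h7 := Submodule.finrank_mono hle
      have h8 := Submodule.finrank_add_le_finrank_add_finrank (Submodule.span F {π d}) (Submodule.span F {π c₀})
      have h9 : finrank F (Submodule.span F {π c₀}) ≤ 1 := finrank_span_le_card _ |>.trans (by simp)
      omega
  -- the vector `a`
  set S : Submodule F Vv := Submodule.span F {π d} ⊔ Submodule.span F {π c} with hS
  have hSf : finrank F S ≤ 2 := by
    have h8 := Submodule.finrank_add_le_finrank_add_finrank (Submodule.span F {π d}) (Submodule.span F {π c})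
    rw [← hS] at h8
    have h9 : finrank F (Submodule.span F {π c}) ≤ 1 := finrank_span_le_card _ |>.trans (by simp)
    have h10 : finrank F (Submodule.span F {π d}) ≤ 1 := finrank_span_le_card _ |>.trans (by simp)
    omega
  obtain ⟨a, ha, haS⟩ : ∃ a ∈ X ⊓ cutL [fr (d - π d), fr (c - π c)], a ∉ S := by
    by_contra hcon
    push Not at hcon
    have hle : X ⊓ cutL [fr (d - π d), fr (c - π c)] ≤ S := hcon
    have h3 := Submodule.finrank_mono hle
    have h4 := finrank_inf_cutL X [fr (d - π d), fr (c - π c)]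
    simp only [List.length_cons, List.length_nil] at h4
    omega
  have haX : a ∈ X := ha.1
  have hacut := mem_cutL.1 ha.2
  have had : f a d = 0 := by
    rw [hfX haX]
    exact hacut (fr (d - π d)) (by simp)
  have hac : f a c = 0 := by
    rw [hfX haX]
    exact hacut (fr (c - π c)) (by simp)
  have ha0 : a ≠ 0 := by
    rintro rfl
    exact haS S.zero_mem
  -- representing forms on `X` by vectors of `Y`
  have hrep : ∀ φ : Dual F Vv, ∃ b ∈ Y, ∀ x ∈ X, f x b = φ x := by
    intro φ
    obtain ⟨y, hy⟩ := exists_rep φ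
    refine ⟨y - π y, hπY y, fun x hx => ?_⟩
    rw [← hfX hx, hy]
  have hcS' : π c ∉ Submodule.span F {a} ⊔ Submodule.span F {π d} := by
    intro hin
    obtain ⟨p, hp, q, hq, hpq⟩ := Submodule.mem_sup.1 hin
    obtain ⟨α, rfl⟩ := Submodule.mem_span_singleton.1 hp
    by_cases hα : α = 0
    · apply hcS
      rw [hα, zero_smul, zero_add] at hpq
      rwa [← hpq]
    · apply haS
      have e : a = α⁻¹ • (π c + (-1 : F) • q) := by
        rw [← hpq]
        simp [smul_smul, hα]
      rw [e]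
      refine S.smul_mem _ (S.add_mem (Submodule.mem_sup_right (Submodule.mem_span_singleton_self _))
        (S.smul_mem _ (Submodule.mem_sup_left hq)))
  obtain ⟨φ, hφ1, hφ2⟩ := exists_dual_of_notMem hcS'
  obtain ⟨b, hbY, hb⟩ := hrep φ
  have hab : f a b = 0 := by
    rw [hb a haX]
    exact hφ2 a (Submodule.mem_sup_left (Submodule.mem_span_singleton_self _))
  have hdb : f (π d) b = 0 := by
    rw [hb _ (hπX d)]
    exact hφ2 _ (Submodule.mem_sup_right (Submodule.mem_span_singleton_self _))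
  have hcb : f c b = 1 := by
    rw [sympForm_flip b c, hfY hbY, sympForm_flip (π c) b, hb _ (hπX c), hφ1]
    simp
  have hbd : f b d = 0 := by
    rw [hfY hbY]
    exact sform_flip0 hdb
  have hrhoad : rho a d ∈ M := by
    have h5 := M.mul_mem (M.mul_mem (M.mul_mem (hrXY a haX b hbY hab) (hrCE c hcC d hdE hcd))
      (M.inv_mem (hrXY a haX b hbY hab))) (M.inv_mem (hrCE c hcC d hdE hcd))
    rw [rho_comm1 hab hcd hac had hbd, hcb, one_smul] at h5
    exact h5
  have hda : π d ∉ Submodule.span F {a} := by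
    intro hin
    obtain ⟨α, hα⟩ := Submodule.mem_span_singleton.1 hin
    have hα0 : α ≠ 0 := by
      rintro rfl
      rw [zero_smul] at hα
      exact hdX0 hα.symm
    apply haS
    have e : a = α⁻¹ • π d := by
      rw [← hα, smul_smul, inv_mul_cancel₀ hα0, one_smul]
    rw [e]
    exact S.smul_mem _ (Submodule.mem_sup_left (Submodule.mem_span_singleton_self _))
  obtain ⟨ψ, hψ1, hψ2⟩ := exists_dual_of_notMem hda
  obtain ⟨b₂, hb₂Y, hb₂⟩ := hrep ψ
  have hab₂ : f a b₂ = 0 := by
    rw [hb₂ a haX]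
    exact hψ2 a (Submodule.mem_span_singleton_self _)
  have hdb₂ : f d b₂ = 1 := by
    rw [sympForm_flip b₂ d, hfY hb₂Y, sympForm_flip (π d) b₂, hb₂ _ (hπX d), hψ1]
    simp
  refine ⟨a, haX, ha0, fun e => ?_⟩
  have hab₁ : f a ((e / 2) • b₂) = 0 := by rw [sympForm_smul_right, hab₂, mul_zero]
  have h5 := M.mul_mem (M.mul_mem (M.mul_mem (hrXY a haX _ (Y.smul_mem _ hb₂Y) hab₁) hrhoad)
    (M.inv_mem (hrXY a haX _ (Y.smul_mem _ hb₂Y) hab₁))) (M.inv_mem hrhoad)
  rw [rho_comm2 hab₁ had, sympForm_smul_right, hdb₂] at h5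
  have e' : 2 * (e / 2 * 1) = e := by
    field_simp
  rwa [e'] at h5

/-- the element interchanging the two members. -/
theorem exists_swap_pair {D : Fin 2 → Submodule F (Fin m ⊕ Fin m → F)} (hD : Cfsg.Geo.IsMDecomposition m D)
    (hts : ∀ i, Cfsg.Geo.IsTotallySingularFor (Cfsg.sympForm m F) (D i)) :
    ∃ ξ ∈ Cfsg.Geo.decompositionStabilizer D ⊓ Cfsg.spGL m F,
      (∀ x ∈ D 0, act ξ x ∈ D 1) ∧ (∀ x ∈ D 1, act ξ x ∈ D 0) := by
  classical
  obtain ⟨π, h1, h2, h3, h4⟩ := exists_proj hD.indep hD.iSup_eq_top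
  have hsum : ∀ x, π 0 x + π 1 x = x := fun x => by
    have := h4 x
    rwa [Fin.sum_univ_two] at this
  have hnd := sympBilin_nondegenerate (m := m) (R := F)
  let θ₀ : D 0 ≃ₗ[F] D 1 := LinearEquiv.ofFinrankEq _ _ (by rw [hD.finrank_eq, hD.finrank_eq])
  let c0 : Vv →ₗ[F] D 0 := (π 0).codRestrict (D 0) (h1 0)
  let c1 : Vv →ₗ[F] D 1 := (π 1).codRestrict (D 1) (h1 1)
  let T₁ : Vv →ₗ[F] Vv := (D 0).subtype ∘ₗ (θ₀.symm : D 1 →ₗ[F] D 0) ∘ₗ c1
  let Φ : Vv →ₗ[F] Dual F Vv := LinearMap.lcomp F F T₁ ∘ₗ (sympBilin m F).flip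
  let L : Vv ≃ₗ[F] Dual F Vv := LinearMap.BilinForm.toDual (sympBilin m F) hnd
  let θ₁ : Vv →ₗ[F] Vv := π 0 ∘ₗ (L.symm : Dual F Vv →ₗ[F] Vv) ∘ₗ Φ
  have hθ₁ : ∀ (w : Vv) (u : D 0), f (θ₁ w) (θ₀ u : Vv) = f (u : Vv) w := by
    intro w u
    set z : Vv := L.symm (Φ w) with hz
    have h5 : ∀ y, f z y = f (T₁ y) w := by
      intro y
      have : L z = Φ w := by rw [hz, LinearEquiv.apply_symm_apply]
      exact LinearMap.congr_fun this y
    have h6 : f (π 0 z) (θ₀ u : Vv) = f z (θ₀ u : Vv) := by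
      conv_rhs => rw [← hsum z, sympForm_add_left]
      rw [hts 1 _ (h1 1 z) _ (θ₀ u).2, add_zero]
    show f (π 0 z) (θ₀ u : Vv) = _
    rw [h6, h5]
    have h7 : c1 (θ₀ u : Vv) = θ₀ u := Subtype.ext (h2 1 _ (θ₀ u).2)
    have h8 : T₁ (θ₀ u : Vv) = u := by
      show ((θ₀.symm (c1 (θ₀ u : Vv)) : D 0) : Vv) = u
      rw [h7, LinearEquiv.symm_apply_apply]
    rw [h8]
  let T : Vv →ₗ[F] Vv := (D 1).subtype ∘ₗ (θ₀ : D 0 →ₗ[F] D 1) ∘ₗ c0 - θ₁ ∘ₗ π 1
  have hTa : ∀ x, T x = (θ₀ (c0 x) : Vv) - θ₁ (π 1 x) := fun x => rfl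
  have hθ₁0 : ∀ w, θ₁ w ∈ D 0 := fun w => h1 0 _
  have hT : ∀ u v, sympBilin m F (T u) (T v) = sympBilin m F u v := by
    intro x x'
    simp only [sympBilin_apply]
    rw [hTa, hTa]
    simp only [sform_sub_left, sform_sub_right]
    rw [hts 1 _ (θ₀ (c0 x)).2 _ (θ₀ (c0 x')).2, hts 0 _ (hθ₁0 _) _ (hθ₁0 _), hθ₁ (π 1 x) (c0 x'),
      sympForm_flip (θ₁ (π 1 x')) (θ₀ (c0 x) : Vv), hθ₁ (π 1 x') (c0 x)]
    conv_rhs => rw [← hsum x, ← hsum x']
    simp only [sympForm_add_left, sympForm_add_right]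
    rw [hts 0 _ (h1 0 x) _ (h1 0 x'), hts 1 _ (h1 1 x) _ (h1 1 x'), sympForm_flip (π 0 x') (π 1 x)]
    have e : ((c0 x' : D 0) : Vv) = π 0 x' := rfl
    rw [e]
    have e2 : ((c0 x : D 0) : Vv) = π 0 x := rfl
    rw [e2]
    ring
  let e : Vv ≃ₗ[F] Vv := Cfsg.Agent.Lib.Classical.Witt.equivOfPres (sympBilin m F) hnd T hT
  have hact : ∀ x, act (act.symm e) x = T x := by
    intro x
    rw [MulEquiv.apply_symm_apply]
    rfl
  have hT0 : ∀ x ∈ D 0, T x ∈ D 1 := by
    intro x hx
    have h5 : π 1 x = 0 := h3 1 0 (by decide) x hx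
    rw [hTa, h5, map_zero, sub_zero]
    exact (θ₀ (c0 x)).2
  have hT1 : ∀ x ∈ D 1, T x ∈ D 0 := by
    intro x hx
    have h5 : c0 x = 0 := Subtype.ext (h3 0 1 (by decide) x hx)
    rw [hTa, h5, map_zero]
    simp only [ZeroMemClass.coe_zero, zero_sub]
    exact (D 0).neg_mem (hθ₁0 _)
  refine ⟨act.symm e, ⟨mem_stabD_of hD.finrank_eq (Equiv.swap 0 1) fun l x hx => ?_, ?_⟩, ?_, ?_⟩
  · rw [hact]
    fin_cases l
    · simpa using hT0 x hx
    · simpa using hT1 x hx
  · refine mem_spGL_iff.2 fun u v => ?_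
    rw [hact, hact]
    exact hT u v
  · intro x hx
    rw [hact]
    exact hT0 x hx
  · intro x hx
    rw [hact]
    exact hT1 x hx

theorem isMaximalIn_symp_pair (hm : 5 ≤ m) (htwo : (2 : F) ≠ 0)
    {D : Fin 2 → Submodule F (Fin m ⊕ Fin m → F)} (hD : Cfsg.Geo.IsMDecomposition m D)
    (hts : ∀ i, Cfsg.Geo.IsTotallySingularFor (Cfsg.sympForm m F) (D i)) :
    Cfsg.Geo.IsMaximalIn (Cfsg.spGL m F) (Cfsg.Geo.decompositionStabilizer D ⊓ Cfsg.spGL m F) := by
  classical
  obtain ⟨π, h1, h2, h3, h4⟩ := exists_proj hD.indep hD.iSup_eq_top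
  have hsum : ∀ x, π 0 x + π 1 x = x := fun x => by
    have := h4 x
    rwa [Fin.sum_univ_two] at this
  have hk := hD.finrank_eq
  -- the other index
  have hother : ∀ l l' : Fin 2, l ≠ l' → ∀ p : Fin 2, p ≠ l → p = l' := by decide
  have hπ' : ∀ l l' : Fin 2, l ≠ l' → ∀ x, π l x + π l' x = x := by
    intro l l' hll' x
    have := hsum x
    fin_cases l <;> fin_cases l' <;> first | exact absurd rfl hll' | simpa [add_comm] using this
  have hπY : ∀ l l' : Fin 2, l ≠ l' → ∀ x, x - π l x ∈ D l' := by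
    intro l l' hll' x
    have : x - π l x = π l' x := by
      rw [sub_eq_iff_eq_add, add_comm, hπ' l l' hll' x]
    rw [this]
    exact h1 l' x
  have hfX : ∀ l l' : Fin 2, l ≠ l' → ∀ {x x' : Vv}, x ∈ D l → f x x' = f x (x' - π l x') := by
    intro l l' hll' x x' hx
    rw [sform_sub_right, hts l x hx _ (h1 l x'), sub_zero]
  have hrep : ∀ l l' : Fin 2, l ≠ l' → ∀ φ : Dual F Vv, ∃ b ∈ D l', ∀ x ∈ D l, f x b = φ x := by
    intro l l' hll' φ
    obtain ⟨y, hy⟩ := exists_rep φ
    refine ⟨y - π l y, hπY l l' hll' y, fun x hx => ?_⟩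
    rw [← hfX l l' hll' hx, hy]
  have hne : ∀ i, ∃ x ∈ D i, x ≠ 0 := by
    intro i
    have : D i ≠ ⊥ := by
      intro h0
      have := hk i
      rw [h0] at this
      simp at this
      omega
    exact Submodule.exists_mem_ne_zero_of_ne_bot this
  have hrH : ∀ l l' : Fin 2, l ≠ l' → ∀ x ∈ D l, ∀ y ∈ D l', f x y = 0 →
      rho x y ∈ Cfsg.Geo.decompositionStabilizer D ⊓ Cfsg.spGL m F := by
    intro l l' hll' x hx y hy hxy
    refine ⟨mem_stabD_of hk 1 fun p z hz => ?_, rho_mem x y⟩
    rw [act_rho hxy]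
    by_cases hp : p = l
    · subst hp
      rw [hts p z hz x hx, zero_smul, add_zero]
      exact (D p).add_mem hz ((D p).smul_mem _ hx)
    · have hp' := hother l l' hll' p hp
      subst hp'
      rw [hts p z hz y hy, zero_smul, add_zero]
      exact (D p).add_mem hz ((D p).smul_mem _ hy)
  constructor
  · refine lt_of_le_of_ne inf_le_right ?_
    intro heq
    obtain ⟨a, ha, ha0⟩ := hne 0
    obtain ⟨φ, hφ1, hφ2⟩ := exists_dual_of_notMem (S := (⊥ : Submodule F Vv)) (u := a) (by simpa using ha0)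
    obtain ⟨b, hb, hbφ⟩ := hrep 0 1 (by decide) φ
    have hab : f a b = 1 := by rw [hbφ a ha, hφ1]
    have hba : f b a = -1 := by rw [sympForm_flip a b, hab]
    have hmem : stv a 1 ∈ Cfsg.Geo.decompositionStabilizer D ⊓ Cfsg.spGL m F := by
      rw [heq]
      exact stv_mem _ _
    obtain ⟨σ, hσ⟩ := act_mem_of_stabD hmem.1
    have h5 := hσ 1 b hb
    rw [act_stv, one_mul, hba] at h5
    have hb0 : b ≠ 0 := by
      rintro rfl
      have h0 : f a 0 = 0 := by simpa using (sympForm_smul_right (0 : F) a (0 : Vv))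
      rw [h0] at hab
      exact zero_ne_one hab
    by_cases hs : σ 1 = 0
    · rw [hs] at h5
      have h6 := h3 1 0 (by decide) _ h5
      rw [map_add, h2 1 b hb, map_smul, h3 1 0 (by decide) a ha, smul_zero, add_zero] at h6
      exact hb0 h6
    · have hs' : σ 1 = 1 := hother 0 1 (by decide) _ hs
      rw [hs'] at h5
      have h6 := h3 0 1 (by decide) _ h5
      rw [map_add, h3 0 1 (by decide) b hb, map_smul, h2 0 a ha, zero_add] at h6
      rcases smul_eq_zero.1 h6 with h7 | h7
      · exact one_ne_zero (neg_eq_zero.1 h7)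
      · exact ha0 h7
  · intro M hM1 hM2
    by_cases hMH : M = Cfsg.Geo.decompositionStabilizer D ⊓ Cfsg.spGL m F
    · exact Or.inl hMH
    right
    obtain ⟨g, hgM, hgH⟩ : ∃ g ∈ M, g ∉ Cfsg.Geo.decompositionStabilizer D ⊓ Cfsg.spGL m F := by
      by_contra hcon
      push Not at hcon
      exact hMH (le_antisymm hcon hM1)
    have hgS : g ∉ Cfsg.Geo.decompositionStabilizer D := fun h => hgH ⟨h, hM2 hgM⟩
    have hrM : ∀ l l' : Fin 2, l ≠ l' → ∀ x ∈ D l, ∀ y ∈ D l', f x y = 0 → rho x y ∈ M :=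
      fun l l' hll' x hx y hy hxy => hM1 (hrH l l' hll' x hx y hy hxy)
    -- the images
    let G : Vv →ₗ[F] Vv := ((act g : Vv ≃ₗ[F] Vv) : Vv →ₗ[F] Vv)
    have hGg : ∀ x, G x = act g x := fun _ => rfl
    have hgsp := mem_spGL_iff.1 (hM2 hgM)
    have hrG : ∀ l l' : Fin 2, l ≠ l' → ∀ c ∈ (D l).map G, ∀ e ∈ (D l').map G, f c e = 0 → rho c e ∈ M := by
      rintro l l' hll' _ ⟨u, hu, rfl⟩ _ ⟨w, hw, rfl⟩ hce
      rw [hGg, hGg] at hce ⊢
      rw [hgsp] at hce
      rw [← conj_rho (hM2 hgM)]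
      exact M.mul_mem (M.mul_mem hgM (hrM l l' hll' u hu w hw hce)) (M.inv_mem hgM)
    have hfrk : ∀ l, finrank F ((D l).map G) = m := by
      intro l
      exact (LinearEquiv.finrank_map_eq (act g) (D l)).trans (hk l)
    have hsup : (D 0).map G ⊔ (D 1).map G = ⊤ := by
      rw [← Submodule.map_sup]
      have h5 : D 0 ⊔ D 1 = ⊤ := by
        rw [eq_top_iff]
        intro x _
        rw [← hsum x]
        exact Submodule.add_mem _ (Submodule.mem_sup_left (h1 0 x)) (Submodule.mem_sup_right (h1 1 x))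
      rw [h5, Submodule.map_top]
      exact LinearMap.range_eq_top.2 (act g).surjective
    -- the two images are not the two members
    have hnot1 : ¬ ((D 0).map G = D 0 ∧ (D 1).map G = D 1) := by
      rintro ⟨h5, h6⟩
      apply hgS
      refine mem_stabD_of hk 1 fun l x hx => ?_
      rw [← hGg]
      fin_cases l
      · show G x ∈ D 0
        rw [← h5]
        exact ⟨x, hx, rfl⟩
      · show G x ∈ D 1
        rw [← h6]
        exact ⟨x, hx, rfl⟩
    have hnot2 : ¬ ((D 0).map G = D 1 ∧ (D 1).map G = D 0) := by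
      rintro ⟨h5, h6⟩
      apply hgS
      refine mem_stabD_of hk (Equiv.swap 0 1) fun l x hx => ?_
      rw [← hGg]
      fin_cases l
      · show G x ∈ D (Equiv.swap 0 1 0)
        rw [Equiv.swap_apply_left, ← h5]
        exact ⟨x, hx, rfl⟩
      · show G x ∈ D (Equiv.swap 0 1 1)
        rw [Equiv.swap_apply_right, ← h6]
        exact ⟨x, hx, rfl⟩
    have hmaple : ∀ {A : Submodule F Vv} {l : Fin 2}, finrank F A = m → A ≤ D l → A = D l := by
      intro A l h5 h6
      exact Submodule.eq_of_le_of_finrank_eq h6 (by rw [h5, hk])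
    have hmapid : ∀ l : Fin 2, finrank F ((D l).map (π l)) = m := by
      intro l
      have : (D l).map (π l) = D l := by
        apply le_antisymm
        · rintro _ ⟨x, _, rfl⟩
          exact h1 l x
        · intro x hx
          exact ⟨x, hx, h2 l x hx⟩
      rw [this, hk]
    -- a first vector
    have step : ∀ (l l' : Fin 2) (hll' : l ≠ l') (p p' : Fin 2) (hpp' : p ≠ p'),
        ¬ ((D p').map G ≤ D l') → 3 ≤ finrank F (((D p).map G).map (π l)) →
        ∃ a ∈ D l, a ≠ 0 ∧ a ∈ UU M := by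
      intro l l' hll' p p' hpp' hE hr
      exact core_pair (hts l) (hts l') (π l) (h1 l) (hπY l l' hll') (hrM l l' hll')
        (hrG p p' hpp') hE hr (by rw [hk]; exact hm) htwo
    have hfirst : ∃ l, ∃ a ∈ D l, a ≠ 0 ∧ a ∈ UU M := by
      -- dichotomy
      have hdich : 3 ≤ finrank F (((D 0).map G).map (π 0)) ∨ 3 ≤ finrank F (((D 1).map G).map (π 0)) := by
        by_contra hcon
        push Not at hcon
        have h5 : D 0 ≤ ((D 0).map G).map (π 0) ⊔ ((D 1).map G).map (π 0) := by
          rw [← Submodule.map_sup, hsup, Submodule.map_top]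
          intro x hx
          exact ⟨x, h2 0 x hx⟩
        have h6 := Submodule.finrank_mono h5
        have h7 := Submodule.finrank_add_le_finrank_add_finrank (((D 0).map G).map (π 0)) (((D 1).map G).map (π 0))
        have h8 := hk 0
        omega
      rcases hdich with h5 | h5
      · by_cases hBW : (D 1).map G ≤ D 1
        · have h6 := hmaple (hfrk 1) hBW
          have h7 : ¬ (D 0).map G ≤ D 0 := by
            intro h8
            exact hnot1 ⟨hmaple (hfrk 0) h8, h6⟩
          refine ⟨1, step 1 0 (by decide) 1 0 (by decide) h7 ?_⟩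
          rw [h6, hmapid]
          omega
        · exact ⟨0, step 0 1 (by decide) 0 1 (by decide) hBW h5⟩
      · by_cases hAW : (D 0).map G ≤ D 1
        · have h6 := hmaple (hfrk 0) hAW
          have h7 : ¬ (D 1).map G ≤ D 0 := by
            intro h8
            exact hnot2 ⟨h6, hmaple (hfrk 1) h8⟩
          refine ⟨1, step 1 0 (by decide) 0 1 (by decide) h7 ?_⟩
          rw [h6, hmapid]
          omega
        · exact ⟨0, step 0 1 (by decide) 1 0 (by decide) hAW h5⟩
    -- transitivity on a member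
    have htrans1 : ∀ (l l' : Fin 2), l ≠ l' → ∀ a ∈ D l, a ≠ 0 → ∀ a' ∈ D l, a ∈ UU M →
        a' ∉ Submodule.span F {a} → a' ∈ UU M := by
      intro l l' hll' a ha ha0 a' ha' hU hind
      have ha0' : a ∉ Submodule.span F {a' - a} := by
        intro hin
        obtain ⟨α, hα⟩ := Submodule.mem_span_singleton.1 hin
        have hα0 : α ≠ 0 := by
          rintro rfl
          rw [zero_smul] at hα
          exact ha0 hα.symm
        apply hind
        rw [Submodule.mem_span_singleton]
        refine ⟨1 + α⁻¹, ?_⟩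
        have h5 : a' - a = α⁻¹ • a := by
          conv_rhs => rw [← hα]
          rw [smul_smul, inv_mul_cancel₀ hα0, one_smul]
        rw [add_smul, one_smul, ← h5]
        abel
      obtain ⟨φ, hφ1, hφ2⟩ := exists_dual_of_notMem ha0'
      obtain ⟨b, hb, hbφ⟩ := hrep l l' hll' φ
      have hp : a' - a ∈ D l := (D l).sub_mem ha' ha
      have hpb : f (a' - a) b = 0 := by
        rw [hbφ _ hp]
        exact hφ2 _ (Submodule.mem_span_singleton_self _)
      have hab : f a b = 1 := by rw [hbφ a ha, hφ1]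
      have h5 := UU_act hM2 (hrM l l' hll' _ hp b hb hpb) hU
      rw [act_rho hpb, hab, hts l a ha _ hp, one_smul, zero_smul, add_zero, add_sub_cancel] at h5
      exact h5
    have htrans : ∀ (l l' : Fin 2), l ≠ l' → ∀ a ∈ D l, a ≠ 0 → a ∈ UU M → ∀ a' ∈ D l, a' ∈ UU M := by
      intro l l' hll' a ha ha0 hU a' ha'
      by_cases ha'0 : a' = 0
      · subst ha'0
        exact UU_zero
      by_cases hspan : a' ∈ Submodule.span F {a}
      · obtain ⟨a'', ha'', ha''S⟩ : ∃ a'' ∈ D l, a'' ∉ Submodule.span F {a} := by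
          by_contra hcon
          push Not at hcon
          have h5 : D l ≤ Submodule.span F {a} := hcon
          have h6 := Submodule.finrank_mono h5
          rw [hk, finrank_span_singleton ha0] at h6
          omega
        have h5 := htrans1 l l' hll' a ha ha0 a'' ha'' hU ha''S
        have ha''0 : a'' ≠ 0 := by
          rintro rfl
          exact ha''S (Submodule.zero_mem _)
        refine htrans1 l l' hll' a'' ha'' ha''0 a' ha' h5 ?_
        intro hin
        obtain ⟨β, hβ⟩ := Submodule.mem_span_singleton.1 hin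
        obtain ⟨α, hα⟩ := Submodule.mem_span_singleton.1 hspan
        have hβ0 : β ≠ 0 := by
          rintro rfl
          rw [zero_smul] at hβ
          exact ha'0 hβ.symm
        apply ha''S
        rw [Submodule.mem_span_singleton]
        refine ⟨β⁻¹ * α, ?_⟩
        rw [mul_smul, hα, ← hβ, smul_smul, inv_mul_cancel₀ hβ0, one_smul]
      · exact htrans1 l l' hll' a ha ha0 a' ha' hU hspan
    obtain ⟨ξ, hξ, hξ0, hξ1⟩ := exists_swap_pair hD hts
    have hmemboth : ∀ l, ∀ x ∈ D l, x ∈ UU M := by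
      obtain ⟨l, a, ha, ha0, hU⟩ := hfirst
      have hl' : ∃ l', l ≠ l' ∧ (∀ x ∈ D l, act ξ x ∈ D l') := by
        fin_cases l
        · exact ⟨1, by decide, hξ0⟩
        · exact ⟨0, by decide, hξ1⟩
      obtain ⟨l', hll', hξl⟩ := hl'
      have hl : ∀ x ∈ D l, x ∈ UU M := htrans l l' hll' a ha ha0 hU
      have hl'' : ∀ y ∈ D l', y ∈ UU M := by
        intro y hy
        have h5 := map_toLin_eq hξl (by rw [hk, hk])
        rw [← h5] at hy
        obtain ⟨x, hx, rfl⟩ := hy
        exact UU_act hM2 (hM1 hξ) (hl x hx)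
      intro p
      by_cases hp : p = l
      · subst hp
        exact hl
      · rw [hother l l' hll' p hp]
        exact hl''
    have hall : ∀ x : Vv, x ∈ UU M := by
      intro x
      have hu := hmemboth 0 _ (h1 0 x)
      have hw := hmemboth 1 _ (h1 1 x)
      rw [← hsum x]
      set u := π 0 x with hudef
      set w := π 1 x with hwdef
      by_cases huw : f u w = 0
      · by_cases hw0 : w = 0
        · rw [hw0, add_zero]
          exact hu
        obtain ⟨z, hz⟩ : ∃ z, f z w ≠ 0 := by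
          by_contra hcon
          push Not at hcon
          exact hw0 (sympForm_eq_zero_iff hcon)
        have h5 : f (π 0 z) w ≠ 0 := by
          intro h6
          apply hz
          rw [← hsum z, sympForm_add_left, h6, hts 1 _ (h1 1 z) _ (h1 1 x), add_zero]
        have hu' : u - π 0 z ∈ UU M := hmemboth 0 _ ((D 0).sub_mem (h1 0 x) (h1 0 z))
        have h6 : u - π 0 z + w ∈ UU M := UU_add hM2 hu' hw (by
          rw [sform_sub_left, huw, zero_sub]
          exact neg_ne_zero.2 h5)
        have h7 : (u - π 0 z + w) + π 0 z ∈ UU M := UU_add hM2 h6 (hmemboth 0 _ (h1 0 z)) (by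
          rw [sympForm_add_left, sform_sub_left, hts 0 _ (h1 0 x) _ (h1 0 z), hts 0 _ (h1 0 z) _ (h1 0 z),
            sub_zero, zero_add, sympForm_flip (π 0 z) w]
          exact neg_ne_zero.2 h5)
        have e : u - π 0 z + w + π 0 z = u + w := by abel
        rwa [e] at h7
      · exact UU_add hM2 hu hw huw
    exact le_antisymm hM2 (spGL_le_of_stv M fun v c => hall v c)

end Cfsg.Agent.Lib.Geo
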