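import Mathlib
import Cfsg.Agent.Lib.Geo.SympPair
import Cfsg.Agent.Lib.Geo.SubfieldSL

set_option autoImplicit false

/-! Rational structures for the symplectic group: tools for alternating forms over the subfield,
the field of coefficients of an overgroup of the rational transvections. -/

namespace Cfsg.Agent.Lib.Geo.SpR

open scoped MatrixGroups Matrix commutatorElement
open Module Cfsg.Agent.Lib.Classical

section alt

variable {ι : Type} [Fintype ι] [DecidableEq ι] {K : Type*} [Field K] [Fintype K]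
variable {g : (ι → K) → (ι → K) → K} (hg : Cfsg.Geo.IsSymplecticForm g)

local notation "V" => (ι → K)

include hg

theorem g_neg_left (x y : V) : g (-x) y = - g x y := by
  have : -x = (-1 : K) • x := by simp
  rw [this, hg.bilinear.smul_left]
  ring

theorem g_sub_left (x y z : V) : g (x - y) z = g x z - g y z := by
  rw [sub_eq_add_neg, hg.bilinear.add_left, g_neg_left hg]
  ring

/-- the pairing with a fixed vector -/
def lf (w : V) : Dual K V where
  toFun x := g x w
  map_add' x y := hg.bilinear.add_left x y w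
  map_smul' c x := by simpa using hg.bilinear.smul_left c x w

omit [Fintype K] in
theorem lf_apply (w x : V) : lf hg w x = g x w := rfl

theorem lf_surjective : Function.Surjective (lf hg) := by
  have hinj : Function.Injective (lf hg) := by
    intro u v h
    by_contra hne
    have hne' : u - v ≠ 0 := sub_ne_zero.2 hne
    obtain ⟨⟨x, hx⟩, -⟩ := hg.nondegenerate _ hne'
    apply hx
    have e : u - v = u + (-1 : K) • v := by simp [sub_eq_add_neg]
    rw [e, hg.bilinear.add_right, hg.bilinear.smul_right]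
    have := LinearMap.congr_fun h x
    simp only [lf_apply] at this
    rw [this]
    ring
  have hb : Function.Bijective (lf hg) := by
    haveI : Finite (Dual K V) := Module.finite_of_finite K
    refine Function.Injective.bijective_of_nat_card_le hinj ?_
    have : Nat.card (Dual K V) = Nat.card V := by
      refine Nat.card_congr ?_
      have e := (Module.Free.chooseBasis K V).toDualEquiv
      exact e.symm.toEquiv
    exact this.le
  exact hb.2

/-- totally isotropic subspaces have at most half the dimension -/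
theorem ts_bound (Y : Submodule K V) (h : ∀ s ∈ Y, ∀ t ∈ Y, g s t = 0) :
    2 * finrank K Y ≤ Fintype.card ι := by
  have h1 := Subspace.finrank_add_finrank_dualAnnihilator_eq Y
  have hV : finrank K V = Fintype.card ι := by simp
  rw [hV] at h1
  let B : V →ₗ[K] Dual K V :=
    { toFun := lf hg
      map_add' := fun u v => LinearMap.ext fun x => by
        simp only [lf_apply, LinearMap.add_apply, hg.bilinear.add_right]
      map_smul' := fun c u => LinearMap.ext fun x => by
        simp only [lf_apply, LinearMap.smul_apply, hg.bilinear.smul_right, RingHom.id_apply, smul_eq_mul] }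
  let L : Y →ₗ[K] Y.dualAnnihilator := (B.domRestrict Y).codRestrict _ (fun y => by
    rw [Submodule.mem_dualAnnihilator]
    intro t ht
    show g t y = 0
    exact h t ht y y.2)
  have hL : Function.Injective L := by
    rintro ⟨u, hu⟩ ⟨v, hv⟩ huv
    have e1 := congrArg Subtype.val huv
    have e2 : lf hg u = lf hg v := e1
    by_contra hne
    have hne' : u - v ≠ 0 := by
      intro h0
      exact hne (Subtype.ext (sub_eq_zero.1 h0))
    obtain ⟨⟨x, hx⟩, -⟩ := hg.nondegenerate _ hne'
    apply hx
    have e : u - v = u + (-1 : K) • v := by simp [sub_eq_add_neg]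
    rw [e, hg.bilinear.add_right, hg.bilinear.smul_right]
    have := LinearMap.congr_fun e2 x
    simp only [lf_apply] at this
    rw [this]
    ring
  have h2 := LinearMap.finrank_le_finrank_of_injective hL
  omega

/-- a hyperbolic pair perpendicular to a list of vectors -/
theorem exists_hyp_perp (Λ : List V) (h : 2 * Λ.length + 2 ≤ Fintype.card ι) :
    ∃ s t : V, g s t = 1 ∧ ∀ l ∈ Λ, g s l = 0 ∧ g t l = 0 := by
  have h1 := finrank_cutL (Λ.map (lf hg))
  simp only [List.length_map] at h1
  have hex : ∃ s ∈ cutL (Λ.map (lf hg)), ∃ t ∈ cutL (Λ.map (lf hg)), g s t ≠ 0 := by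
    by_contra hcon
    push Not at hcon
    have := ts_bound hg _ hcon
    omega
  obtain ⟨s, hs, t, ht, hst⟩ := hex
  rw [mem_cutL] at hs ht
  refine ⟨s, (g s t)⁻¹ • t, ?_, fun l hl => ⟨hs _ (List.mem_map.2 ⟨l, hl, rfl⟩), ?_⟩⟩
  · rw [hg.bilinear.smul_right]
    exact inv_mul_cancel₀ hst
  · have h3 : g t l = 0 := ht _ (List.mem_map.2 ⟨l, hl, rfl⟩)
    rw [hg.bilinear.smul_left, h3, mul_zero]

/-- a nonzero vector perpendicular to a list of vectors -/
theorem exists_perp (Λ : List V) (h : Λ.length + 1 ≤ Fintype.card ι) :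
    ∃ s : V, s ≠ 0 ∧ ∀ l ∈ Λ, g s l = 0 := by
  have h1 := finrank_cutL (Λ.map (lf hg))
  simp only [List.length_map] at h1
  have h2 : cutL (Λ.map (lf hg)) ≠ ⊥ := by
    intro h0
    rw [h0, finrank_bot] at h1
    omega
  obtain ⟨s, hs, hs0⟩ := Submodule.exists_mem_ne_zero_of_ne_bot h2
  rw [mem_cutL] at hs
  exact ⟨s, hs0, fun l hl => hs _ (List.mem_map.2 ⟨l, hl, rfl⟩)⟩

/-- separating from a span -/
theorem exists_sep_span {x : V} {S : Submodule K V} (hx : x ∉ S) :
    ∃ y : V, g x y = 1 ∧ ∀ s ∈ S, g s y = 0 := by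
  obtain ⟨φ, h1, h2⟩ := exists_dual_of_notMem hx
  obtain ⟨y, rfl⟩ := lf_surjective hg φ
  exact ⟨y, h1, h2⟩

/-- two independent vectors: prescribing the pairings -/
theorem exists_two_values {a b : V} (ha : a ≠ 0) (hb : ∀ c : K, b ≠ c • a) (e₁ e₂ : K) :
    ∃ y : V, g a y = e₁ ∧ g b y = e₂ := by
  have hb0 : b ≠ 0 := by
    intro h
    exact hb 0 (by rw [h, zero_smul])
  have ha' : ∀ c : K, a ≠ c • b := by
    intro c h
    have hc : c ≠ 0 := by
      rintro rfl
      exact ha (by rw [h, zero_smul])
    apply hb c⁻¹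
    rw [h, smul_smul, inv_mul_cancel₀ hc, one_smul]
  have h1 : a ∉ Submodule.span K {b} := by
    intro hm
    obtain ⟨c, hc⟩ := Submodule.mem_span_singleton.1 hm
    exact ha' c hc.symm
  have h2 : b ∉ Submodule.span K {a} := by
    intro hm
    obtain ⟨c, hc⟩ := Submodule.mem_span_singleton.1 hm
    exact hb c hc.symm
  obtain ⟨y₁, h3, h4⟩ := exists_sep_span hg h1
  obtain ⟨y₂, h5, h6⟩ := exists_sep_span hg h2
  have h4' := h4 b (Submodule.mem_span_singleton_self b)
  have h6' := h6 a (Submodule.mem_span_singleton_self a)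
  refine ⟨e₁ • y₁ + e₂ • y₂, ?_, ?_⟩
  · rw [hg.bilinear.add_right, hg.bilinear.smul_right, hg.bilinear.smul_right, h3, h6']
    ring
  · rw [hg.bilinear.add_right, hg.bilinear.smul_right, hg.bilinear.smul_right, h4', h5]
    ring

end alt

section rational

variable {m : ℕ} {F : Type*} [Field F] {F₀ : Subfield F} (P : GL (Fin m ⊕ Fin m) F)

local notation "V₀" => (Fin m ⊕ Fin m → F₀)
local notation "Vv" => (Fin m ⊕ Fin m → F)
local notation "f" => Cfsg.sympForm m F
local notation "R" => rat F₀ P

/-- nothing is perpendicular to all rational vectors -/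
theorem eq_zero_of_perp_rat {z : Vv} (h : ∀ y : V₀, f z (R y) = 0) : z = 0 := by
  have h1 : ((sympBilin m F) z : Vv →ₗ[F] F) = 0 := by
    apply lin_ext_rat (F₀ := F₀) P
    intro i
    simpa [sympBilin_apply] using h _
  apply sympForm_eq_zero_iff
  intro u
  have h2 := LinearMap.congr_fun h1 u
  simp only [sympBilin_apply, LinearMap.zero_apply] at h2
  rw [sympForm_flip z u, h2, neg_zero]

/-- the rational form -/
noncomputable def fq (hrat : ∀ x y : V₀, f (R x) (R y) ∈ F₀) : V₀ → V₀ → F₀ :=
  fun x y => ⟨f (R x) (R y), hrat x y⟩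

theorem fq_coe (hrat : ∀ x y : V₀, f (R x) (R y) ∈ F₀) (x y : V₀) : ((fq P hrat x y : F₀) : F) = f (R x) (R y) := rfl

theorem fq_symp (hrat : ∀ x y : V₀, f (R x) (R y) ∈ F₀) : Cfsg.Geo.IsSymplecticForm (fq P hrat) := by
  refine ⟨⟨fun x y v => ?_, fun c x v => ?_, fun v x y => ?_, fun c v x => ?_⟩, fun v w => ?_, fun v => ?_, fun v hv => ?_⟩
  · apply Subtype.ext
    simp only [fq_coe, Subfield.coe_add, rat_add, sympForm_add_left]
  · apply Subtype.ext
    simp only [fq_coe, Subfield.coe_mul, rat_smul, sympForm_smul_left, smul_eq_mul]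
  · apply Subtype.ext
    simp only [fq_coe, Subfield.coe_add, rat_add, sympForm_add_right]
  · apply Subtype.ext
    simp only [fq_coe, Subfield.coe_mul, rat_smul, sympForm_smul_right, smul_eq_mul]
  · apply Subtype.ext
    simp only [fq_coe, Subfield.coe_neg]
    rw [sympForm_flip (R w) (R v)]
  · apply Subtype.ext
    simp only [fq_coe, sympForm_self]
    rfl
  · have h0 : R v ≠ 0 := by
      intro h
      apply hv
      apply rat_injective P
      rw [h, rat_zero]
    have h1 : ∃ y : V₀, f (R v) (R y) ≠ 0 := by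
      by_contra hcon
      push Not at hcon
      exact h0 (eq_zero_of_perp_rat P hcon)
    obtain ⟨y, hy⟩ := h1
    have h2 : fq P hrat v y ≠ 0 := by
      intro h3
      apply hy
      rw [← fq_coe P hrat, h3]
      rfl
    have h3 : fq P hrat y v ≠ 0 := by
      intro h4
      apply hy
      have h5 : f (R y) (R v) = 0 := congrArg Subtype.val h4
      rw [sympForm_flip (R y) (R v), h5, neg_zero]
    exact ⟨⟨y, h3⟩, ⟨y, h2⟩⟩

variable [Fintype F] (hrat : ∀ x y : Fin m ⊕ Fin m → F₀, Cfsg.sympForm m F (rat F₀ P x) (rat F₀ P y) ∈ F₀)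

include hrat

theorem rat_hyp (Λ : List V₀) (h : 2 * Λ.length + 2 ≤ 2 * m) :
    ∃ s t : V₀, f (R s) (R t) = 1 ∧ ∀ l ∈ Λ, f (R s) (R l) = 0 ∧ f (R t) (R l) = 0 := by
  haveI : Fintype F₀ := Fintype.ofFinite _
  obtain ⟨s, t, h1, h2⟩ := exists_hyp_perp (fq_symp P hrat) Λ (by simp; omega)
  exact ⟨s, t, congrArg Subtype.val h1, fun l hl => ⟨congrArg Subtype.val (h2 l hl).1, congrArg Subtype.val (h2 l hl).2⟩⟩

theorem rat_perp (Λ : List V₀) (h : Λ.length + 1 ≤ 2 * m) :
    ∃ s : V₀, s ≠ 0 ∧ ∀ l ∈ Λ, f (R s) (R l) = 0 := by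
  haveI : Fintype F₀ := Fintype.ofFinite _
  obtain ⟨s, h1, h2⟩ := exists_perp (fq_symp P hrat) Λ (by simp; omega)
  exact ⟨s, h1, fun l hl => congrArg Subtype.val (h2 l hl)⟩

theorem rat_two_values {a b : V₀} (ha : a ≠ 0) (hb : ∀ c : F₀, b ≠ c • a) (e₁ e₂ : F₀) :
    ∃ y : V₀, f (R a) (R y) = e₁ ∧ f (R b) (R y) = e₂ := by
  haveI : Fintype F₀ := Fintype.ofFinite _
  obtain ⟨y, h1, h2⟩ := exists_two_values (fq_symp P hrat) ha hb e₁ e₂
  exact ⟨y, congrArg Subtype.val h1, congrArg Subtype.val h2⟩

theorem rat_sep {x : V₀} {S : Submodule F₀ V₀} (hx : x ∉ S) :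
    ∃ y : V₀, f (R x) (R y) = 1 ∧ ∀ s ∈ S, f (R s) (R y) = 0 := by
  haveI : Fintype F₀ := Fintype.ofFinite _
  obtain ⟨y, h1, h2⟩ := exists_sep_span (fq_symp P hrat) hx
  exact ⟨y, congrArg Subtype.val h1, fun s hs => congrArg Subtype.val (h2 s hs)⟩

theorem rat_partner {a : V₀} (ha : a ≠ 0) : ∃ y : V₀, f (R a) (R y) = 1 := by
  obtain ⟨y, hy, -⟩ := rat_sep P hrat (x := a) (S := ⊥) (by simpa using ha)
  exact ⟨y, hy⟩

/-- every rational covector is a pairing with a rational vector -/
theorem rat_cov (ψ : Dual F₀ V₀) : ∃ y : V₀, ∀ x, cl P ψ x = f x (R y) := by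
  haveI : Fintype F₀ := Fintype.ofFinite _
  obtain ⟨y, hy⟩ := lf_surjective (fq_symp P hrat) ψ
  refine ⟨y, fun x => ?_⟩
  have h1 : cl P ψ = fr (R y) := by
    refine cl_ext (F₀ := F₀) P fun u => ?_
    rw [cl_rat, ← hy, fr_apply]
    rfl
  rw [h1, fr_apply]

/-- a vector with rational pairings is rational -/
theorem rat_of_pair {z : Vv} (h : ∀ y : V₀, f z (R y) ∈ F₀) : ∃ w : V₀, z = R w := by
  refine exists_rat_of_coords P z fun ψ => ?_
  obtain ⟨y, hy⟩ := rat_cov P hrat ψ
  rw [hy]
  exact h y

/-- rational transvections lie in the subfield group -/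
theorem stv_rat_mem_subfield (a : V₀) {c : F} (hc : c ∈ F₀) :
    stv (R a) c ∈ Cfsg.Geo.subfieldSubgroup F₀ P := by
  obtain ⟨σ, hfix⟩ := exists_frob F₀
  refine mem_subfield_of P σ hfix fun x => ?_
  refine ⟨1, x + ((⟨c, hc⟩ : F₀) * (⟨_, hrat x a⟩ : F₀)) • a, ?_⟩
  rw [act_stv, one_smul, rat_add, rat_smul]
  rfl

end rational

section relations

variable {m : ℕ} {F : Type*} [Field F]

local notation "Vv" => (Fin m ⊕ Fin m → F)
local notation "f" => Cfsg.sympForm m F

theorem stv_add (a : Vv) (c c' : F) : stv a c * stv a c' = stv a (c + c') := by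
  apply act.injective
  ext1 x
  rw [map_mul, LinearEquiv.mul_apply, act_stv, act_stv, act_stv]
  simp only [sympForm_add_left, sympForm_smul_left, sympForm_self]
  (module)

theorem stv_zero (a : Vv) : stv a 0 = 1 := by
  apply act.injective
  ext1 x
  rw [act_stv, map_one]
  simp

theorem stv_inv (a : Vv) (c : F) : (stv a c)⁻¹ = stv a (-c) := by
  apply inv_eq_of_mul_eq_one_right
  rw [stv_add, add_neg_cancel, stv_zero]

theorem rho_stv_comm (a w : Vv) (h : f a w = 0) (e : F) : rho a w * stv a e = stv a e * rho a w := by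
  apply act.injective
  ext1 x
  have hwa := sform_flip0 h
  simp only [map_mul, LinearEquiv.mul_apply, act_rho h, act_stv]
  simp only [sympForm_add_left, sympForm_smul_left, sympForm_self, h, hwa, mul_zero, add_zero]
  abel

theorem rho_mul_gen {a y y' : Vv} (hy : f a y = 0) (hy' : f a y' = 0) :
    rho a y * rho a y' = rho a (y + y') * stv a (f y' y) := by
  have hyy' : f a (y + y') = 0 := by rw [sympForm_add_right, hy, hy', add_zero]
  have hya := sform_flip0 hy
  have hya' := sform_flip0 hy'
  apply act.injective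
  ext1 x
  simp only [map_mul, LinearEquiv.mul_apply, act_rho hy, act_rho hy', act_rho hyy', act_stv]
  simp only [sympForm_add_left, sympForm_add_right, sympForm_smul_left, sympForm_smul_right, sympForm_self, hy, hy',
    hya, hya', mul_zero, add_zero, zero_add]
  (module)

theorem rho_zero_right (a : Vv) : rho a 0 = 1 := by
  apply act.injective
  ext1 x
  have h : f a 0 = 0 := by simp [sympForm_apply]
  rw [act_rho h, map_one]
  have h2 : f x (0 : Vv) = 0 := by simp [sympForm_apply]
  rw [h2]
  simp only [zero_smul, add_zero, smul_zero]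
  rfl

theorem rho_smul_left {a w : Vv} (t : F) (h : f a w = 0) : rho (t • a) w = rho a (t • w) := by
  have h1 : f (t • a) w = 0 := by rw [sympForm_smul_left, h, mul_zero]
  have h2 : f a (t • w) = 0 := by rw [sympForm_smul_right, h, mul_zero]
  apply act.injective
  ext1 x
  rw [act_rho h1, act_rho h2, sympForm_smul_right, sympForm_smul_right]
  (module)

theorem rho_self (a : Vv) (c : F) : rho a (c • a) = stv a (2 * c) := by
  have h : f a (c • a) = 0 := by rw [sympForm_smul_right, sympForm_self, mul_zero]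
  apply act.injective
  ext1 x
  rw [act_rho h, act_stv, sympForm_smul_right]
  (module)

theorem stv_add_vec {u v : Vv} (h : f u v = 0) : stv (u + v) 1 = rho u v * stv v 1 * stv u 1 := by
  rw [rho]
  have e : stv u (-1) * stv v (-1) = stv v (-1) * stv u (-1) := by
    apply act.injective
    ext1 x
    have hvu := sform_flip0 h
    simp only [map_mul, LinearEquiv.mul_apply, act_stv]
    simp only [sympForm_add_left, sympForm_smul_left, h, hvu, mul_zero, add_zero]
    abel
  have e1 : stv (u + v) 1 * stv u (-1) * stv v (-1) * stv v 1 * stv u 1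
      = stv (u + v) 1 * stv u (-1) * (stv v (-1) * stv v 1) * stv u 1 := by group
  rw [e1, stv_add, neg_add_cancel, stv_zero, mul_one, mul_assoc, stv_add, neg_add_cancel, stv_zero, mul_one]

end relations

end Cfsg.Agent.Lib.Geo.SpR
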