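import Mathlib
import Cfsg.Agent.Lib.Geo.SpRat
import Cfsg.Agent.Lib.Geo.OmegaRat3

set_option autoImplicit false

/-! Overgroups of the rational symplectic group: the field of coefficients, and what a full field of
coefficients gives. -/

namespace Cfsg.Agent.Lib.Geo.SpR

open scoped MatrixGroups Matrix commutatorElement
open Module Cfsg.Agent.Lib.Classical

section overgroup

variable {m : ℕ} {F : Type*} [Field F] [Fintype F] {F₀ : Subfield F} {P : GL (Fin m ⊕ Fin m) F}
  {M : Subgroup (GL (Fin m ⊕ Fin m) F)}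

local notation "V₀" => (Fin m ⊕ Fin m → F₀)
local notation "Vv" => (Fin m ⊕ Fin m → F)
local notation "f" => Cfsg.sympForm m F
local notation "R" => rat F₀ P

/-- all rational transvections lie in `M` -/
def HS (M : Subgroup (GL (Fin m ⊕ Fin m) F)) (F₀ : Subfield F) (P : GL (Fin m ⊕ Fin m) F) : Prop :=
  ∀ (a : Fin m ⊕ Fin m → F₀) (c : F), c ∈ F₀ → stv (rat F₀ P a) c ∈ M

/-- the coefficients of `M` -/
def RS (M : Subgroup (GL (Fin m ⊕ Fin m) F)) (F₀ : Subfield F) (P : GL (Fin m ⊕ Fin m) F) (d : F) : Prop :=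
  ∀ a b : Fin m ⊕ Fin m → F₀, Cfsg.sympForm m F (rat F₀ P a) (rat F₀ P b) = 0 → a ≠ 0 → (∀ t : F₀, b ≠ t • a) →
    rho (rat F₀ P a) (d • rat F₀ P b) ∈ M

omit [Fintype F] in
theorem rho_rat_mem (hS : HS M F₀ P) (a b : V₀) : rho (R a) (R b) ∈ M := by
  rw [rho, ← rat_add]
  exact M.mul_mem (M.mul_mem (hS _ _ F₀.one_mem) (hS _ _ (F₀.neg_mem F₀.one_mem))) (hS _ _ (F₀.neg_mem F₀.one_mem))

omit [Fintype F] in
theorem rho_conj_mem (hM : M ≤ Cfsg.spGL m F) {y : GL (Fin m ⊕ Fin m) F} (hy : y ∈ M) {a w : Vv} (h : rho a w ∈ M) :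
    rho (act y a) (act y w) ∈ M := by
  rw [← conj_rho (hM hy)]
  exact M.mul_mem (M.mul_mem hy h) (M.inv_mem hy)

omit [Fintype F] in
theorem stv_conj_mem (hM : M ≤ Cfsg.spGL m F) {y : GL (Fin m ⊕ Fin m) F} (hy : y ∈ M) {a : Vv} {c : F} (h : stv a c ∈ M) :
    stv (act y a) c ∈ M := by
  rw [← conj_stv (hM hy)]
  exact M.mul_mem (M.mul_mem hy h) (M.inv_mem hy)

omit [Fintype F] in
theorem rho_add_of_perp {a y y' : Vv} (hy : f a y = 0) (hy' : f a y' = 0) (hyy : f y' y = 0) :
    rho a (y + y') = rho a y * rho a y' := by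
  rw [rho_mul_gen hy hy', hyy, stv_zero, mul_one]

omit [Fintype F] in
theorem rho_swap {x y : Vv} (h : f x y = 0) (d : F) : rho x (d • y) = rho y (d • x) := by
  rw [rho_symm x (d • y) (by rw [sympForm_smul_right, h, mul_zero]), rho_smul_left d (sform_flip0 h)]

section

variable (hrat : ∀ x y : Fin m ⊕ Fin m → F₀, Cfsg.sympForm m F (rat F₀ P x) (rat F₀ P y) ∈ F₀)

include hrat

/-- moving the second parameter along a chain -/
theorem chain_step (hM : M ≤ Cfsg.spGL m F) (hS : HS M F₀ P) {d : F} {a b t t' : V₀}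
    (hab : f (R a) (R b) = 0) (hat : f (R a) (R t) = 0) (hbt : f (R b) (R t) = 0) (htt' : f (R t) (R t') = 1)
    (hat' : f (R a) (R t') = 0) (hbt' : f (R b) (R t') = 0) (ha0 : a ≠ 0)
    (hind : ∀ c : F₀, b ≠ c • a) (hm : rho (R a) (d • R b) ∈ M) : rho (R a) (d • R t) ∈ M := by
  obtain ⟨y₁, h1, h2⟩ := rat_two_values P hrat ha0 hind 0 1
  simp only [Subfield.coe_zero, Subfield.coe_one] at h1 h2
  obtain ⟨κ, hκ⟩ : ∃ κ : F₀, (κ : F) = f (R t) (R y₁) := ⟨⟨_, hrat t y₁⟩, rfl⟩
  have hca : f (R a) (R (y₁ - κ • t')) = 0 := by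
    rw [rat_sub', rat_smul, sform_sub_right, sympForm_smul_right, h1, hat']
    simp
  have hcb : f (R b) (R (y₁ - κ • t')) = 1 := by
    rw [rat_sub', rat_smul, sform_sub_right, sympForm_smul_right, h2, hbt']
    simp
  have hct : f (R t) (R (y₁ - κ • t')) = 0 := by
    rw [rat_sub', rat_smul, sform_sub_right, sympForm_smul_right, htt', hκ]
    simp
  generalize y₁ - κ • t' = c at hca hcb hct
  have hy : rho (R c) (R t) ∈ M := rho_rat_mem hS c t
  have hct' : f (R c) (R t) = 0 := sform_flip0 hct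
  have hya : act (rho (R c) (R t)) (R a) = R a := by
    rw [act_rho hct', hat, hca]
    simp
  have h8 := rho_conj_mem hM hy hm
  rw [hya] at h8
  have h9 : act (rho (R c) (R t)) (d • R b) = d • R b + d • R t := by
    rw [map_smul, act_rho hct', hbt, hcb]
    simp
  rw [h9] at h8
  have h10 : f (R a) (d • R b) = 0 := by rw [sympForm_smul_right, hab, mul_zero]
  have h11 : f (R a) (d • R t) = 0 := by rw [sympForm_smul_right, hat, mul_zero]
  have h12 : f (d • R t) (d • R b) = 0 := by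
    rw [sympForm_smul_left, sympForm_smul_right, sform_flip0 hbt]
    simp
  rw [rho_add_of_perp h10 h11 h12] at h8
  have h13 := M.mul_mem (M.inv_mem hm) h8
  simpa using h13

omit hrat in
/-- independence from a dual vector -/
theorem hind_x {x z z' : V₀} (h1 : f (R z) (R z') = 1) (h2 : f (R x) (R z') = 0) (c : F₀) : z ≠ c • x := by
  rintro rfl
  rw [rat_smul, sympForm_smul_left, h2, mul_zero] at h1
  exact zero_ne_one h1

omit hrat in
theorem hind_y {x z z' : V₀} (h0 : x ≠ 0) (h1 : f (R z) (R z') = 1) (h2 : f (R x) (R z') = 0) (c : F₀) : x ≠ c • z := by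
  rintro rfl
  rw [rat_smul, sympForm_smul_left, h1, mul_one] at h2
  have hc : c = 0 := by exact_mod_cast h2
  subst hc
  exact h0 (by simp)

omit hrat in
theorem ne_zero_of_pair {x y : V₀} (h : f (R x) (R y) = 1) : x ≠ 0 := by
  rintro rfl
  rw [rat_zero] at h
  have h0 : f (0 : Vv) (R y) = 0 := by
    rw [sympForm_flip (R y) 0]
    simp [sympForm_apply]
  rw [h0] at h
  exact zero_ne_one h

omit hrat in
theorem ne_zero_of_pair' {x y : V₀} (h : f (R x) (R y) = 1) : y ≠ 0 := by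
  rintro rfl
  rw [rat_zero] at h
  have h0 : f (R x) (0 : Vv) = 0 := by simp [sympForm_apply]
  rw [h0] at h
  exact zero_ne_one h

/-- the coefficients do not depend on the rational pair -/
theorem RS_of_one (hM : M ≤ Cfsg.spGL m F) (hS : HS M F₀ P) (hn : 6 ≤ m) {d : F}
    {a₀ b₀ : V₀} (hab₀ : f (R a₀) (R b₀) = 0) (ha₀0 : a₀ ≠ 0)
    (hind₀ : ∀ c : F₀, b₀ ≠ c • a₀) (hm : rho (R a₀) (d • R b₀) ∈ M) : RS M F₀ P d := by
  intro a₁ b₁ hab₁ ha₁0 hind₁
  obtain ⟨e, e', hee', hΛ⟩ := rat_hyp P hrat [a₀, b₀, a₁, b₁] (by simp; omega)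
  obtain ⟨e₂, e₂', hee₂', hΛ₂⟩ := rat_hyp P hrat [a₀, a₁, e, e'] (by simp; omega)
  have hea₀ := hΛ a₀ (by simp)
  have heb₀ := hΛ b₀ (by simp)
  have hea₁ := hΛ a₁ (by simp)
  have heb₁ := hΛ b₁ (by simp)
  have h2a₀ := hΛ₂ a₀ (by simp)
  have h2a₁ := hΛ₂ a₁ (by simp)
  have h2e := hΛ₂ e (by simp)
  have h2e' := hΛ₂ e' (by simp)
  have he0 : e ≠ 0 := ne_zero_of_pair hee'
  have fl : ∀ {x y : V₀}, f (R x) (R y) = 0 → f (R y) (R x) = 0 := fun h => sform_flip0 h
  have s1 : rho (R a₀) (d • R e) ∈ M :=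
    chain_step hrat hM hS hab₀ (fl hea₀.1) (fl heb₀.1) hee' (fl hea₀.2) (fl heb₀.2) ha₀0 hind₀ hm
  have hswap : ∀ {x y : V₀}, f (R x) (R y) = 0 → rho (R x) (d • R y) ∈ M → rho (R y) (d • R x) ∈ M := by
    intro x y hxy h
    rwa [rho_swap hxy] at h
  have s2 : rho (R e) (d • R a₀) ∈ M := hswap (fl hea₀.1) s1
  have s3 : rho (R e) (d • R e₂) ∈ M :=
    chain_step hrat hM hS hea₀.1 (fl h2e.1) (fl h2a₀.1) hee₂' (fl h2e.2) (fl h2a₀.2) he0
      (hind_y ha₀0 hee' (fl hea₀.2)) s2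
  have hp1 : ∃ z : V₀, f (R a₁) (R z) = 1 ∧ f (R e) (R z) = 0 ∧ f (R e₂) (R z) = 0 := by
    obtain ⟨y, h1, h2⟩ := rat_two_values P hrat ha₁0 (hind_x hee' (fl hea₁.2)) 1 0
    simp only [Subfield.coe_zero, Subfield.coe_one] at h1 h2
    obtain ⟨κ, hκ⟩ : ∃ κ : F₀, (κ : F) = f (R e₂) (R y) := ⟨⟨_, hrat e₂ y⟩, rfl⟩
    refine ⟨y - κ • e₂', ?_, ?_, ?_⟩
    · rw [rat_sub', rat_smul, sform_sub_right, sympForm_smul_right, h1, fl h2a₁.2]
      simp
    · rw [rat_sub', rat_smul, sform_sub_right, sympForm_smul_right, h2, fl h2e.2]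
      simp
    · rw [rat_sub', rat_smul, sform_sub_right, sympForm_smul_right, hee₂', hκ]
      simp
  obtain ⟨z, hz1, hz2, hz3⟩ := hp1
  have s4 : rho (R e) (d • R a₁) ∈ M :=
    chain_step hrat hM hS (fl h2e.1) hea₁.1 h2a₁.1 hz1 hz2 hz3 he0
      (hind_x hee₂' (fl h2e.2)) s3
  have s5 : rho (R a₁) (d • R e) ∈ M := hswap hea₁.1 s4
  have hp2 : ∃ z : V₀, f (R b₁) (R z) = 1 ∧ f (R a₁) (R z) = 0 ∧ f (R e) (R z) = 0 := by
    obtain ⟨y, h1, h2⟩ := rat_two_values P hrat ha₁0 hind₁ 0 1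
    simp only [Subfield.coe_zero, Subfield.coe_one] at h1 h2
    obtain ⟨κ, hκ⟩ : ∃ κ : F₀, (κ : F) = f (R e) (R y) := ⟨⟨_, hrat e y⟩, rfl⟩
    refine ⟨y - κ • e', ?_, ?_, ?_⟩
    · rw [rat_sub', rat_smul, sform_sub_right, sympForm_smul_right, h2, fl heb₁.2]
      simp
    · rw [rat_sub', rat_smul, sform_sub_right, sympForm_smul_right, h1, fl hea₁.2]
      simp
    · rw [rat_sub', rat_smul, sform_sub_right, sympForm_smul_right, hee', hκ]
      simp
  obtain ⟨y, hy1, hy2, hy3⟩ := hp2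
  exact chain_step hrat hM hS (fl hea₁.1) hab₁ heb₁.1 hy1 hy2 hy3 ha₁0
    (hind_x hee' (fl hea₁.2)) s5

end

omit [Fintype F] in
theorem RS_zero : RS M F₀ P 0 := by
  intro a b _ _ _
  rw [zero_smul, rho_zero_right]
  exact M.one_mem

omit [Fintype F] in
theorem RS_add {d d' : F} (h : RS M F₀ P d) (h' : RS M F₀ P d') : RS M F₀ P (d + d') := by
  intro a b hab ha0 hind
  rw [add_smul, rho_add_of_perp (by rw [sympForm_smul_right, hab, mul_zero]) (by rw [sympForm_smul_right, hab, mul_zero])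
    (by rw [sympForm_smul_left, sympForm_smul_right, sympForm_self]; simp)]
  exact M.mul_mem (h a b hab ha0 hind) (h' a b hab ha0 hind)

omit [Fintype F] in
theorem RS_neg {d : F} (h : RS M F₀ P d) : RS M F₀ P (-d) := by
  intro a b hab ha0 hind
  have h1 : rho (R a) (d • R b) * rho (R a) ((-d) • R b) = 1 := by
    rw [← rho_add_of_perp (by rw [sympForm_smul_right, hab, mul_zero]) (by rw [sympForm_smul_right, hab, mul_zero])
      (by rw [sympForm_smul_left, sympForm_smul_right, sympForm_self]; simp), ← add_smul, add_neg_cancel, zero_smul,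
      rho_zero_right]
  rw [eq_inv_of_mul_eq_one_right h1]
  exact M.inv_mem (h a b hab ha0 hind)

omit [Fintype F] in
theorem RS_of_mem (hS : HS M F₀ P) {c : F} (hc : c ∈ F₀) : RS M F₀ P c := by
  intro a b _ _ _
  have h1 : c • R b = R ((⟨c, hc⟩ : F₀) • b) := by rw [rat_smul]
  rw [h1]
  exact rho_rat_mem hS _ _

section

variable (hrat : ∀ x y : Fin m ⊕ Fin m → F₀, Cfsg.sympForm m F (rat F₀ P x) (rat F₀ P y) ∈ F₀)

include hrat

theorem RS_mul (hM : M ≤ Cfsg.spGL m F) (hS : HS M F₀ P) (hn : 6 ≤ m) {d d' : F}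
    (h : RS M F₀ P d) (h' : RS M F₀ P d') : RS M F₀ P (d * d') := by
  obtain ⟨a, a', haa', -⟩ := rat_hyp P hrat [] (by simp; omega)
  obtain ⟨e, e', hee', hΛ⟩ := rat_hyp P hrat [a] (by simp; omega)
  have hea := hΛ a (by simp)
  have ha0 := ne_zero_of_pair haa'
  have he0 := ne_zero_of_pair hee'
  have hae : f (R a) (R e) = 0 := sform_flip0 hea.1
  have hind : ∀ c : F₀, e ≠ c • a := hind_x hee' (sform_flip0 hea.2)
  obtain ⟨c, b, hcb, hΛ₂⟩ := rat_hyp P hrat [a, e] (by simp; omega)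
  have hca := hΛ₂ a (by simp)
  have hce := hΛ₂ e (by simp)
  refine RS_of_one hrat hM hS hn hae ha0 hind ?_
  have h1 := h a b (sform_flip0 hca.2) ha0 (by
    rintro t rfl
    rw [rat_smul, sympForm_smul_right, hca.1, mul_zero] at hcb
    exact zero_ne_one hcb)
  have h2 := h' c e hce.1 (ne_zero_of_pair hcb) (hind_y he0 hcb (sform_flip0 hce.2))
  have h3 := rho_comm1 (a := R a) (b := d • R b) (c := R c) (d := d' • R e)
    (by rw [sympForm_smul_right, sform_flip0 hca.2, mul_zero])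
    (by rw [sympForm_smul_right, hce.1, mul_zero])
    (sform_flip0 hca.1)
    (by rw [sympForm_smul_right, hae, mul_zero])
    (by rw [sympForm_smul_left, sympForm_smul_right, hce.2]; simp)
  have e1 : f (R c) (d • R b) • d' • R e = (d * d') • R e := by
    rw [sympForm_smul_right, hcb, mul_one, smul_smul]
  rw [e1] at h3
  rw [← h3]
  exact M.mul_mem (M.mul_mem (M.mul_mem h1 h2) (M.inv_mem h1)) (M.inv_mem h2)

/-- the field of coefficients -/
def sgField (hM : M ≤ Cfsg.spGL m F) (hS : HS M F₀ P) (hn : 6 ≤ m) : Subfield F where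
  carrier := {d | RS M F₀ P d}
  mul_mem' := fun h h' => RS_mul hrat hM hS hn h h'
  one_mem' := RS_of_mem hS F₀.one_mem
  add_mem' := fun h h' => RS_add h h'
  zero_mem' := RS_zero
  neg_mem' := fun h => RS_neg h
  inv_mem' := by
    intro d hd
    by_cases h0 : d = 0
    · subst h0
      simpa using RS_zero
    · have h1 : d⁻¹ = d ^ (Fintype.card F - 2) := by
        have h2 := FiniteField.pow_card_sub_one_eq_one d h0
        have h3 : 2 ≤ Fintype.card F := Fintype.one_lt_card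
        have h4 : Fintype.card F - 1 = (Fintype.card F - 2) + 1 := by omega
        rw [h4, pow_succ] at h2
        exact (eq_inv_of_mul_eq_one_left h2).symm
      show RS M F₀ P d⁻¹
      rw [h1]
      have key : ∀ k : ℕ, RS M F₀ P (d ^ k) := by
        intro k
        induction k with
        | zero => simpa using RS_of_mem hS F₀.one_mem
        | succ k ih =>
          rw [pow_succ]
          exact RS_mul hrat hM hS hn ih hd
      exact key _

end


section full

variable (hrat : ∀ x y : Fin m ⊕ Fin m → F₀, Cfsg.sympForm m F (rat F₀ P x) (rat F₀ P y) ∈ F₀)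

omit [Fintype F] in
theorem diff_squares_aux (h2 : (2 : F) ≠ 0) (c : F) : c = ((c + 1) / 2) * ((c + 1) / 2) - ((c - 1) / 2) * ((c - 1) / 2) := by
  field_simp
  ring

/-- every element is a difference of squares -/
theorem diff_squares (c : F) : ∃ d₁ d₂ : F, c = d₁ * d₁ - d₂ * d₂ := by
  by_cases h2 : (2 : F) = 0
  · have hc : ringChar F = 2 := by
      haveI : CharP F 2 := by
        obtain ⟨p, hp⟩ := CharP.exists F
        have h3 : (p : ℕ) ∣ 2 := (CharP.cast_eq_zero_iff F p 2).1 (by exact_mod_cast h2)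
        have h4 := CharP.char_is_prime F p
        have h5 : p = 2 := (Nat.prime_dvd_prime_iff_eq h4 Nat.prime_two).1 h3
        rwa [h5] at hp
      exact ringChar.eq F 2
    obtain ⟨d, hd⟩ := FiniteField.isSquare_of_char_two hc c
    exact ⟨d, 0, by simp [hd]⟩
  · exact ⟨_, _, diff_squares_aux h2 c⟩

include hrat

theorem stv_of_RS (hM : M ≤ Cfsg.spGL m F) (hS : HS M F₀ P) (hn : 6 ≤ m) (hall : ∀ d, RS M F₀ P d)
    {b : V₀} (hb : b ≠ 0) (c : F) : stv (R b) c ∈ M := by
  obtain ⟨q, a, hqa, hΛ⟩ := rat_hyp P hrat [b] (by simp; omega)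
  have h1 := hΛ b (by simp)
  have hq0 := ne_zero_of_pair hqa
  have ha0 := ne_zero_of_pair' hqa
  have sq : ∀ d, stv (R b) (d * d) ∈ M := by
    intro d
    have hy : rho (R a) (d • R b) ∈ M := hall d a b h1.2 ha0 (by
      intro t ht
      apply hb
      have h5 := h1.1
      rw [ht, rat_smul, sympForm_smul_right, hqa, mul_one] at h5
      have h6 : t = 0 := by exact_mod_cast h5
      rw [ht, h6, zero_smul])
    have hq : rho (R q) (d • R b) ∈ M := hall d q b h1.1 hq0 (hind_y hb hqa (sform_flip0 h1.2))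
    have e1 : act (rho (R a) (d • R b)) (R q) = R q + d • R b := by
      rw [act_rho (by rw [sympForm_smul_right, h1.2, mul_zero]), sympForm_smul_right, h1.1, hqa]
      simp
    have h2 := stv_conj_mem hM hy (hS q 1 F₀.one_mem)
    rw [e1, stv_add_vec (by rw [sympForm_smul_right, h1.1, mul_zero])] at h2
    have h3 : stv (d • R b) 1 = (rho (R q) (d • R b))⁻¹ * (rho (R q) (d • R b) * stv (d • R b) 1 * stv (R q) 1) * (stv (R q) 1)⁻¹ := by
      group
    have h4 : stv (d • R b) 1 ∈ M := by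
      rw [h3]
      exact M.mul_mem (M.mul_mem (M.inv_mem hq) h2) (M.inv_mem (hS q 1 F₀.one_mem))
    rwa [stv_smul, one_mul] at h4
  obtain ⟨d₁, d₂, rfl⟩ := diff_squares c
  rw [sub_eq_add_neg, ← stv_add, ← stv_inv]
  exact M.mul_mem (sq d₁) (M.inv_mem (sq d₂))

omit hrat [Fintype F] in
/-- the vectors all of whose attached elements lie in `M` -/
def GoodE (M : Subgroup (GL (Fin m ⊕ Fin m) F)) (v : Fin m ⊕ Fin m → F) : Prop :=
  (∀ c, stv v c ∈ M) ∧ ∀ w, Cfsg.sympForm m F v w = 0 → rho v w ∈ M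

theorem good_rat (hM : M ≤ Cfsg.spGL m F) (hS : HS M F₀ P) (hn : 6 ≤ m) (hall : ∀ d, RS M F₀ P d)
    {a : V₀} (ha : a ≠ 0) : GoodE M (R a) := by
  have hst := stv_of_RS hrat hM hS hn hall ha
  refine ⟨hst, fun w hw => ?_⟩
  obtain ⟨a', haa'⟩ := rat_partner P hrat ha
  have hterm : ∀ (x : V₀) (c : F), f (R a) (R x) = 0 → rho (R a) (c • R x) ∈ M := by
    intro x c hx
    by_cases hind : ∀ t : F₀, x ≠ t • a
    · exact hall c a x hx ha hind
    · push Not at hind
      obtain ⟨t, rfl⟩ := hind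
      rw [rat_smul, smul_smul, rho_self]
      exact hst _
  let e : (Fin m ⊕ Fin m) → V₀ := fun i => Pi.single i 1
  let c : (Fin m ⊕ Fin m) → F := fun i => (act P⁻¹ w) i
  let κ : (Fin m ⊕ Fin m) → F₀ := fun i => ⟨_, hrat (e i) a⟩
  let x : (Fin m ⊕ Fin m) → V₀ := fun i => e i + κ i • a'
  have hxa : ∀ i, f (R a) (R (x i)) = 0 := by
    intro i
    apply sform_flip0
    simp only [x]
    rw [rat_add, rat_smul, sympForm_add_left, sympForm_smul_left, sympForm_flip (R a) (R a'), haa']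
    simp [κ]
  have hw1 : w = ∑ i, c i • R (e i) := sum_rat (F₀ := F₀) P w
  have hw2 : ∑ i, c i * f (R (e i)) (R a) = 0 := by
    have h1 : fr (R a) w = 0 := by
      rw [fr_apply]
      exact sform_flip0 hw
    rw [hw1, map_sum] at h1
    simpa [fr_apply] using h1
  have hw3 : w = ∑ i, c i • R (x i) := by
    have h1 : ∀ i, c i • R (x i) = c i • R (e i) + (c i * f (R (e i)) (R a)) • R a' := by
      intro i
      simp only [x]
      rw [rat_add, rat_smul, smul_add, smul_smul]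
    simp only [h1]
    rw [Finset.sum_add_distrib, ← Finset.sum_smul, hw2, zero_smul, add_zero]
    exact hw1
  have key : ∀ S : Finset (Fin m ⊕ Fin m), f (R a) (∑ i ∈ S, c i • R (x i)) = 0 ∧ rho (R a) (∑ i ∈ S, c i • R (x i)) ∈ M := by
    intro S
    induction S using Finset.induction_on with
    | empty =>
      simp only [Finset.sum_empty]
      refine ⟨by simp [sympForm_apply], ?_⟩
      rw [rho_zero_right]
      exact M.one_mem
    | insert i S hi ih =>
      rw [Finset.sum_insert hi]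
      have h1 : f (R a) (c i • R (x i)) = 0 := by
        rw [sympForm_smul_right, hxa i, mul_zero]
      refine ⟨by rw [sympForm_add_right, h1, ih.1, zero_add], ?_⟩
      have h2 := rho_mul_gen h1 ih.1
      have h3 : rho (R a) (c i • R (x i) + ∑ i ∈ S, c i • R (x i)) =
          rho (R a) (c i • R (x i)) * rho (R a) (∑ i ∈ S, c i • R (x i)) *
            (stv (R a) (f (∑ i ∈ S, c i • R (x i)) (c i • R (x i))))⁻¹ := by
        rw [h2]
        group
      rw [h3]
      exact M.mul_mem (M.mul_mem (hterm _ _ (hxa i)) ih.2) (M.inv_mem (hst _))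
  rw [hw3]
  exact (key Finset.univ).2

omit hrat [Fintype F] in
theorem GoodE.map_act (hM : M ≤ Cfsg.spGL m F) {y : GL (Fin m ⊕ Fin m) F} (hy : y ∈ M) {v : Vv} (h : GoodE M v) :
    GoodE M (act y v) := by
  refine ⟨fun c => stv_conj_mem hM hy (h.1 c), fun w hw => ?_⟩
  have h1 : f v (act y⁻¹ w) = 0 := by
    have := (mem_spGL_iff.1 (hM hy)) v (act y⁻¹ w)
    rw [act_act_inv, hw] at this
    exact this.symm
  have h2 := rho_conj_mem hM hy (h.2 _ h1)
  rwa [act_act_inv] at h2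

omit hrat [Fintype F] in
theorem GoodE.smul {v : Vv} (h : GoodE M v) {t : F} (ht : t ≠ 0) : GoodE M (t • v) := by
  refine ⟨fun c => ?_, fun w hw => ?_⟩
  · rw [stv_smul]
    exact h.1 _
  · rw [sympForm_smul_left] at hw
    have h1 : f v w = 0 := (mul_eq_zero.1 hw).resolve_left ht
    rw [rho_smul_left t h1]
    exact h.2 _ (by rw [sympForm_smul_right, h1, mul_zero])

/-- a full field of coefficients gives the whole symplectic group -/
theorem sp_le_of_RS (hM : M ≤ Cfsg.spGL m F) (hS : HS M F₀ P) (hn : 6 ≤ m) (hall : ∀ d, RS M F₀ P d) :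
    Cfsg.spGL m F ≤ M := by
  refine spGL_le_of_stv M fun v c => ?_
  by_cases hv : v = 0
  · subst hv
    have : stv (0 : Vv) c = 1 := by
      apply act.injective
      ext1 x
      rw [act_stv, map_one]
      simp
    rw [this]
    exact M.one_mem
  obtain ⟨a, ha⟩ : ∃ a : V₀, f v (R a) ≠ 0 := by
    by_contra hcon
    push Not at hcon
    exact hv (eq_zero_of_perp_rat P hcon)
  set κ := f v (R a) with hκ
  have ha0 : a ≠ 0 := by
    rintro rfl
    apply ha
    rw [hκ, rat_zero]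
    simp [sympForm_apply]
  obtain ⟨a₂, haa₂⟩ := rat_partner P hrat ha0
  have hg : GoodE M (R a) := good_rat hrat hM hS hn hall ha0
  have hg₂ : GoodE M ((-κ) • R a₂) := GoodE.smul (good_rat hrat hM hS hn hall (ne_zero_of_pair' haa₂)) (neg_ne_zero.2 ha)
  set z := (-κ) • R a₂ with hz
  have hza : f z (R a) = κ := by
    rw [hz, sympForm_smul_left, sympForm_flip (R a) (R a₂), haa₂]
    ring
  set w := κ⁻¹ • (v - z) with hw
  have haw : f (R a) w = 0 := by
    rw [hw, sympForm_smul_right, sform_sub_right, sympForm_flip v (R a), sympForm_flip z (R a), ← hκ, hza]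
    simp
  have hy₁ : rho (R a) w ∈ M := hg.2 w haw
  set τ := f z w with hτ
  have e1 : act (rho (R a) w) z = v + τ • R a := by
    rw [act_rho haw, hza, ← hτ, hw, smul_smul, mul_inv_cancel₀ ha, one_smul]
    abel
  have hy₂ : stv (R a) (-(τ * κ⁻¹)) ∈ M := hg.1 _
  have e2 : act (stv (R a) (-(τ * κ⁻¹))) (v + τ • R a) = v := by
    rw [act_stv, sympForm_add_left, sympForm_smul_left, sympForm_self, ← hκ]
    have : -(τ * κ⁻¹) * (κ + τ * 0) = -τ := by
      field_simp
      ring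
    rw [this]
    simp
  have h3 := GoodE.map_act hM hy₂ (GoodE.map_act hM hy₁ hg₂)
  rw [e1, e2] at h3
  exact h3.1 c

/-- a transvection with a non-rational coefficient is outside the subfield group -/
theorem stv_not_mem_subfield (hn : 2 ≤ m) {a : V₀} (ha0 : a ≠ 0) {d : F} (hd : d ∉ F₀) :
    stv (R a) d ∉ Cfsg.Geo.subfieldSubgroup F₀ P := by
  intro hmem
  obtain ⟨x, hx⟩ := rat_partner P hrat ha0
  have hxa : f (R x) (R a) = -1 := by rw [sympForm_flip (R a) (R x), hx]
  obtain ⟨c, w, hcw⟩ := rat_of_mem_subfield P hmem x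
  rw [act_stv, hxa] at hcw
  have hind : ∀ t : F₀, x ≠ t • a := by
    rintro t rfl
    rw [rat_smul, sympForm_smul_right, sympForm_self, mul_zero] at hx
    exact zero_ne_one hx
  obtain ⟨y₁, h11, h12⟩ := rat_two_values P hrat ha0 hind 0 1
  obtain ⟨y₂, h21, h22⟩ := rat_two_values P hrat ha0 hind 1 0
  simp only [Subfield.coe_zero, Subfield.coe_one] at h11 h12 h21 h22
  have e1 := congrArg (fun z => f z (R y₁)) hcw
  have e2 := congrArg (fun z => f z (R y₂)) hcw
  simp only [sympForm_add_left, sympForm_smul_left, h11, h12, h21, h22] at e1 e2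
  simp only [mul_zero, add_zero, mul_one, zero_add] at e1 e2
  have h3 : f (R w) (R y₁) ≠ 0 := by
    intro h0
    rw [h0, mul_zero] at e1
    exact one_ne_zero e1
  have hc0 : c ≠ 0 := by
    rintro rfl
    rw [zero_mul] at e1
    exact one_ne_zero e1
  apply hd
  have h4 : d = (-f (R w) (R y₂)) * (f (R w) (R y₁))⁻¹ := by
    field_simp
    apply mul_left_cancel₀ hc0
    linear_combination (-d) * e1 - e2
  rw [h4]
  exact F₀.mul_mem (F₀.neg_mem (hrat _ _)) (F₀.inv_mem (hrat _ _))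

end full

end overgroup

end Cfsg.Agent.Lib.Geo.SpR
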