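import Mathlib
import Cfsg.Agent.Lib.Geo.SpRat2

set_option autoImplicit false

/-! Overgroups of the rational symplectic group with a small field of coefficients: the first pairing
bound, the rigid case and Dickson's step. -/

namespace Cfsg.Agent.Lib.Geo.SpR

open scoped MatrixGroups Matrix commutatorElement
open Module Cfsg.Agent.Lib.Classical
open Cfsg.Agent.Lib.Classical.Dick (uu ll)

section

variable {m : ℕ} {F : Type*} [Field F] [Fintype F] {F₀ : Subfield F} {P : GL (Fin m ⊕ Fin m) F}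
  {M : Subgroup (GL (Fin m ⊕ Fin m) F)}

local notation "V₀" => (Fin m ⊕ Fin m → F₀)
local notation "Vv" => (Fin m ⊕ Fin m → F)
local notation "f" => Cfsg.sympForm m F
local notation "R" => rat F₀ P

omit [Fintype F] in
/-- the difference for an element fixing the centre -/
theorem ts_diff (hM : M ≤ Cfsg.spGL m F) {y : GL (Fin m ⊕ Fin m) F} (hy : y ∈ M) {a w : Vv} {e : F} (haw : f a w = 0)
    (hya : act y a = a) (hm : rho a w * stv a e ∈ M) :
    f a (act y w - w) = 0 ∧ rho a (act y w - w) * stv a (-f w (act y w - w)) ∈ M := by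
  have h1 : f a (act y w) = 0 := by
    have := (mem_spGL_iff.1 (hM hy)) a w
    rw [hya, haw] at this
    exact this
  have hw1 : f a (act y w - w) = 0 := by rw [sform_sub_right, h1, haw, sub_zero]
  refine ⟨hw1, ?_⟩
  have h2 : y * (rho a w * stv a e) * y⁻¹ = rho a (act y w) * stv a e := by
    have e0 : y * (rho a w * stv a e) * y⁻¹ = (y * rho a w * y⁻¹) * (y * stv a e * y⁻¹) := by group
    rw [e0, conj_rho (hM hy), conj_stv (hM hy), hya]
  have h3 : rho a (act y w) * stv a e ∈ M := by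
    rw [← h2]
    exact M.mul_mem (M.mul_mem hy hm) (M.inv_mem hy)
  have h4 := M.mul_mem h3 (M.inv_mem hm)
  generalize hw₁ : act y w - w = w₁ at *
  have e5 : act y w = w₁ + w := by rw [← hw₁]; abel
  have e6 : rho a w₁ * rho a w = rho a (w₁ + w) * stv a (f w w₁) := rho_mul_gen hw1 haw
  have e7 : rho a (act y w) = rho a w₁ * rho a w * stv a (-f w w₁) := by
    rw [e5, e6, mul_assoc, stv_add, add_neg_cancel, stv_zero, mul_one]
  have e8 : rho a (act y w) * stv a e * (rho a w * stv a e)⁻¹ = rho a w₁ * stv a (-f w w₁) := by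
    rw [e7]
    calc _ = rho a w₁ * (rho a w * stv a (-f w w₁)) * (rho a w)⁻¹ := by group
      _ = rho a w₁ * (stv a (-f w w₁) * rho a w) * (rho a w)⁻¹ := by rw [rho_stv_comm a w haw]
      _ = _ := by group
  rwa [e8] at h4

section rigid0

variable (hrat : ∀ x y : Fin m ⊕ Fin m → F₀, Cfsg.sympForm m F (rat F₀ P x) (rat F₀ P y) ∈ F₀)
  (hM : M ≤ Cfsg.spGL m F) (hS : HS M F₀ P) (hn : 7 ≤ m) (hA : ∀ d, RS M F₀ P d → d ∈ F₀)

include hrat hM hS hn hA

/-- pairings of the second parameter with rational vectors perpendicular to the centre -/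
theorem R1 {a x : V₀} {w : Vv} {e : F} (ha0 : a ≠ 0) (haw : f (R a) w = 0)
    (hm : rho (R a) w * stv (R a) e ∈ M) (hax : f (R a) (R x) = 0) : f w (R x) ∈ F₀ := by
  obtain ⟨c, c', hcc', hΛ⟩ := rat_hyp P hrat [a, x] (by simp; omega)
  obtain ⟨e₁, e₁', hee', hΛ₂⟩ := rat_hyp P hrat [a, x, c, c'] (by simp; omega)
  have hca := hΛ a (by simp)
  have hcx := hΛ x (by simp)
  have hea := hΛ₂ a (by simp)
  have hex := hΛ₂ x (by simp)
  have hec := hΛ₂ c (by simp)
  have hec' := hΛ₂ c' (by simp)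
  have hy₁ := rho_rat_mem hS c x
  have hy₁a : act (rho (R c) (R x)) (R a) = R a := by
    rw [act_rho hcx.1, hax, sform_flip0 hca.1]
    simp
  obtain ⟨hw1, h1⟩ := ts_diff hM hy₁ haw hy₁a hm
  have e1 : act (rho (R c) (R x)) w - w = f w (R x) • R c + f w (R c) • R x := by
    rw [act_rho hcx.1]
    abel
  rw [e1] at hw1 h1
  have hce : f (R c') (R e₁) = 0 := sform_flip0 hec'.1
  have hy₂ := rho_rat_mem hS c' e₁
  have hy₂a : act (rho (R c') (R e₁)) (R a) = R a := by
    rw [act_rho hce, sform_flip0 hea.1, sform_flip0 hca.2]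
    simp
  obtain ⟨hw2, h2⟩ := ts_diff hM hy₂ hw1 hy₂a h1
  have e2 : act (rho (R c') (R e₁)) (f w (R x) • R c + f w (R c) • R x) - (f w (R x) • R c + f w (R c) • R x)
      = f w (R x) • R e₁ := by
    rw [map_add, map_smul, map_smul, act_rho hce, act_rho hce, sform_flip0 hec.1, hcc', sform_flip0 hex.1,
      sform_flip0 hcx.2]
    simp only [zero_smul, add_zero, one_smul, smul_add]
    abel
  rw [e2] at hw2 h2
  have e3 : f (f w (R x) • R c + f w (R c) • R x) (f w (R x) • R e₁) = 0 := by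
    rw [sympForm_smul_right, sympForm_add_left, sympForm_smul_left, sympForm_smul_left, sform_flip0 hec.1,
      sform_flip0 hex.1]
    ring
  rw [e3, neg_zero, stv_zero, mul_one] at h2
  refine hA _ (RS_of_one hrat hM hS (by omega) (a₀ := a) (b₀ := e₁) (sform_flip0 hea.1) ha0 ?_ h2)
  exact hind_x hee' (sform_flip0 hea.2)

/-- a transvection centred on a vector with a rational perpendicular -/
theorem rigid {a b x : V₀} {u : Vv} (ha0 : a ≠ 0) (hu : stv u 1 ∈ M) (hua : f u (R a) = 0)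
    (hab : f (R a) (R b) = 0) (hax : f (R a) (R x) = 0) : f u (R b) * f u (R x) ∈ F₀ := by
  have hy := rho_rat_mem hS a b
  have e1 : act (rho (R a) (R b)) u = u + f u (R b) • R a := by
    rw [act_rho hab, hua]
    simp
  have h2 := stv_conj_mem hM hy hu
  have hk : f u (f u (R b) • R a) = 0 := by rw [sympForm_smul_right, hua, mul_zero]
  rw [e1, stv_add_vec hk] at h2
  have h3 : rho u (f u (R b) • R a) * stv (f u (R b) • R a) 1 ∈ M := by
    have h4 := M.mul_mem h2 (M.inv_mem hu)
    simpa using h4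
  rw [rho_symm _ _ hk, rho_smul_left _ (sform_flip0 hua), stv_smul] at h3
  have h5 := R1 hrat hM hS hn hA (x := x) ha0 (by rw [sympForm_smul_right, sform_flip0 hua, mul_zero]) h3 hax
  rwa [sympForm_smul_left] at h5

end rigid0

/-- square roots in a subfield of odd prime index -/
theorem sq_mem {r : ℕ} (hr : r.Prime) (hr2 : r ≠ 2) (hcard : Fintype.card F = Nat.card F₀ ^ r) {s : F}
    (hs : s * s ∈ F₀) : s ∈ F₀ := by
  classical
  set q := Nat.card F₀ with hq
  have hq1 : 1 < q := Finite.one_lt_card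
  have hmem := fun a : F => mem_iff_pow_eq (F₀ := F₀) (q := q) hq.symm hq1 a
  have h1 : (s * s) ^ q = s * s := (hmem _).2 hs
  have h2 : s ^ q * s ^ q = s * s := by
    rw [← mul_pow]
    exact h1
  have h3 : (s ^ q) ^ q = s := by
    have h4 : (s ^ q - s) * (s ^ q + s) = 0 := by linear_combination h2
    rcases mul_eq_zero.1 h4 with h5 | h5
    · have h6 : s ^ q = s := sub_eq_zero.1 h5
      rw [h6, h6]
    · have h6 : s ^ q = -s := eq_neg_of_add_eq_zero_left h5
      have h7 : (-1 : F) ^ q = -1 := (hmem _).2 (F₀.neg_mem F₀.one_mem)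
      rw [h6, ← neg_one_mul, mul_pow, h7, h6]
      ring
  have hodd : Odd r := hr.odd_of_ne_two hr2
  obtain ⟨k, hk⟩ := hodd
  have h8 : ∀ n : ℕ, s ^ ((q ^ 2) ^ n) = s := by
    intro n
    induction n with
    | zero => simp
    | succ n ih =>
      rw [pow_succ, pow_mul, ih, pow_two, pow_mul, h3]
  have h9 : s ^ (q ^ r) = s := by
    rw [← hcard]
    exact FiniteField.pow_card s
  have h10 : q ^ r = (q ^ 2) ^ k * q := by
    rw [hk, pow_succ, pow_mul]
  rw [h10, pow_mul, h8] at h9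
  exact (hmem _).1 h9


section dickson

variable (hrat : ∀ x y : Fin m ⊕ Fin m → F₀, Cfsg.sympForm m F (rat F₀ P x) (rat F₀ P y) ∈ F₀)
  (hM : M ≤ Cfsg.spGL m F) (hS : HS M F₀ P) (hn : 7 ≤ m) (hA : ∀ d, RS M F₀ P d → d ∈ F₀)

include hrat hM hS hn hA

/-- Dickson's step: a moved transvection with two perpendicular rational vectors with a non-rational
ratio of pairings forces a small degree -/
theorem dickson_bound {r : ℕ} (hr : r.Prime) (hr2 : r ≠ 2) (hcard : Fintype.card F = Nat.card F₀ ^ r)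
    {u : Vv} (hu : stv u 1 ∈ M) {a a' : V₀} (haa' : f (R a) (R a') = 0) (hμ : f u (R a) ≠ 0)
    (hc : f u (R a') * (f u (R a))⁻¹ ∉ F₀) : r ≤ 3 := by
  set μ := f u (R a) with hμd
  set c := f u (R a') * μ⁻¹ with hcd
  have ha0 : a ≠ 0 := by
    rintro rfl
    apply hμ
    rw [hμd, rat_zero]
    simp [sympForm_apply]
  have hind : ∀ t : F₀, a' ≠ t • a := by
    intro t ht
    apply hc
    have : c = t := by
      rw [hcd, ht, rat_smul, sympForm_smul_right, ← hμd]
      field_simp
    rw [this]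
    exact t.2
  obtain ⟨u', hu'⟩ : ∃ u' : Vv, u' = μ⁻¹ • u := ⟨_, rfl⟩
  have hu'a : f u' (R a) = 1 := by
    rw [hu', sympForm_smul_left, ← hμd, inv_mul_cancel₀ hμ]
  have hu'a' : f u' (R a') = c := by
    rw [hu', sympForm_smul_left, hcd]
    ring
  have huu' : stv u' (μ * μ) ∈ M := by
    have e : u = μ • u' := by
      rw [hu', smul_smul, mul_inv_cancel₀ hμ, one_smul]
    rw [e, stv_smul, one_mul] at hu
    exact hu
  set ρ' := R a' - c • R a with hρ'
  have haa : f (R a) (R a) = 0 := sympForm_self _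
  have ha'a : f (R a') (R a) = 0 := sform_flip0 haa'
  have hρa : f ρ' (R a) = 0 := by
    rw [hρ', sform_sub_left, sympForm_smul_left, ha'a, haa]
    ring
  have hρa' : f ρ' (R a') = 0 := by
    rw [hρ', sform_sub_left, sympForm_smul_left, sympForm_self, haa']
    ring
  have hρu : f ρ' u' = 0 := by
    rw [hρ', sform_sub_left, sympForm_smul_left, sympForm_flip u' (R a'), sympForm_flip u' (R a), hu'a, hu'a']
    ring
  have hau : f (R a) u' = -1 := by rw [sympForm_flip u' (R a), hu'a]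
  have hRa' : R a' = c • R a + ρ' := by rw [hρ']; abel
  set Y : Submodule F Vv := Submodule.span F ({R a, u', ρ'} : Set Vv) with hY
  have memY1 : R a ∈ Y := Submodule.subset_span (by simp)
  have memY2 : u' ∈ Y := Submodule.subset_span (by simp)
  have memY3 : ρ' ∈ Y := Submodule.subset_span (by simp)
  set L := pairLift M (R a) u' (R a) u' ρ' Y with hL
  have hll : ll (-(μ * μ)) ∈ L := by
    have hPA : PA (stv u' (μ * μ)) (ll (-(μ * μ))) (R a) u' ρ' := by
      refine PA_ll.2 ⟨⟨0, ?_⟩, ⟨0, ?_⟩⟩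
      · rw [act_stv, hau]
        simp
      · rw [act_stv, sympForm_self]
        simp
    refine ⟨stv u' (μ * μ), huu', ?_, hPA, hPA, fun y => ?_⟩
    · rw [act_stv, hρu]
      simp
    · rw [act_stv, add_sub_cancel_left]
      exact Submodule.smul_mem _ _ memY2
  have hu1 : ∀ s ∈ F₀, uu s ∈ L := by
    intro s hs
    have hPA : PA (stv (R a) s) (uu s) (R a) u' ρ' := by
      refine PA_uu.2 ⟨⟨0, ?_⟩, ⟨0, ?_⟩⟩
      · rw [act_stv, haa]
        simp
      · rw [act_stv, hu'a]
        simp only [mul_one, zero_smul, add_zero]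
        abel
    refine ⟨stv (R a) s, hS a s hs, ?_, hPA, hPA, fun y => ?_⟩
    · rw [act_stv, hρa]
      simp
    · rw [act_stv, add_sub_cancel_left]
      exact Submodule.smul_mem _ _ memY1
  have hu2 : ∀ s ∈ F₀, uu (s * (c * c)) ∈ L := by
    intro s hs
    have hPA : PA (stv (R a') s) (uu (s * (c * c))) (R a) u' ρ' := by
      refine PA_uu.2 ⟨⟨0, ?_⟩, ⟨s * c, ?_⟩⟩
      · rw [act_stv, haa']
        simp
      · rw [act_stv, hu'a']
        nth_rw 1 [hRa']
        (module)
    refine ⟨stv (R a') s, hS a' s hs, ?_, hPA, hPA, fun y => ?_⟩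
    · rw [act_stv, hρa']
      simp
    · rw [act_stv, add_sub_cancel_left, hRa']
      exact Submodule.smul_mem _ _ (Submodule.add_mem _ (Submodule.smul_mem _ _ memY1) memY3)
  set S : Set F := {e | ∃ s ∈ F₀, e = s ∨ e = s * (c * c)} with hS'
  have hall : ∀ d : F, uu d ∈ L := by
    intro d
    refine DS.root_closure hr hcard L (neg_ne_zero.2 (mul_ne_zero hμ hμ)) hll S ?_ ?_ (b₁ := 1) (b₂ := c * c)
      ⟨1, F₀.one_mem, Or.inl rfl⟩ ⟨1, F₀.one_mem, Or.inr (by ring)⟩ one_ne_zero ?_ d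
    · rintro e ⟨s, hs, he | he⟩
      · rw [he]
        exact hu1 s hs
      · rw [he]
        exact hu2 s hs
    · rintro c₀ hc₀ e ⟨s, hs, he | he⟩
      · exact ⟨c₀ * s, F₀.mul_mem hc₀ hs, Or.inl (by rw [he])⟩
      · exact ⟨c₀ * s, F₀.mul_mem hc₀ hs, Or.inr (by rw [he]; ring)⟩
    · intro c₀ hc₀ h
      apply hc
      rw [mul_one] at h
      exact sq_mem hr hr2 hcard (by rw [h]; exact hc₀)
  -- a hyperbolic pair perpendicular to both
  obtain ⟨q, q', hqq', hΛ⟩ := rat_hyp P hrat [a, a'] (by simp; omega)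
  have hqa := hΛ a (by simp)
  have hqa' := hΛ a' (by simp)
  have hq0 := ne_zero_of_pair hqq'
  have hdual : ∀ e₁ e₂ : F₀, ∃ x : V₀, f (R a) (R x) = e₁ ∧ f (R a') (R x) = e₂ ∧ f (R q) (R x) = 0 := by
    intro e₁ e₂
    obtain ⟨y, h1, h2⟩ := rat_two_values P hrat ha0 hind e₁ e₂
    obtain ⟨κ, hκ⟩ : ∃ κ : F₀, (κ : F) = f (R q) (R y) := ⟨⟨_, hrat q y⟩, rfl⟩
    refine ⟨y - κ • q', ?_, ?_, ?_⟩
    · rw [rat_sub', rat_smul, sform_sub_right, sympForm_smul_right, h1, sform_flip0 hqa.2]
      simp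
    · rw [rat_sub', rat_smul, sform_sub_right, sympForm_smul_right, h2, sform_flip0 hqa'.2]
      simp
    · rw [rat_sub', rat_smul, sform_sub_right, sympForm_smul_right, hqq', hκ]
      simp
  obtain ⟨x₁, hx₁a, hx₁a', hx₁q⟩ := hdual 1 0
  obtain ⟨x₂, hx₂a, hx₂a', hx₂q⟩ := hdual 0 1
  simp only [Subfield.coe_zero, Subfield.coe_one] at hx₁a hx₁a' hx₂a hx₂a'
  -- the dual vectors
  obtain ⟨c₁, hc₁a, hc₁a'⟩ := rat_two_values P hrat ha0 hind (-1) 0
  obtain ⟨c₂, hc₂a, hc₂a'⟩ := rat_two_values P hrat ha0 hind 0 (-1)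
  simp only [Subfield.coe_zero, Subfield.coe_one, Subfield.coe_neg] at hc₁a hc₁a' hc₂a hc₂a'
  -- every element of `F` is a combination
  have hcomb : ∀ d : F, ∃ A B C : F₀, d = A + c * B + c * c * C := by
    intro d
    obtain ⟨z, hz, hzρ, hPA, -, hYz⟩ := hall d
    obtain ⟨⟨s₁, hs₁⟩, ⟨s₃, hs₃⟩⟩ := PA_uu.1 hPA
    have hiso := mem_spGL_iff.1 (hM hz)
    -- the first coordinate vanishes
    have hv : act z (R a) = (1 - s₁ * c) • R a + s₁ • R a' := by
      rw [hs₁, hρ']
      (module)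
    have hvm : stv (act z (R a)) 1 ∈ M := stv_conj_mem hM hz (hS a 1 F₀.one_mem)
    have hvq : f (act z (R a)) (R q) = 0 := by
      rw [hv, sympForm_add_left, sympForm_smul_left, sympForm_smul_left, sform_flip0 hqa.1, sform_flip0 hqa'.1]
      ring
    have hvx₁ : f (act z (R a)) (R x₁) = 1 - s₁ * c := by
      rw [hv, sympForm_add_left, sympForm_smul_left, sympForm_smul_left, hx₁a, hx₁a']
      ring
    have hvx₂ : f (act z (R a)) (R x₂) = s₁ := by
      rw [hv, sympForm_add_left, sympForm_smul_left, sympForm_smul_left, hx₂a, hx₂a']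
      ring
    have hs0 : s₁ = 0 := by
      have h1 := rigid hrat hM hS hn hA hq0 hvm hvq hx₂q hx₁q
      have h2 := rigid hrat hM hS hn hA hq0 hvm hvq hx₂q hx₂q
      rw [hvx₁, hvx₂] at h1
      rw [hvx₂] at h2
      have h3 : s₁ ∈ F₀ := sq_mem hr hr2 hcard h2
      by_contra h4
      apply hc
      have h5 : c = (s₁ - s₁ * (1 - s₁ * c)) * (s₁ * s₁)⁻¹ := by
        field_simp
        ring
      rw [h5]
      exact F₀.mul_mem (F₀.sub_mem h3 h1) (F₀.inv_mem h2)
    have hza : act z (R a) = R a := by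
      rw [hs₁, hs0]
      simp
    have hza' : act z (R a') = R a' := by
      rw [hRa', map_add, map_smul, hza, hzρ]
    -- the image of `z - 1`
    have hN : ∀ y : Vv, ∃ k₁ k₃ : F, act z y - y = k₁ • R a + k₃ • ρ' := by
      intro y
      have h1 := hYz y
      obtain ⟨k₁, y₁, h₁, h2⟩ := Submodule.mem_span_insert.1 h1
      obtain ⟨k₂, k₃, h3⟩ := Submodule.mem_span_pair.1 h₁
      rw [← h3] at h2
      have h4 : f (act z y - y) (R a) = 0 := by
        have h5 := hiso y (R a)
        rw [hza] at h5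
        rw [sform_sub_left, h5, sub_self]
      rw [h2, sympForm_add_left, sympForm_add_left, sympForm_smul_left, sympForm_smul_left, sympForm_smul_left, haa,
        hu'a, hρa] at h4
      have h6 : k₂ = 0 := by linear_combination h4
      refine ⟨k₁, k₃, ?_⟩
      rw [h2, h6]
      simp
    have hfix : ∀ y : Vv, f y (R a) = 0 → f y (R a') = 0 → act z y = y := by
      intro y hy hy'
      rw [← sub_eq_zero]
      apply sympForm_eq_zero_iff
      intro w
      obtain ⟨k₁, k₃, hk⟩ := hN w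
      have h1 : f w y = f (act z w) (act z y) := (hiso w y).symm
      have h2 : f (R a) (act z y) = 0 := by
        have h3 := hiso (R a) y
        rw [hza] at h3
        rw [h3]
        exact sform_flip0 hy
      have h4 : f ρ' (act z y) = 0 := by
        have h3 := hiso ρ' y
        rw [hzρ] at h3
        rw [h3, hρ', sform_sub_left, sympForm_smul_left, sform_flip0 hy, sform_flip0 hy']
        ring
      have h5 : f (act z w - w) (act z y) = 0 := by
        rw [hk, sympForm_add_left, sympForm_smul_left, sympForm_smul_left, h2, h4]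
        ring
      rw [sform_sub_right, h1, sub_eq_zero]
      rw [sform_sub_left, sub_eq_zero] at h5
      rw [h5]
    have hn0 : ∀ c₀ x : V₀, f (act z (R c₀) - R c₀) (R x) ∈ F₀ := by
      intro c₀ x
      obtain ⟨e', he'0, hΛ₃⟩ := rat_perp P hrat [a, a', c₀, x] (by simp; omega)
      have hz' : act z (R e') = R e' := hfix _ (hΛ₃ a (by simp)) (hΛ₃ a' (by simp))
      have h1 : rho (R e') (R c₀) * stv (R e') 0 ∈ M := by
        rw [stv_zero, mul_one]
        exact rho_rat_mem hS _ _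
      obtain ⟨h2, h3⟩ := ts_diff hM hz (hΛ₃ c₀ (by simp)) hz' h1
      exact R1 hrat hM hS hn hA he'0 h2 h3 (hΛ₃ x (by simp))
    set y₀ := u' - R c₁ - c • R c₂ with hy₀
    have hy₀a : f y₀ (R a) = 0 := by
      rw [hy₀, sform_sub_left, sform_sub_left, sympForm_smul_left, hu'a, sympForm_flip (R a) (R c₁), hc₁a,
        sympForm_flip (R a) (R c₂), hc₂a]
      ring
    have hy₀a' : f y₀ (R a') = 0 := by
      rw [hy₀, sform_sub_left, sform_sub_left, sympForm_smul_left, hu'a', sympForm_flip (R a') (R c₁), hc₁a',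
        sympForm_flip (R a') (R c₂), hc₂a']
      ring
    have hz₀ := hfix y₀ hy₀a hy₀a'
    have hNu : act z u' - u' = (act z (R c₁) - R c₁) + c • (act z (R c₂) - R c₂) := by
      have e1 : u' = y₀ + R c₁ + c • R c₂ := by
        rw [hy₀]
        abel
      have e2 : act z u' = y₀ + act z (R c₁) + c • act z (R c₂) := by
        rw [e1, map_add, map_add, map_smul, hz₀]
      rw [e2, e1]
      (module)
    have hNu' : act z u' - u' = d • R a + s₃ • ρ' := by
      rw [hs₃]
      abel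
    have hρc₁ : f ρ' (R c₁) = c := by
      rw [hρ', sform_sub_left, sympForm_smul_left, hc₁a', hc₁a]
      ring
    have hρc₂ : f ρ' (R c₂) = -1 := by
      rw [hρ', sform_sub_left, sympForm_smul_left, hc₂a', hc₂a]
      ring
    have e1 : f (act z u' - u') (R c₁) = -d + s₃ * c := by
      rw [hNu', sympForm_add_left, sympForm_smul_left, sympForm_smul_left, hc₁a, hρc₁]
      ring
    have e2 : f (act z u' - u') (R c₂) = -s₃ := by
      rw [hNu', sympForm_add_left, sympForm_smul_left, sympForm_smul_left, hc₂a, hρc₂]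
      ring
    rw [hNu, sympForm_add_left, sympForm_smul_left] at e1 e2
    have n11 := hn0 c₁ c₁
    have n12 := hn0 c₁ c₂
    have n21 := hn0 c₂ c₁
    have n22 := hn0 c₂ c₂
    refine ⟨⟨_, F₀.neg_mem n11⟩, ⟨_, F₀.neg_mem (F₀.add_mem n12 n21)⟩, ⟨_, F₀.neg_mem n22⟩, ?_⟩
    simp only [Subfield.coe_neg, Subfield.coe_add]
    linear_combination e1 + c * e2
  -- counting
  classical
  haveI : Fintype F₀ := Fintype.ofFinite _
  have hq : 1 < Nat.card F₀ := Finite.one_lt_card
  have hsurj : Function.Surjective (fun p : F₀ × F₀ × F₀ => (p.1 : F) + c * p.2.1 + c * c * p.2.2) := by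
    intro d
    obtain ⟨A, B, C, h⟩ := hcomb d
    exact ⟨(A, B, C), h.symm⟩
  have h1 := Nat.card_le_card_of_surjective _ hsurj
  rw [Nat.card_prod, Nat.card_prod, Nat.card_eq_fintype_card (α := F), hcard] at h1
  have h2 : Nat.card F₀ ^ r ≤ Nat.card F₀ ^ 3 := by
    calc _ ≤ _ := h1
      _ = _ := by ring
  exact (Nat.pow_le_pow_iff_right hq).1 h2

end dickson

section final

variable (hrat : ∀ x y : Fin m ⊕ Fin m → F₀, Cfsg.sympForm m F (rat F₀ P x) (rat F₀ P y) ∈ F₀)

include hrat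

/-- a vector perpendicular to a covector-valued map, for small degree -/
theorem exists_kernel {r : ℕ} (hcard : Fintype.card F = Nat.card F₀ ^ r) (hnr : r + 3 ≤ 2 * m) (u : Vv) (b x : V₀) :
    ∃ a : V₀, a ≠ 0 ∧ f u (R a) = 0 ∧ f (R a) (R b) = 0 ∧ f (R a) (R x) = 0 := by
  classical
  haveI : Fintype F₀ := Fintype.ofFinite _
  have hq : 1 < Fintype.card F₀ := Fintype.one_lt_card
  have hfr : Module.finrank F₀ F = r := by
    have h1 := Module.card_eq_pow_finrank (K := F₀) (V := F)
    rw [hcard, Nat.card_eq_fintype_card] at h1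
    exact (Nat.pow_right_injective hq h1).symm
  -- the values of the last two coordinates are rational
  let π' : V₀ →ₗ[F₀] F × F₀ × F₀ :=
    { toFun := fun a => (f u (R a), ⟨_, hrat a b⟩, ⟨_, hrat a x⟩)
      map_add' := fun y z => by
        ext <;> simp [rat_add, sympForm_add_left, sympForm_add_right]
      map_smul' := fun c y => by
        ext <;> simp [rat_smul, sympForm_smul_left, sympForm_smul_right] <;> rfl }
  have h1 : LinearMap.ker π' ≠ ⊥ := by
    apply LinearMap.ker_ne_bot_of_finrank_lt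
    rw [Module.finrank_prod, Module.finrank_prod, hfr]
    simp
    omega
  obtain ⟨a, ha, ha0⟩ := Submodule.exists_mem_ne_zero_of_ne_bot h1
  have h2 : π' a = 0 := ha
  refine ⟨a, ha0, congrArg Prod.fst h2, ?_, ?_⟩
  · exact congrArg (fun p : F × F₀ × F₀ => (p.2.1 : F)) h2
  · exact congrArg (fun p : F × F₀ × F₀ => (p.2.2 : F)) h2

/-- no element of an overgroup moves the rational structure when the coefficient field is small -/
theorem no_over_sp (hM : M ≤ Cfsg.spGL m F) (hS : HS M F₀ P) (hn : 7 ≤ m) (hA : ∀ d, RS M F₀ P d → d ∈ F₀)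
    {r : ℕ} (hr : r.Prime) (hcard : Fintype.card F = Nat.card F₀ ^ r) {g : GL (Fin m ⊕ Fin m) F} (hg : g ∈ M)
    (hgH : g ∉ Cfsg.Geo.subfieldSubgroup F₀ P) : False := by
  obtain ⟨a₀, hnr⟩ : ∃ a₀ : V₀, ∀ (c : F) (w : V₀), act g (R a₀) ≠ c • R w := by
    by_contra hcon
    push Not at hcon
    obtain ⟨σ, hfix⟩ := exists_frob F₀
    exact hgH (mem_subfield_of P σ hfix hcon)
  set u := act g (R a₀) with hu
  have hum : stv u 1 ∈ M := stv_conj_mem hM hg (hS a₀ 1 F₀.one_mem)
  have hu0 : u ≠ 0 := by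
    intro h
    apply hnr 0 0
    rw [h, zero_smul]
  obtain ⟨y₀, hy₀⟩ : ∃ y₀ : V₀, f u (R y₀) ≠ 0 := by
    by_contra hcon
    push Not at hcon
    exact hu0 (eq_zero_of_perp_rat P hcon)
  by_cases hrig : ∀ b x : V₀, ∃ a : V₀, a ≠ 0 ∧ f u (R a) = 0 ∧ f (R a) (R b) = 0 ∧ f (R a) (R x) = 0
  · obtain ⟨w, hw⟩ := rat_of_pair P hrat (z := f u (R y₀) • u) (fun y => by
      obtain ⟨a, ha0, h1, h2, h3⟩ := hrig y₀ y
      rw [sympForm_smul_left]
      exact rigid hrat hM hS hn hA ha0 hum h1 h2 h3)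
    exact hnr (f u (R y₀))⁻¹ w (by rw [← hw, smul_smul, inv_mul_cancel₀ hy₀, one_smul])
  · push Not at hrig
    obtain ⟨b', x', hno⟩ := hrig
    have hrr : 2 * m ≤ r + 2 := by
      by_contra hcon
      obtain ⟨a, h1, h2, h3, h4⟩ := exists_kernel hrat hcard (by omega) u b' x'
      exact hno a h1 h2 h3 h4
    have hr2 : r ≠ 2 := by omega
    have hbound : ∀ {a a' : V₀}, f (R a) (R a') = 0 → f u (R a) ≠ 0 → f u (R a') * (f u (R a))⁻¹ ∈ F₀ := by
      intro a a' h1 h2
      by_contra h3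
      have := dickson_bound hrat hM hS hn hA hr hr2 hcard hum h1 h2 h3
      omega
    obtain ⟨x, y, hy, hxy⟩ : ∃ x y : V₀, f u (R y) ≠ 0 ∧ f u (R x) * (f u (R y))⁻¹ ∉ F₀ := by
      by_contra hcon
      push Not at hcon
      obtain ⟨w, hw⟩ := rat_of_pair P hrat (z := (f u (R y₀))⁻¹ • u) (fun y => by
        rw [sympForm_smul_left, mul_comm]
        exact hcon y y₀ hy₀)
      apply hnr (f u (R y₀)) w
      rw [← hw, smul_smul, mul_inv_cancel₀ hy₀, one_smul]
    obtain ⟨e, he0, hΛ⟩ := rat_perp P hrat [x, y, b', x'] (by simp; omega)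
    have hνe : f u (R e) ≠ 0 := fun h => hno e he0 h (hΛ b' (by simp)) (hΛ x' (by simp))
    have h1 := hbound (hΛ x (by simp)) hνe
    have h2 := hbound (hΛ y (by simp)) hνe
    apply hxy
    have h3 : f u (R x) * (f u (R y))⁻¹ = (f u (R x) * (f u (R e))⁻¹) * (f u (R y) * (f u (R e))⁻¹)⁻¹ := by
      field_simp
    rw [h3]
    exact F₀.mul_mem h1 (F₀.inv_mem h2)

end final

section max

/-- The subfield subgroup of the symplectic group is maximal, for a form with rational values. -/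
theorem isMaximalIn_sp_subfield (hn : 7 ≤ m) {r : ℕ} (hr : r.Prime) (hcard : Fintype.card F = Nat.card F₀ ^ r)
    (P : GL (Fin m ⊕ Fin m) F)
    (hrat : ∀ x y : Fin m ⊕ Fin m → F₀, Cfsg.sympForm m F (rat F₀ P x) (rat F₀ P y) ∈ F₀) :
    Cfsg.Geo.IsMaximalIn (Cfsg.spGL m F) (Cfsg.Geo.subfieldSubgroup F₀ P ⊓ Cfsg.spGL m F) := by
  classical
  refine ⟨lt_of_le_of_ne inf_le_right ?_, ?_⟩
  · intro heq
    obtain ⟨d, hd⟩ : ∃ d : F, d ∉ F₀ := by
      by_contra hcon
      push Not at hcon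
      have h1 : Nat.card F₀ = Fintype.card F := by
        rw [← Nat.card_eq_fintype_card]
        exact Nat.card_congr (Equiv.subtypeUnivEquiv hcon)
      rw [hcard] at h1
      have hq : 1 < Nat.card F₀ := Finite.one_lt_card
      have h2 : 1 = r := Nat.pow_right_injective hq (by simpa using h1)
      exact hr.one_lt.ne h2
    obtain ⟨a, a', haa', -⟩ := rat_hyp P hrat [] (by simp; omega)
    have hmem := stv_mem (rat F₀ P a) d
    rw [← heq] at hmem
    exact stv_not_mem_subfield hrat (by omega) (ne_zero_of_pair haa') hd hmem.1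
  · intro M hHM hMO
    by_cases hMH : M ≤ Cfsg.Geo.subfieldSubgroup F₀ P ⊓ Cfsg.spGL m F
    · exact Or.inl (le_antisymm hMH hHM)
    right
    apply le_antisymm hMO
    have hS : HS M F₀ P := fun a c hc =>
      hHM ⟨stv_rat_mem_subfield P hrat a hc, stv_mem _ _⟩
    set A : Subfield F := sgField hrat hMO hS (by omega) with hA
    have hF₀A : F₀ ≤ A := fun c hc => RS_of_mem hS hc
    rcases DS.subfield_prime_index hr hcard hF₀A with hAe | hAt
    · exfalso
      have hAF : ∀ d, RS M F₀ P d → d ∈ F₀ := by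
        intro d hd
        have : d ∈ A := hd
        rwa [hAe] at this
      obtain ⟨g, hg, hgH⟩ := SetLike.not_le_iff_exists.1 hMH
      have hgS : g ∉ Cfsg.Geo.subfieldSubgroup F₀ P := fun h => hgH ⟨h, hMO hg⟩
      exact no_over_sp hrat hMO hS hn hAF hr hcard hg hgS
    · refine sp_le_of_RS hrat hMO hS (by omega) fun d => ?_
      have : d ∈ A := by rw [hAt]; trivial
      exact this

end max

end

end Cfsg.Agent.Lib.Geo.SpR
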