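import Mathlib
import Cfsg.Agent.Lib.Geo.SpRat3

set_option autoImplicit false

/-! Passing from a scaled form to the standard form by a diagonal similitude. -/

namespace Cfsg.Agent.Lib.Geo.SpR

open scoped MatrixGroups Matrix
open Module Cfsg.Agent.Lib.Classical

/-- moving a relative maximal subgroup by a group automorphism preserving the big group -/
theorem isMaximalIn_of_map {G : Type*} [Group G] (φ : G ≃* G) {K H : Subgroup G}
    (hK : K.map φ.toMonoidHom = K)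
    (h : Cfsg.Geo.IsMaximalIn K (H.map φ.toMonoidHom)) : Cfsg.Geo.IsMaximalIn K H := by
  have hinj : Function.Injective φ.toMonoidHom := φ.injective
  have hmono : ∀ {A B : Subgroup G}, A.map φ.toMonoidHom = B.map φ.toMonoidHom → A = B := by
    intro A B hAB
    exact Subgroup.map_injective hinj hAB
  have hle : ∀ {A B : Subgroup G}, A.map φ.toMonoidHom ≤ B.map φ.toMonoidHom → A ≤ B := by
    intro A B hAB
    exact (Subgroup.map_le_map_iff_of_injective hinj).1 hAB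
  refine ⟨?_, fun M hHM hMK => ?_⟩
  · refine lt_of_le_of_ne (hle (by rw [hK]; exact h.1.le)) ?_
    intro hEq
    apply h.1.ne
    rw [hEq, hK]
  · have h1 := h.2 (M.map φ.toMonoidHom) (Subgroup.map_mono hHM) (by
      rw [← hK]
      exact Subgroup.map_mono hMK)
    rcases h1 with h1 | h1
    · exact Or.inl (hmono h1)
    · right
      exact hmono (h1.trans hK.symm)

section

variable {m : ℕ} {F : Type*} [Field F]

local notation "Vv" => (Fin m ⊕ Fin m → F)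
local notation "f" => Cfsg.sympForm m F

/-- the diagonal similitude -/
noncomputable def dg (ζ : F) (hζ : ζ ≠ 0) : GL (Fin m ⊕ Fin m) F :=
  Matrix.GeneralLinearGroup.mkOfDetNeZero (Matrix.diagonal (Sum.elim (fun _ => ζ) (fun _ => 1))) (by
    rw [Matrix.det_diagonal, Finset.prod_ne_zero_iff]
    rintro (i | i) -
    · simpa using hζ
    · simp)

theorem act_dg (ζ : F) (hζ : ζ ≠ 0) (x : Vv) (i : Fin m ⊕ Fin m) :
    act (dg ζ hζ) x i = Sum.elim (fun _ => ζ) (fun _ => 1) i * x i := by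
  rw [act_apply]
  exact Matrix.mulVec_diagonal _ _ _

theorem form_dg (ζ : F) (hζ : ζ ≠ 0) (x y : Vv) :
    f (act (dg ζ hζ) x) (act (dg ζ hζ) y) = ζ * f x y := by
  rw [sympForm_apply, sympForm_apply, Finset.mul_sum]
  refine Finset.sum_congr rfl fun i _ => ?_
  simp only [act_dg, Sum.elim_inl, Sum.elim_inr]
  ring

theorem conj_dg_mem {ζ : F} (hζ : ζ ≠ 0) {g : GL (Fin m ⊕ Fin m) F} (hg : g ∈ Cfsg.spGL m F) :
    dg ζ hζ * g * (dg ζ hζ)⁻¹ ∈ Cfsg.spGL m F := by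
  rw [mem_spGL_iff] at hg ⊢
  intro u v
  have e : ∀ w : Vv, act (dg ζ hζ * g * (dg ζ hζ)⁻¹) w = act (dg ζ hζ) (act g (act (dg ζ hζ)⁻¹ w)) := by
    intro w
    rw [map_mul, map_mul, LinearEquiv.mul_apply, LinearEquiv.mul_apply]
  rw [e, e, form_dg, hg, ← form_dg ζ hζ, act_act_inv, act_act_inv]

theorem conj_dg_inv_mem {ζ : F} (hζ : ζ ≠ 0) {g : GL (Fin m ⊕ Fin m) F} (hg : g ∈ Cfsg.spGL m F) :
    (dg ζ hζ)⁻¹ * g * dg ζ hζ ∈ Cfsg.spGL m F := by
  rw [mem_spGL_iff] at hg ⊢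
  intro u v
  have e : ∀ w : Vv, act ((dg ζ hζ)⁻¹ * g * dg ζ hζ) w = act (dg ζ hζ)⁻¹ (act g (act (dg ζ hζ) w)) := by
    intro w
    rw [map_mul, map_mul, LinearEquiv.mul_apply, LinearEquiv.mul_apply]
  apply mul_left_cancel₀ hζ
  rw [e, e, ← form_dg ζ hζ, act_act_inv, act_act_inv, hg, form_dg]

variable [Fintype F]

/-- The subfield subgroup of the symplectic group is maximal, for a scaled form with rational values. -/
theorem isMaximalIn_sp_subfield_scaled (hn : 7 ≤ m) {F₀ : Subfield F} {r : ℕ} (hr : r.Prime)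
    (hcard : Fintype.card F = Nat.card F₀ ^ r) (P : GL (Fin m ⊕ Fin m) F) {ζ : F} (hζ : ζ ≠ 0)
    (hP : Cfsg.Geo.IsFormRationalStructure (Cfsg.sympForm m F) F₀ ζ P) :
    Cfsg.Geo.IsMaximalIn (Cfsg.spGL m F) (Cfsg.Geo.subfieldSubgroup F₀ P ⊓ Cfsg.spGL m F) := by
  have hrat : ∀ x y : Fin m ⊕ Fin m → F₀, f (rat F₀ (dg ζ hζ * P) x) (rat F₀ (dg ζ hζ * P) y) ∈ F₀ := by
    intro x y
    have e : ∀ w : Fin m ⊕ Fin m → F₀, rat F₀ (dg ζ hζ * P) w = act (dg ζ hζ) (act P (incl F₀ w)) := by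
      intro w
      rw [rat, map_mul, LinearEquiv.mul_apply]
    rw [e, e, form_dg]
    exact hP _ _ (fun i => (x i).2) (fun i => (y i).2)
  have h1 := isMaximalIn_sp_subfield hn hr hcard (dg ζ hζ * P) hrat
  set φ : GL (Fin m ⊕ Fin m) F ≃* GL (Fin m ⊕ Fin m) F := MulAut.conj (dg ζ hζ) with hφ
  have hK : (Cfsg.spGL m F).map φ.toMonoidHom = Cfsg.spGL m F := by
    apply le_antisymm
    · rintro _ ⟨g, hg, rfl⟩
      exact conj_dg_mem hζ hg
    · intro g hg
      refine ⟨(dg ζ hζ)⁻¹ * g * dg ζ hζ, conj_dg_inv_mem hζ hg, ?_⟩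
      change dg ζ hζ * ((dg ζ hζ)⁻¹ * g * dg ζ hζ) * (dg ζ hζ)⁻¹ = g
      group
  refine isMaximalIn_of_map φ hK ?_
  have e1 : Cfsg.Geo.subfieldSubgroup F₀ (dg ζ hζ * P) = (Cfsg.Geo.subfieldSubgroup F₀ P).map φ.toMonoidHom := by
    rw [Cfsg.Geo.subfieldSubgroup, Cfsg.Geo.subfieldSubgroup, Subgroup.map_map]
    congr 1
    ext g : 1
    simp [hφ, MulAut.conj_apply, mul_assoc]
  have e2 : (Cfsg.Geo.subfieldSubgroup F₀ P ⊓ Cfsg.spGL m F).map φ.toMonoidHom =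
      Cfsg.Geo.subfieldSubgroup F₀ (dg ζ hζ * P) ⊓ Cfsg.spGL m F := by
    rw [e1, Subgroup.map_inf _ _ _ φ.injective, hK]
  rw [e2]
  exact h1

end

end Cfsg.Agent.Lib.Geo.SpR
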