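import Mathlib
import Cfsg.Agent.Lib.Geo.RootElts

set_option autoImplicit false

/-! The similarity group of a symplectic form is maximal in `SL`. -/

namespace Cfsg.Agent.Lib.Geo

open scoped MatrixGroups Matrix
open Module

variable {ι : Type} [Fintype ι] [DecidableEq ι] {F : Type*} [Field F]

local notation "V" => (ι → F)

/-- the linear form `x ↦ f x w` -/
def fl {f : V → V → F} (hb : Cfsg.Geo.IsBilinearForm f) (w : V) : Dual F V where
  toFun x := f x w
  map_add' x y := hb.add_left x y w
  map_smul' c x := hb.smul_left c x w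

theorem fl_apply {f : V → V → F} (hb : Cfsg.Geo.IsBilinearForm f) (w x : V) : fl hb w x = f x w := rfl

/-- `w ↦ f(·, w)` as a linear map to the dual. -/
def flL {f : V → V → F} (hb : Cfsg.Geo.IsBilinearForm f) : V →ₗ[F] Dual F V where
  toFun := fl hb
  map_add' x y := by
    refine LinearMap.ext fun z => ?_
    exact hb.add_right z x y
  map_smul' c x := by
    refine LinearMap.ext fun z => ?_
    exact hb.smul_right c z x

theorem flL_apply {f : V → V → F} (hb : Cfsg.Geo.IsBilinearForm f) (w : V) : flL hb w = fl hb w := rfl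

theorem fl_injective {f : V → V → F} (hb : Cfsg.Geo.IsBilinearForm f)
    (hn : Cfsg.Geo.IsNondegenerateForm f) : Function.Injective (flL hb) := by
  rw [injective_iff_map_eq_zero]
  intro w hw
  by_contra h0
  obtain ⟨x, hx⟩ := (hn w h0).1
  exact hx (LinearMap.congr_fun hw x)

theorem fl_surjective {f : V → V → F} (hb : Cfsg.Geo.IsBilinearForm f)
    (hn : Cfsg.Geo.IsNondegenerateForm f) (φ : Dual F V) : ∃ w, fl hb w = φ := by
  exact (LinearMap.injective_iff_surjective_of_finrank_eq_finrank
    Subspace.dual_finrank_eq.symm).1 (fl_injective hb hn) φ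

section

variable {f : (ι → F) → (ι → F) → F} (hf : Cfsg.Geo.IsSymplecticForm f)
include hf

theorem sym_tv_mem (w : V) (c : F) (h : (c • fl hf.bilinear w) w = 0) :
    tv h ∈ Cfsg.Geo.similarityGroup f := by
  refine ⟨1, fun u v => ?_⟩
  have hs : ∀ a b, f a b = - f b a := hf.skew
  have e : ∀ x : V, ((tv h : GL ι F) : Matrix ι ι F) *ᵥ x = x + (c * f x w) • w := by
    intro x
    rw [← act_apply, act_tv_apply]
    rfl
  rw [e, e]
  have hb := hf.bilinear
  simp only [hb.add_left, hb.add_right, hb.smul_left, hb.smul_right, hf.alternating]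
  rw [hs w v]
  simp only [Units.val_one]
  ring

theorem fl_ne_zero {w : V} (hw : w ≠ 0) : fl hf.bilinear w ≠ 0 := by
  intro h
  obtain ⟨x, hx⟩ := (hf.nondegenerate w hw).1
  exact hx (LinearMap.congr_fun h x)

end

/-- two alternating forms, one non-degenerate; if pointwise proportional then proportional. -/
theorem exists_not_prop {f k : V → V → F} (hb : Cfsg.Geo.IsBilinearForm f)
    (hn : Cfsg.Geo.IsNondegenerateForm f) (hk : Cfsg.Geo.IsBilinearForm k)
    (hne : ¬ ∃ c : F, ∀ u v, k u v = c * f u v) (h2 : 2 ≤ Fintype.card ι) :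
    ∃ v : V, ¬ ∃ c : F, fl hk v = c • fl hb v := by
  by_contra hcon
  push Not at hcon
  choose cc hcc using hcon
  apply hne
  -- independence
  have hp : ∀ v x : V, k x v = cc v * f x v := fun v x => LinearMap.congr_fun (hcc v) x
  have hindep : ∀ u w : V, u ≠ 0 → (∀ a : F, w ≠ a • u) → cc u = cc w := by
    intro u w hu hw
    have h4 : (cc u - cc (u + w)) • u + (cc w - cc (u + w)) • w = 0 := by
      by_contra h0
      obtain ⟨x, hx⟩ := (hn _ h0).1
      apply hx
      rw [hb.add_right, hb.smul_right, hb.smul_right]
      have h1 := hp (u + w) x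
      rw [hk.add_right, hp u, hp w, hb.add_right] at h1
      linear_combination h1
    have hw0 : cc w - cc (u + w) = 0 := by
      by_contra h6
      apply hw ((-(cc w - cc (u + w))⁻¹ * (cc u - cc (u + w))))
      have h7 : (cc w - cc (u + w)) • w = -((cc u - cc (u + w)) • u) := eq_neg_of_add_eq_zero_right h4
      calc w = (cc w - cc (u + w))⁻¹ • ((cc w - cc (u + w)) • w) := by rw [smul_smul, inv_mul_cancel₀ h6, one_smul]
        _ = _ := by
          rw [h7, smul_neg, smul_smul]
          funext i
          simp
    have hu0 : cc u - cc (u + w) = 0 := by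
      rw [hw0, zero_smul, add_zero] at h4
      exact (smul_eq_zero.1 h4).resolve_right hu
    have := sub_eq_zero.1 hu0
    have h' := sub_eq_zero.1 hw0
    rw [this, h']
  -- a nonzero vector
  haveI : Nontrivial ι := Fintype.one_lt_card_iff_nontrivial.1 (by omega)
  obtain ⟨i, j, hij⟩ := exists_pair_ne ι
  have hei : (Pi.single i 1 : V) ≠ 0 := by
    intro h
    have := congrFun h i
    simp at this
  refine ⟨cc (Pi.single i 1), fun x v => ?_⟩
  by_cases hv : ∃ a : F, v = a • (Pi.single i 1 : V)
  · obtain ⟨a, rfl⟩ := hv
    rw [hk.smul_right, hb.smul_right, hp]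
    ring
  · push Not at hv
    have h1 := hindep _ v hei hv
    rw [hp, h1]

theorem isMaximalIn_sim (hn : 3 ≤ Fintype.card ι) {f : V → V → F} (hf : Cfsg.Geo.IsSymplecticForm f) :
    Cfsg.Geo.IsMaximalIn (Cfsg.Geo.specialLinear ι F)
      (Cfsg.Geo.similarityGroup f ⊓ Cfsg.Geo.specialLinear ι F) := by
  haveI : Nontrivial ι := Fintype.one_lt_card_iff_nontrivial.1 (by omega)
  have hb := hf.bilinear
  have hs : ∀ a b, f a b = - f b a := hf.skew
  -- symplectic root elements lie in every overgroup
  have hsym : ∀ M : Subgroup (GL ι F), Cfsg.Geo.similarityGroup f ⊓ Cfsg.Geo.specialLinear ι F ≤ M →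
      ∀ w, Rt M (fl hb w) w := by
    intro M hM w
    have h0 : fl hb w w = 0 := hf.alternating w
    refine ⟨h0, fun c h => hM ⟨sym_tv_mem hf w c h, tv_mem_SL h⟩⟩
  constructor
  · -- properness
    refine lt_of_le_of_ne inf_le_right ?_
    intro heq
    obtain ⟨i, j, hij⟩ := exists_pair_ne ι
    have hei : (Pi.single i 1 : V) ≠ 0 := by
      intro h
      have := congrFun h i
      simp at this
    set v : V := Pi.single i 1 with hv
    -- a vector orthogonal to `v`, independent of it
    obtain ⟨w, hw1, hw2⟩ : ∃ w : V, f w v = 0 ∧ w ∉ Submodule.span F {v} := by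
      have h1 : Module.finrank F (LinearMap.ker (fl hb v)) + Module.finrank F (LinearMap.range (fl hb v)) = Fintype.card ι := by
        rw [add_comm, LinearMap.finrank_range_add_finrank_ker]
        simp
      have h2 : Module.finrank F (LinearMap.range (fl hb v)) ≤ 1 :=
        (Submodule.finrank_le _).trans (by simp)
      have h3 : Module.finrank F (Submodule.span F {v}) ≤ 1 := (finrank_span_singleton hei).le
      by_contra hcon
      push Not at hcon
      have hle : LinearMap.ker (fl hb v) ≤ Submodule.span F {v} := fun x hx => hcon x hx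
      have := Submodule.finrank_mono hle
      omega
    have h0 : fl hb w v = 0 := by
      rw [fl_apply, hs, hw1, neg_zero]
    have hmem : tv h0 ∈ Cfsg.Geo.similarityGroup f ⊓ Cfsg.Geo.specialLinear ι F := by
      rw [heq]
      exact tv_mem_SL h0
    obtain ⟨c, hc⟩ := hmem.1
    have e : ∀ x : V, ((tv h0 : GL ι F) : Matrix ι ι F) *ᵥ x = x + (f x w) • v := by
      intro x
      rw [← act_apply, act_tv_apply]
      rfl
    have hvw : f v w = 0 := h0
    obtain ⟨y, hy⟩ := (hf.nondegenerate v hei).2
    have hc1 : (c : F) = 1 := by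
      have h1 := hc v y
      rw [e, e, hvw, zero_smul, add_zero, hb.add_right, hb.smul_right, hf.alternating, mul_zero,
        add_zero] at h1
      have h2 : ((c : F) - 1) * f v y = 0 := by linear_combination -h1
      have h3 := (mul_eq_zero.1 h2).resolve_right hy
      exact sub_eq_zero.1 h3
    apply hw2
    rw [Submodule.mem_span_singleton]
    refine ⟨-(f y w) / f v y, ?_⟩
    apply fl_injective hb hf.nondegenerate
    rw [map_smul]
    refine LinearMap.ext fun x => ?_
    simp only [flL_apply]
    have h1 := hc x y
    rw [e, e, hc1, one_mul] at h1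
    simp only [hb.add_left, hb.add_right, hb.smul_left, hb.smul_right, hf.alternating] at h1
    show (-(f y w) / f v y) * f x v = f x w
    field_simp
    linear_combination -h1
  · intro M hM1 hM2
    by_cases hMH : M = Cfsg.Geo.similarityGroup f ⊓ Cfsg.Geo.specialLinear ι F
    · exact Or.inl hMH
    right
    obtain ⟨g, hgM, hgH⟩ : ∃ g ∈ M, g ∉ Cfsg.Geo.similarityGroup f ⊓ Cfsg.Geo.specialLinear ι F := by
      by_contra hcon
      push Not at hcon
      exact hMH (le_antisymm hcon hM1)
    have hgS : g ∉ Cfsg.Geo.similarityGroup f := fun h => hgH ⟨h, hM2 hgM⟩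
    -- the transported form
    let k : V → V → F := fun u v => f (act g u) (act g v)
    have hk : Cfsg.Geo.IsBilinearForm k := by
      refine ⟨fun x y v => ?_, fun c x v => ?_, fun v x y => ?_, fun c v x => ?_⟩
      · show f (act g (x + y)) (act g v) = _
        rw [map_add, hb.add_left]
      · show f (act g (c • x)) (act g v) = _
        rw [map_smul, hb.smul_left]
      · show f (act g v) (act g (x + y)) = _
        rw [map_add, hb.add_right]
      · show f (act g v) (act g (c • x)) = _
        rw [map_smul, hb.smul_right]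
    have hne : ¬ ∃ c : F, ∀ u v, k u v = c * f u v := by
      rintro ⟨c, hc⟩
      have hc0 : c ≠ 0 := by
        rintro rfl
        obtain ⟨i, j, hij⟩ := exists_pair_ne ι
        have hei : (Pi.single i 1 : V) ≠ 0 := by
          intro h
          have := congrFun h i
          simp at this
        have hei' : act g (Pi.single i 1 : V) ≠ 0 := fun h => hei ((act g).map_eq_zero_iff.1 h)
        obtain ⟨y, hy⟩ := (hf.nondegenerate _ hei').2
        apply hy
        have h1 := hc (Pi.single i 1) ((act g).symm y)
        simp only [k, LinearEquiv.apply_symm_apply, zero_mul] at h1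
        exact h1
      exact hgS ⟨Units.mk0 c hc0, fun u v => hc u v⟩
    have hroot : ∀ v, Rt M (fl hk v) v := by
      intro v
      have h1 := (hsym M hM1 (act g v)).conj (M.inv_mem hgM)
      have e1 : act g⁻¹ (act g v) = v := by
        rw [← act_inv_apply]
        simp
      rw [e1] at h1
      have e2 : fl hb (act g v) ∘ₗ ((act g⁻¹⁻¹ : V ≃ₗ[F] V) : V →ₗ[F] V) = fl hk v := by
        refine LinearMap.ext fun x => ?_
        rw [inv_inv]
        rfl
      rwa [e2] at h1
    obtain ⟨v, hv⟩ := exists_not_prop hb hf.nondegenerate hk hne (by omega)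
    have hv0 : v ≠ 0 := by
      rintro rfl
      apply hv
      refine ⟨0, ?_⟩
      refine LinearMap.ext fun x => ?_
      show k x 0 = _
      have : k x 0 = k x ((0 : F) • 0) := by simp
      rw [this, hk.smul_right]
      simp
    -- a vector orthogonal to `v` on which the second form does not vanish
    have hw₀ : ∃ w₀, f v w₀ = 0 ∧ k w₀ v ≠ 0 := by
      by_contra hcon
      push Not at hcon
      apply hv
      obtain ⟨y, hy⟩ := (hf.nondegenerate v hv0).1
      refine ⟨k y v / f y v, ?_⟩
      refine LinearMap.ext fun x => ?_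
      show k x v = k y v / f y v * f x v
      have h1 := hcon (x + (-(f x v / f y v)) • y) (by
        rw [hb.add_right, hb.smul_right, hs v x, hs v y]
        field_simp
        ring)
      rw [hk.add_left, hk.smul_left] at h1
      field_simp at h1 ⊢
      linear_combination h1
    obtain ⟨w₀, hw₀1, hw₀2⟩ := hw₀
    have hPv : ∀ φ : Dual F V, φ v = 0 → Rt M φ v := by
      have key : ∀ w, f v w = 0 → k w v ≠ 0 → Rt M (fl hb w) v := by
        intro w h1 h2
        have h3 : fl hb w w = 0 := hf.alternating w
        refine (hroot v).comm h3 ?_ h1 h2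
        have h4 := (hsym M hM1 w).2 1 (by simp [h3])
        rwa [tv_congr _ h3 (one_smul _ _) rfl] at h4
      intro φ hφ
      obtain ⟨w, rfl⟩ := fl_surjective hb hf.nondegenerate φ
      have hw : f v w = 0 := hφ
      by_cases hkw : k w v = 0
      · have h1 := key (w + w₀) (by rw [hb.add_right, hw, hw₀1, add_zero])
          (by rw [hk.add_left, hkw, zero_add]; exact hw₀2)
        have h2 := key w₀ hw₀1 hw₀2
        have h3 := h1.sub h2
        have e : fl hb (w + w₀) - fl hb w₀ = fl hb w := by
          have : flL hb (w + w₀) = flL hb w + flL hb w₀ := map_add _ _ _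
          simp only [flL_apply] at this
          rw [this]
          abel
        rwa [e] at h3
      · exact key w hw hkw
    have step : ∀ a u : V, (∀ φ : Dual F V, φ a = 0 → Rt M φ a) → fl hb u a ≠ 0 →
        ∀ φ : Dual F V, φ u = 0 → Rt M φ u := by
      intro a u hPa hne φ hφ
      have huu : fl hb u u = 0 := hf.alternating u
      set c := φ a / fl hb u a with hc
      have h1 : (φ - c • fl hb u) a = 0 := by
        simp only [LinearMap.sub_apply, LinearMap.smul_apply, smul_eq_mul, hc]
        field_simp
        ring
      have h2 : (φ - c • fl hb u) u = 0 := by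
        simp [hφ, huu]
      have h3 := hPa _ h1
      have h4 : tv h1 ∈ M := by
        have h5 := h3.2 1 (by simp [h1])
        rwa [tv_congr _ h1 (one_smul _ _) rfl] at h5
      have h6 := (hsym M hM1 u).comm h1 h4 h2 hne
      have h7 := h6.add ((hsym M hM1 u).smul c)
      rwa [sub_add_cancel] at h7
    have hall : ∀ (φ : Dual F V) (u : V), φ u = 0 → Rt M φ u := by
      intro φ u hφ
      by_cases hu : u = 0
      · subst hu
        exact rt_zero_center φ
      obtain ⟨w, hw1, hw2⟩ := exists_not_mem_two (fl_ne_zero hf hv0) (fl_ne_zero hf hu)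
      have hPw := step v w hPv (by
        show f v w ≠ 0
        rw [hs]
        exact neg_ne_zero.2 hw1)
      exact step w u hPw hw2 φ hφ
    exact le_antisymm hM2 (specialLinear_le_of_rt hall)

end Cfsg.Agent.Lib.Geo
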