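import Mathlib
import Cfsg.Agent.Lib.Geo.OmegaUnitaryApp
import Cfsg.Agent.Lib.Geo.SympMax

set_option autoImplicit false

/-! The normalizer in `Sp` of a quadratic field acting with adjoint the conjugation: the transvection
argument. The form `Q(v) = f(Jv, v)` is a nondegenerate quadratic form, to which the `Ω` tools apply. -/

namespace Cfsg.Agent.Lib.Geo

open scoped MatrixGroups Matrix commutatorElement
open Module Cfsg.Agent.Lib.Classical

variable {m : ℕ} {F : Type*} [Field F]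

local notation "Vv" => (Fin m ⊕ Fin m → F)
local notation "f" => Cfsg.sympForm m F

/-- A skew map squaring to a nonsquare scalar. -/
structure SJ (J : (Fin m ⊕ Fin m → F) →ₗ[F] (Fin m ⊕ Fin m → F)) (δ : F) : Prop where
  sq : ∀ v, J (J v) = δ • v
  adj : ∀ u v, Cfsg.sympForm m F (J u) v = - Cfsg.sympForm m F u (J v)
  ns : ∀ c : F, c * c ≠ δ

/-- the quadratic form of the structure -/
def QJ (J : (Fin m ⊕ Fin m → F) →ₗ[F] (Fin m ⊕ Fin m → F)) : (Fin m ⊕ Fin m → F) → F :=
  fun v => Cfsg.sympForm m F (J v) v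

variable {J : (Fin m ⊕ Fin m → F) →ₗ[F] (Fin m ⊕ Fin m → F)} {δ : F}

theorem QJ_apply (v : Vv) : QJ J v = f (J v) v := rfl

theorem polar_QJ (S : SJ J δ) (x y : Vv) : QuadraticMap.polar (QJ J) x y = 2 * f (J x) y := by
  simp only [QuadraticMap.polar, QJ_apply, map_add, sympForm_add_left, sympForm_add_right]
  have h1 : f (J y) x = f (J x) y := by
    rw [S.adj, sympForm_flip y (J x)]
  rw [h1]
  ring

theorem SJ.delta_ne (S : SJ J δ) : δ ≠ 0 := fun h => S.ns 0 (by rw [h]; ring)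

theorem SJ.J_inj (S : SJ J δ) {v : Vv} (h : J v = 0) : v = 0 := by
  have h1 := S.sq v
  rw [h, map_zero] at h1
  rcases smul_eq_zero.1 h1.symm with h2 | h2
  · exact absurd h2 S.delta_ne
  · exact h2

theorem SJ.nondeg (S : SJ J δ) (h2 : (2 : F) ≠ 0) : Cfsg.Geo.IsNondegenerateQuadraticForm (QJ J) where
  smul c v := by
    simp only [QJ_apply, map_smul, sympForm_smul_left, sympForm_smul_right]
    ring
  polar_bilinear := by
    refine ⟨fun x y v => ?_, fun c x v => ?_, fun v x y => ?_, fun c v x => ?_⟩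
    · simp only [polar_QJ S, map_add, sympForm_add_left]
      ring
    · simp only [polar_QJ S, map_smul, sympForm_smul_left]
      ring
    · simp only [polar_QJ S, sympForm_add_right]
      ring
    · simp only [polar_QJ S, sympForm_smul_right]
      ring
  nondegenerate v hv := by
    constructor
    · by_contra hcon
      push Not at hcon
      apply hv
      apply sympForm_eq_zero_iff
      intro u
      have h1 := hcon (δ⁻¹ • J u)
      rw [polar_QJ S, map_smul, S.sq, smul_smul, inv_mul_cancel₀ S.delta_ne, one_smul] at h1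
      exact (mul_eq_zero.1 h1).resolve_left h2
    · by_contra hcon
      push Not at hcon
      apply hv
      apply S.J_inj
      apply sympForm_eq_zero_iff
      intro u
      have h1 := hcon u
      rw [polar_QJ S] at h1
      rw [sympForm_flip]
      have := (mul_eq_zero.1 h1).resolve_left h2
      rw [this]
      simp

theorem SJ.toUQ (S : SJ J δ) : UQ J 0 (-δ) (QJ J) where
  sq v := by
    rw [S.sq]
    simp
  adj u v := by
    simp only [polar_QJ S]
    rw [S.sq, S.adj u (J v), S.sq]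
    simp only [sympForm_smul_left, sympForm_smul_right]
    ring
  QJ v := by
    simp only [QJ_apply]
    rw [S.sq, sympForm_smul_left, sympForm_flip v (J v)]
    ring
  iso v _ := by
    rw [polar_QJ S, sympForm_self, mul_zero]
  irr c := by
    intro h
    apply S.ns c
    linear_combination h

theorem SJ.flip_J (S : SJ J δ) (u v : Vv) : f u (J v) = f v (J u) := by
  have h1 := S.adj u v
  have h2 := sympForm_flip v (J u)
  linear_combination h1 - h2

theorem SJ.JJ_right (S : SJ J δ) (u v : Vv) : f u (J (J v)) = δ * f u v := by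
  rw [S.sq, sympForm_smul_right]

theorem SJ.JJ_left (S : SJ J δ) (u v : Vv) : f (J (J u)) v = δ * f u v := by
  rw [S.sq, sympForm_smul_left]

/-- the unitary transvection -/
noncomputable def ur (J : (Fin m ⊕ Fin m → F) →ₗ[F] (Fin m ⊕ Fin m → F)) (δ : F) (a : Vv) (γ : F) :
    GL (Fin m ⊕ Fin m) F :=
  stv a (γ * δ) * stv (J a) (-γ)

theorem ur_mem (a : Vv) (γ : F) : ur J δ a γ ∈ Cfsg.spGL m F :=
  Subgroup.mul_mem _ (stv_mem _ _) (stv_mem _ _)

theorem act_mul' {ι : Type} [Fintype ι] [DecidableEq ι] (a b : GL ι F) (x : ι → F) :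
    act (a * b) x = act a (act b x) := by
  rw [map_mul, LinearEquiv.mul_apply]

theorem act_ur (S : SJ J δ) {a : Vv} (ha : QJ J a = 0) (γ : F) (x : Vv) :
    act (ur J δ a γ) x = x + (γ * δ * f x a) • a - (γ * f x (J a)) • J a := by
  rw [ur, act_mul', act_stv, act_stv]
  have h1 : f (J a) a = 0 := ha
  simp only [sympForm_add_left, sympForm_smul_left, h1]
  (module)

theorem ur_comm (S : SJ J δ) {a : Vv} (ha : QJ J a = 0) (γ : F) (x : Vv) :
    act (ur J δ a γ) (J x) = J (act (ur J δ a γ) x) := by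
  rw [act_ur S ha, act_ur S ha, S.adj, S.adj x (J a), S.JJ_right]
  simp only [map_add, map_sub, map_smul, S.sq]
  (module)

theorem stv_inv (v : Vv) (c : F) : (stv v c)⁻¹ = stv v (-c) := by
  rw [inv_eq_iff_mul_eq_one]
  apply act.injective
  ext1 x
  rw [map_mul, LinearEquiv.mul_apply, act_stv, act_stv]
  simp only [sympForm_add_left, sympForm_smul_left, sympForm_self, map_one]
  simp

/-- the pairing against a line -/
theorem pol_J (S : SJ J δ) (z v : Vv) : QuadraticMap.polar (QJ J) z (δ⁻¹ • J v) = -2 * f z v := by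
  rw [polar_QJ S, sympForm_smul_right, S.adj, S.JJ_right]
  have := S.delta_ne
  field_simp

/-- prescribing one value and killing a subspace -/
theorem exists_val_f [Finite F] {W : Submodule F Vv} {u : Vv} (hu : u ∉ W) :
    ∃ y, f u y = 1 ∧ ∀ s ∈ W, f s y = 0 := by
  obtain ⟨φ, hφ1, hφ2⟩ := exists_dual_of_notMem hu
  obtain ⟨y, hy⟩ := exists_rep φ
  exact ⟨y, by rw [hy, hφ1], fun s hs => by rw [hy, hφ2 s hs]⟩

section

variable [Fintype F]

theorem solve_f (S : SJ J δ) (h2 : (2 : F) ≠ 0) (hn : 13 ≤ Fintype.card (Fin m ⊕ Fin m)) (v₁ v₂ v₃ v₄ v₅ y₀ : Vv) :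
    ∃ z, QJ J z = 0 ∧ f z v₁ = f y₀ v₁ ∧ f z v₂ = f y₀ v₂ ∧ f z v₃ = f y₀ v₃ ∧ f z v₄ = f y₀ v₄ ∧ f z v₅ = f y₀ v₅ := by
  obtain ⟨z, hz, h₁, h₂, h₃, h₄, h₅⟩ := solve5 (S.nondeg h2) hn (δ⁻¹ • J v₁) (δ⁻¹ • J v₂) (δ⁻¹ • J v₃) (δ⁻¹ • J v₄)
    (δ⁻¹ • J v₅) y₀
  simp only [pol_J S] at h₁ h₂ h₃ h₄ h₅
  have h2' : (-2 : F) ≠ 0 := neg_ne_zero.2 h2
  exact ⟨z, hz, mul_left_cancel₀ h2' h₁, mul_left_cancel₀ h2' h₂, mul_left_cancel₀ h2' h₃, mul_left_cancel₀ h2' h₄,
    mul_left_cancel₀ h2' h₅⟩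

theorem notin_key (S : SJ J δ) {x d : Vv} (hx : x ∉ Ks J d) :
    x ∉ Submodule.span F {J x} ⊔ Ks J d := by
  intro hin
  obtain ⟨w, hw, v, hv, e1⟩ := Submodule.mem_sup.1 hin
  obtain ⟨β, rfl⟩ := Submodule.mem_span_singleton.1 hw
  by_cases hβ : β = 0
  · subst hβ
    rw [zero_smul, zero_add] at e1
    rw [← e1] at hx
    exact hx hv
  · apply hx
    refine S.toUQ.stable_cancel (S.toUQ.Ks_stable d) (γ := β⁻¹) ?_
    have e2 : J x - β⁻¹ • x = (-β⁻¹) • v := by
      have e3 : β⁻¹ • x = J x + β⁻¹ • v := by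
        conv_lhs => rw [← e1]
        rw [smul_add, smul_smul, inv_mul_cancel₀ hβ, one_smul]
      rw [e3, neg_smul]
      abel
    rw [e2]
    exact (Ks J d).smul_mem _ hv

theorem J_notin (S : SJ J δ) {x d : Vv} (hx : x ∉ Ks J d) : J x ∉ Ks J d := by
  intro h
  have h1 := S.toUQ.Ks_stable d _ h
  rw [S.sq] at h1
  have h3 := (Ks J d).smul_mem δ⁻¹ h1
  rw [smul_smul, inv_mul_cancel₀ S.delta_ne, one_smul] at h3
  exact hx h3

/-- the four values on two independent field lines -/
theorem values1 (S : SJ J δ) {x y : Vv} (h : x ∉ Ks J y) :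
    ∃ e, f e x = 1 ∧ f e (J x) = 0 ∧ f e y = 0 ∧ f e (J y) = 0 := by
  obtain ⟨e, h1, h2⟩ := exists_val_f (notin_key S h)
  refine ⟨(-1 : F) • e, ?_, ?_, ?_, ?_⟩
  · rw [sympForm_smul_left, sympForm_flip x e, h1]
    simp
  · have h3 := h2 _ (Submodule.mem_sup_left (Submodule.mem_span_singleton_self _))
    rw [sympForm_smul_left, sympForm_flip (J x) e, h3]
    simp
  · have h3 := h2 _ (Submodule.mem_sup_right (self_mem_Ks y))
    rw [sympForm_smul_left, sympForm_flip y e, h3]
    simp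
  · have h3 := h2 _ (Submodule.mem_sup_right (J_mem_Ks y))
    rw [sympForm_smul_left, sympForm_flip (J y) e, h3]
    simp

theorem values4 (S : SJ J δ) {x y : Vv} (hxy : x ∉ Ks J y) (hyx : y ∉ Ks J x) (α β α' β' : F) :
    ∃ e, f e x = α ∧ f e (J x) = β ∧ f e y = α' ∧ f e (J y) = β' := by
  obtain ⟨e₁, a1, a2, a3, a4⟩ := values1 S hxy
  obtain ⟨e₂, b1, b2, b3, b4⟩ := values1 S (J_notin S hxy)
  obtain ⟨e₃, c1, c2, c3, c4⟩ := values1 S hyx
  obtain ⟨e₄, d1, d2, d3, d4⟩ := values1 S (J_notin S hyx)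
  rw [S.JJ_right] at b2 d2
  have hb2 : f e₂ x = 0 := (mul_eq_zero.1 b2).resolve_left S.delta_ne
  have hd2 : f e₄ y = 0 := (mul_eq_zero.1 d2).resolve_left S.delta_ne
  refine ⟨α • e₁ + β • e₂ + α' • e₃ + β' • e₄, ?_, ?_, ?_, ?_⟩ <;>
  simp only [sympForm_add_left, sympForm_smul_left, a1, a2, a3, a4, b1, b3, b4, hb2, c1, c2, c3, c4, d1, d3, d4, hd2] <;>
  ring

theorem QJ_add_J (S : SJ J δ) {a y : Vv} (ha : QJ J a = 0) (hy : QJ J y = 0) (hay : f a y = 0) :
    QJ J (a + J y) = 0 := by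
  have hJy : QJ J (J y) = 0 := S.toUQ.J_sing hy
  have e1 : f y a = 0 := by rw [sympForm_flip a y, hay]; simp
  have h4 : f (J a) (J y) = 0 := by
    rw [S.adj, S.JJ_right, hay, mul_zero, neg_zero]
  have h5 : f (J a) a = 0 := ha
  have h6 : f (J (J y)) (J y) = 0 := hJy
  simp only [QJ_apply, map_add, sympForm_add_left, sympForm_add_right]
  rw [h4, h5, h6, S.JJ_left, e1]
  ring

/-- the Eichler element -/
theorem eichler_act (S : SJ J δ) {a y : Vv} (ha : QJ J a = 0) (hy : QJ J y = 0) (hay : f a y = 0)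
    (hay' : f a (J y) = 0) (γ : F) {x : Vv} (h1 : f x a = 0) (h2 : f x (J a) = 0) (h3 : f x (J y) = 0) :
    act (ur J δ (a + J y) γ * ur J δ a (-γ) * ur J δ (J y) (-γ)) x = x - (γ * δ * f x y) • J a := by
  have hJy : QJ J (J y) = 0 := S.toUQ.J_sing hy
  have e1 : f y a = 0 := by rw [sympForm_flip a y, hay]; simp
  have e2 : f y (J a) = 0 := by rw [S.flip_J, hay']
  have e3 : f y (J y) = 0 := by
    rw [sympForm_flip (J y) y]
    have : f (J y) y = 0 := hy
    rw [this]
    simp
  have hsum : QJ J (a + J y) = 0 := QJ_add_J S ha hy hay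
  rw [act_mul', act_mul', act_ur S hJy, S.JJ_right, h3, S.sq]
  have e4 : x + (-γ * δ * 0) • J y - (-γ * (δ * f x y)) • δ • y = x + (γ * δ * δ * f x y) • y := by
    (module)
  have e5 : act (ur J δ a (-γ)) (x + (γ * δ * δ * f x y) • y) = x + (γ * δ * δ * f x y) • y := by
    rw [act_ur S ha]
    simp only [sympForm_add_left, sympForm_smul_left, h1, h2, e1, e2]
    simp
  rw [e4, e5, act_ur S hsum]
  simp only [map_add, S.sq, sympForm_add_left, sympForm_add_right, sympForm_smul_left, sympForm_smul_right, h1, h2, h3,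
    e1, e2, e3, sympForm_self]
  (module)

/-- the Heisenberg element -/
noncomputable def heis (P u : Vv) : GL (Fin m ⊕ Fin m) F := stv (P + u) 1 * (stv P 1)⁻¹

theorem act_heis {P u : Vv} (h : f P u = 0) (x : Vv) :
    act (heis P u) x = x + f x P • u + f x u • P + f x u • u := by
  rw [heis, act_mul', stv_inv, act_stv, act_stv]
  simp only [sympForm_add_left, sympForm_add_right, sympForm_smul_left, sympForm_self, h]
  (module)

theorem heis_comm {P P' u : Vv} (h : f P u = 0) (h' : f P' u = 0) :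
    heis P u * heis P' u = stv u (2 * f P' P) * (heis P' u * heis P u) := by
  apply act.injective
  ext1 x
  have e1 : f u P = 0 := by rw [sympForm_flip P u, h]; simp
  have e2 : f u P' = 0 := by rw [sympForm_flip P' u, h']; simp
  have e3 : f P P' = - f P' P := sympForm_flip P' P
  rw [act_mul', act_mul', act_mul', act_heis h, act_heis h', act_heis h, act_heis h', act_stv]
  simp only [sympForm_add_left, sympForm_smul_left, sympForm_self, h, h', e1, e2, e3]
  (module)

theorem conj_heis {T : GL (Fin m ⊕ Fin m) F} (hT : T ∈ Cfsg.spGL m F) (P u : Vv) :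
    T * heis P u * T⁻¹ = heis (act T P) (act T u) := by
  rw [heis, heis, ← map_add]
  have h1 := conj_stv hT (P + u) 1
  have h2 := conj_stv hT P 1
  rw [← h1, ← h2]
  group

end

end Cfsg.Agent.Lib.Geo
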