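import Mathlib
import Cfsg.Agent.Lib.Geo.SympUnitary

set_option autoImplicit false

/-! The normalizer in `Sp` of a quadratic field acting with adjoint the conjugation: from one conjugate
of a unitary transvection, everything. -/

namespace Cfsg.Agent.Lib.Geo

open scoped MatrixGroups Matrix commutatorElement
open Module Cfsg.Agent.Lib.Classical

variable {m : ℕ} {F : Type*} [Field F] [Fintype F]

local notation "Vv" => (Fin m ⊕ Fin m → F)
local notation "f" => Cfsg.sympForm m F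

variable {J : (Fin m ⊕ Fin m → F) →ₗ[F] (Fin m ⊕ Fin m → F)} {δ : F}
  {M : Subgroup (GL (Fin m ⊕ Fin m) F)}

theorem spread_UU (S : SJ J δ) (hMs : M ≤ Cfsg.spGL m F) (hU : ∀ a, QJ J a = 0 → ∀ γ, ur J δ a γ ∈ M) {v b : Vv}
    (hv : v ∈ UU M) (hb : QJ J b = 0) (h1 : f v (J b) = 0) (h2 : f v b ≠ 0) : b ∈ UU M := by
  have hd := S.delta_ne
  have h3 : v + b ∈ UU M := by
    have h4 := UU_act hMs (hU b hb ((δ * f v b)⁻¹)) hv
    rw [act_ur S hb, h1] at h4
    have e : v + ((δ * f v b)⁻¹ * δ * f v b) • b - ((δ * f v b)⁻¹ * 0) • J b = v + b := by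
      have e1 : (δ * f v b)⁻¹ * δ * f v b = 1 := by
        field_simp
      rw [e1]
      simp
    rwa [e] at h4
  have h4 := UU_act hMs (h3 (-(f v b)⁻¹)) hv
  rw [act_stv, sympForm_add_right, sympForm_self, zero_add] at h4
  have e : v + (-(f v b)⁻¹ * f v b) • (v + b) = (-1 : F) • b := by
    have e1 : -(f v b)⁻¹ * f v b = -1 := by
      field_simp
    rw [e1]
    (module)
  rw [e] at h4
  have h5 := UU_smul h4 (-1)
  rwa [smul_smul, show (-1 : F) * -1 = 1 by ring, one_smul] at h5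

variable (S : SJ J δ) (h2 : (2 : F) ≠ 0) (hn : 13 ≤ Fintype.card (Fin m ⊕ Fin m)) (hMs : M ≤ Cfsg.spGL m F)
  (hU : ∀ a, QJ J a = 0 → ∀ γ, ur J δ a γ ∈ M)

include S h2 hn hMs hU

theorem sing_UU_step {u x : Vv} (hu : u ∈ UU M) (hu0 : u ≠ 0) (hx : QJ J x = 0) (hxu : x ∉ Ks J u) : x ∈ UU M := by
  have hx0 : x ≠ 0 := by
    rintro rfl
    exact hxu (Submodule.zero_mem _)
  have hux : u ∉ Ks J x := fun h => hxu (S.toUQ.Ks_symm hu0 h)
  obtain ⟨e, e1, e2, e3, e4⟩ := values4 S hux hxu 1 0 1 0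
  obtain ⟨z, hz, z1, z2, z3, z4, -⟩ := solve_f S h2 hn u (J u) x (J x) x e
  rw [e1] at z1
  rw [e2] at z2
  rw [e3] at z3
  rw [e4] at z4
  have hz1 : z ∈ UU M := by
    refine spread_UU S hMs hU hu hz (by rw [S.flip_J, z2]) ?_
    rw [sympForm_flip z u, z1]
    simp
  refine spread_UU S hMs hU hz1 hx z4 ?_
  rw [z3]
  exact one_ne_zero

theorem sing_UU {u : Vv} (hu : u ∈ UU M) (hu0 : u ≠ 0) {x : Vv} (hx : QJ J x = 0) : x ∈ UU M := by
  by_cases hx0 : x = 0
  · subst hx0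
    exact UU_zero
  by_cases hxu : x ∈ Ks J u
  · obtain ⟨x', hx', -, -, hx'u⟩ := exists_T2 (J := J) (S.nondeg h2) hn (a := u)
    have hx'0 : x' ≠ 0 := by
      rintro rfl
      exact hx'u (Submodule.zero_mem _)
    have h1 := sing_UU_step S h2 hn hMs hU hu hu0 hx' hx'u
    refine sing_UU_step S h2 hn hMs hU h1 hx'0 hx fun hin => ?_
    exact hx'u (S.toUQ.Ks_le hxu (S.toUQ.Ks_symm hx0 hin))
  · exact sing_UU_step S h2 hn hMs hU hu hu0 hx hxu

theorem all_UU {u : Vv} (hu : u ∈ UU M) (hu0 : u ≠ 0) (hQu : QJ J u = 0) (v : Vv) : v ∈ UU M := by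
  by_cases hv0 : v = 0
  · subst hv0
    exact UU_zero
  have hnot : ∀ x : Vv, x ≠ 0 → x ∉ Ks J (0 : Vv) := by
    intro x hx hin
    obtain ⟨p, r, e⟩ := mem_Ks.1 hin
    apply hx
    rw [e]
    simp
  obtain ⟨e₁, a1, a2, -, -⟩ := values1 S (hnot v hv0)
  have hJv0 : J v ≠ 0 := fun h => hv0 (S.J_inj h)
  obtain ⟨e₂, b1, b2, -, -⟩ := values1 S (hnot (J v) hJv0)
  rw [S.JJ_right] at b2
  have hb2 : f e₂ v = 0 := (mul_eq_zero.1 b2).resolve_left S.delta_ne
  set β : F := -(QJ J v * 2⁻¹) with hβ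
  obtain ⟨p, hp, p1, p2, -, -, -⟩ := solve_f S h2 hn v (J v) v v v (e₁ + β • e₂)
  simp only [sympForm_add_left, sympForm_smul_left, a1, a2, b1, hb2] at p1 p2
  have hp1 : f p v = 1 := by rw [p1]; ring
  have hp2 : f p (J v) = β := by rw [p2]; ring
  have hQd : QJ J (v - p) = 0 := by
    rw [Q_sub (S.nondeg h2), hp, polar_QJ S, sympForm_flip p (J v), hp2, hβ]
    field_simp
    ring
  have hpU := sing_UU S h2 hn hMs hU hu hu0 hp
  have hdU := sing_UU S h2 hn hMs hU hu hu0 hQd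
  have h3 := UU_act hMs (hdU 1) hpU
  rw [act_stv] at h3
  have e1 : f p (v - p) = 1 := by
    have h4 := sympForm_add_right p (v - p) p
    rw [sub_add_cancel, sympForm_self, add_zero, hp1] at h4
    exact h4.symm
  rw [e1] at h3
  have e2 : p + ((1 : F) * 1) • (v - p) = v := by
    (module)
  rwa [e2] at h3

/-- From one conjugate of a unitary transvection, everything. -/
theorem sp_le_of_pair {c₁ c₂ : Vv} (hc₁ : c₁ ≠ 0) (hc₂ : c₂ ∉ Ks J c₁) {κ : F}
    (hR : stv c₁ 1 * stv c₂ κ ∈ M) : Cfsg.spGL m F ≤ M := by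
  have hQ := S.nondeg h2
  have U := S.toUQ
  have hc₁2 : c₁ ∉ Ks J c₂ := fun h => hc₂ (U.Ks_symm hc₁ h)
  obtain ⟨y₀, y1, y2, y3, y4⟩ := values4 S hc₁2 hc₂ 1 0 0 0
  obtain ⟨y, hy, z1, z2, z3, z4, -⟩ := solve_f S h2 hn c₁ (J c₁) c₂ (J c₂) c₁ y₀
  rw [y1] at z1
  rw [y2] at z2
  rw [y3] at z3
  rw [y4] at z4
  -- the vector `a`
  obtain ⟨a, haW, ha0, ha⟩ := hiso_quad hQ (cutL [sForm c₁ 1, sForm (J c₁) 1, sForm c₂ 1, sForm (J c₂) 1, sForm y 1,
      sForm (J y) 1]) (by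
    have h3 := finrank_cutL [sForm c₁ 1, sForm (J c₁) 1, sForm c₂ 1, sForm (J c₂) 1, sForm y 1, sForm (J y) 1]
    simp only [List.length_cons, List.length_nil] at h3
    omega)
  rw [mem_cutL] at haW
  have a1 : f a c₁ = 0 := by simpa [sForm_apply] using haW (sForm c₁ 1) (by simp)
  have a2 : f a (J c₁) = 0 := by simpa [sForm_apply] using haW (sForm (J c₁) 1) (by simp)
  have a3 : f a c₂ = 0 := by simpa [sForm_apply] using haW (sForm c₂ 1) (by simp)
  have a4 : f a (J c₂) = 0 := by simpa [sForm_apply] using haW (sForm (J c₂) 1) (by simp)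
  have a5 : f a y = 0 := by simpa [sForm_apply] using haW (sForm y 1) (by simp)
  have a6 : f a (J y) = 0 := by simpa [sForm_apply] using haW (sForm (J y) 1) (by simp)
  have flip0 : ∀ {p q : Vv}, f p q = 0 → f q p = 0 := by
    intro p q h
    rw [sympForm_flip p q, h]
    simp
  -- the Eichler element
  set h : GL (Fin m ⊕ Fin m) F := ur J δ (a + J y) δ⁻¹ * ur J δ a (-δ⁻¹) * ur J δ (J y) (-δ⁻¹) with hh
  have hhM : h ∈ M := M.mul_mem (M.mul_mem (hU _ (QJ_add_J S ha hy a5) _) (hU _ ha _)) (hU _ (U.J_sing hy) _)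
  have hd := S.delta_ne
  have hc1 : act h c₁ = c₁ + J a := by
    rw [hh, eichler_act S ha hy a5 a6 δ⁻¹ (flip0 a1) (by rw [S.flip_J, a2]) (by rw [S.flip_J, z2]),
      sympForm_flip y c₁, z1, inv_mul_cancel₀ hd]
    simp
  have hc2 : act h c₂ = c₂ := by
    rw [hh, eichler_act S ha hy a5 a6 δ⁻¹ (flip0 a3) (by rw [S.flip_J, a4]) (by rw [S.flip_J, z4]), flip0 z3]
    simp
  have hhs := hMs hhM
  have hC : heis c₁ (J a) ∈ M := by
    have e : heis c₁ (J a) = h * (stv c₁ 1 * stv c₂ κ) * h⁻¹ * (stv c₁ 1 * stv c₂ κ)⁻¹ := by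
      have e1 : h * (stv c₁ 1 * stv c₂ κ) * h⁻¹ = stv (act h c₁) 1 * stv (act h c₂) κ := by
        rw [← conj_stv hhs, ← conj_stv hhs]
        group
      rw [e1, hc1, hc2, heis]
      group
    rw [e]
    exact M.mul_mem (M.mul_mem (M.mul_mem hhM hR) (M.inv_mem hhM)) (M.inv_mem hR)
  -- the line of `a`
  have hc₁a : c₁ ∉ Ks J (J a) := by
    intro hin
    obtain ⟨p, r, e⟩ := mem_Ks.1 hin
    have h3 : f y c₁ = 0 := by
      rw [e, sympForm_add_right, sympForm_smul_right, sympForm_smul_right, S.JJ_right, flip0 a5, S.flip_J, a6]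
      ring
    rw [z1] at h3
    exact one_ne_zero h3
  have hJa0 : J a ≠ 0 := fun h => ha0 (S.J_inj h)
  have haJc : J a ∉ Ks J c₁ := fun hin => hc₁a (U.Ks_symm hJa0 hin)
  obtain ⟨b₀, b1, b2, b3, b4⟩ := values4 S haJc hc₁a 0 0 1 0
  obtain ⟨b, hb, w1, w2, w3, w4, -⟩ := solve_f S h2 hn (J a) (J (J a)) c₁ (J c₁) c₁ b₀
  rw [b1] at w1
  rw [b2] at w2
  rw [b3] at w3
  rw [b4] at w4
  have hJaU : J a ∈ UU M := by
    intro s
    set γ : F := -(s * (2 * δ)⁻¹) with hγ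
    have hT := hU b hb γ
    have hTs := hMs hT
    have hTu : act (ur J δ b γ) (J a) = J a := by
      rw [act_ur S hb, flip0 w1, S.flip_J (J a) b, w2]
      simp
    have hTc : act (ur J δ b γ) c₁ = c₁ + (-(γ * δ)) • b := by
      rw [act_ur S hb, sympForm_flip b c₁, w3, S.flip_J c₁ b, w4]
      simp
    have e1 : f c₁ (J a) = 0 := by rw [S.flip_J, a2]
    have hP' : f (act (ur J δ b γ) c₁) (J a) = 0 := by
      have h3 := (mem_spGL_iff.1 hTs) c₁ (J a)
      rw [hTu, e1] at h3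
      exact h3
    have hD : heis (act (ur J δ b γ) c₁) (J a) ∈ M := by
      have h3 := conj_heis hTs c₁ (J a)
      rw [hTu] at h3
      rw [← h3]
      exact M.mul_mem (M.mul_mem hT hC) (M.inv_mem hT)
    have hcomm := heis_comm e1 hP'
    have e2 : 2 * f (act (ur J δ b γ) c₁) c₁ = s := by
      rw [hTc, sympForm_add_left, sympForm_self, sympForm_smul_left, w3, hγ]
      field_simp
      ring
    rw [e2] at hcomm
    have e3 : stv (J a) s = heis c₁ (J a) * heis (act (ur J δ b γ) c₁) (J a)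
        * (heis (act (ur J δ b γ) c₁) (J a) * heis c₁ (J a))⁻¹ := by
      rw [hcomm]
      group
    rw [e3]
    exact M.mul_mem (M.mul_mem hC hD) (M.inv_mem (M.mul_mem hD hC))
  exact spGL_le_of_stv M fun v c => all_UU S h2 hn hMs hU hJaU hJa0 (U.J_sing ha) v c

end Cfsg.Agent.Lib.Geo
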