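import Mathlib
import Cfsg.Agent.Lib.Geo.SympUnitaryMax
import Cfsg.Agent.Lib.Geo.OmegaOdd

set_option autoImplicit false

/-! The normalizer in `Sp` of a quadratic field acting with adjoint the conjugation is maximal. -/

namespace Cfsg.Agent.Lib.Geo

open scoped MatrixGroups Matrix commutatorElement
open Module Cfsg.Agent.Lib.Classical

variable {m : ℕ} {F : Type*} [Field F] [Fintype F]

local notation "Vv" => (Fin m ⊕ Fin m → F)
local notation "f" => Cfsg.sympForm m F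

theorem exists_SJ_of_field (h2 : (2 : F) ≠ 0) (hne : Nonempty (Fin m ⊕ Fin m))
    {K : Subalgebra F (Matrix (Fin m ⊕ Fin m) (Fin m ⊕ Fin m) F)} (hK : Cfsg.Geo.IsFieldSubalgebra 2 K)
    (hac : Cfsg.Geo.IsAdjointClosedFor (Cfsg.sympForm m F) K)
    (hnsa : ¬ Cfsg.Geo.IsSelfAdjointFor (Cfsg.sympForm m F) K) :
    ∃ (j : Matrix (Fin m ⊕ Fin m) (Fin m ⊕ Fin m) F) (δ : F), j ∈ K ∧ (∀ c : F, j ≠ c • 1) ∧
      (∀ k ∈ K, ∃ p r : F, k = p • 1 + r • j) ∧ SJ (Matrix.toLin' j) δ := by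
  classical
  have hone : (1 : Matrix (Fin m ⊕ Fin m) (Fin m ⊕ Fin m) F) ≠ 0 := one_ne_zero
  have hfK : finrank F (Subalgebra.toSubmodule K) = 2 := hK.finrank_eq
  obtain ⟨j, hjK, hj1⟩ : ∃ j ∈ K, ∀ c : F, j ≠ c • 1 := by
    by_contra hcon
    push Not at hcon
    have hle : Subalgebra.toSubmodule K ≤ Submodule.span F {(1 : Matrix (Fin m ⊕ Fin m) (Fin m ⊕ Fin m) F)} := by
      intro k hk
      obtain ⟨c, rfl⟩ := hcon k hk
      exact Submodule.smul_mem _ _ (Submodule.mem_span_singleton_self _)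
    have h1 := Submodule.finrank_mono hle
    rw [hfK, finrank_span_singleton hone] at h1
    omega
  have hjS : j ∉ Submodule.span F {(1 : Matrix (Fin m ⊕ Fin m) (Fin m ⊕ Fin m) F)} := by
    intro hin
    obtain ⟨c, hc⟩ := Submodule.mem_span_singleton.1 hin
    exact hj1 c hc.symm
  have hKsp : ∀ k ∈ K, ∃ p r : F, k = p • 1 + r • j := by
    intro k hk
    have hle : Submodule.span F {(1 : Matrix (Fin m ⊕ Fin m) (Fin m ⊕ Fin m) F)} ⊔ Submodule.span F {j} ≤
        Subalgebra.toSubmodule K := by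
      rw [sup_le_iff, Submodule.span_singleton_le_iff_mem, Submodule.span_singleton_le_iff_mem]
      exact ⟨K.one_mem, hjK⟩
    have heq := Submodule.eq_of_le_of_finrank_eq hle (by
      rw [Submodule.finrank_sup_span_singleton hjS, finrank_span_singleton hone, hfK])
    have hkm : k ∈ Subalgebra.toSubmodule K := hk
    rw [← heq] at hkm
    obtain ⟨a, ha, b, hb, rfl⟩ := Submodule.mem_sup.1 hkm
    obtain ⟨p, rfl⟩ := Submodule.mem_span_singleton.1 ha
    obtain ⟨r, rfl⟩ := Submodule.mem_span_singleton.1 hb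
    exact ⟨p, r, rfl⟩
  -- the adjoint
  obtain ⟨j', hj'K, hj'⟩ := hac j hjK
  obtain ⟨α, β, rfl⟩ := hKsp j' hj'K
  have hexp : ∀ v : Vv, (α • (1 : Matrix (Fin m ⊕ Fin m) (Fin m ⊕ Fin m) F) + β • j) *ᵥ v = α • v + β • (j *ᵥ v) := by
    intro v
    rw [Matrix.add_mulVec, Matrix.smul_mulVec, Matrix.smul_mulVec, Matrix.one_mulVec]
  have h1 : ∀ u v : Vv, f (j *ᵥ u) v = α * f u v + β * f u (j *ᵥ v) := by
    intro u v
    rw [hj', hexp, sympForm_add_right, sympForm_smul_right, sympForm_smul_right]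
  have h2' : ∀ u v : Vv, (1 - β * β) * f u (j *ᵥ v) = α * (1 + β) * f u v := by
    intro u v
    have h3 := h1 v u
    rw [sympForm_flip u (j *ᵥ v), sympForm_flip u v, sympForm_flip (j *ᵥ u) v, h1 u v] at h3
    linear_combination -h3
  have h3 : ∀ v : Vv, (1 - β * β) • (j *ᵥ v) = (α * (1 + β)) • v := by
    intro v
    rw [← sub_eq_zero]
    apply sympForm_eq_zero_iff
    intro x
    have e : (1 - β * β) • (j *ᵥ v) - (α * (1 + β)) • v = (1 - β * β) • (j *ᵥ v) + (-(α * (1 + β))) • v := by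
      (module)
    rw [e, sympForm_add_right, sympForm_smul_right, sympForm_smul_right, h2']
    ring
  have hβ2 : 1 - β * β = 0 := by
    by_contra hne0
    apply hj1 ((1 - β * β)⁻¹ * (α * (1 + β)))
    apply mat_ext
    intro v
    rw [Matrix.smul_mulVec, Matrix.one_mulVec, mul_smul, ← h3, smul_smul, inv_mul_cancel₀ hne0, one_smul]
  have hα : α * (1 + β) = 0 := by
    obtain ⟨v, hv⟩ : ∃ v : Vv, v ≠ 0 := by
      obtain ⟨i⟩ := hne
      exact ⟨fun _ => 1, fun h => one_ne_zero (congrFun h i)⟩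
    have := h3 v
    rw [hβ2, zero_smul] at this
    rcases smul_eq_zero.1 this.symm with h4 | h4
    · exact h4
    · exact absurd h4 hv
  have hnot : ¬ (α = 0 ∧ β = 1) := by
    rintro ⟨rfl, rfl⟩
    apply hnsa
    intro k hk u v
    obtain ⟨p, r, rfl⟩ := hKsp k hk
    have h5 : ∀ u v : Vv, f (j *ᵥ u) v = f u (j *ᵥ v) := by
      intro u v
      rw [h1]
      ring
    simp only [Matrix.add_mulVec, Matrix.smul_mulVec, Matrix.one_mulVec, sympForm_add_left, sympForm_add_right,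
      sympForm_smul_left, sympForm_smul_right]
    rw [h5]
  have hβ : β = -1 := by
    have h5 : (β - 1) * (β + 1) = 0 := by linear_combination -hβ2
    rcases mul_eq_zero.1 h5 with h6 | h6
    · have h7 : β = 1 := sub_eq_zero.1 h6
      subst h7
      have h8 : α * 2 = 0 := by
        rw [← hα]
        ring
      rcases mul_eq_zero.1 h8 with h9 | h9
      · exact absurd ⟨h9, rfl⟩ hnot
      · exact absurd h9 h2
    · linear_combination h6
  subst hβ
  -- the traceless generator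
  obtain ⟨d, hd⟩ : ∃ d, d = j - (α * 2⁻¹) • (1 : Matrix (Fin m ⊕ Fin m) (Fin m ⊕ Fin m) F) := ⟨_, rfl⟩
  have hdK : d ∈ K := by
    rw [hd]
    exact K.sub_mem hjK (K.smul_mem K.one_mem _)
  have hd1 : ∀ c : F, d ≠ c • 1 := by
    intro c h
    apply hj1 (c + α * 2⁻¹)
    rw [add_smul, ← h, hd]
    abel
  have hdv : ∀ v : Vv, d *ᵥ v = j *ᵥ v + (-(α * 2⁻¹)) • v := by
    intro v
    rw [hd, Matrix.sub_mulVec, Matrix.smul_mulVec, Matrix.one_mulVec]
    (module)
  have hdsk : ∀ u v : Vv, f (d *ᵥ u) v = - f u (d *ᵥ v) := by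
    intro u v
    rw [hdv, hdv, sympForm_add_left, sympForm_add_right, sympForm_smul_left, sympForm_smul_right, h1]
    field_simp
    ring
  have hKd : ∀ k ∈ K, ∃ p r : F, k = p • 1 + r • d := by
    intro k hk
    obtain ⟨p, r, rfl⟩ := hKsp k hk
    refine ⟨p + r * (α * 2⁻¹), r, ?_⟩
    rw [hd]
    (module)
  obtain ⟨p, r, hpr⟩ := hKd (d * d) (K.mul_mem hdK hdK)
  have hdd : ∀ v : Vv, d *ᵥ (d *ᵥ v) = p • v + r • (d *ᵥ v) := by
    intro v
    rw [Matrix.mulVec_mulVec, hpr, Matrix.add_mulVec, Matrix.smul_mulVec, Matrix.smul_mulVec, Matrix.one_mulVec]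
  have hr : r = 0 := by
    by_contra hr
    apply hd1 0
    rw [zero_smul]
    apply mat_ext
    intro v
    rw [Matrix.zero_mulVec]
    apply sympForm_eq_zero_iff
    intro u
    have h5 : f (d *ᵥ (d *ᵥ u)) v = f u (d *ᵥ (d *ᵥ v)) := by
      rw [hdsk, hdsk u (d *ᵥ v), neg_neg]
    rw [hdd, hdd, sympForm_add_left, sympForm_add_right, sympForm_smul_left, sympForm_smul_left, sympForm_smul_right,
      sympForm_smul_right, hdsk] at h5
    have h6 : (2 * r) * f u (d *ᵥ v) = 0 := by linear_combination -h5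
    exact (mul_eq_zero.1 h6).resolve_left (mul_ne_zero h2 hr)
  subst hr
  refine ⟨d, p, hdK, hd1, hKd, ?_⟩
  refine ⟨fun v => ?_, fun u v => ?_, fun c hc => ?_⟩
  · simp only [Matrix.toLin'_apply]
    rw [hdd]
    simp
  · simp only [Matrix.toLin'_apply]
    exact hdsk u v
  · have hdc : d - c • 1 ∈ K := K.sub_mem hdK (K.smul_mem K.one_mem c)
    have hdc0 : d - c • 1 ≠ 0 := fun h => hd1 c (sub_eq_zero.1 h)
    obtain ⟨y, -, hy⟩ := hK.inv _ hdc hdc0
    have hy' : y * (d - c • 1) = 1 := mul_eq_one_comm.1 hy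
    have e : (d - c • 1) * (d + c • 1) = 0 := by
      have : (d - c • 1) * (d + c • 1) = d * d - (c * c) • 1 := by
        simp only [mul_add, sub_mul, Matrix.mul_smul, Matrix.smul_mul, mul_one, smul_smul, one_mul]
        (module)
      rw [this, hpr, hc]
      (module)
    have e3 : d + c • 1 = 0 := by
      calc d + c • 1 = (y * (d - c • 1)) * (d + c • 1) := by rw [hy', one_mul]
        _ = y * ((d - c • 1) * (d + c • 1)) := by rw [mul_assoc]
        _ = 0 := by rw [e, mul_zero]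
    apply hd1 (-c)
    rw [neg_smul]
    exact eq_neg_of_add_eq_zero_left e3

/-- The main theorem. -/
theorem isMaximalIn_sp_unitary (hodd : Odd (Fintype.card F)) (hm : 7 ≤ m)
    {K : Subalgebra F (Matrix (Fin m ⊕ Fin m) (Fin m ⊕ Fin m) F)} (hK : Cfsg.Geo.IsFieldSubalgebra 2 K)
    (hac : Cfsg.Geo.IsAdjointClosedFor (Cfsg.sympForm m F) K)
    (hnsa : ¬ Cfsg.Geo.IsSelfAdjointFor (Cfsg.sympForm m F) K) :
    Cfsg.Geo.IsMaximalIn (Cfsg.spGL m F) (Cfsg.Geo.subalgebraNormalizer K ⊓ Cfsg.spGL m F) := by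
  classical
  have h2 := two_ne_zero_of_odd_card hodd
  have hn : 13 ≤ Fintype.card (Fin m ⊕ Fin m) := by
    simp
    omega
  have hne : Nonempty (Fin m ⊕ Fin m) := ⟨Sum.inl ⟨0, by omega⟩⟩
  obtain ⟨j, δ, hjK, hj1, hKsp, S⟩ := exists_SJ_of_field h2 hne hK hac hnsa
  set J : Vv →ₗ[F] Vv := Matrix.toLin' j with hJ
  have hJa : ∀ v, J v = j *ᵥ v := fun v => rfl
  have hQ := S.nondeg h2
  have U := S.toUQ
  -- a conjugation relation from a relation on vectors
  have hconj : ∀ (g : GL (Fin m ⊕ Fin m) F) (p r : F), r ≠ 0 →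
      (∀ x, act g (J x) = p • act g x + r • J (act g x)) → g ∈ Cfsg.Geo.subalgebraNormalizer K := by
    intro g p r hr h
    refine mem_norm_of (p := p) hjK hKsp hr ?_
    apply mat_ext
    intro x
    have h5 := h (act g⁻¹ x)
    rw [act_act_inv] at h5
    rw [← Matrix.mulVec_mulVec, ← Matrix.mulVec_mulVec, Matrix.add_mulVec, Matrix.smul_mulVec, Matrix.smul_mulVec,
      Matrix.one_mulVec]
    exact h5
  have hcomm : ∀ g : GL (Fin m ⊕ Fin m) F, (∀ x, act g (J x) = J (act g x)) → g ∈ Cfsg.Geo.subalgebraNormalizer K := by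
    intro g h
    refine hconj g 0 1 one_ne_zero fun x => ?_
    rw [h]
    simp
  have hτH : ∀ a, QJ J a = 0 → ∀ γ, ur J δ a γ ∈ Cfsg.Geo.subalgebraNormalizer K ⊓ Cfsg.spGL m F := by
    intro a ha γ
    exact ⟨hcomm _ (ur_comm S ha γ), ur_mem a γ⟩
  -- an element outside
  have hlt : Cfsg.Geo.subalgebraNormalizer K ⊓ Cfsg.spGL m F < Cfsg.spGL m F := by
    rw [SetLike.lt_iff_le_and_exists]
    refine ⟨inf_le_right, ?_⟩
    obtain ⟨a, -, ha0, ha⟩ := hiso_quad hQ (⊤ : Submodule F Vv) (by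
      rw [finrank_top]
      simp
      omega)
    have hnot : a ∉ Ks J (0 : Vv) := by
      intro hin
      obtain ⟨p, r, e⟩ := mem_Ks.1 hin
      apply ha0
      rw [e]
      simp
    obtain ⟨e, e1, e2, -, -⟩ := values1 S hnot
    refine ⟨stv a 1, stv_mem a 1, fun hmem => ?_⟩
    have hTe : act (stv a 1) e = e + a := by
      rw [act_stv, e1]
      simp
    have hTJe : act (stv a 1) (J e) = J e := by
      rw [act_stv, S.adj, e2]
      simp
    have h5 : ((stv a 1 : GL (Fin m ⊕ Fin m) F) : Matrix (Fin m ⊕ Fin m) (Fin m ⊕ Fin m) F) * j *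
        (((stv a 1)⁻¹ : GL (Fin m ⊕ Fin m) F) : Matrix (Fin m ⊕ Fin m) (Fin m ⊕ Fin m) F) ∈ K :=
      (hmem.1 j).1 hjK
    obtain ⟨p, r, h6⟩ := hKsp _ h5
    have h7 : act (stv a 1) (J e) = p • act (stv a 1) e + r • J (act (stv a 1) e) := by
      have h8 := congrArg (fun A : Matrix (Fin m ⊕ Fin m) (Fin m ⊕ Fin m) F => A *ᵥ (act (stv a 1) e)) h6
      rw [← Matrix.mulVec_mulVec, ← Matrix.mulVec_mulVec, Matrix.add_mulVec, Matrix.smul_mulVec, Matrix.smul_mulVec,
        Matrix.one_mulVec] at h8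
      have h9 : (((stv a 1)⁻¹ : GL (Fin m ⊕ Fin m) F) : Matrix (Fin m ⊕ Fin m) (Fin m ⊕ Fin m) F) *ᵥ (act (stv a 1) e) = e :=
        act_inv_act _ e
      rw [h9] at h8
      exact h8
    rw [hTe, hTJe, map_add] at h7
    have heKa : e ∉ Ks J a := by
      intro hin
      obtain ⟨p', r', e3⟩ := mem_Ks.1 hin
      have h10 : f e a = 0 := by
        have h11 : f (J a) a = 0 := ha
        rw [e3, sympForm_add_left, sympForm_smul_left, sympForm_smul_left, sympForm_self, h11]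
        ring
      rw [e1] at h10
      exact one_ne_zero h10
    have he0 : e ≠ 0 := by
      rintro rfl
      exact heKa (Submodule.zero_mem _)
    have e4 : (-p) • e + (1 - r) • J e = p • a + r • J a := by
      have : (-p) • e + (1 - r) • J e - (p • a + r • J a) = J e - (p • (e + a) + r • (J e + J a)) := by
        (module)
      rw [← sub_eq_zero, this, ← h7, sub_self]
    have hz := U.Ks_inter heKa he0 (v := (-p) • e + (1 - r) • J e) (mem_Ks.2 ⟨_, _, rfl⟩) (mem_Ks.2 ⟨_, _, e4⟩)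
    obtain ⟨-, h11⟩ := U.indep he0 hz
    rw [hz] at e4
    obtain ⟨-, h12⟩ := U.indep ha0 e4.symm
    rw [h12] at h11
    simp at h11
  refine ⟨hlt, fun M hM1 hM2 => ?_⟩
  by_cases hMH : M = Cfsg.Geo.subalgebraNormalizer K ⊓ Cfsg.spGL m F
  · exact Or.inl hMH
  right
  obtain ⟨g, hgM, hgH⟩ : ∃ g ∈ M, g ∉ Cfsg.Geo.subalgebraNormalizer K ⊓ Cfsg.spGL m F := by
    by_contra hcon
    push Not at hcon
    exact hMH (le_antisymm hcon hM1)
  have hgN : g ∉ Cfsg.Geo.subalgebraNormalizer K := fun h => hgH ⟨h, hM2 hgM⟩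
  have hgS := hM2 hgM
  have hgS' := hM2 (M.inv_mem hgM)
  -- a singular vector whose field line is moved off
  obtain ⟨v, hv, hv0, hvK⟩ : ∃ v, QJ J v = 0 ∧ v ≠ 0 ∧ act g (J (act g⁻¹ v)) ∉ Ks J v := by
    by_contra hcon
    push Not at hcon
    let A : Vv →ₗ[F] Vv := ((act g : Vv ≃ₗ[F] Vv) : Vv →ₗ[F] Vv) ∘ₗ J ∘ₗ ((act g⁻¹ : Vv ≃ₗ[F] Vv) : Vv →ₗ[F] Vv)
    have hAa : ∀ v, A v = act g (J (act g⁻¹ v)) := fun _ => rfl
    obtain ⟨p, r, hpr⟩ := const_of_lines hQ U hn A (by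
      intro v hv
      rw [hAa]
      by_cases hv0 : v = 0
      · subst hv0
        rw [map_zero, map_zero, map_zero]
        exact Submodule.zero_mem _
      exact hcon v hv hv0)
    have hr : r ≠ 0 := by
      rintro rfl
      apply hj1 p
      have h6 : ∀ x, J x = p • x := by
        intro x
        have h7 := hpr (act g x)
        rw [hAa, act_inv_act] at h7
        rw [zero_smul, add_zero] at h7
        have h8 : act g (J x) = act g (p • x) := by
          rw [h7, map_smul]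
        exact (act g).injective h8
      apply mat_ext
      intro x
      rw [Matrix.smul_mulVec, Matrix.one_mulVec]
      exact h6 x
    apply hgN
    refine hconj g p r hr fun x => ?_
    have h7 := hpr (act g x)
    rw [hAa, act_inv_act] at h7
    exact h7
  set c₁ := act g⁻¹ v with hc₁
  set c₂ := act g⁻¹ (J v) with hc₂
  have hc₁0 : c₁ ≠ 0 := by
    intro h
    apply hv0
    apply (act g⁻¹).injective
    rw [map_zero]
    exact h
  have hnotc : c₂ ∉ Ks J c₁ := by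
    intro hin
    obtain ⟨p, r, e⟩ := mem_Ks.1 hin
    have hr : r ≠ 0 := by
      rintro rfl
      rw [zero_smul, add_zero, hc₁, hc₂, ← map_smul] at e
      have e1 := (act g⁻¹).injective e
      have e2 : (-p) • v + (1 : F) • J v = 0 := by
        rw [e1]
        (module)
      obtain ⟨-, h3⟩ := U.indep hv0 e2
      exact one_ne_zero h3
    apply hvK
    rw [mem_Ks]
    refine ⟨-(r⁻¹ * p), r⁻¹, ?_⟩
    have e1 : J c₁ = r⁻¹ • c₂ + (-(r⁻¹ * p)) • c₁ := by
      rw [e, smul_add, smul_smul, smul_smul, inv_mul_cancel₀ hr, one_smul]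
      (module)
    rw [e1, map_add, map_smul, map_smul, hc₁, hc₂, act_act_inv, act_act_inv]
    (module)
  have hR : stv c₁ 1 * stv c₂ (-δ⁻¹) ∈ M := by
    have h3 : g⁻¹ * ur J δ v δ⁻¹ * g⁻¹⁻¹ ∈ M :=
      M.mul_mem (M.mul_mem (M.inv_mem hgM) (hM1 (hτH v hv _))) (M.inv_mem (M.inv_mem hgM))
    have e : g⁻¹ * ur J δ v δ⁻¹ * g⁻¹⁻¹ = stv c₁ 1 * stv c₂ (-δ⁻¹) := by
      rw [hc₁, hc₂, ← conj_stv hgS', ← conj_stv hgS', ur, inv_mul_cancel₀ S.delta_ne]
      group
    rwa [e] at h3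
  exact le_antisymm hM2 (sp_le_of_pair S h2 hn hM2 (fun a ha γ => hM1 (hτH a ha γ)) hc₁0 hnotc hR)

end Cfsg.Agent.Lib.Geo
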