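import Mathlib
import Cfsg.Agent.Lib.Geo.TensorFrame
import Cfsg.Agent.Lib.Geo.OmegaFrameBlocks

set_option autoImplicit false

/-! The unique frame of a symmetric form in dimension three over the field with three elements. -/

namespace Cfsg.Agent.Lib.Geo

open scoped MatrixGroups Matrix
open Module

variable {ι : Type} [Fintype ι] [DecidableEq ι] {F : Type*} [Field F] [Fintype F] (hq : Fintype.card F = 3)

local notation "V" => (ι → F)

variable {Q : (ι → F) → F}

local notation "f" => QuadraticMap.polar Q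

include hq in
/-- An orthogonal frame with equal values. -/
theorem frame3_eq (hQ : Cfsg.Geo.IsNondegenerateQuadraticForm Q) {W : Submodule F V} (hW : finrank F W = 3)
    (hnd : ∀ w ∈ W, w ≠ 0 → ∃ x ∈ W, f x w ≠ 0) :
    ∃ c : F, c ≠ 0 ∧ ∃ a b d : V, Q a = c ∧ Q b = c ∧ Q d = c ∧ f a b = 0 ∧ f a d = 0 ∧ f b d = 0 ∧
      ∀ x ∈ W, ∃ α β γ : F, x = α • a + β • b + γ • d := by
  have h2 := f3_two hq
  have h3 := f3_three hq
  obtain ⟨u₁, hu₁, u₂, hu₂, u₃, hu₃, hQ₁, hQ₂, hQ₃, h12, h13, h23, hs⟩ := exists_frame3 hQ h2 hW hnd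
  -- the change of frame
  have swap : ∀ {a b d : V} {e : F}, e ≠ 0 → a ∈ W → b ∈ W → d ∈ W → Q a = e → Q b = e → Q d = -e → f a b = 0 → f a d = 0 →
      f b d = 0 → (∀ x ∈ W, ∃ α β γ : F, x = α • a + β • b + γ • d) →
      ∃ c : F, c ≠ 0 ∧ ∃ a b d : V, Q a = c ∧ Q b = c ∧ Q d = c ∧ f a b = 0 ∧ f a d = 0 ∧ f b d = 0 ∧
      ∀ x ∈ W, ∃ α β γ : F, x = α • a + β • b + γ • d := by
    intro a b d e he ha hb hd qa qb qd oab oad obd hspan
    have hne : -e ≠ 0 := neg_ne_zero.2 he
    have q1 : Q (a + b) = -e := by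
      rw [Q_add' (Q := Q), qa, qb, oab]
      linear_combination e * h3
    have q2 : Q (a - b) = -e := by
      rw [Q_sub_eq hQ, qa, qb, oab]
      linear_combination e * h3
    have oba : f b a = 0 := by rw [pol_comm', oab]
    refine ⟨-e, hne, a + b, a - b, d, q1, q2, qd, ?_, ?_, ?_, ?_⟩
    · rw [pol_sub_right hQ, pol_add_left hQ, pol_add_left hQ, polar_self' hQ, polar_self' hQ, oab, oba, qa, qb]
      ring
    · rw [pol_add_left hQ, oad, obd, add_zero]
    · rw [pol_sub_left hQ, oad, obd, sub_zero]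
    · intro x hx
      obtain ⟨α, β, γ, rfl⟩ := hspan x hx
      refine ⟨2 * (α + β), 2 * (α - β), γ, ?_⟩
      have e4 : (α : F) = 2 * (α + β) + 2 * (α - β) := by linear_combination (-α) * h3
      have e5 : (β : F) = 2 * (α + β) - 2 * (α - β) := by linear_combination (-β) * h3
      have : α • a + β • b = (2 * (α + β)) • (a + b) + (2 * (α - β)) • (a - b) := by
        conv_lhs => rw [e4]
        conv_lhs =>
          arg 2
          rw [e5]
        (module)
      rw [this]
  obtain ⟨c₁, hc₁⟩ : ∃ c₁, c₁ = Q u₁ := ⟨_, rfl⟩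
  have hc₁0 : c₁ ≠ 0 := by rw [hc₁]; exact hQ₁
  have o21 : f u₂ u₁ = 0 := by rw [pol_comm', h12]
  have o31 : f u₃ u₁ = 0 := by rw [pol_comm', h13]
  have o32 : f u₃ u₂ = 0 := by rw [pol_comm', h23]
  rcases f3_pm hq hc₁0 hQ₂ with e2 | e2 <;> rcases f3_pm hq hc₁0 hQ₃ with e3 | e3
  · exact ⟨c₁, hc₁0, u₁, u₂, u₃, hc₁.symm, e2, e3, h12, h13, h23, hs⟩
  · exact swap hc₁0 hu₁ hu₂ hu₃ hc₁.symm e2 e3 h12 h13 h23 hs
  · refine swap hc₁0 hu₁ hu₃ hu₂ hc₁.symm e3 e2 h13 h12 o32 fun x hx => ?_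
    obtain ⟨α, β, γ, rfl⟩ := hs x hx
    exact ⟨α, γ, β, by abel⟩
  · refine swap (neg_ne_zero.2 hc₁0) hu₂ hu₃ hu₁ e2 e3 (by rw [← hc₁, neg_neg]) h23 o21 o31 fun x hx => ?_
    obtain ⟨α, β, γ, rfl⟩ := hs x hx
    exact ⟨β, γ, α, by abel⟩

include hq in
/-- The frame of a symmetric form, and the similarities permute its lines. -/
theorem f3_frame {g : (Fin 3 → F) → (Fin 3 → F) → F} (hg : Cfsg.Geo.IsSymmetricForm g) :
    ∃ b : Fin 3 → (Fin 3 → F), (∀ j, b j ≠ 0) ∧ (∀ i j, i ≠ j → g (b i) (b j) = 0) ∧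
      (∃ δ : F, δ ≠ 0 ∧ ∀ j, g (b j) (b j) = δ) ∧
      ∀ A : GL (Fin 3) F, (∃ ρ : F, ρ ≠ 0 ∧ ∀ u u', g ((A : Matrix _ _ F) *ᵥ u) ((A : Matrix _ _ F) *ᵥ u') = ρ * g u u') →
        ∃ σ : Equiv.Perm (Fin 3), ∀ j, ∃ d : F, (A : Matrix _ _ F) *ᵥ b j = d • b (σ j) := by
  classical
  have h2 := f3_two hq
  have h3 := f3_three hq
  obtain ⟨add_l, smul_l, add_r, smul_r⟩ := hg.bilinear
  -- the quadratic form
  obtain ⟨Q₀, hQ₀⟩ : ∃ Q₀ : (Fin 3 → F) → F, Q₀ = fun x => -g x x := ⟨_, rfl⟩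
  have hpol : QuadraticMap.polar Q₀ = g := by
    funext x y
    rw [QuadraticMap.polar, hQ₀]
    simp only [add_l, add_r]
    rw [hg.symm y x]
    linear_combination (-g x y) * h3
  have hQ : Cfsg.Geo.IsNondegenerateQuadraticForm Q₀ := by
    refine ⟨fun c v => ?_, ?_, ?_⟩
    · rw [hQ₀]
      simp only [smul_l, smul_r]
      ring
    · rw [hpol]
      exact hg.bilinear
    · rw [hpol]
      exact hg.nondegenerate
  obtain ⟨c, hc, u₁, u₂, u₃, q₁, q₂, q₃, o12, o13, o23, hspan⟩ := frame3_eq (ι := Fin 3) hq hQ (W := ⊤) (by simp)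
    (fun w _ hw => by
      obtain ⟨x, hx⟩ := (hg.nondegenerate w hw).1
      exact ⟨x, trivial, by rwa [hpol]⟩)
  rw [hpol] at o12 o13 o23
  rw [hQ₀] at q₁ q₂ q₃
  obtain ⟨δ, hδ⟩ : ∃ δ, δ = -c := ⟨_, rfl⟩
  have hδ0 : δ ≠ 0 := by rw [hδ]; exact neg_ne_zero.2 hc
  have v₁ : g u₁ u₁ = δ := by rw [hδ, ← q₁]; ring
  have v₂ : g u₂ u₂ = δ := by rw [hδ, ← q₂]; ring
  have v₃ : g u₃ u₃ = δ := by rw [hδ, ← q₃]; ring
  obtain ⟨b, hb⟩ : ∃ b : Fin 3 → (Fin 3 → F), b = ![u₁, u₂, u₃] := ⟨_, rfl⟩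
  have b0 : b 0 = u₁ := by rw [hb]; rfl
  have b1 : b 1 = u₂ := by rw [hb]; rfl
  have b2 : b 2 = u₃ := by rw [hb]; rfl
  have hval : ∀ j, g (b j) (b j) = δ := by
    intro j
    fin_cases j
    · show g (b 0) (b 0) = δ
      rw [b0, v₁]
    · show g (b 1) (b 1) = δ
      rw [b1, v₂]
    · show g (b 2) (b 2) = δ
      rw [b2, v₃]
  have horth : ∀ i j, i ≠ j → g (b i) (b j) = 0 := by
    intro i j hij
    fin_cases i <;> fin_cases j <;> first | exact absurd rfl hij | skip
    · show g (b 0) (b 1) = 0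
      rw [b0, b1, o12]
    · show g (b 0) (b 2) = 0
      rw [b0, b2, o13]
    · show g (b 1) (b 0) = 0
      rw [b0, b1, hg.symm, o12]
    · show g (b 1) (b 2) = 0
      rw [b1, b2, o23]
    · show g (b 2) (b 0) = 0
      rw [b0, b2, hg.symm, o13]
    · show g (b 2) (b 1) = 0
      rw [b1, b2, hg.symm, o23]
  have hb0 : ∀ j, b j ≠ 0 := by
    intro j h0
    have := hval j
    rw [h0] at this
    have h00 : g 0 0 = 0 := by simpa using smul_l 0 0 0
    rw [h00] at this
    exact hδ0 this.symm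
  have hspan' : ∀ x, ∃ α : Fin 3 → F, x = ∑ i, α i • b i := by
    intro x
    obtain ⟨α, β, γ, rfl⟩ := hspan x trivial
    refine ⟨![α, β, γ], ?_⟩
    rw [Fin.sum_univ_three, b0, b1, b2]
    rfl
  refine ⟨b, hb0, horth, ⟨δ, hδ0, hval⟩, ?_⟩
  rintro A ⟨ρ, hρ, hA⟩
  choose T hT using fun j => hspan' ((A : Matrix _ _ F) *ᵥ b j)
  have hz : ∀ y, g 0 y = 0 := fun y => by simpa using smul_l 0 0 y
  have hz' : ∀ y, g y 0 = 0 := fun y => by
    have h1 := add_r y 0 0
    simp only [add_zero] at h1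
    linear_combination -h1
  -- the relations
  have rel : ∀ j l, ∑ i, T j i * T l i = ρ * if j = l then 1 else 0 := by
    intro j l
    have e1 := hA (b j) (b l)
    rw [hT j, hT l, Fin.sum_univ_three, Fin.sum_univ_three] at e1
    simp only [add_l, add_r, smul_l, smul_r] at e1
    rw [hval 0, hval 1, hval 2, horth 0 1 (by decide), horth 0 2 (by decide), horth 1 0 (by decide), horth 1 2 (by decide),
      horth 2 0 (by decide), horth 2 1 (by decide)] at e1
    rw [Fin.sum_univ_three]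
    have e2 : (T j 0 * T l 0 + T j 1 * T l 1 + T j 2 * T l 2) * δ = ρ * g (b j) (b l) := by
      linear_combination e1
    by_cases hjl : j = l
    · subst hjl
      rw [hval] at e2
      rw [if_pos rfl, mul_one]
      exact mul_right_cancel₀ hδ0 e2
    · rw [horth j l hjl, mul_zero] at e2
      rw [if_neg hjl, mul_zero]
      exact (mul_eq_zero.1 e2).resolve_right hδ0
  -- ρ is a square
  have hρ1 : ρ = 1 := by
    have e1 : (Matrix.of T) * (Matrix.of T).transpose = ρ • (1 : Matrix (Fin 3) (Fin 3) F) := by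
      ext j l
      rw [Matrix.mul_apply]
      simp only [Matrix.transpose_apply, Matrix.of_apply, Matrix.smul_apply, Matrix.one_apply, smul_eq_mul]
      exact rel j l
    have e2 := congrArg Matrix.det e1
    rw [Matrix.det_mul, Matrix.det_transpose, Matrix.det_smul, Matrix.det_one, mul_one, Fintype.card_fin] at e2
    have e3 := f3_sq hq hρ
    by_cases hd : (Matrix.of T).det = 0
    · rw [hd, mul_zero] at e2
      exact absurd (pow_eq_zero_iff (by norm_num) |>.1 e2.symm) hρ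
    · have e4 := f3_sq hq hd
      rw [e4] at e2
      linear_combination -e2 - ρ * e3
  subst hρ1
  -- each column has one non-zero entry
  have hcol : ∀ j, ∃ i, T j i ≠ 0 ∧ ∀ i', i' ≠ i → T j i' = 0 := by
    intro j
    have e1 := rel j j
    rw [if_pos rfl, mul_one, Fin.sum_univ_three] at e1
    have sq : ∀ x : F, x = 0 ∨ x * x = 1 := fun x => by
      by_cases hx : x = 0
      · exact Or.inl hx
      · exact Or.inr (f3_sq hq hx)
    have hne : (2 : F) ≠ 1 := by
      intro h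
      have : (1 : F) = 0 := by linear_combination h
      exact one_ne_zero this
    have h01 : (1 : F) ≠ 0 := one_ne_zero
    rcases sq (T j 0) with a0 | a0 <;> rcases sq (T j 1) with a1 | a1 <;> rcases sq (T j 2) with a2 | a2
    · rw [a0, a1, a2] at e1
      simp at e1
    · refine ⟨2, ?_, ?_⟩
      · intro h
        rw [h] at a2
        simp at a2
      · intro i' hi'
        fin_cases i'
        · exact a0
        · exact a1
        · exact absurd rfl hi'
    · refine ⟨1, ?_, ?_⟩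
      · intro h
        rw [h] at a1
        simp at a1
      · intro i' hi'
        fin_cases i'
        · exact a0
        · exact absurd rfl hi'
        · exact a2
    · exfalso
      rw [a0, a1, a2] at e1
      apply hne
      linear_combination e1
    · refine ⟨0, ?_, ?_⟩
      · intro h
        rw [h] at a0
        simp at a0
      · intro i' hi'
        fin_cases i'
        · exact absurd rfl hi'
        · exact a1
        · exact a2
    · exfalso
      rw [a0, a1, a2] at e1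
      apply hne
      linear_combination e1
    · exfalso
      rw [a0, a1, a2] at e1
      apply hne
      linear_combination e1
    · exfalso
      rw [a0, a1, a2] at e1
      have : (1 : F) = 0 := by linear_combination h3 - e1
      exact one_ne_zero this
  choose σ₀ hσ₀ hσ₀' using hcol
  have hinj : Function.Injective σ₀ := by
    intro j l hjl
    by_contra hne
    have e1 := rel j l
    rw [if_neg hne, mul_zero, Finset.sum_eq_single (σ₀ j)] at e1
    · have := mul_ne_zero (hσ₀ j) (hjl ▸ hσ₀ l)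
      exact this e1
    · intro i' _ hi'
      rw [hσ₀' j i' hi', zero_mul]
    · simp
  refine ⟨Equiv.ofBijective σ₀ (Finite.injective_iff_bijective.1 hinj), fun j => ⟨T j (σ₀ j), ?_⟩⟩
  rw [hT j, Finset.sum_eq_single (σ₀ j)]
  · rfl
  · intro i' _ hi'
    rw [hσ₀' j i' hi', zero_smul]
  · simp

end Cfsg.Agent.Lib.Geo
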