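import Mathlib
import Cfsg.Agent.Lib.Geo.TensorTools
import Cfsg.Agent.Lib.Geo.SympBlocks2
import Cfsg.Agent.Lib.Geo.SesqSolve

set_option autoImplicit false

/-! Over the field with two elements, the stabilizer of a tensor decomposition `2 ⊗ n₂` is not maximal
in `SL`: it lies in the normalizer of the field with four elements acting on the first factor. -/

namespace Cfsg.Agent.Lib.Geo

open scoped MatrixGroups Matrix Kronecker
open Module

variable {ι : Type} [Fintype ι] [DecidableEq ι] {F : Type*} [Field F] {n₂ : ℕ}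

/-- An element of order three of `GL₂(2)`. -/
def omG (h2 : (1 : F) + 1 = 0) : GL (Fin 2) F where
  val := !![0, 1; 1, 1]
  inv := !![1, 1; 1, 0]
  val_inv := by
    ext i j
    fin_cases i <;> fin_cases j <;> simp [Matrix.mul_apply, Fin.sum_univ_two, h2]
  inv_val := by
    ext i j
    fin_cases i <;> fin_cases j <;> simp [Matrix.mul_apply, Fin.sum_univ_two, h2]

theorem omG_val (h2 : (1 : F) + 1 = 0) :
    ((omG h2 : GL (Fin 2) F) : Matrix (Fin 2) (Fin 2) F) = !![0, 1; 1, 1] := rfl

theorem gl2_conj (h2 : (1 : F) + 1 = 0) (h01 : ∀ c : F, c = 0 ∨ c = 1) (a : GL (Fin 2) F) :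
    a * omG h2 * a⁻¹ = omG h2 ∨ a * omG h2 * a⁻¹ = omG h2 * omG h2 := by
  have hdet : (a : Matrix (Fin 2) (Fin 2) F).det ≠ 0 :=
    ((Matrix.isUnit_iff_isUnit_det _).1 a.isUnit).ne_zero
  rw [Matrix.det_fin_two] at hdet
  have key : (a : Matrix (Fin 2) (Fin 2) F) * !![0, 1; 1, 1] = !![0, 1; 1, 1] * (a : Matrix (Fin 2) (Fin 2) F) ∨
      (a : Matrix (Fin 2) (Fin 2) F) * !![0, 1; 1, 1] = !![0, 1; 1, 1] * !![0, 1; 1, 1] * (a : Matrix (Fin 2) (Fin 2) F) := by
    generalize (a : Matrix (Fin 2) (Fin 2) F) = A at *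
    rcases h01 (A 0 0) with hp | hp <;> rcases h01 (A 0 1) with hq | hq <;>
      rcases h01 (A 1 0) with hr | hr <;> rcases h01 (A 1 1) with hs | hs <;>
      rw [hp, hq, hr, hs] at hdet <;>
      first
      | (exfalso; apply hdet; simp; done)
      | (left
         ext i j
         fin_cases i <;> fin_cases j <;>
           simp [Matrix.mul_apply, Fin.sum_univ_two, hp, hq, hr, hs, h2]
         done)
      | (right
         ext i j
         fin_cases i <;> fin_cases j <;>
           simp [Matrix.mul_apply, Fin.sum_univ_two, hp, hq, hr, hs, h2]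
         done)
  rcases key with h | h
  · left
    rw [mul_inv_eq_iff_eq_mul]
    apply Units.ext
    exact h
  · right
    rw [mul_inv_eq_iff_eq_mul]
    apply Units.ext
    exact h

/-- The normalizer of a cyclic group of order three, described by the action on a generator. -/
def normOrder3 {G : Type*} [Group G] (w : G) (hww : w * w * w = 1) : Subgroup G where
  carrier := {g | g * w * g⁻¹ = w ∨ g * w * g⁻¹ = w * w}
  mul_mem' := by
    intro a b ha hb
    have e0 : a * b * w * (a * b)⁻¹ = a * (b * w * b⁻¹) * a⁻¹ := by group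
    have e1 : a * (w * w) * a⁻¹ = (a * w * a⁻¹) * (a * w * a⁻¹) := by group
    show a * b * w * (a * b)⁻¹ = w ∨ a * b * w * (a * b)⁻¹ = w * w
    rw [e0]
    rcases hb with hb | hb <;> rw [hb]
    · exact ha
    · rw [e1]
      rcases ha with ha | ha <;> rw [ha]
      · exact Or.inr rfl
      · left
        rw [← mul_assoc, hww, one_mul]
  one_mem' := by
    left
    simp
  inv_mem' := by
    intro a ha
    show a⁻¹ * w * a⁻¹⁻¹ = w ∨ a⁻¹ * w * a⁻¹⁻¹ = w * w
    rw [inv_inv]
    rcases ha with ha | ha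
    · left
      have h1 : a * w = w * a := mul_inv_eq_iff_eq_mul.1 ha
      rw [mul_assoc, ← h1, inv_mul_cancel_left]
    · right
      obtain ⟨x, hx⟩ : ∃ x, x = a⁻¹ * w * a := ⟨_, rfl⟩
      rw [← hx]
      have h1 : x * x = w := by
        have e2 : x * x = a⁻¹ * (w * w) * a := by rw [hx]; group
        rw [e2, ← ha]
        group
      have h3 : x * x * x = 1 := by
        have e2 : x * x * x = a⁻¹ * (w * w * w) * a := by rw [hx]; group
        rw [e2, hww]
        group
      calc x = x * x * x * x := by rw [h3, one_mul]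
        _ = (x * x) * (x * x) := by group
        _ = w * w := by rw [h1]

theorem tensor2_not_max [Fintype F] (hq : Fintype.card F = 2) (hn : 13 ≤ Fintype.card ι)
    (e : ι ≃ Fin 2 × Fin n₂) (P : GL ι F) :
    ∃ K : Subgroup (GL ι F), Cfsg.Geo.tensorProductSubgroup 2 n₂ e P ⊓ Cfsg.Geo.specialLinear ι F < K ∧
      K < Cfsg.Geo.specialLinear ι F := by
  classical
  have h2 : (1 : F) + 1 = 0 := one_add_one_of_card_two hq
  have h2v : ∀ y : (ι → F), y + y = 0 := by
    intro y
    have : y + y = ((1 : F) + 1) • y := by rw [add_smul, one_smul]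
    rw [this, h2, zero_smul]
  have h01 : ∀ c : F, c = 0 ∨ c = 1 := fun c => by
    by_cases hc : c = 0
    · exact Or.inl hc
    · exact Or.inr (eq_one_of_ne_zero_of_card_two hq hc)
  have hSL : ∀ g : GL ι F, g ∈ Cfsg.Geo.specialLinear ι F := by
    intro g
    rw [mem_SL_iff, det_act]
    exact eq_one_of_ne_zero_of_card_two hq ((Matrix.isUnit_iff_isUnit_det _).1 g.isUnit).ne_zero
  have hcard : Fintype.card ι = 2 * n₂ := by
    rw [Fintype.card_congr e]
    simp
  have hn2 : 2 ≤ n₂ := by omega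
  let T : GL (Fin 2 × Fin n₂) F := kronG (omG h2) 1
  let w : GL ι F := tconj e P T
  have hw : w = tconj e P T := rfl
  -- the relation
  have hT : T.val * T.val + T.val + 1 = 0 := by
    have e1 : T.val = (!![0, 1; 1, 1] : Matrix (Fin 2) (Fin 2) F) ⊗ₖ (1 : Matrix (Fin n₂) (Fin n₂) F) := rfl
    rw [e1, ← Matrix.mul_kronecker_mul, mul_one]
    have e2 : (!![0, 1; 1, 1] : Matrix (Fin 2) (Fin 2) F) * !![0, 1; 1, 1] + !![0, 1; 1, 1] + 1 = 0 := by
      ext i j
      fin_cases i <;> fin_cases j <;> simp [Matrix.mul_apply, Fin.sum_univ_two, h2]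
    have e3 : (1 : Matrix (Fin 2 × Fin n₂) (Fin 2 × Fin n₂) F) = (1 : Matrix (Fin 2) (Fin 2) F) ⊗ₖ (1 : Matrix (Fin n₂) (Fin n₂) F) :=
      (Matrix.one_kronecker_one).symm
    rw [e3, ← Matrix.add_kronecker, ← Matrix.add_kronecker, e2, Matrix.zero_kronecker]
  have hrel : ∀ x : ι → F, act w (act w x) + act w x + x = 0 := by
    intro x
    obtain ⟨y, rfl⟩ := (tPhi e P).surjective x
    rw [hw, act_tconj, act_tconj, ← map_add, ← map_add]
    have : T.val *ᵥ (T.val *ᵥ y) + T.val *ᵥ y + y = 0 := by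
      rw [Matrix.mulVec_mulVec]
      have h3 := congrArg (fun M : Matrix (Fin 2 × Fin n₂) (Fin 2 × Fin n₂) F => M *ᵥ y) hT
      simpa [Matrix.add_mulVec] using h3
    rw [this, map_zero]
  have hww : w * w * w = 1 := by
    have : omG h2 * omG h2 * omG h2 = (1 : GL (Fin 2) F) := by
      apply Units.ext
      ext i j
      fin_cases i <;> fin_cases j <;> simp [omG_val, Matrix.mul_apply, Fin.sum_univ_two, h2]
    have h3 : T * T * T = 1 := by
      rw [show T = kronG (omG h2) 1 from rfl, ← kronG_mul, ← kronG_mul, this]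
      simp [kronG_one]
    rw [hw, ← map_mul, ← map_mul, h3, map_one]
  have hKmem : ∀ g, g ∈ normOrder3 w hww ↔ g * w * g⁻¹ = w ∨ g * w * g⁻¹ = w * w := fun g => Iff.rfl
  have hKc : ∀ g, g ∈ normOrder3 w hww → (∀ x, act g (act w x) = act w (act g x)) ∨ (∀ x, act g (act w x) = act w (act w (act g x))) := by
    intro g hg
    rcases (hKmem g).1 hg with h | h
    · left
      intro x
      have h1 : g * w = w * g := mul_inv_eq_iff_eq_mul.1 h
      rw [← act_mul_apply, ← act_mul_apply, h1]
    · right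
      intro x
      have h1 : g * w = w * w * g := mul_inv_eq_iff_eq_mul.1 h
      rw [← act_mul_apply, ← act_mul_apply, ← act_mul_apply, h1, mul_assoc]
  have hw0 : ∀ {x : ι → F}, act w x = x → x = 0 := by
    intro x hx
    have := hrel x
    rw [hx, hx, h2v, zero_add] at this
    exact this
  have hw1 : ∀ {x : ι → F}, act w x = 0 → x = 0 := by
    intro x hx
    exact (act w).injective (by rw [hx, map_zero])
  let i₀ : Fin n₂ := ⟨0, by omega⟩
  let i₁ : Fin n₂ := ⟨1, by omega⟩
  have h01i : i₀ ≠ i₁ := by simp [i₀, i₁, Fin.ext_iff]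
  refine ⟨normOrder3 w hww ⊓ Cfsg.Geo.specialLinear ι F, ?_, ?_⟩
  · rw [SetLike.lt_iff_le_and_exists]
    constructor
    · rintro g ⟨hg1, hg2⟩
      refine ⟨(hKmem g).2 ?_, hg2⟩
      obtain ⟨a, b, rfl⟩ := (mem_tensor_iff e P).1 hg1
      have e1 : tconj e P (kronG a b) * w * (tconj e P (kronG a b))⁻¹ = tconj e P (kronG (a * omG h2 * a⁻¹) 1) := by
        rw [hw, ← map_mul, ← map_inv, ← map_mul]
        congr 1
        have e2 : (1 : GL (Fin n₂) F) = b * 1 * b⁻¹ := by group
        rw [e2, kronG_mul, kronG_mul]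
        have e3 : kronG a⁻¹ b⁻¹ = (kronG a b)⁻¹ := by
          apply eq_inv_of_mul_eq_one_left
          rw [← kronG_mul, inv_mul_cancel, inv_mul_cancel, kronG_one]
        rw [e3]
      rw [e1]
      rcases gl2_conj h2 h01 a with h | h <;> rw [h]
      · exact Or.inl rfl
      · right
        rw [hw, ← map_mul]
        congr 1
        rw [show T = kronG (omG h2) 1 from rfl, ← kronG_mul, one_mul]
    · -- a non-tensor element commuting with `w`
      let E : Matrix (Fin n₂) (Fin n₂) F := Matrix.single i₀ i₁ 1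
      have hEE : E * E = 0 := Matrix.single_mul_single_of_ne (1 : F) i₀ i₁ i₀ h01i.symm (1 : F)
      have hE00 : E i₀ i₀ = 0 := Matrix.single_apply_of_col_ne _ _ h01i.symm _
      have hE01 : E i₀ i₁ = 1 := Matrix.single_apply_same _ _ _
      let om : Matrix (Fin 2) (Fin 2) F := !![0, 1; 1, 1]
      let X : Matrix (Fin 2 × Fin n₂) (Fin 2 × Fin n₂) F := om ⊗ₖ E
      have hXv : ∀ i j k l, X (i, j) (k, l) = om i k * E j l := fun _ _ _ _ => rfl
      have hXX : X * X = 0 := by
        show (om ⊗ₖ E) * (om ⊗ₖ E) = 0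
        rw [← Matrix.mul_kronecker_mul, hEE, Matrix.kronecker_zero]
      have hXa : X + X = 0 := by
        ext i j
        have : X i j + X i j = ((1 : F) + 1) * X i j := by ring
        rw [Matrix.add_apply, this, h2, zero_mul]
        rfl
      have hinv : (1 + X) * (1 + X) = 1 := by
        rw [mul_add, mul_one, add_mul, one_mul, hXX, add_zero, add_assoc, hXa, add_zero]
      let G : GL (Fin 2 × Fin n₂) F := ⟨1 + X, 1 + X, hinv, hinv⟩
      have hGval : G.val = 1 + X := rfl
      have hGT : G * T = T * G := by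
        apply Units.ext
        rw [Units.val_mul, Units.val_mul, hGval, add_mul, mul_add, one_mul, mul_one]
        congr 1
        show (om ⊗ₖ E) * (om ⊗ₖ 1) = (om ⊗ₖ 1) * (om ⊗ₖ E)
        rw [← Matrix.mul_kronecker_mul, ← Matrix.mul_kronecker_mul, mul_one, one_mul]
      refine ⟨tconj e P G, ⟨(hKmem _).2 (Or.inl ?_), hSL _⟩, ?_⟩
      · rw [hw, ← map_mul, ← map_inv, ← map_mul, hGT, mul_inv_cancel_right]
      · rintro ⟨hg, -⟩
        obtain ⟨a, b, hab⟩ := (mem_tensor_iff e P).1 hg
        have h3 := tconj_injective e P hab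
        have h4 : 1 + X = (a : Matrix (Fin 2) (Fin 2) F) ⊗ₖ (b : Matrix (Fin n₂) (Fin n₂) F) := congrArg Units.val h3
        have e1 := congrFun (congrFun h4 (0, i₀)) (0, i₀)
        have e2 := congrFun (congrFun h4 (0, i₀)) (1, i₀)
        have e3 := congrFun (congrFun h4 (0, i₀)) (1, i₁)
        simp only [Matrix.add_apply, hXv, hE00, hE01, Matrix.kroneckerMap_apply, mul_zero, add_zero, mul_one] at e1 e2 e3
        rw [Matrix.one_apply_eq] at e1
        rw [Matrix.one_apply_ne (by simp)] at e2 e3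
        have hom : om 0 1 = 1 := rfl
        rw [hom, zero_add] at e3
        rw [zero_eq_mul] at e2
        rcases e2 with e2 | e2
        · rw [e2, zero_mul] at e3
          exact one_ne_zero e3
        · rw [e2, mul_zero] at e1
          exact zero_ne_one e1.symm
  · rw [SetLike.lt_iff_le_and_exists]
    refine ⟨inf_le_right, ?_⟩
    -- a transvection
    have hcard2 : 1 < Fintype.card ι := by omega
    obtain ⟨j₁, j₂, hj⟩ := Fintype.one_lt_card_iff.1 hcard2
    obtain ⟨u, hu⟩ : ∃ u : ι → F, u = Pi.single j₁ 1 := ⟨_, rfl⟩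
    have hu0 : u ≠ 0 := by
      rw [hu]
      simp
    let φ : Dual F (ι → F) := LinearMap.proj j₂
    have hφ : φ u = 0 := by
      show u j₂ = 0
      rw [hu]
      simp [hj.symm]
    refine ⟨tv hφ, tv_mem_SL hφ, ?_⟩
    rintro ⟨hg, -⟩
    rcases hKc _ hg with h | h
    · obtain ⟨x, hx⟩ : ∃ x : ι → F, x = Pi.single j₂ 1 := ⟨_, rfl⟩
      have hφx : φ x = 1 := by
        show x j₂ = 1
        rw [hx]
        simp
      have h3 := h x
      rw [act_tv_apply, act_tv_apply, hφx, one_smul, map_add] at h3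
      have h4 := add_left_cancel h3
      rcases h01 (φ (act w x)) with h5 | h5 <;> rw [h5] at h4
      · rw [zero_smul] at h4
        exact hu0 (hw1 h4.symm)
      · rw [one_smul] at h4
        exact hu0 (hw0 h4.symm)
    · let ψ : Dual F (ι → F) := φ.comp ((act w : (ι → F) ≃ₗ[F] (ι → F)) : (ι → F) →ₗ[F] (ι → F))
      have h3 := finrank_cutL [φ, ψ]
      have h4 : cutL [φ, ψ] ≠ ⊥ := by
        intro h5
        rw [h5] at h3
        simp at h3
        omega
      obtain ⟨x, hx, hx0⟩ := Submodule.exists_mem_ne_zero_of_ne_bot h4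
      have hx1 : φ x = 0 := mem_cutL.1 hx φ (by simp)
      have hx2 : φ (act w x) = 0 := mem_cutL.1 hx ψ (by simp)
      have h5 := h x
      rw [act_tv_apply, act_tv_apply, hx1, hx2, zero_smul, add_zero, add_zero] at h5
      have h6 : x = act w x := (act w).injective h5
      exact hx0 (hw0 h6.symm)

end Cfsg.Agent.Lib.Geo
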