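import Mathlib
import Cfsg.Agent.Lib.Geo.TensorFrame
import Cfsg.Agent.Lib.Geo.TensorTwo
import Cfsg.Agent.Lib.Geo.OmegaMax

set_option autoImplicit false

/-! Over the field with two elements, the stabilizer in `Ω⁺` of a symplectic tensor decomposition `2 ⊗ n₂`
with `Q` vanishing on pure tensors is not maximal: it normalizes the element of order three of the first factor. -/

namespace Cfsg.Agent.Lib.Geo

open scoped MatrixGroups Matrix Kronecker
open Module

variable {ι : Type} [Fintype ι] [DecidableEq ι] {F : Type*} [Field F] [Fintype F] {n₁ n₂ : ℕ}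

/-- Every vector is a sum of images of pure tensors. -/
theorem tau_induction (e : ι ≃ Fin n₁ × Fin n₂) (P : GL ι F) {p : (ι → F) → Prop} (h0 : p 0)
    (hadd : ∀ x y, p x → p y → p (x + y)) (hpure : ∀ u v, p (tau e P u v)) (x : ι → F) : p x := by
  classical
  obtain ⟨y, rfl⟩ := (tPhi e P).surjective x
  have e1 : y = ∑ ab : Fin n₁ × Fin n₂, pt (y ab • (Pi.single ab.1 1 : Fin n₁ → F)) (Pi.single ab.2 1 : Fin n₂ → F) := by
    funext ⟨i, j⟩
    simp only [Finset.sum_apply, pt, Pi.smul_apply, smul_eq_mul, Fintype.sum_prod_type, Pi.single_apply, mul_ite,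
      mul_one, mul_zero, ite_mul, zero_mul]
    simp
  rw [e1, map_sum]
  refine Finset.sum_induction _ p hadd h0 fun ab _ => hpure _ _

variable {Q : (ι → F) → F}

local notation "f" => QuadraticMap.polar Q

theorem tensor2_omega_not_max (hq : Fintype.card F = 2) (hQ : Cfsg.Geo.IsNondegenerateQuadraticForm Q)
    (hn : 9 ≤ Fintype.card ι) (h3 : 3 ≤ n₂) (e : ι ≃ Fin 2 × Fin n₂) (P : GL ι F)
    {f₁ : (Fin 2 → F) → (Fin 2 → F) → F} {f₂ : (Fin n₂ → F) → (Fin n₂ → F) → F}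
    (hf₁ : Cfsg.Geo.IsSymplecticForm f₁) (hf₂ : Cfsg.Geo.IsSymplecticForm f₂)
    (hT : Cfsg.Geo.IsTensorFormStructure id f f₁ f₂ e P) (hpure : ∀ u v, Q (tau e P u v) = 0) :
    ∃ K : Subgroup (GL ι F), Cfsg.Geo.tensorProductSubgroup 2 n₂ e P ⊓ Cfsg.Geo.omegaGL Q < K ∧ K < Cfsg.Geo.omegaGL Q := by
  classical
  have h2 : (1 : F) + 1 = 0 := one_add_one_of_card_two hq
  have h2v : ∀ y : (ι → F), y + y = 0 := by
    intro y
    have : y + y = ((1 : F) + 1) • y := by rw [add_smul, one_smul]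
    rw [this, h2, zero_smul]
  have h2c : ∀ y : F, y + y = 0 := by
    intro y
    have : y + y = ((1 : F) + 1) * y := by ring
    rw [this, h2, zero_mul]
  have h01 : ∀ c : F, c = 0 ∨ c = 1 := fun c => by
    by_cases hc : c = 0
    · exact Or.inl hc
    · exact Or.inr (eq_one_of_ne_zero_of_card_two hq hc)
  have hne1 : ∀ {c : F}, c ≠ 0 → c = 1 := fun hc => eq_one_of_ne_zero_of_card_two hq hc
  -- the form on pure tensors
  obtain ⟨c, hc, hc'⟩ := hT
  have hform₀ := tau_form e P (σ := id) (fun _ _ => rfl) (bilinear_sesq hf₁.bilinear) (bilinear_sesq hf₂.bilinear) hc'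
  have hc1 : c = 1 := hne1 hc
  have hform : ∀ u u' w w', f (tau e P u w) (tau e P u' w') = f₁ u u' * f₂ w w' := by
    intro u u' w w'
    rw [hform₀, hc1, one_mul]
  -- the first factor
  obtain ⟨add_l, smul_l, add_r, smul_r⟩ := hf₁.bilinear
  obtain ⟨add_l₂, smul_l₂, add_r₂, smul_r₂⟩ := hf₂.bilinear
  obtain ⟨u₀, hu₀⟩ : ∃ u₀ : Fin 2 → F, u₀ = ![1, 0] := ⟨_, rfl⟩
  obtain ⟨u₁, hu₁⟩ : ∃ u₁ : Fin 2 → F, u₁ = ![0, 1] := ⟨_, rfl⟩
  have hsplit : ∀ x : Fin 2 → F, x = x 0 • u₀ + x 1 • u₁ := by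
    intro x
    funext i
    fin_cases i <;> simp [hu₀, hu₁]
  have hu₀0 : u₀ ≠ 0 := by
    intro h
    have := congrFun h 0
    simp [hu₀] at this
  have hu₁0 : u₁ ≠ 0 := by
    intro h
    have := congrFun h 1
    simp [hu₁] at this
  have f00 := hf₁.alternating u₀
  have f11 := hf₁.alternating u₁
  have f01 : f₁ u₀ u₁ = 1 := by
    apply hne1
    intro h0
    obtain ⟨x, hx⟩ := (hf₁.nondegenerate u₀ hu₀0).2
    apply hx
    rw [hsplit x, add_r, smul_r, smul_r, f00, h0]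
    ring
  have f10 : f₁ u₁ u₀ = 1 := by
    have := hf₁.skew u₁ u₀
    rw [f01] at this
    rw [this]
    linear_combination -h2
  -- the matrix
  obtain ⟨Om, hOm⟩ : ∃ Om : Matrix (Fin 2) (Fin 2) F, Om = (omG h2 : GL (Fin 2) F).val := ⟨_, rfl⟩
  have hOmv : Om = !![0, 1; 1, 1] := by rw [hOm, omG_val]
  have hOmapp : ∀ x : Fin 2 → F, Om *ᵥ x = x 1 • u₀ + (x 0 + x 1) • u₁ := by
    intro x
    funext i
    rw [hOmv, hu₀, hu₁]
    fin_cases i <;> simp [Matrix.mulVec, dotProduct, Fin.sum_univ_two]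
  have hO0 : Om *ᵥ u₀ = u₁ := by
    rw [hOmapp]
    simp [hu₀]
  have hO1 : Om *ᵥ u₁ = u₀ + u₁ := by
    rw [hOmapp]
    simp [hu₁]
  have hO2 : Om *ᵥ (u₀ + u₁) = u₀ := by
    rw [hOmapp]
    simp [hu₀, hu₁, h2]
  have hOf : ∀ x y, f₁ (Om *ᵥ x) (Om *ᵥ y) = f₁ x y := by
    intro x y
    rw [hOmapp, hOmapp]
    conv_rhs => rw [hsplit x, hsplit y]
    simp only [add_l, add_r, smul_l, smul_r, f00, f01, f10, f11]
    linear_combination (x 1 * y 1) * h2
  -- the element of order three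
  obtain ⟨T, hTd⟩ : ∃ T : GL (Fin 2 × Fin n₂) F, T = kronG (omG h2) 1 := ⟨_, rfl⟩
  obtain ⟨w, hw⟩ : ∃ w : GL ι F, w = tconj e P T := ⟨_, rfl⟩
  have hwτ : ∀ u v, act w (tau e P u v) = tau e P (Om *ᵥ u) v := by
    intro u v
    rw [hw, hTd, act_tau, ← hOm, Units.val_one, Matrix.one_mulVec]
  have hww : w * w * w = 1 := by
    have : omG h2 * omG h2 * omG h2 = (1 : GL (Fin 2) F) := by
      apply Units.ext
      ext i j
      fin_cases i <;> fin_cases j <;> simp [omG_val, Matrix.mul_apply, Fin.sum_univ_two, h2]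
    have h3 : T * T * T = 1 := by
      rw [hTd, ← kronG_mul, ← kronG_mul, this]
      simp [kronG_one]
    rw [hw, ← map_mul, ← map_mul, h3, map_one]
  have hw3 : ∀ x, act w (act w (act w x)) = x := by
    intro x
    rw [← act_mul_apply, ← act_mul_apply, hww, map_one]
    rfl
  have hrel : ∀ x : ι → F, act w (act w x) + act w x + x = 0 := by
    refine tau_induction e P (by simp) ?_ ?_
    · intro x y hx hy
      simp only [map_add]
      have : act w (act w x) + act w (act w y) + (act w x + act w y) + (x + y) =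
          (act w (act w x) + act w x + x) + (act w (act w y) + act w y + y) := by abel
      rw [this, hx, hy, add_zero]
    · intro u v
      rw [hwτ, hwτ, ← tau_add_left, ← tau_add_left]
      have : Om *ᵥ (Om *ᵥ u) + Om *ᵥ u + u = 0 := by
        rw [hOmapp (Om *ᵥ u), hOmapp u]
        conv_lhs => arg 2; rw [hsplit u]
        simp only [Pi.add_apply, Pi.smul_apply, smul_eq_mul, hu₀, hu₁]
        funext i
        fin_cases i
        · simp
          linear_combination (u 0 + u 1) * h2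
        · simp
          linear_combination (u 0 + 2 * u 1) * h2
      rw [this, tau_zero_left]
  have hw2 : ∀ x, act w (act w x) = act w x + x := by
    intro x
    have := hrel x
    have h4 : act w (act w x) + act w x + x + (act w x + x) = act w (act w x) := by
      have h5 : act w (act w x) + act w x + x + (act w x + x) = act w (act w x) + (act w x + act w x) + (x + x) := by abel
      rw [h5, h2v, h2v]
      simp
    rw [← h4, this, zero_add]
  have hw0 : ∀ {x : ι → F}, act w x = x → x = 0 := by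
    intro x hx
    have := hrel x
    rw [hx, hx, h2v, zero_add] at this
    exact this
  -- `w` preserves the polar form
  have hwiso : ∀ x y, f (act w x) (act w y) = f x y := by
    have hz : ∀ y, f 0 y = 0 := fun y => pol_zero_left hQ y
    have hz' : ∀ y, f y 0 = 0 := fun y => pol_zero_right hQ y
    intro x
    refine tau_induction e P (p := fun x => ∀ y, f (act w x) (act w y) = f x y) ?_ ?_ ?_ x
    · intro y
      rw [map_zero, hz, hz]
    · intro a b ha hb y
      rw [map_add, pol_add_left hQ, pol_add_left hQ, ha, hb]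
    · intro u v y
      refine tau_induction e P (p := fun y => f (act w (tau e P u v)) (act w y) = f (tau e P u v) y) ?_ ?_ ?_ y
      · rw [map_zero, hz', hz']
      · intro a b ha hb
        rw [map_add, pol_add_right hQ, pol_add_right hQ, ha, hb]
      · intro u' v'
        rw [hwτ, hwτ, hform, hform, hOf]
  -- the second factor
  have hsk₂ : ∀ a b, f₂ a b = f₂ b a := by
    intro a b
    rw [hf₂.skew a b]
    linear_combination -f₂ b a * h2
  have hS₂ : SForm (RingHom.id F) f₂ := ⟨fun _ => rfl, add_l₂, smul_l₂, hsk₂, fun v hv => (hf₂.nondegenerate v hv).1⟩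
  obtain ⟨w₁, hw₁⟩ : ∃ w₁ : Fin n₂ → F, w₁ ≠ 0 := by
    refine ⟨Pi.single ⟨0, by omega⟩ 1, fun h => ?_⟩
    have := congrFun h ⟨0, by omega⟩
    simp at this
  obtain ⟨y₁, hy₁⟩ : ∃ y₁, f₂ y₁ w₁ = 1 := by
    obtain ⟨y, hy⟩ := hS₂.nd w₁ hw₁
    exact ⟨y, hne1 hy⟩
  obtain ⟨w₂, hw₂, h12, hy₁2⟩ : ∃ w₂, w₂ ≠ 0 ∧ f₂ w₂ w₁ = 0 ∧ f₂ w₂ y₁ = 0 := by
    have h4 := finrank_cutL [hS₂.lf w₁, hS₂.lf y₁]
    simp only [List.length_cons, List.length_nil, Fintype.card_fin] at h4
    have h5 : cutL [hS₂.lf w₁, hS₂.lf y₁] ≠ ⊥ := by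
      intro h5
      rw [h5] at h4
      simp at h4
      omega
    obtain ⟨x, hx, hx0⟩ := Submodule.exists_mem_ne_zero_of_ne_bot h5
    exact ⟨x, hx0, mem_cutL.1 hx (hS₂.lf w₁) (by simp), mem_cutL.1 hx (hS₂.lf y₁) (by simp)⟩
  obtain ⟨y, hy1, hy2⟩ : ∃ y, f₂ y w₁ = 0 ∧ f₂ y w₂ = 1 := by
    obtain ⟨y₂, hy₂⟩ := hS₂.nd w₂ hw₂
    refine ⟨y₂ + f₂ y₂ w₁ • y₁, ?_, ?_⟩
    · rw [add_l₂, smul_l₂, hy₁]
      linear_combination h2c (f₂ y₂ w₁)
    · rw [add_l₂, smul_l₂, hsk₂ y₁ w₂, hy₁2, mul_zero, add_zero]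
      exact hne1 hy₂
  obtain ⟨w', hw', h1', h2'⟩ : ∃ w', w' ≠ 0 ∧ f₂ w' w₁ = 0 ∧ f₂ w' w₂ = 0 := by
    have h4 := finrank_cutL [hS₂.lf w₁, hS₂.lf w₂]
    simp only [List.length_cons, List.length_nil, Fintype.card_fin] at h4
    have h5 : cutL [hS₂.lf w₁, hS₂.lf w₂] ≠ ⊥ := by
      intro h5
      rw [h5] at h4
      simp at h4
      omega
    obtain ⟨x, hx, hx0⟩ := Submodule.exists_mem_ne_zero_of_ne_bot h5
    exact ⟨x, hx0, mem_cutL.1 hx (hS₂.lf w₁) (by simp), mem_cutL.1 hx (hS₂.lf w₂) (by simp)⟩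
  have h21 : f₂ w₁ w₂ = 0 := by rw [hsk₂, h12]
  have a11 := hf₂.alternating w₁
  have a22 := hf₂.alternating w₂
  have hu₂0 : u₀ + u₁ ≠ u₀ := by
    intro h
    apply hu₁0
    simpa using h
  have f02 : f₁ u₀ (u₀ + u₁) = 1 := by rw [add_r, f00, f01, zero_add]
  have f12 : f₁ u₁ (u₀ + u₁) = 1 := by rw [add_r, f10, f11, add_zero]
  have f20 : f₁ (u₀ + u₁) u₀ = 1 := by rw [add_l, f00, f10, zero_add]
  have f21 : f₁ (u₀ + u₁) u₁ = 1 := by rw [add_l, f01, f11, add_zero]
  have f22 : f₁ (u₀ + u₁) (u₀ + u₁) = 0 := hf₁.alternating _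
  -- the first witness
  obtain ⟨z, hz⟩ : ∃ z, z = tau e P u₀ w₁ + tau e P u₁ w₂ := ⟨_, rfl⟩
  obtain ⟨z', hz'⟩ : ∃ z', z' = tau e P u₁ w₁ + tau e P (u₀ + u₁) w₂ := ⟨_, rfl⟩
  have hwz : act w z = z' := by
    rw [hz, hz', map_add, hwτ, hwτ, hO0, hO1]
  have hQz : Q z = 0 := by
    rw [hz, Q_add' (Q := Q), hpure, hpure, hform, h21]
    ring
  have hQz' : Q z' = 0 := by
    rw [hz', Q_add' (Q := Q), hpure, hpure, hform, h21]
    ring
  have hzz' : f z z' = 0 := by
    rw [hz, hz']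
    simp only [pol_add_left hQ, pol_add_right hQ, hform, a11, a22, h21, h12, f11, mul_zero, zero_mul, add_zero]
  have hneg : ∀ v : ι → F, -v = v := fun v => neg_eq_of_add_eq_zero_left (h2v v)
  obtain ⟨g₁, hg₁d⟩ : ∃ g₁, g₁ = sg hQ z z' := ⟨_, rfl⟩
  have hg₁ : ∀ x, act g₁ x = x + f x z • z' + f x z' • z := by
    intro x
    rw [hg₁d, act_sg hQ hQz hzz', hQz', zero_mul, zero_smul, sub_zero, sub_eq_add_neg, hneg]
  have hg₁Ω : g₁ ∈ Cfsg.Geo.omegaGL Q := by
    rw [hg₁d]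
    exact sg_mem_omega hQ hn hQz hzz'
  have hwz' : act w z' = z' + z := by rw [← hwz, hw2]
  have hwwz' : act w (act w z') = z := by rw [← hwz, hw3]
  have hcomm : ∀ x, act g₁ (act w x) = act w (act g₁ x) := by
    intro x
    have e1 : f (act w x) z' = f x z := by rw [← hwz, hwiso]
    have e2 : f (act w x) z = f x z' + f x z := by
      conv_lhs => rw [← hwwz']
      rw [hwiso, hwz', pol_add_right hQ]
    rw [hg₁, hg₁, e1, e2, map_add, map_add, map_smul, map_smul, hwz, hwz']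
    (module)
  have hS₁ : g₁ ∈ normOrder3 w hww := by
    left
    rw [mul_inv_eq_iff_eq_mul]
    apply act.injective
    apply LinearEquiv.ext
    intro x
    rw [act_mul_apply, act_mul_apply, hcomm]
  have hT₁ : g₁ ∉ Cfsg.Geo.tensorProductSubgroup 2 n₂ e P := by
    intro hg
    obtain ⟨A, B, hAB⟩ := (mem_tensor_iff e P).1 hg
    have hact : ∀ u v, act g₁ (tau e P u v) = tau e P ((A : Matrix _ _ F) *ᵥ u) ((B : Matrix _ _ F) *ᵥ v) := by
      intro u v
      rw [hAB, act_tau]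
    -- `A` fixes `u₀`
    have hA : (A : Matrix _ _ F) *ᵥ u₀ = u₀ := by
      have e1 : act g₁ (tau e P u₀ w') = tau e P u₀ w' := by
        rw [hg₁, hz, hz']
        simp only [pol_add_right hQ, hform, h1', h2', mul_zero, add_zero, zero_smul]
      rw [hact] at e1
      obtain ⟨d, hd, e2, -⟩ := tau_eq_tau e P hu₀0 hw' e1.symm
      rw [e2, hne1 hd, one_smul]
    have e1 := hact u₀ y
    rw [hA, hg₁, hz, hz'] at e1
    simp only [pol_add_right hQ, hform, hy1, hy2, mul_zero, mul_one, zero_add, f00, f01, f02, zero_mul, add_zero, one_smul] at e1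
    -- the contradiction
    have hu₂0 : u₀ + u₁ ≠ 0 := by
      intro h
      have := congrFun h 0
      simp [hu₀, hu₁] at this
    have e2 : tau e P (u₀ + u₁) w₁ = tau e P u₀ ((B : Matrix _ _ F) *ᵥ y + y + w₂) := by
      rw [tau_add_right, tau_add_right, ← e1, tau_add_left]
      have e3 : tau e P (u₀ + u₁) w₂ = tau e P u₀ w₂ + tau e P u₁ w₂ := tau_add_left _ _ _ _ _
      rw [e3]
      have e4 := h2v (tau e P u₀ y)
      have e5 := h2v (tau e P u₁ w₂)
      have e6 := h2v (tau e P u₀ w₂)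
      generalize tau e P u₀ y = A at *
      generalize tau e P u₁ w₂ = C at *
      generalize tau e P u₀ w₂ = D at *
      generalize tau e P u₀ w₁ = G at *
      generalize tau e P u₁ w₁ = H at *
      have key : A + (H + (D + C)) + (G + C) + A + D = G + H + (A + A) + (C + C) + (D + D) := by abel
      rw [key, e4, e5, e6]
      simp
    obtain ⟨d, hd, e3, -⟩ := tau_eq_tau e P hu₂0 hw₁ e2
    rw [hne1 hd, one_smul] at e3
    apply hu₁0
    simpa using e3.symm
  -- the second witness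
  obtain ⟨a, ha⟩ : ∃ a, a = tau e P u₀ w₁ := ⟨_, rfl⟩
  obtain ⟨a', ha'⟩ : ∃ a', a' = tau e P u₀ w₂ := ⟨_, rfl⟩
  have hQa : Q a = 0 := by rw [ha, hpure]
  have hQa' : Q a' = 0 := by rw [ha', hpure]
  have haa' : f a a' = 0 := by
    rw [ha, ha', hform, f00, zero_mul]
  obtain ⟨g₂, hg₂d⟩ : ∃ g₂, g₂ = sg hQ a a' := ⟨_, rfl⟩
  have hg₂ : ∀ x, act g₂ x = x + f x a • a' + f x a' • a := by
    intro x
    rw [hg₂d, act_sg hQ hQa haa', hQa', zero_mul, zero_smul, sub_zero, sub_eq_add_neg, hneg]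
  have hg₂Ω : g₂ ∈ Cfsg.Geo.omegaGL Q := by
    rw [hg₂d]
    exact sg_mem_omega hQ hn hQa haa'
  have hy₁2' : f₂ y₁ w₂ = 0 := by rw [hsk₂, hy₁2]
  have hS₂' : g₂ ∉ normOrder3 w hww := by
    rintro (h | h)
    · have h1 : g₂ * w = w * g₂ := mul_inv_eq_iff_eq_mul.1 h
      have hcm : ∀ x, act g₂ (act w x) = act w (act g₂ x) := by
        intro x
        rw [← act_mul_apply, ← act_mul_apply, h1]
      have e1 := hcm (tau e P u₁ y₁)
      rw [hwτ, hO1, hg₂, hg₂, ha, ha'] at e1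
      simp only [hform, hy₁, hy₁2', mul_zero, zero_smul, add_zero, mul_one, f20, f10, one_smul, map_add, hwτ, hO1, hO0] at e1
      have e2 := add_left_cancel e1
      have e3 := tau_left_inj e P hw₂ e2
      have := congrFun e3 0
      simp [hu₀, hu₁] at this
    · have h1 : g₂ * w = w * w * g₂ := mul_inv_eq_iff_eq_mul.1 h
      have hcm : ∀ x, act g₂ (act w x) = act w (act w (act g₂ x)) := by
        intro x
        rw [← act_mul_apply, ← act_mul_apply, ← act_mul_apply, h1, mul_assoc]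
      have e1 := hcm (tau e P u₀ w')
      have e2 : act g₂ (tau e P u₀ w') = tau e P u₀ w' := by
        rw [hg₂, ha, ha']
        simp only [hform, h1', h2', mul_zero, zero_smul, add_zero]
      have e3 : act g₂ (tau e P u₁ w') = tau e P u₁ w' := by
        rw [hg₂, ha, ha']
        simp only [hform, h1', h2', mul_zero, zero_smul, add_zero]
      rw [e2, hwτ, hO0, e3, ← hO0, ← hwτ] at e1
      have e4 : act w (tau e P u₀ w') = tau e P u₀ w' := (act w).injective e1.symm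
      exact tau_ne_zero e P hu₀0 hw' (hw0 e4)
  refine between_of (S := normOrder3 w hww) (fun g hg _ => ?_) hg₁Ω hS₁ hT₁ hg₂Ω hS₂'
  obtain ⟨a, b, rfl⟩ := (mem_tensor_iff e P).1 hg
  have e1 : tconj e P (kronG a b) * w * (tconj e P (kronG a b))⁻¹ = tconj e P (kronG (a * omG h2 * a⁻¹) 1) := by
    rw [hw, hTd, ← map_mul, ← map_inv, ← map_mul]
    congr 1
    have e2 : kronG (a * omG h2 * a⁻¹) (1 : GL (Fin n₂) F) = kronG (a * omG h2 * a⁻¹) (b * 1 * b⁻¹) := by simp
    rw [e2, kronG_mul, kronG_mul]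
    have e3 : kronG a⁻¹ b⁻¹ = (kronG a b)⁻¹ := by
      apply eq_inv_of_mul_eq_one_left
      rw [← kronG_mul, inv_mul_cancel, inv_mul_cancel, kronG_one]
    rw [e3]
  show tconj e P (kronG a b) * w * (tconj e P (kronG a b))⁻¹ = w ∨ tconj e P (kronG a b) * w * (tconj e P (kronG a b))⁻¹ = w * w
  rw [e1]
  rcases gl2_conj h2 h01 a with h | h <;> rw [h]
  · left
    rw [hw, hTd]
  · right
    rw [hw, ← map_mul, hTd]
    congr 1
    rw [← kronG_mul, one_mul]

end Cfsg.Agent.Lib.Geo
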