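import Mathlib
import Cfsg.Agent.Lib.Geo.TensorF3
import Cfsg.Agent.Lib.Geo.OmegaMax

set_option autoImplicit false

/-! The stabilizer in `Ω` of a tensor decomposition `3 ⊗ n₂` over the field with three elements is not maximal. -/

namespace Cfsg.Agent.Lib.Geo

open scoped MatrixGroups Matrix
open Module

variable {ι : Type} [Fintype ι] [DecidableEq ι] {F : Type*} [Field F] [Fintype F]

/-- A vector in a hyperplane outside a line. -/
theorem exists_ker_not_mem {n : ℕ} (hn : 3 ≤ n) (φ : (Fin n → F) →ₗ[F] F) (y : Fin n → F) :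
    ∃ w, φ w = 0 ∧ ∀ t : F, w ≠ t • y := by
  have h1 := LinearMap.finrank_range_add_finrank_ker φ
  have h2 : finrank F (LinearMap.range φ) ≤ 1 := by
    have := Submodule.finrank_le (LinearMap.range φ)
    rwa [Module.finrank_self] at this
  rw [Module.finrank_fin_fun] at h1
  by_contra hcon
  push Not at hcon
  have h3 : LinearMap.ker φ ≤ Submodule.span F {y} := by
    intro w hw
    obtain ⟨t, ht⟩ := hcon w (LinearMap.mem_ker.1 hw)
    rw [ht]
    exact Submodule.smul_mem _ _ (Submodule.mem_span_singleton_self y)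
  have h4 := Submodule.finrank_mono h3
  have h5 : finrank F (Submodule.span F {y}) ≤ 1 := by
    have := finrank_span_le_card (R := F) ({y} : Set (Fin n → F))
    simpa using this
  omega

variable {Q : (ι → F) → F}

local notation "f" => QuadraticMap.polar Q

theorem tensor3_omega_not_max (hq : Fintype.card F = 3) (hQ : Cfsg.Geo.IsNondegenerateQuadraticForm Q)
    (hn : 9 ≤ Fintype.card ι) {n₂ : ℕ} (h2 : 4 ≤ n₂) (e : ι ≃ Fin 3 × Fin n₂) (P : GL ι F)
    {f₁ : (Fin 3 → F) → (Fin 3 → F) → F} {f₂ : (Fin n₂ → F) → (Fin n₂ → F) → F}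
    (hf₁ : Cfsg.Geo.IsSymmetricForm f₁) (hf₂ : Cfsg.Geo.IsSymmetricForm f₂)
    (hT : Cfsg.Geo.IsTensorFormStructure id f f₁ f₂ e P) :
    ∃ K : Subgroup (GL ι F), Cfsg.Geo.tensorProductSubgroup 3 n₂ e P ⊓ Cfsg.Geo.omegaGL Q < K ∧ K < Cfsg.Geo.omegaGL Q := by
  classical
  obtain ⟨c, hc, hc'⟩ := hT
  have hform := tau_form e P (σ := id) (fun _ _ => rfl) (bilinear_sesq hf₁.bilinear) (bilinear_sesq hf₂.bilinear) hc'
  obtain ⟨b, hb0, horth, ⟨δ, hδ, hval⟩, hframe⟩ := f3_frame hq hf₁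
  obtain ⟨D, hD⟩ : ∃ D : Fin 3 → Submodule F (ι → F), D = fun j => bD e P (b j) := ⟨_, rfl⟩
  have hmem : ∀ {j} {x : ι → F}, x ∈ D j ↔ ∃ w, x = tau e P (b j) w := by
    intro j x
    rw [hD]
    exact mem_bD e P
  have hτ : ∀ j w, tau e P (b j) w ∈ D j := fun j w => hmem.2 ⟨w, rfl⟩
  have hk : ∀ j, finrank F (D j) = n₂ := by
    intro j
    rw [hD]
    exact finrank_bD e P (hb0 j)
  have hDorth : ∀ i j, i ≠ j → ∀ x ∈ D i, ∀ y ∈ D j, f x y = 0 := by
    intro i j hij x hx y hy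
    obtain ⟨w, rfl⟩ := hmem.1 hx
    obtain ⟨w', rfl⟩ := hmem.1 hy
    rw [hform, horth i j hij]
    ring
  have hDnd : ∀ j, ∀ x ∈ D j, x ≠ 0 → ∃ y ∈ D j, f y x ≠ 0 := by
    intro j x hx hx0
    obtain ⟨w, rfl⟩ := hmem.1 hx
    have hw : w ≠ 0 := by
      rintro rfl
      exact hx0 (tau_zero_right e P _)
    obtain ⟨y, hy⟩ := (hf₂.nondegenerate w hw).1
    refine ⟨_, hτ j y, ?_⟩
    rw [hform, hval]
    exact mul_ne_zero hc (mul_ne_zero hδ hy)
  have h₁ : ∃ u u', f₁ u u' ≠ 0 := ⟨b 0, b 0, by rw [hval]; exact hδ⟩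
  have h₂ : ∃ w w', f₂ w w' ≠ 0 := by
    have hne : (Pi.single ⟨0, by omega⟩ 1 : Fin n₂ → F) ≠ 0 := by
      intro h
      have := congrFun h ⟨0, by omega⟩
      simp at this
    obtain ⟨y, hy⟩ := (hf₂.nondegenerate _ hne).1
    exact ⟨_, _, hy⟩
  -- a singular vector in the first block
  obtain ⟨a, ha, ha0, hQa⟩ := hiso_quad hQ (D 0) (by rw [hk]; omega)
  obtain ⟨w_a, rfl⟩ := hmem.1 ha
  have hwa : w_a ≠ 0 := by
    rintro rfl
    exact ha0 (tau_zero_right e P _)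
  obtain ⟨a, haa⟩ : ∃ a, a = tau e P (b 0) w_a := ⟨_, rfl⟩
  rw [← haa] at hQa ha ha0
  have hfaa : f a a = 0 := by rw [polar_self' hQ, hQa, mul_zero]
  -- the hyperplane
  obtain ⟨w', hw'0, hw'⟩ := exists_ker_not_mem (by omega) (((sform_of_quad hQ).lf a).comp (tauR e P (b 0))) w_a
  obtain ⟨w, hww⟩ : ∃ w, w = tau e P (b 0) w' := ⟨_, rfl⟩
  have hw : w ∈ D 0 := by rw [hww]; exact hτ 0 w'
  have hfaw : f a w = 0 := by
    rw [pol_comm', hww]
    exact hw'0
  have hwna : ∀ t : F, w ≠ t • a := by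
    intro t ht
    rw [hww, haa, ← tau_smul_right] at ht
    exact hw' t (tau_right_inj e P (hb0 0) ht)
  -- the first witness
  have hfix : ∀ j, j ≠ 0 → ∀ x ∈ D j, act (sg hQ a w) x = x := by
    intro j hj x hx
    rw [act_sg hQ hQa hfaw, hDorth j 0 hj x hx a ha, hDorth j 0 hj x hx w hw]
    simp
  have hD0 : ∀ x ∈ D 0, act (sg hQ a w) x ∈ D 0 := by
    intro x hx
    rw [act_sg hQ hQa hfaw]
    exact (D 0).sub_mem ((D 0).sub_mem ((D 0).add_mem hx ((D 0).smul_mem _ hw)) ((D 0).smul_mem _ ha))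
      ((D 0).smul_mem _ ha)
  have hS₁ : sg hQ a w ∈ Cfsg.Geo.decompositionStabilizer D := by
    refine mem_stabD_of (k := n₂) hk 1 fun l x hx => ?_
    by_cases hl : l = 0
    · subst hl
      exact hD0 x hx
    · rw [hfix l hl x hx]
      exact hx
  obtain ⟨y, hy, hya⟩ := hDnd 0 a ha ha0
  obtain ⟨w₁, rfl⟩ := hmem.1 hy
  obtain ⟨y, hyy⟩ : ∃ y, y = tau e P (b 0) w₁ := ⟨_, rfl⟩
  rw [← hyy] at hy hya
  have hT₁ : sg hQ a w ∉ Cfsg.Geo.tensorProductSubgroup 3 n₂ e P := by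
    refine not_tensor_of e P (hb0 1) (b' := b 0) hwa (w₁ := w₁) (fun z => hfix 1 (by decide) _ (hτ 1 z)) ?_ ?_
    · rw [← haa, act_sg hQ hQa hfaw, hfaa, hfaw]
      simp
    · rw [← hyy, act_sg hQ hQa hfaw]
      intro h0
      have h1 : f y a • w = (f y w + Q w * f y a) • a := by
        have : f y a • w - (f y w + Q w * f y a) • a = 0 := by
          have h3 : y + f y a • w - f y w • a - (Q w * f y a) • a - y = f y a • w - (f y w + Q w * f y a) • a := by
            (module)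
          rw [← h3, h0, sub_self]
        exact sub_eq_zero.1 this
      apply hwna ((f y w + Q w * f y a) / f y a)
      have h2 : (f y a)⁻¹ • f y a • w = (f y a)⁻¹ • (f y w + Q w * f y a) • a := by rw [h1]
      rw [smul_smul, inv_mul_cancel₀ hya, one_smul, smul_smul] at h2
      rw [div_eq_inv_mul]
      exact h2
  -- the second witness
  obtain ⟨w₂, hw₂⟩ : ∃ w₂, w₂ = tau e P (b 1) w_a := ⟨_, rfl⟩
  have hw₂m : w₂ ∈ D 1 := by rw [hw₂]; exact hτ 1 w_a
  have hw₂0 : w₂ ≠ 0 := by rw [hw₂]; exact tau_ne_zero e P (hb0 1) hwa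
  have hfaw₂ : f a w₂ = 0 := hDorth 0 1 (by decide) a ha w₂ hw₂m
  have hS₂ : sg hQ a w₂ ∉ Cfsg.Geo.decompositionStabilizer D := by
    refine not_stab_of hy fun m => ?_
    have e1 : act (sg hQ a w₂) y = (y - (Q w₂ * f y a) • a) + f y a • w₂ := by
      rw [act_sg hQ hQa hfaw₂, hDorth 0 1 (by decide) y hy w₂ hw₂m]
      (module)
    rw [e1]
    refine not_mem_blocks (fun v x y => pol_add_right hQ v x y) hDorth hDnd (i := 0) (j := 1) (by decide)
      ((D 0).sub_mem hy ((D 0).smul_mem _ ha)) ((D 1).smul_mem _ hw₂m) ?_ (smul_ne_zero hya hw₂0) m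
    intro h0
    have h1 : f (y - (Q w₂ * f y a) • a) a = 0 := by rw [h0, pol_zero_left hQ]
    rw [pol_sub_left hQ, pol_smul_left hQ, hfaa, mul_zero, sub_zero] at h1
    exact hya h1
  refine between_of (S := Cfsg.Geo.decompositionStabilizer D) (fun g hg hgI => ?_)
    (sg_mem_omega hQ hn hQa hfaw) hS₁ hT₁ (sg_mem_omega hQ hn hQa hfaw₂) hS₂
  rw [hD]
  exact tensor_le_stab e P hc hform h₁ h₂ hb0 hframe hg (iso_polar (omega_le_iso hgI))

end Cfsg.Agent.Lib.Geo
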