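import Mathlib
import Cfsg.Agent.Lib.Geo.TensorFrame
import Cfsg.Agent.Lib.Geo.SU2Blocks

set_option autoImplicit false

/-! The stabilizer in `SU_n(2)` of a tensor decomposition `2 ⊗ n₂` is not maximal. -/

namespace Cfsg.Agent.Lib.Geo

open scoped MatrixGroups Matrix
open Module Cfsg.Agent.Lib.Classical

variable {F : Type*} [Field F] [Fintype F] {σ : F →+* F}

/-- The frame of a hermitian plane over the field with four elements. -/
theorem f4_frame (hF : Fintype.card F = 4) (hσ2 : ∀ x, σ x = x ^ 2) {g : (Fin 2 → F) → (Fin 2 → F) → F}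
    (hg : SForm σ g) :
    ∃ b : Fin 2 → (Fin 2 → F), (∀ j, b j ≠ 0) ∧ (∀ i j, i ≠ j → g (b i) (b j) = 0) ∧ (∀ j, g (b j) (b j) = 1) ∧
      ∀ A : GL (Fin 2) F, (∃ ρ : F, ρ ≠ 0 ∧ ∀ u u', g ((A : Matrix _ _ F) *ᵥ u) ((A : Matrix _ _ F) *ᵥ u') = ρ * g u u') →
        ∃ s : Equiv.Perm (Fin 2), ∀ j, ∃ d : F, (A : Matrix _ _ F) *ᵥ b j = d • b (s j) := by
  classical
  obtain ⟨u, -, v, -, huu, hvv, huv, hvu, hspan⟩ := f4_exists_frame hF hσ2 hg (W := ⊤) (by simp)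
    (fun w _ hw => by
      obtain ⟨x, hx⟩ := hg.nd w hw
      exact ⟨x, trivial, hx⟩)
  obtain ⟨b, hb⟩ : ∃ b : Fin 2 → (Fin 2 → F), b = ![u, v] := ⟨_, rfl⟩
  have b0 : b 0 = u := by rw [hb]; rfl
  have b1 : b 1 = v := by rw [hb]; rfl
  have hval : ∀ j, g (b j) (b j) = 1 := by
    intro j
    fin_cases j
    · show g (b 0) (b 0) = 1
      rw [b0, huu]
    · show g (b 1) (b 1) = 1
      rw [b1, hvv]
  have horth : ∀ i j, i ≠ j → g (b i) (b j) = 0 := by
    intro i j hij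
    fin_cases i <;> fin_cases j <;> first | exact absurd rfl hij | skip
    · show g (b 0) (b 1) = 0
      rw [b0, b1, huv]
    · show g (b 1) (b 0) = 0
      rw [b0, b1, hvu]
  have hb0 : ∀ j, b j ≠ 0 := by
    intro j h0
    have := hval j
    rw [h0, hg.zero_left] at this
    exact zero_ne_one this
  refine ⟨b, hb0, horth, hval, ?_⟩
  rintro A ⟨ρ, hρ, hA⟩
  have h2 := f4_two hF
  have hρ1 : ρ = 1 := by
    have e1 := hA u u
    rw [huu, mul_one] at e1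
    rcases f4_self hσ2 hg ((A : Matrix _ _ F) *ᵥ u) with h | h
    · rw [h] at e1
      exact absurd e1.symm hρ
    · rw [← e1, h]
  subst hρ1
  have hone : ∀ j, ∃ i, ∃ d : F, d ≠ 0 ∧ (A : Matrix _ _ F) *ᵥ b j = d • b i := by
    intro j
    obtain ⟨α, β, hαβ⟩ := hspan ((A : Matrix _ _ F) *ᵥ b j) trivial
    have e1 := hA (b j) (b j)
    rw [hval, mul_one, hαβ] at e1
    simp only [hg.add_left, hg.add_right, hg.smul_left, hg.smul_right, huu, hvv, huv, hvu, mul_zero, add_zero, zero_add,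
      mul_one] at e1
    by_cases hα : α = 0
    · by_cases hβ : β = 0
      · rw [hα, hβ] at e1
        simp at e1
      · refine ⟨1, β, hβ, ?_⟩
        rw [hαβ, hα, b1]
        simp
    · by_cases hβ : β = 0
      · refine ⟨0, α, hα, ?_⟩
        rw [hαβ, hβ, b0]
        simp
      · exfalso
        rw [f4_mul_conj hF hσ2 hα, f4_mul_conj hF hσ2 hβ] at e1
        have : (1 : F) = 0 := by linear_combination h2 - e1
        exact one_ne_zero this
  choose s d hd hds using hone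
  have hinj : Function.Injective s := by
    intro j l hjl
    by_contra hne
    have e1 := hA (b j) (b l)
    rw [horth j l hne, mul_zero, hds j, hds l, hg.smul_left, hg.smul_right, hjl, hval, mul_one] at e1
    exact mul_ne_zero (hd j) (fun h => hd l ((map_eq_zero σ).1 h)) e1
  exact ⟨Equiv.ofBijective s (Finite.injective_iff_bijective.1 hinj), fun j => ⟨d j, hds j⟩⟩

variable {ι : Type} [Fintype ι] [DecidableEq ι] {f : (ι → F) → (ι → F) → F}

local notation "V" => (ι → F)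

theorem tensor2_su_not_max (hF : Fintype.card F = 4) (hσ2 : ∀ x, σ x = x ^ 2) (hσ : σ ≠ RingHom.id F) (hf : SForm σ f)
    {n₂ : ℕ} (h2 : 3 ≤ n₂) (e : ι ≃ Fin 2 × Fin n₂) (P : GL ι F)
    {f₁ : (Fin 2 → F) → (Fin 2 → F) → F} {f₂ : (Fin n₂ → F) → (Fin n₂ → F) → F}
    (hf₁ : SForm σ f₁) (hf₂ : SForm σ f₂)
    (hT : Cfsg.Geo.IsTensorFormStructure (fun x : F => x ^ 2) f f₁ f₂ e P) :
    ∃ K : Subgroup (GL ι F), Cfsg.Geo.tensorProductSubgroup 2 n₂ e P ⊓ (uGroup f ⊓ Cfsg.Geo.specialLinear ι F) < K ∧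
      K < uGroup f ⊓ Cfsg.Geo.specialLinear ι F := by
  classical
  obtain ⟨c, hc, hc'⟩ := hT
  have hsq : ∀ {n : ℕ} {g : (Fin n → F) → (Fin n → F) → F}, SForm σ g → Sesq (fun x : F => x ^ 2) g := by
    intro n g hg
    refine ⟨hg.add_left, hg.smul_left, hg.add_right, fun c v x => ?_⟩
    rw [hg.smul_right, hσ2]
  have hform := tau_form e P (fun x y => mul_pow x y 2) (hsq hf₁) (hsq hf₂) hc'
  obtain ⟨b, hb0, horth, hval, hframe⟩ := f4_frame hF hσ2 hf₁
  obtain ⟨D, hD⟩ : ∃ D : Fin 2 → Submodule F (ι → F), D = fun j => bD e P (b j) := ⟨_, rfl⟩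
  have hmem : ∀ {j} {x : ι → F}, x ∈ D j ↔ ∃ w, x = tau e P (b j) w := by
    intro j x
    rw [hD]
    exact mem_bD e P
  have hτ : ∀ j w, tau e P (b j) w ∈ D j := fun j w => hmem.2 ⟨w, rfl⟩
  have hk : ∀ j, finrank F (D j) = n₂ := by
    intro j
    rw [hD]
    exact finrank_bD e P (hb0 j)
  have hDorth : ∀ i j, i ≠ j → ∀ x ∈ D i, ∀ y ∈ D j, f x y = 0 := by
    intro i j hij x hx y hy
    obtain ⟨w, rfl⟩ := hmem.1 hx
    obtain ⟨w', rfl⟩ := hmem.1 hy
    rw [hform, horth i j hij]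
    ring
  have hDnd : ∀ j, ∀ x ∈ D j, x ≠ 0 → ∃ y ∈ D j, f y x ≠ 0 := by
    intro j x hx hx0
    obtain ⟨w, rfl⟩ := hmem.1 hx
    have hw : w ≠ 0 := by
      rintro rfl
      exact hx0 (tau_zero_right e P _)
    obtain ⟨y, hy⟩ := hf₂.nd w hw
    refine ⟨_, hτ j y, ?_⟩
    rw [hform, hval, one_mul]
    exact mul_ne_zero hc hy
  have h₁ : ∃ u u', f₁ u u' ≠ 0 := ⟨b 0, b 0, by rw [hval]; exact one_ne_zero⟩
  have h₂ : ∃ w w', f₂ w w' ≠ 0 := by
    have hne : (Pi.single ⟨0, by omega⟩ 1 : Fin n₂ → F) ≠ 0 := by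
      intro h
      have := congrFun h ⟨0, by omega⟩
      simp at this
    obtain ⟨y, hy⟩ := hf₂.nd _ hne
    exact ⟨_, _, hy⟩
  have h11 : (1 : F) + σ 1 = 0 := by rw [map_one]; exact f4_two hF
  -- an isotropic vector
  obtain ⟨z, hz, hz0, hzz⟩ := hiso_herm hf hσ (D 0) (by rw [hk]; omega)
  obtain ⟨w_z, rfl⟩ := hmem.1 hz
  have hwz : w_z ≠ 0 := by
    rintro rfl
    exact hz0 (tau_zero_right e P _)
  obtain ⟨z, hzd⟩ : ∃ z, z = tau e P (b 0) w_z := ⟨_, rfl⟩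
  rw [← hzd] at hz hz0 hzz
  have hf2z : f₂ w_z w_z = 0 := by
    have := hzz
    rw [hzd, hform, hval, one_mul] at this
    exact (mul_eq_zero.1 this).resolve_left hc
  -- the second isotropic vector
  obtain ⟨z₁, hz₁⟩ : ∃ z₁, z₁ = tau e P (b 1) w_z := ⟨_, rfl⟩
  have hz₁m : z₁ ∈ D 1 := by rw [hz₁]; exact hτ 1 w_z
  have hz₁0 : z₁ ≠ 0 := by rw [hz₁]; exact tau_ne_zero e P (hb0 1) hwz
  have hz₁z₁ : f z₁ z₁ = 0 := by rw [hz₁, hform, hf2z]; ring
  have hzz₁ : f z z₁ = 0 := hDorth 0 1 (by decide) z hz z₁ hz₁m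
  have hz₁z : f z₁ z = 0 := hDorth 1 0 (by decide) z₁ hz₁m z hz
  have hzz' : f (z + z₁) (z + z₁) = 0 := by
    rw [hf.add_left, hf.add_right, hf.add_right, hzz, hzz₁, hz₁z, hz₁z₁]
    ring
  have hfix : ∀ j, j ≠ 0 → ∀ x ∈ D j, act (ut hf hzz 1) x = x := by
    intro j hj x hx
    rw [act_ut, hDorth j 0 hj x hx z hz]
    simp
  have hS₁ : ut hf hzz 1 ∈ Cfsg.Geo.decompositionStabilizer D := by
    refine mem_stabD_of (k := n₂) hk 1 fun l x hx => ?_
    by_cases hl : l = 0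
    · subst hl
      rw [act_ut]
      exact (D 0).add_mem hx ((D 0).smul_mem _ hz)
    · rw [hfix l hl x hx]
      exact hx
  obtain ⟨y, hy, hyz⟩ := hDnd 0 z hz hz0
  obtain ⟨w₁, rfl⟩ := hmem.1 hy
  obtain ⟨y, hyy⟩ : ∃ y, y = tau e P (b 0) w₁ := ⟨_, rfl⟩
  rw [← hyy] at hy hyz
  have hT₁ : ut hf hzz 1 ∉ Cfsg.Geo.tensorProductSubgroup 2 n₂ e P := by
    refine not_tensor_of e P (hb0 1) (b' := b 0) hwz (w₁ := w₁) (fun z' => hfix 1 (by decide) _ (hτ 1 z')) ?_ ?_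
    · rw [← hzd, act_ut, hzz]
      simp
    · rw [← hyy, act_ut, one_mul]
      intro h0
      have : f y z • z = 0 := by simpa using h0
      exact (smul_ne_zero hyz hz0) this
  have hS₂ : ut hf hzz' 1 ∉ Cfsg.Geo.decompositionStabilizer D := by
    refine not_stab_of hy fun m => ?_
    have e1 : act (ut hf hzz' 1) y = (y + f y z • z) + f y z • z₁ := by
      rw [act_ut, hf.add_right, hDorth 0 1 (by decide) y hy z₁ hz₁m]
      (module)
    rw [e1]
    refine not_mem_blocks (fun v x y => hf.add_right v x y) hDorth hDnd (i := 0) (j := 1) (by decide)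
      ((D 0).add_mem hy ((D 0).smul_mem _ hz)) ((D 1).smul_mem _ hz₁m) ?_ (smul_ne_zero hyz hz₁0) m
    intro h0
    have h1 : f (y + f y z • z) z = 0 := by
      rw [h0, hf.zero_left]
    rw [hf.add_left, hf.smul_left, hzz, mul_zero, add_zero] at h1
    exact hyz h1
  refine between_of (S := Cfsg.Geo.decompositionStabilizer D) (fun g hg hgI => ?_)
    (ut_mem_SU hf hzz h11) hS₁ hT₁ (ut_mem_SU hf hzz' h11) hS₂
  rw [hD]
  exact tensor_le_stab e P hc hform h₁ h₂ hb0 hframe hg (mem_uGroup.1 hgI.1)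

end Cfsg.Agent.Lib.Geo
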