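import Mathlib
import Cfsg.Agent.Lib.Geo.TensorF3
import Cfsg.Agent.Lib.Geo.SympMax

set_option autoImplicit false

/-! The stabilizer in `Sp` of a tensor decomposition `3 ⊗ n₂` over the field with three elements is not maximal. -/

namespace Cfsg.Agent.Lib.Geo

open scoped MatrixGroups Matrix Kronecker
open Module Cfsg.Agent.Lib.Classical

section Swap

variable {ι : Type} [Fintype ι] [DecidableEq ι] {F : Type*} [Field F] {n₁ n₂ : ℕ}

theorem tconj_swap (e : ι ≃ Fin n₁ × Fin n₂) (P : GL ι F) (a : GL (Fin n₁) F) (b : GL (Fin n₂) F) :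
    tconj e P (kronG a b) = tconj (e.trans (Equiv.prodComm _ _)) P (kronG b a) := by
  apply Units.ext
  have h1 : ∀ (n₁' n₂' : ℕ) (e' : ι ≃ Fin n₁' × Fin n₂') (G : GL (Fin n₁' × Fin n₂') F),
      ((tconj e' P G : GL ι F) : Matrix ι ι F) =
      (P : Matrix ι ι F) * ((G : Matrix _ _ F).submatrix e' e') * ((P⁻¹ : GL ι F) : Matrix ι ι F) := fun _ _ _ _ => rfl
  rw [h1, h1]
  congr 2
  ext i j
  simp only [Matrix.submatrix_apply, kronG_val, Matrix.kroneckerMap_apply, Equiv.trans_apply, Equiv.prodComm_apply,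
    Prod.fst_swap, Prod.snd_swap]
  ring

theorem mem_tensor_swap (e : ι ≃ Fin n₁ × Fin n₂) (P : GL ι F) {g : GL ι F} :
    g ∈ Cfsg.Geo.tensorProductSubgroup n₁ n₂ e P ↔ g ∈ Cfsg.Geo.tensorProductSubgroup n₂ n₁ (e.trans (Equiv.prodComm _ _)) P := by
  rw [mem_tensor_iff, mem_tensor_iff]
  constructor
  · rintro ⟨a, b, rfl⟩
    exact ⟨b, a, tconj_swap e P a b⟩
  · rintro ⟨b, a, rfl⟩
    exact ⟨a, b, (tconj_swap e P a b).symm⟩

theorem tau_swap (e : ι ≃ Fin n₁ × Fin n₂) (P : GL ι F) (u : Fin n₁ → F) (v : Fin n₂ → F) :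
    tau (e.trans (Equiv.prodComm _ _)) P v u = tau e P u v := by
  rw [tau_def, tau_def]
  congr 1
  funext i
  simp [pt, mul_comm]

end Swap

variable {m : ℕ} {F : Type*} [Field F] [Fintype F]

local notation "Vv" => (Fin m ⊕ Fin m → F)
local notation "f" => Cfsg.sympForm m F

theorem tensor3_sp_core (hq : Fintype.card F = 3) {n₂ : ℕ} (h2 : 0 < n₂) (e : (Fin m ⊕ Fin m) ≃ Fin 3 × Fin n₂)
    (P : GL (Fin m ⊕ Fin m) F)
    {f₁ : (Fin 3 → F) → (Fin 3 → F) → F} {f₂ : (Fin n₂ → F) → (Fin n₂ → F) → F}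
    (hf₁ : Cfsg.Geo.IsSymmetricForm f₁) (hf₂ : Cfsg.Geo.IsNondegenerateForm f₂) {c : F} (hc : c ≠ 0)
    (hform : ∀ u u' w w', f (tau e P u w) (tau e P u' w') = c * (f₁ u u' * f₂ w w')) :
    ∃ K : Subgroup (GL (Fin m ⊕ Fin m) F), Cfsg.Geo.tensorProductSubgroup 3 n₂ e P ⊓ Cfsg.spGL m F < K ∧ K < Cfsg.spGL m F := by
  classical
  obtain ⟨b, hb0, horth, ⟨δ, hδ, hval⟩, hframe⟩ := f3_frame hq hf₁
  obtain ⟨D, hD⟩ : ∃ D : Fin 3 → Submodule F Vv, D = fun j => bD e P (b j) := ⟨_, rfl⟩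
  have hmem : ∀ {j} {x : Vv}, x ∈ D j ↔ ∃ w, x = tau e P (b j) w := by
    intro j x
    rw [hD]
    exact mem_bD e P
  have hτ : ∀ j w, tau e P (b j) w ∈ D j := fun j w => hmem.2 ⟨w, rfl⟩
  have hk : ∀ j, finrank F (D j) = n₂ := by
    intro j
    rw [hD]
    exact finrank_bD e P (hb0 j)
  have hDorth : ∀ i j, i ≠ j → ∀ x ∈ D i, ∀ y ∈ D j, f x y = 0 := by
    intro i j hij x hx y hy
    obtain ⟨w, rfl⟩ := hmem.1 hx
    obtain ⟨w', rfl⟩ := hmem.1 hy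
    rw [hform, horth i j hij]
    ring
  have hDnd : ∀ j, ∀ x ∈ D j, x ≠ 0 → ∃ y ∈ D j, f y x ≠ 0 := by
    intro j x hx hx0
    obtain ⟨w, rfl⟩ := hmem.1 hx
    have hw : w ≠ 0 := by
      rintro rfl
      exact hx0 (tau_zero_right e P _)
    obtain ⟨y, hy⟩ := (hf₂ w hw).1
    refine ⟨_, hτ j y, ?_⟩
    rw [hform, hval]
    exact mul_ne_zero hc (mul_ne_zero hδ hy)
  have h₁ : ∃ u u', f₁ u u' ≠ 0 := ⟨b 0, b 0, by rw [hval]; exact hδ⟩
  obtain ⟨w₀, hw₀⟩ : ∃ w₀ : Fin n₂ → F, w₀ ≠ 0 := by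
    refine ⟨Pi.single ⟨0, h2⟩ 1, fun h => ?_⟩
    have := congrFun h ⟨0, h2⟩
    simp at this
  have h₂ : ∃ w w', f₂ w w' ≠ 0 := by
    obtain ⟨y, hy⟩ := (hf₂ _ hw₀).1
    exact ⟨_, _, hy⟩
  obtain ⟨v, hv⟩ : ∃ v, v = tau e P (b 0) w₀ := ⟨_, rfl⟩
  have hvm : v ∈ D 0 := by rw [hv]; exact hτ 0 w₀
  have hv0 : v ≠ 0 := by rw [hv]; exact tau_ne_zero e P (hb0 0) hw₀
  obtain ⟨v', hv'⟩ : ∃ v', v' = tau e P (b 1) w₀ := ⟨_, rfl⟩
  have hvm' : v' ∈ D 1 := by rw [hv']; exact hτ 1 w₀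
  have hv0' : v' ≠ 0 := by rw [hv']; exact tau_ne_zero e P (hb0 1) hw₀
  have hfix : ∀ j, j ≠ 0 → ∀ x ∈ D j, act (stv v 1) x = x := by
    intro j hj x hx
    rw [act_stv, hDorth j 0 hj x hx v hvm]
    simp
  have hS₁ : stv v 1 ∈ Cfsg.Geo.decompositionStabilizer D := by
    refine mem_stabD_of (k := n₂) hk 1 fun l x hx => ?_
    by_cases hl : l = 0
    · subst hl
      rw [act_stv]
      exact (D 0).add_mem hx ((D 0).smul_mem _ hvm)
    · rw [hfix l hl x hx]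
      exact hx
  obtain ⟨y, hy, hyv⟩ := hDnd 0 v hvm hv0
  obtain ⟨w₁, rfl⟩ := hmem.1 hy
  obtain ⟨y, hyy⟩ : ∃ y, y = tau e P (b 0) w₁ := ⟨_, rfl⟩
  rw [← hyy] at hy hyv
  have hT₁ : stv v 1 ∉ Cfsg.Geo.tensorProductSubgroup 3 n₂ e P := by
    refine not_tensor_of e P (hb0 1) (b' := b 0) hw₀ (w₁ := w₁) (fun z => hfix 1 (by decide) _ (hτ 1 z)) ?_ ?_
    · rw [← hv, act_stv, sympForm_self]
      simp
    · rw [← hyy, act_stv, one_mul]
      intro h0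
      have : f y v • v = 0 := by simpa using h0
      exact (smul_ne_zero hyv hv0) this
  have hS₂ : stv (v + v') 1 ∉ Cfsg.Geo.decompositionStabilizer D := by
    refine not_stab_of hy fun m => ?_
    have e1 : act (stv (v + v') 1) y = (y + f y v • v) + f y v • v' := by
      rw [act_stv, sympForm_add_right, hDorth 0 1 (by decide) y hy v' hvm']
      (module)
    rw [e1]
    refine not_mem_blocks (fun v x y => sympForm_add_right v x y) hDorth hDnd (i := 0) (j := 1) (by decide)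
      ((D 0).add_mem hy ((D 0).smul_mem _ hvm)) ((D 1).smul_mem _ hvm') ?_ (smul_ne_zero hyv hv0') m
    intro h0
    have h1 : f (y + f y v • v) v = 0 := by
      rw [h0]
      simpa using sympForm_smul_left (R := F) 0 (0 : Vv) v
    rw [sympForm_add_left, sympForm_smul_left, sympForm_self, mul_zero, add_zero] at h1
    exact hyv h1
  refine between_of (S := Cfsg.Geo.decompositionStabilizer D) (fun g hg hgI => ?_)
    (stv_mem v 1) hS₁ hT₁ (stv_mem _ 1) hS₂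
  rw [hD]
  exact tensor_le_stab e P hc hform h₁ h₂ hb0 hframe hg (mem_spGL_iff.1 hgI)

end Cfsg.Agent.Lib.Geo
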